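import Cfsg.Statements.S3737
import Cfsg.Agent.Lib.MinAct
import Cfsg.Agent.Lib.BaerTrick

set_option autoImplicit false
open Cfsg

namespace Cfsg.Agent.S3737

open Subgroup Lib.Coprime Lib.CoprimeB Lib.BaerTrick
open scoped commutatorElement

/-- Thompson's strengthening of the P × Q lemma for odd primes. Let p be an odd prime and let P, Q and G be subgroups of a finite group with P a p-group, Q of order prime to p and normalized by P, and G a p-group normalized by both P and Q. If every element of G centralized by P is centralized by Q, then Q centralizes G. -/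
theorem result {X : Type*} [Group X] [Finite X] {p : ℕ} [Fact p.Prime] (hp : p ≠ 2) (P Q G : Subgroup X) (hP : IsPGroup p P) (hQ : (Nat.card Q).Coprime p) (hPQ : P ≤ Subgroup.normalizer (Q : Set X)) (hG : IsPGroup p G) (hPG : P ≤ Subgroup.normalizer (G : Set X)) (hQG : Q ≤ Subgroup.normalizer (G : Set X)) (hC : G ⊓ Subgroup.centralizer (P : Set X) ≤ Subgroup.centralizer (Q : Set X)) : Q ≤ Subgroup.centralizer (G : Set X) := by
  classical
  have hp' : p.Prime := Fact.out
  rw [← commutator_eq_bot_iff_le_centralizer']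
  by_contra hne
  obtain ⟨U, hU⟩ := (Set.toFinite {U : Subgroup X | U ≤ G ∧ P ≤ normalizer (U : Set X) ∧ Q ≤ normalizer (U : Set X) ∧ ⁅U, Q⁆ ≠ ⊥}).exists_minimal
    ⟨G, le_rfl, hPG, hQG, hne⟩
  obtain ⟨hUG, hPU, hQU, hUQ⟩ := hU.prop
  have hUp : IsPGroup p U := hG.to_le hUG
  set B := P ⊔ Q with hB
  have hBU : B ≤ normalizer (U : Set X) := sup_le hPU hQU
  have hPB : P ≤ B := le_sup_left
  have hQB : Q ≤ B := le_sup_right
  obtain ⟨h1, h2, -, h4⟩ := Lib.MinAct.hall_higman (B := B) (A := Q) (P := U) hUp hBU hQB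
    (sup_le hPQ le_normalizer) hQ hUQ (by
      intro W hW hBW
      by_contra hWQ
      exact hW.not_ge (hU.le_of_le ⟨hW.le.trans hUG, hPB.trans hBW, hQB.trans hBW, hWQ⟩ hW.le))
  have hexp := h4 hp
  obtain ⟨h, hh⟩ : ∃ h, p = 2 * h + 1 := by
    obtain ⟨h, hh⟩ := hp'.odd_of_ne_two hp
    exact ⟨h, hh⟩
  have H : Hyp U h := by
    refine ⟨fun x y z => ?_, fun x y => ?_⟩
    · rcases h2 with h2 | h2
      · have : ∀ a b : U, a * b = b * a := h2.1.is_comm.comm
        exact this _ _
      · have h5 : ⁅x, y⁆ ∈ center U := by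
          rw [← h2.2.2]; exact commutator_mem_commutator (mem_top x) (mem_top y)
        exact (mem_center_iff.1 h5 z).symm
    · rw [← hh]
      exact Subtype.ext (hexp _ (⁅x, y⁆ : U).2)
  let _ : CommGroup (Baer U) := commGroup H
  have e : Baer U ≃ U := ⟨fun a => a.val, fun a => ⟨a⟩, fun _ => rfl, fun _ => rfl⟩
  have : Finite (Baer U) := Finite.of_equiv U e.symm
  let φ : B →* MulAut (Baer U) := (aut H).comp (act hBU)
  have hφ : ∀ (b : B) (v : Baer U), (((φ b v).val : U) : X) = b * (v.val : X) * (b : X)⁻¹ := fun b v => rfl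
  have h5 := trivial_of_fixed (V := Baer U) (p := p) (by
      obtain ⟨n, hn⟩ := IsPGroup.iff_card.1 hUp
      exact ⟨n, by rw [Nat.card_congr e]; exact hn⟩) φ (P.subgroupOf B) (Q.subgroupOf B)
    (hP.comap_of_injective B.subtype B.subtype_injective)
    (by rw [Nat.card_congr (subgroupOfEquivOfLe hQB).toEquiv]; exact hQ)
    (by
      intro x hx
      apply H2.PUtil.mem_normalizer_of_conj_mem
      intro y hy
      exact (mem_normalizer_iff.1 (hPQ hx) _).1 hy)
    (by
      intro v hv y hy
      have h6 : ((v.val : U) : X) ∈ G ⊓ centralizer (P : Set X) := by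
        refine ⟨hUG v.val.2, mem_centralizer_iff.2 ?_⟩
        intro x hx
        have h7 := congrArg (fun w : Baer U => ((w.val : U) : X)) (hv ⟨x, hPB hx⟩ hx)
        have h8 : x * (v.val : X) * x⁻¹ = v.val := h7
        calc x * (v.val : X) = x * (v.val : X) * x⁻¹ * x := by group
          _ = _ := by rw [h8]
      have h9 := mem_centralizer_iff.1 (hC h6) y hy
      apply Baer.ext'
      apply Subtype.ext
      show (y : X) * (v.val : X) * (y : X)⁻¹ = v.val
      rw [h9]; group)
  apply hUQ
  rw [commutator_eq_bot_iff_le_centralizer]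
  intro u hu
  rw [mem_centralizer_iff]
  intro y hy
  have h6 := congrArg (fun w : Baer U => ((w.val : U) : X)) (h5 ⟨y, hQB hy⟩ hy ⟨⟨u, hu⟩⟩)
  have h7 : y * u * y⁻¹ = u := h6
  calc y * u = y * u * y⁻¹ * y := by group
    _ = _ := by rw [h7]

end Cfsg.Agent.S3737
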