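import Cfsg.Statements.S0042
import Cfsg.Agent.Lib.FpfNilp
import Cfsg.Agent.Lib.FrobGrp
import Cfsg.Agent.Lib.CharFrobThm

set_option autoImplicit false
open Cfsg

namespace Cfsg.Agent.S0042

open Subgroup Cfsg.Agent.Lib Cfsg.Agent.Lib.Basic

/-- In a finite Frobenius group, the Frobenius kernel is (the carrier of) a normal subgroup which is nilpotent. -/
theorem result {G : Type*} [Group G] [Finite G] (H : Subgroup G) (hH : Cfsg.IsFrobeniusComplement H) :
    ∃ N : Subgroup G, (N : Set G) = Cfsg.frobeniusKernel H ∧ N.Normal ∧ Group.IsNilpotent N := by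
  obtain ⟨N, hN, hNn, hNc⟩ := CharFrobThm.frobenius (H := H) hH.2.2
  refine ⟨N, hN, hNn, ?_⟩
  have hN0 := FrobGrp.kernel_ne_bot hH hN.symm
  have hc1 : Nat.card H ≠ 1 := fun h => hH.1 (card_eq_one.mp h)
  obtain ⟨p, hp, hpd⟩ := Nat.exists_prime_and_dvd hc1
  haveI := Fact.mk hp
  obtain ⟨h, hh⟩ := exists_prime_orderOf_dvd_card' p hpd
  have hfix : ∀ n : N, (MulAut.conjNormal (h : G) : MulAut N) n = n → n = 1 := by
    intro n hn
    have h1 : (h : G) * n * (h : G)⁻¹ = n := congrArg Subtype.val hn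
    have h2 : (n : G) * h = h * n := (mul_inv_eq_iff_eq_mul.mp h1).symm
    have h3 : (h : G) ≠ 1 := by
      intro h3
      have : h = 1 := Subtype.ext h3
      rw [this, orderOf_one] at hh
      exact hp.one_lt.ne hh
    exact Subtype.ext (FrobGrp.kernel_not_commute hH hN.symm h.2 h3 n.2 h2)
  refine FpfNilp.isNilpotent_of_fpf (p := p) (MulAut.conjNormal (h : G) : MulAut N) ?_ hfix
  apply orderOf_eq_prime
  · rw [← map_pow]
    have : (h : G) ^ p = 1 := by
      have := pow_orderOf_eq_one h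
      rw [hh] at this
      exact congrArg Subtype.val this
    rw [this, map_one]
  · intro h1
    obtain ⟨n, hn⟩ := Subgroup.ne_bot_iff_exists_ne_one.mp hN0
    exact hn (hfix n (by rw [h1]; rfl))

end Cfsg.Agent.S0042
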