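import Cfsg.Statements.S1453
import Cfsg.Agent.H2.RankThree

set_option autoImplicit false
open Cfsg

namespace Cfsg.Agent.S1453

open Subgroup Cfsg.Agent.Lib Cfsg.Agent.H2 Cfsg.Agent.H2.RankThree
open scoped commutatorElement

section
variable {R : Type*} [Group R] [Finite R] {p : ℕ} [Fact p.Prime]

theorem comm_pow {x r : R} (h : ∀ y : R, ⁅⁅x, r⁆, y⁆ = 1) (n : ℕ) : ⁅x ^ n, r⁆ = ⁅x, r⁆ ^ n := by
  have hc : ∀ y, Commute ⁅x, r⁆ y := fun y => _root_.commutatorElement_eq_one_iff_commute.1 (h y)
  induction n with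
  | zero => simp
  | succ n ih =>
    have e : ⁅x ^ (n + 1), r⁆ = x ^ n * ⁅x, r⁆ * (x ^ n)⁻¹ * ⁅x ^ n, r⁆ := by
      simp only [_root_.commutatorElement_def]; group
    rw [e, ih, ← (hc (x ^ n)).eq, mul_inv_cancel_right, ← pow_succ']

/-- the elements of order dividing `p` of the second centre -/
theorem W_facts (hp : p ≠ 2) :
    ∀ w ∈ (Subgroup.closure {x : R | x ∈ Subgroup.upperCentralSeries R 2 ∧ x ^ p = 1} : Subgroup R),
      w ∈ Subgroup.upperCentralSeries R 2 ∧ w ^ p = 1 := by
  have h2 : PGrpA.Class2 (Subgroup.upperCentralSeries R 2) := by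
    intro x y
    rw [Subgroup.mem_center_iff]
    intro z
    have h1 : ⁅(x : R), (y : R)⁆ ∈ Subgroup.upperCentralSeries R 1 := Subgroup.mem_upperCentralSeries_succ_iff.1 x.2 y
    rw [Subgroup.upperCentralSeries_one, Subgroup.mem_center_iff] at h1
    exact Subtype.ext (h1 z)
  let W₀ : Subgroup R := (h2.omega (Fact.out : p.Prime) hp).map (Subgroup.upperCentralSeries R 2).subtype
  have hle : Subgroup.closure {x : R | x ∈ Subgroup.upperCentralSeries R 2 ∧ x ^ p = 1} ≤ W₀ := by
    rw [Subgroup.closure_le]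
    rintro x ⟨hx1, hx2⟩
    exact ⟨⟨x, hx1⟩, Subtype.ext hx2, rfl⟩
  intro w hw
  obtain ⟨y, hy, rfl⟩ := hle hw
  exact ⟨y.2, congrArg Subtype.val hy⟩

theorem W_char : (Subgroup.closure {x : R | x ∈ Subgroup.upperCentralSeries R 2 ∧ x ^ p = 1} : Subgroup R).Characteristic := by
  rw [Subgroup.characteristic_iff_map_le]
  intro φ
  rw [Subgroup.map_le_iff_le_comap, Subgroup.closure_le]
  rintro x ⟨hx1, hx2⟩
  apply Subgroup.subset_closure
  refine ⟨?_, ?_⟩
  · have := Subgroup.characteristic_iff_map_le.1 (inferInstance : (Subgroup.upperCentralSeries R 2).Characteristic) φ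
    exact this ⟨x, hx1, rfl⟩
  · show (φ x) ^ p = 1
    rw [← map_pow, hx2, map_one]

end

/-- Let p be an odd prime and R a finite p-group with an elementary abelian subgroup of order p ^ 3 and an elementary abelian subgroup E of order p ^ 2 contained in no larger elementary abelian subgroup. Let Z₂ be the second centre of R, W the subgroup generated by the elements of Z₂ of order dividing p, and T = C_R(W). Then E is not contained in T; the elements of order dividing p of the centre of R generate a group of order p; W is elementary abelian of order p ^ 2; and T is characteristic in R of index p. -/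
theorem result {R : Type*} [Group R] [Finite R] (p : ℕ) [Fact p.Prime] (hp : p ≠ 2) (hR : IsPGroup p R) (hr : ¬ Cfsg.PRankLE p 2 R)
    (E : Subgroup R) (hE : Cfsg.IsElementaryAbelian p E) (hE2 : Nat.card E = p ^ 2)
    (hEmax : ∀ B : Subgroup R, Cfsg.IsElementaryAbelian p B → E ≤ B → B = E) :
    ¬ E ≤ Subgroup.centralizer ((Subgroup.closure {x : R | x ∈ Subgroup.upperCentralSeries R 2 ∧ x ^ p = 1} : Subgroup R) : Set R) ∧
      Nat.card ↥(Subgroup.closure {x : R | x ∈ Subgroup.center R ∧ x ^ p = 1}) = p ∧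
      (Cfsg.IsElementaryAbelian p (Subgroup.closure {x : R | x ∈ Subgroup.upperCentralSeries R 2 ∧ x ^ p = 1}) ∧
        Nat.card ↥(Subgroup.closure {x : R | x ∈ Subgroup.upperCentralSeries R 2 ∧ x ^ p = 1}) = p ^ 2) ∧
      (Subgroup.centralizer ((Subgroup.closure {x : R | x ∈ Subgroup.upperCentralSeries R 2 ∧ x ^ p = 1} : Subgroup R) : Set R)).Characteristic ∧
      (Subgroup.centralizer ((Subgroup.closure {x : R | x ∈ Subgroup.upperCentralSeries R 2 ∧ x ^ p = 1} : Subgroup R) : Set R)).index = p := by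
  classical
  have hpp : p.Prime := Fact.out
  obtain ⟨hE1, hEe⟩ := ThompsonJ.ea_iff.1 hE
  set Z := Subgroup.closure {x : R | x ∈ Subgroup.center R ∧ x ^ p = 1} with hZ
  set W := Subgroup.closure {x : R | x ∈ Subgroup.upperCentralSeries R 2 ∧ x ^ p = 1} with hW
  have hWf := W_facts (R := R) (p := p) hp
  haveI hWc : W.Characteristic := W_char
  -- `R` has an elementary abelian subgroup of order `> p²`
  have hbig : ∃ B : Subgroup R, (∀ b ∈ B, b ^ p = 1) ∧ p ^ 2 < Nat.card B := by
    unfold Cfsg.PRankLE at hr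
    push Not at hr
    obtain ⟨B, -, h2, h3⟩ := hr
    exact ⟨B, h2, h3⟩
  have hZE : Z ≤ E := by
    rw [hZ, Subgroup.closure_le]
    rintro x ⟨hx1, hx2⟩
    exact mem_of_cent hE hEmax (fun e _ => Subgroup.mem_center_iff.1 hx1 e) hx2
  have hZcen : Z ≤ Subgroup.center R := by
    rw [hZ, Subgroup.closure_le]
    exact fun x hx => hx.1
  have hZne : Z ≠ E := by
    intro h
    obtain ⟨B, hB1, hB2⟩ := hbig
    have h1 : B ≤ E := fun b hb => mem_of_cent hE hEmax (fun e he => by
      have : e ∈ Subgroup.center R := hZcen (by rw [h]; exact he)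
      exact (Subgroup.mem_center_iff.1 this b).symm) (hB1 b hb)
    have h2 := Subgroup.card_le_of_le h1
    omega
  have hRn : Nontrivial R := by
    obtain ⟨B, hB1, hB2⟩ := hbig
    have h1 : 1 < Nat.card R := by
      have h2 := Subgroup.card_le_card_group B
      have h3 : 1 ≤ p ^ 2 := Nat.one_le_pow _ _ hpp.pos
      omega
    exact Finite.one_lt_card_iff_nontrivial.1 h1
  have hZb : Z ≠ ⊥ := by
    haveI := hR.center_nontrivial
    have h1 : Subgroup.center R ≠ ⊥ := (Subgroup.nontrivial_iff_ne_bot _).1 this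
    obtain ⟨x, hx, hxo⟩ : ∃ x ∈ Subgroup.center R, x ≠ 1 ∧ x ^ p = 1 := by
      obtain ⟨n, hn⟩ := IsPGroup.iff_card.1 (hR.to_subgroup (Subgroup.center R))
      have hdvd : p ∣ Nat.card (Subgroup.center R) := by
        rcases n with _ | n
        · rw [pow_zero] at hn
          exact absurd (Subgroup.card_eq_one.1 hn) h1
        · rw [hn]; exact dvd_pow_self p (by omega)
      obtain ⟨y, hy⟩ := exists_prime_orderOf_dvd_card' p hdvd
      refine ⟨y, y.2, ?_, ?_⟩
      · intro h
        have : y = 1 := Subtype.ext h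
        rw [this, _root_.orderOf_one] at hy
        exact hpp.one_lt.ne hy
      · have := _root_.pow_orderOf_eq_one y
        rw [hy] at this
        exact congrArg Subtype.val this
    intro h
    have h2 : x ∈ Z := Subgroup.subset_closure ⟨hx, hxo.2⟩
    rw [h, mem_bot] at h2
    exact hxo.1 h2
  have hZc : Nat.card Z = p := by
    have h1 : Nat.card Z ∣ p ^ 2 := by rw [← hE2]; exact Subgroup.card_dvd_of_le hZE
    obtain ⟨k, hk, hk2⟩ := (Nat.dvd_prime_pow hpp).1 h1
    have h3 : k ≠ 0 := by
      rintro rfl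
      rw [pow_zero] at hk2
      exact hZb (Subgroup.card_eq_one.1 hk2)
    have h4 : k ≠ 2 := by
      rintro rfl
      exact hZne (Subgroup.eq_of_le_of_card_ge hZE (by rw [hk2, hE2]))
    have h5 : k = 1 := by omega
    rw [hk2, h5, pow_one]
  -- commutators
  have hWZ : ∀ w ∈ W, ∀ r : R, ⁅w, r⁆ ∈ Z := by
    intro w hw r
    obtain ⟨h1, h2⟩ := hWf w hw
    have h3 : ⁅w, r⁆ ∈ Subgroup.upperCentralSeries R 1 := Subgroup.mem_upperCentralSeries_succ_iff.1 h1 r
    rw [Subgroup.upperCentralSeries_one] at h3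
    have h4 : ⁅w, r⁆ ^ p = 1 := by
      rw [← comm_pow (fun y => ?_) p, h2, _root_.commutatorElement_one_left]
      exact _root_.commutatorElement_eq_one_iff_commute.2 (Subgroup.mem_center_iff.1 h3 y).symm
    exact Subgroup.subset_closure ⟨h3, h4⟩
  -- a normal subgroup of order `p²`
  have hEn : ¬ E ≤ W := by
    intro hle
    haveI : E.Normal := ⟨fun e he r => by
      have h1 := hZE (hWZ e (hle he) r)
      have h2 := E.mul_mem (E.inv_mem h1) he
      have e1 : ⁅e, r⁆⁻¹ * e = r * e * r⁻¹ := by rw [_root_.commutatorElement_def]; group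
      rwa [e1] at h2⟩
    obtain ⟨F, hFn, hEF, hF, hFc⟩ := normal_ext hp hR hr E hE hE2
    have h1 := hEmax F hF hEF
    rw [h1, hE2] at hFc
    exact absurd hFc (not_le.2 (Nat.pow_lt_pow_right hpp.one_lt (by norm_num)))
  have hWE : W ⊓ centralizer (E : Set R) ≤ E := by
    rintro w ⟨hw1, hw2⟩
    exact mem_of_cent hE hEmax (fun e he => mem_centralizer_iff.1 hw2 e he) (hWf w hw1).2
  have hWEp : Nat.card (W ⊓ E : Subgroup R) ≤ p := by
    have hlt : W ⊓ E < E := lt_of_le_of_ne inf_le_right (fun h => hEn (by rw [← h]; exact inf_le_left))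
    have h1 := Soft.lt_card hlt
    obtain ⟨n, hn⟩ := IsPGroup.iff_card.1 (hR.to_subgroup (W ⊓ E))
    rw [hE2, hn] at h1
    have h2 := (Nat.pow_lt_pow_iff_right hpp.one_lt).1 h1
    rw [hn]
    calc p ^ n ≤ p ^ 1 := Nat.pow_le_pow_right hpp.pos (by omega)
      _ = p := pow_one p
  have hWle : Nat.card W ≤ p ^ 2 := by
    obtain ⟨e, he, heZ⟩ : ∃ e ∈ E, e ∉ Z := by
      by_contra hcon
      push Not at hcon
      exact hZne (le_antisymm hZE hcon)
    have hEe' : Z ⊔ zpowers e = E := by
      rcases Soft.eq_of_prime (p := p) (le_sup_left : Z ≤ Z ⊔ zpowers e) (sup_le hZE ((zpowers_le).2 he))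
        (by rw [hE2, hZc, pow_two]) with h1 | h1
      · exact absurd (h1.le (le_sup_right (a := Z) (mem_zpowers e))) heZ
      · exact h1
    -- `w ↦ [w, e]`
    let f : W →* R :=
      { toFun := fun w => ⁅(w : R), e⁆
        map_one' := by simp
        map_mul' := fun a b => by
          have h1 := hZcen (hWZ b b.2 e)
          have h2 := Subgroup.mem_center_iff.1 h1 (a : R)
          show ⁅(a : R) * b, e⁆ = ⁅(a : R), e⁆ * ⁅(b : R), e⁆
          have e1 : ⁅(a : R) * b, e⁆ = (a : R) * ⁅(b : R), e⁆ * (a : R)⁻¹ * ⁅(a : R), e⁆ := by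
            simp only [_root_.commutatorElement_def]; group
          rw [e1, h2, mul_inv_cancel_right]
          exact (Subgroup.mem_center_iff.1 h1 _).symm }
    have hker : f.ker.map W.subtype ≤ W ⊓ E := by
      rintro _ ⟨w, hw, rfl⟩
      refine ⟨w.2, hWE ⟨w.2, ?_⟩⟩
      have h1 : ⁅(w : R), e⁆ = 1 := hw
      have h2 : E ≤ centralizer {(w : R)} := by
        rw [← hEe']
        refine sup_le ?_ ((zpowers_le).2 ?_)
        · intro z hz
          rw [mem_centralizer_singleton_iff]
          exact (Subgroup.mem_center_iff.1 (hZcen hz) _).symm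
        · rw [mem_centralizer_singleton_iff]
          exact ((_root_.commutatorElement_eq_one_iff_commute.1 h1).eq).symm
      show (w : R) ∈ centralizer _
      rw [mem_centralizer_iff]
      intro x hx
      exact mem_centralizer_singleton_iff.1 (h2 hx)
    have h3 : Nat.card f.ker ≤ p := by
      have h4 := Subgroup.card_le_of_le hker
      rw [Nat.card_congr (f.ker.equivMapOfInjective _ W.subtype_injective).symm.toEquiv] at h4
      exact h4.trans hWEp
    have h4 : Nat.card f.range ≤ p := by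
      rw [← hZc]
      apply Subgroup.card_le_of_le
      rintro _ ⟨w, rfl⟩
      exact hWZ w w.2 e
    have h5 : Nat.card f.ker * Nat.card f.range = Nat.card W := by
      have := Subgroup.card_mul_index f.ker
      rwa [Subgroup.index_ker] at this
    rw [← h5, pow_two]
    exact Nat.mul_le_mul h3 h4
  obtain ⟨V, hVle, hVn, hV, hVc⟩ : ∃ A : Subgroup R, A ≤ ⊤ ∧ A.Normal ∧ Cfsg.IsElementaryAbelian p A ∧ Nat.card A = p ^ 2 := by
    refine PGrpE.exists_normal_rank_two hp hR ⊤ ?_
    intro hcyc
    have h1 : IsCyclic E := by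
      haveI : IsCyclic R := isCyclic_of_surjective (Subgroup.topEquiv : (⊤ : Subgroup R) ≃* R) Subgroup.topEquiv.surjective
      infer_instance
    obtain ⟨g, hg⟩ := h1.exists_generator
    have h2 : orderOf g = Nat.card E := _root_.orderOf_eq_card_of_forall_mem_zpowers hg
    have h3 : g ^ p = 1 := Subtype.ext (hEe g g.2)
    have h4 := _root_.orderOf_dvd_of_pow_eq_one h3
    rw [h2, hE2] at h4
    have h5 := Nat.le_of_dvd hpp.pos h4
    have h6 := hpp.one_lt
    nlinarith
  have hVW : V ≤ W := by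
    obtain ⟨hV1, hVe⟩ := ThompsonJ.ea_iff.1 hV
    have hVb : V ≠ ⊥ := by
      rintro rfl
      rw [Subgroup.card_bot] at hVc
      exact absurd hVc.symm (Nat.one_lt_pow (by norm_num) hpp.one_lt).ne'
    haveI : Group.IsNilpotent R := hR.isNilpotent
    have h1 : ⁅V, (⊤ : Subgroup R)⁆ ≠ V := PUtil.commutator_top_ne hVb
    have h2 : ⁅V, (⊤ : Subgroup R)⁆ ≤ V := Subgroup.commutator_le_left V ⊤
    have h3 := Soft.lt_card (lt_of_le_of_ne h2 h1)
    obtain ⟨n, hn⟩ := IsPGroup.iff_card.1 (hR.to_subgroup ⁅V, (⊤ : Subgroup R)⁆)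
    rw [hVc, hn] at h3
    have h4 := (Nat.pow_lt_pow_iff_right hpp.one_lt).1 h3
    have hcn : (⁅V, (⊤ : Subgroup R)⁆).Normal := inferInstance
    have h5 : ⁅V, (⊤ : Subgroup R)⁆ ≤ Subgroup.center R := by
      have : n = 0 ∨ n = 1 := by omega
      rcases this with rfl | rfl
      · rw [pow_zero] at hn
        rw [Subgroup.card_eq_one.1 hn]; exact bot_le
      · exact PGrpA.le_center_of_card_eq_prime hR (by rw [hn, pow_one])
    intro v hv
    apply Subgroup.subset_closure
    refine ⟨?_, hVe v hv⟩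
    rw [Subgroup.mem_upperCentralSeries_succ_iff]
    intro y
    rw [Subgroup.upperCentralSeries_one]
    exact h5 (Subgroup.commutator_mem_commutator hv (Subgroup.mem_top y))
  have hVWeq : V = W := Subgroup.eq_of_le_of_card_ge hVW (by rw [hVc]; exact hWle)
  rw [hVWeq] at hV hVc
  have hET : ¬ E ≤ centralizer (W : Set R) := by
    intro hle
    have h1 : W ≤ E := (le_inf le_rfl (le_centralizer_iff.1 hle)).trans hWE
    have h2 : W = E := Subgroup.eq_of_le_of_card_ge h1 (by rw [hVc, hE2])
    exact hEn h2.ge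
  refine ⟨hET, hZc, ⟨hV, hVc⟩, inferInstance, ?_⟩
  haveI : (centralizer (W : Set R)).Normal := inferInstance
  have h1 : (centralizer (W : Set R)).index ≤ p := by
    have := PGrpB.index_centralizer_le hR 2 W inferInstance hVc
    simpa using this
  obtain ⟨n, hn⟩ := hR.index (centralizer (W : Set R))
  rcases n with _ | _ | n
  · exfalso
    rw [pow_zero, Subgroup.index_eq_one] at hn
    exact hET (by rw [hn]; exact le_top)
  · rw [hn, zero_add, pow_one]
  · exfalso
    rw [hn] at h1
    have h2 : p ^ 1 < p ^ (n + 1 + 1) := Nat.pow_lt_pow_right hpp.one_lt (by omega)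
    rw [pow_one] at h2
    omega

end Cfsg.Agent.S1453
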