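import Cfsg.Statements.S1465
import Cfsg.Agent.H2.OddStabB

set_option autoImplicit false
open Cfsg

namespace Cfsg.Agent.S1465

open Subgroup Cfsg.Agent.Lib Cfsg.Agent.H2.OddStab Cfsg.Agent.H2.OddStabB

/-- Let p be an odd prime, G a solvable group of odd order, P a normal p-subgroup of G, and X the subgroup generated by a family of abelian p-subgroups of G each normalized by P. Then the image of X in G/C_G(P) lies in O_p(G/C_G(P)); and if O_{p'}(G) = 1 and O_p(G) ∩ C_G(P) ≤ P then X ≤ O_p(G). -/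
theorem result {G : Type*} [Group G] [Finite G] [Group.IsSolvable G] (hodd : Odd (Nat.card G)) (p : ℕ) [Fact p.Prime] (hp : p ≠ 2) (P : Subgroup G) [P.Normal] (hP : IsPGroup p P)
    (S : Set (Subgroup G)) (hS : ∀ B ∈ S, IsMulCommutative B ∧ IsPGroup p B ∧ P ≤ Subgroup.normalizer (B : Set G)) :
    (sSup S).map (QuotientGroup.mk' (Subgroup.centralizer (P : Set G))) ≤ Cfsg.pCore p (G ⧸ Subgroup.centralizer (P : Set G)) ∧
      (Cfsg.pPrimeCore p G = ⊥ → Cfsg.pCore p G ⊓ Subgroup.centralizer (P : Set G) ≤ P → sSup S ≤ Cfsg.pCore p G) := by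
  have key : (sSup S).map (QuotientGroup.mk' (Subgroup.centralizer (P : Set G))) ≤ Cfsg.pCore p (G ⧸ Subgroup.centralizer (P : Set G)) := by
    rw [Subgroup.map_le_iff_le_comap]
    refine sSup_le fun B hB b hb => ?_
    obtain ⟨h1, h2, h3⟩ := hS B hB
    have hc : ∀ x ∈ B, ∀ y ∈ B, x * y = y * x := fun x hx y hy =>
      congrArg Subtype.val (h1.is_comm.comm (⟨x, hx⟩ : B) ⟨y, hy⟩)
    exact stable_normal (stable_of_odd hp hodd) P hP (quad_of h3 hc hb)
  refine ⟨key, fun hO hCP => ?_⟩
  have hCn : (centralizer (P : Set G)).Normal := inferInstance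
  -- the centralizer of `P` is a `p`-group
  have hpc : Cfsg.pPrimeCore p (centralizer (P : Set G)) = ⊥ := by
    have h1 : (Cfsg.pPrimeCore p (centralizer (P : Set G))).map (centralizer (P : Set G)).subtype ≤ Cfsg.pPrimeCore p G :=
      Cores.map_pPrimeCore_le _
    rw [hO, le_bot_iff] at h1
    exact (Subgroup.map_eq_bot_iff_of_injective _ (Subgroup.subtype_injective _)).1 h1
  have hsc : Group.IsSolvable (centralizer (P : Set G)) := inferInstance
  have h2 := cpc hsc hpc
  have h3 : ∀ x ∈ Cfsg.pCore p (centralizer (P : Set G)), ∀ y : centralizer (P : Set G), x * y = y * x := by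
    intro x hx y
    have h4 : (x : G) ∈ Cfsg.pCore p G := Cores.map_pCore_le _ ⟨x, hx, rfl⟩
    have h5 : (x : G) ∈ P := hCP ⟨h4, x.2⟩
    apply Subtype.ext
    exact mem_centralizer_iff.1 y.2 x h5
  have h4 : ∀ y : centralizer (P : Set G), y ∈ Cfsg.pCore p (centralizer (P : Set G)) := by
    intro y
    apply h2
    rw [mem_centralizer_iff]
    intro x hx
    exact h3 x hx y
  have h5 : IsPGroup p (centralizer (P : Set G)) := by
    intro y
    obtain ⟨k, hk⟩ := (Cores.pCore_isPGroup (G := centralizer (P : Set G)) p) ⟨y, h4 y⟩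
    exact ⟨k, congrArg Subtype.val hk⟩
  have h6 : IsPGroup p (QuotientGroup.mk' (centralizer (P : Set G))).ker := by
    rw [QuotientGroup.ker_mk']; exact h5
  exact (Subgroup.map_le_iff_le_comap.1 key).trans (Cores.comap_pCore_le_of_ker _ h6)

end Cfsg.Agent.S1465
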