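import Cfsg.Statements.S0236
import Cfsg.Agent.Lib.InvolB

set_option autoImplicit false
open Cfsg

namespace Cfsg.Agent.S0236

open Cfsg.Agent.Lib.Invol Cfsg.Agent.Lib.InvolB Cfsg.Agent.Lib Subgroup

/-- If x is an involution, the number of ordered pairs (u, v) of involutions with uv = x, plus one, equals the number of involutions in the centralizer of x. -/
theorem result {G : Type*} [Group G] [Finite G] (x : G) (hx : orderOf x = 2) : Nat.card {p : G × G // orderOf p.1 = 2 ∧ orderOf p.2 = 2 ∧ p.1 * p.2 = x} + 1 = Nat.card {t : G // orderOf t = 2 ∧ Commute t x} := by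
  have hcomm : ∀ a b : G, orderOf a = 2 → orderOf b = 2 → a * b = x → Commute a x := by
    intro a b ha hb hab
    have h1 : a * x * a⁻¹ = x⁻¹ := by
      rw [← hab, mul_inv_rev, inv_eq (mul_self ha), inv_eq (mul_self hb), ← mul_assoc,
        mul_self ha, one_mul]
    rw [inv_eq (mul_self hx)] at h1
    show a * x = x * a
    calc a * x = (a * x * a⁻¹) * a := by group
      _ = x * a := by rw [h1]
  rw [← Finite.card_option]
  refine Nat.card_eq_of_bijective
    (fun o : Option {p : G × G // orderOf p.1 = 2 ∧ orderOf p.2 = 2 ∧ p.1 * p.2 = x} =>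
      (o.elim ⟨x, hx, Commute.refl x⟩ (fun p => ⟨p.1.1, p.2.1, hcomm _ _ p.2.1 p.2.2.1 p.2.2.2⟩) :
      {t : G // orderOf t = 2 ∧ Commute t x})) ⟨?_, ?_⟩
  · rintro (_ | ⟨⟨a, b⟩, ha, hb, hab⟩) (_ | ⟨⟨c, d⟩, hc, hd, hcd⟩) h
    · rfl
    · exfalso
      have h1 : x = c := Subtype.mk.inj h
      simp only at hc hd hcd
      have : c * d = c * 1 := by rw [hcd, mul_one, h1]
      exact ne_one hd (mul_left_cancel this)
    · exfalso
      have h1 : a = x := Subtype.mk.inj h
      simp only at ha hb hab
      have : a * b = a * 1 := by rw [hab, mul_one, h1]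
      exact ne_one hb (mul_left_cancel this)
    · have h1 : a = c := Subtype.mk.inj h
      simp only at ha hb hab hc hd hcd
      subst h1
      have : b = d := mul_left_cancel (hab.trans hcd.symm)
      subst this
      rfl
  · rintro ⟨t, ht, htx⟩
    by_cases h : t = x
    · exact ⟨none, Subtype.ext h.symm⟩
    · have h1 : (t * x) * (t * x) = 1 := by
        calc (t * x) * (t * x) = t * (x * t) * x := by group
          _ = t * (t * x) * x := by rw [htx.eq]
          _ = (t * t) * (x * x) := by group
          _ = 1 := by rw [mul_self ht, mul_self hx, one_mul]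
      refine ⟨some ⟨(t, t * x), ht, orderOf_eq_two h1 ?_, ?_⟩, rfl⟩
      · intro h2
        apply h
        have := eq_inv_of_mul_eq_one_left h2
        rwa [inv_eq (mul_self hx)] at this
      · show t * (t * x) = x
        rw [← mul_assoc, mul_self ht, one_mul]

end Cfsg.Agent.S0236
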