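import Cfsg.Statements.S0238
import Cfsg.Agent.Lib.InvolB
import Cfsg.Agent.S0236
import Cfsg.Agent.S0237

set_option autoImplicit false
open Cfsg

namespace Cfsg.Agent.S0238

open Cfsg.Agent.Lib.Invol Cfsg.Agent.Lib.InvolB Cfsg.Agent.Lib Subgroup

/-- For every x in a finite group G, the number c of ordered pairs (u, v) of involutions with uv = x is at most |C_G(x)|; c = 0 when x is not conjugate to x⁻¹; and c + 2 ≤ |C_G(x)| when x is an involution. -/
theorem result {G : Type*} [Group G] [Finite G] (x : G) : Nat.card {p : G × G // orderOf p.1 = 2 ∧ orderOf p.2 = 2 ∧ p.1 * p.2 = x} ≤ Nat.card (Subgroup.centralizer ({x} : Set G)) ∧ (¬ IsConj x x⁻¹ → Nat.card {p : G × G // orderOf p.1 = 2 ∧ orderOf p.2 = 2 ∧ p.1 * p.2 = x} = 0) ∧ (orderOf x = 2 → Nat.card {p : G × G // orderOf p.1 = 2 ∧ orderOf p.2 = 2 ∧ p.1 * p.2 = x} + 2 ≤ Nat.card (Subgroup.centralizer ({x} : Set G))) := by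
  have hinvt : ∀ a b : G, orderOf a = 2 → orderOf b = 2 → a * b = x → a * x * a⁻¹ = x⁻¹ := by
    intro a b ha hb hab
    rw [← hab, mul_inv_rev, inv_eq (mul_self ha), inv_eq (mul_self hb), ← mul_assoc,
      mul_self ha, one_mul]
  have h2 : ¬ IsConj x x⁻¹ → Nat.card {p : G × G // orderOf p.1 = 2 ∧ orderOf p.2 = 2 ∧ p.1 * p.2 = x} = 0 := by
    intro h
    rw [Nat.card_eq_zero]
    left
    refine ⟨?_⟩
    rintro ⟨⟨a, b⟩, ha, hb, hab⟩
    exact h (isConj_iff.mpr ⟨a, hinvt a b ha hb hab⟩)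
  refine ⟨?_, h2, ?_⟩
  · by_cases hr : IsConj x x⁻¹
    · rw [← Cfsg.Agent.S0237.result x hr]
      refine Nat.card_le_card_of_injective
        (fun p : {p : G × G // orderOf p.1 = 2 ∧ orderOf p.2 = 2 ∧ p.1 * p.2 = x} =>
          (⟨p.1.1, hinvt _ _ p.2.1 p.2.2.1 p.2.2.2⟩ : {g : G // g * x * g⁻¹ = x⁻¹})) ?_
      rintro ⟨⟨a, b⟩, ha, hb, hab⟩ ⟨⟨c, d⟩, hc, hd, hcd⟩ h
      have h1 : a = c := Subtype.mk.inj h
      simp only at ha hb hab hc hd hcd
      subst h1
      have : b = d := mul_left_cancel (hab.trans hcd.symm)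
      subst this
      rfl
    · rw [h2 hr]; exact Nat.zero_le _
  · intro hx
    have h3 := Cfsg.Agent.S0236.result x hx
    have h4 : Nat.card {t : G // orderOf t = 2 ∧ Commute t x} + 1 ≤
        Nat.card (Subgroup.centralizer ({x} : Set G)) := by
      rw [← Finite.card_option]
      refine Nat.card_le_card_of_injective
        (fun o : Option {t : G // orderOf t = 2 ∧ Commute t x} =>
          (o.elim 1 (fun t => ⟨t.1, mem_centralizer_singleton_iff.mpr t.2.2⟩) :
          Subgroup.centralizer ({x} : Set G))) ?_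
      rintro (_ | ⟨a, ha, hab⟩) (_ | ⟨c, hc, hcd⟩) h
      · rfl
      · exact absurd (congrArg Subtype.val h).symm (ne_one hc)
      · exact absurd (congrArg Subtype.val h) (ne_one ha)
      · have h1 : a = c := Subtype.mk.inj h
        subst h1; rfl
    omega

end Cfsg.Agent.S0238
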