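import Cfsg.Statements.S0287
import Mathlib
import Cfsg.Agent.Lib.Orth1
import Cfsg.Agent.Lib.Orth2
import Cfsg.Agent.Lib.Orth3
import Cfsg.Agent.Lib.Orth4
import Cfsg.Agent.Lib.Orth5
import Cfsg.Agent.Lib.Orth6
import Cfsg.Agent.Lib.Orth7
import Cfsg.Agent.Lib.Orth8
import Cfsg.Agent.Lib.Orth9
-- import your own Cfsg.Agent.* helpers here

set_option autoImplicit false
open Cfsg
set_option linter.all false

namespace Cfsg.Agent.S0287

/-- |GO^+_{2m}(q)| = 2 q^(m(m-1)) (q^m - 1) prod_{i=1}^{m-1} (q^(2i) - 1), m at least 1, all q. -/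
theorem result {F : Type*} [Field F] [Fintype F] {q : ℕ} (hF : Fintype.card F = q) (m : ℕ) (hm : 1 ≤ m) : Nat.card (Cfsg.isometryGroup F (Cfsg.quadFormPlus m F)) = 2 * q ^ (m * (m - 1)) * (q ^ m - 1) * ∏ i ∈ Finset.range (m - 1), (q ^ (2 * (i + 1)) - 1) := by
  rw [← Cfsg.Agent.Lib.Orth.coe_qPlus, Nat.card_congr (Cfsg.Agent.Lib.Orth.isoO _).toEquiv,
    Cfsg.Agent.Lib.Orth.card_O_plus m hm, Nat.card_eq_fintype_card, hF]


end Cfsg.Agent.S0287
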