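import Cfsg.Statements.S0743
import Mathlib
import Cfsg.Agent.Lib.PermTwo

set_option autoImplicit false
open Cfsg

namespace Cfsg.Agent.S0743

open Cfsg.Agent.Lib.PermTwo

/-- Gleason's Lemma: let `p` be a prime and `1 ≤ k < n`; if every `k`-subset of the `n` points is exactly the fixed-point set of some `p`-subgroup of `G`, then `G` is `k`-transitive. -/
theorem result {α : Type*} [Fintype α] [DecidableEq α] (G : Subgroup (Equiv.Perm α)) {p k : ℕ} (hp : p.Prime) (hk : 1 ≤ k) (hkn : k < Fintype.card α) (h : ∀ s : Finset α, s.card = k → ∃ P : Subgroup G, IsPGroup p P ∧ MulAction.fixedPoints P α = (s : Set α)) : MulAction.IsMultiplyPretransitive G α k := by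
  haveI : Fact p.Prime := ⟨hp⟩
  refine kTrans_of_fixing hkn fun s hs a b ha hb => ?_
  -- `H` the pointwise stabilizer of `s`
  let H : Subgroup G := fixingSubgroup G (s : Set α)
  have hH : ∀ g : G, g ∈ H ↔ ∀ x ∈ s, g • x = x := fun g => by
    rw [mem_fixingSubgroup_iff]; rfl
  let O : Set α := MulAction.orbit H a
  have hOs : ∀ x ∈ O, x ∉ s := by
    rintro _ ⟨g, rfl⟩ hx
    apply ha
    have h1 := (hH g⁻¹).1 (H.inv_mem g.2) _ hx
    have h2 : (g : G)⁻¹ • ((g : G) • a) = a := inv_smul_smul _ _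
    change (g : G)⁻¹ • ((g : G) • a) = (g : G) • a at h1
    rw [h2] at h1
    rw [h1]; exact hx
  have key : ∀ c : α, c ∉ s → Nat.card O ≡ Nat.card (O ∩ {c} : Set α) [MOD p] := by
    intro c hc
    obtain ⟨P, hP, hfix⟩ := h (insert c s) (by rw [Finset.card_insert_of_notMem hc, hs])
    have hPH : P ≤ H := by
      intro g hg
      rw [hH]
      intro x hx
      have h1 : x ∈ MulAction.fixedPoints P α := by
        rw [hfix]; exact Finset.mem_coe.2 (Finset.mem_insert_of_mem hx)
      exact h1 ⟨g, hg⟩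
    have h2 := card_modEq_of_invariant (K := P) hP O (by
      rintro k _ ⟨g, rfl⟩
      refine ⟨⟨k, hPH k.2⟩ * g, ?_⟩
      change ((⟨k, hPH k.2⟩ : H) * g) • a = _
      rw [mul_smul]; rfl)
    have h3 : O ∩ MulAction.fixedPoints P α = O ∩ {c} := by
      ext x
      constructor
      · rintro ⟨hx1, hx2⟩
        refine ⟨hx1, ?_⟩
        rw [hfix, Finset.mem_coe, Finset.mem_insert] at hx2
        exact hx2.resolve_right (hOs x hx1)
      · rintro ⟨hx1, hx2⟩
        refine ⟨hx1, ?_⟩
        rw [hfix, Finset.mem_coe, Finset.mem_insert]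
        exact Or.inl hx2
    rw [h3] at h2
    exact h2
  have ha' := key a ha
  have hb' := key b hb
  have h1 : (O ∩ {a} : Set α) = {a} := by
    rw [Set.inter_eq_right, Set.singleton_subset_iff]
    exact MulAction.mem_orbit_self a
  have h0 : Nat.card ({a} : Set α) = 1 := Nat.card_unique
  rw [h1, h0] at ha'
  have hbO : b ∈ O := by
    by_contra hbO
    have h2 : (O ∩ {b} : Set α) = ∅ := by
      rw [Set.inter_singleton_eq_empty]; exact hbO
    rw [h2] at hb'
    have h3 : Nat.card (∅ : Set α) = 0 := by simp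
    rw [h3] at hb'
    have h4 := ha'.symm.trans hb'
    have h5 : p ∣ 1 := (Nat.modEq_zero_iff_dvd).1 h4
    exact hp.one_lt.ne' (Nat.dvd_one.1 h5)
  obtain ⟨g, hg⟩ := hbO
  exact ⟨g, (hH g).1 g.2, hg⟩

end Cfsg.Agent.S0743
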