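import Cfsg.Statements.S0735
import Mathlib

set_option autoImplicit false
open Cfsg

namespace Cfsg.Agent.S0735

open scoped Pointwise

/-- A 2-homogeneous permutation group (transitive on 2-subsets) of even order is doubly transitive; a non-trivial 2-homogeneous group is primitive. -/
theorem result {α : Type*} [Fintype α] [DecidableEq α] (G : Subgroup (Equiv.Perm α)) (h2 : MulAction.IsPretransitive G (Set.powersetCard α 2)) (hα : 3 ≤ Fintype.card α) : (Even (Nat.card G) → MulAction.IsMultiplyPretransitive G α 2) ∧ (G ≠ ⊥ → MulAction.IsPreprimitive G α) := by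
  have hpair : ∀ a b c d : α, a ≠ b → c ≠ d → ∃ g : G, (g • a = c ∧ g • b = d) ∨ (g • a = d ∧ g • b = c) := by
    intro a b c d hab hcd
    let s : Set.powersetCard α 2 := ⟨{a, b}, Finset.card_pair hab⟩
    let t : Set.powersetCard α 2 := ⟨{c, d}, Finset.card_pair hcd⟩
    obtain ⟨g, hg⟩ := h2.exists_smul_eq s t
    have h1 : g • ({a, b} : Finset α) = {c, d} := congrArg Subtype.val hg
    have ha : g • a ∈ ({c, d} : Finset α) := by
      rw [← h1]; exact Finset.smul_mem_smul_finset (by simp)
    have hb : g • b ∈ ({c, d} : Finset α) := by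
      rw [← h1]; exact Finset.smul_mem_smul_finset (by simp)
    have hne : g • a ≠ g • b := fun e => hab (smul_left_cancel g e)
    rw [Finset.mem_insert, Finset.mem_singleton] at ha hb
    refine ⟨g, ?_⟩
    rcases ha with ha | ha <;> rcases hb with hb | hb
    · exact absurd (ha.trans hb.symm) hne
    · exact Or.inl ⟨ha, hb⟩
    · exact Or.inr ⟨ha, hb⟩
    · exact absurd (ha.trans hb.symm) hne
  constructor
  · intro heven
    -- an involution moves some point
    obtain ⟨t, ht⟩ := exists_prime_orderOf_dvd_card' (G := G) 2 (even_iff_two_dvd.1 heven)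
    have ht1 : t ≠ 1 := by
      rintro rfl
      rw [orderOf_one] at ht
      norm_num at ht
    have htt : t * t = 1 := by rw [← pow_two, ← ht, pow_orderOf_eq_one]
    obtain ⟨x, hx⟩ : ∃ x : α, (t : Equiv.Perm α) x ≠ x := by
      by_contra hcon
      push Not at hcon
      apply ht1
      apply Subtype.ext
      ext x
      exact hcon x
    have htx : t • (t • x) = x := by rw [← mul_smul, htt, one_smul]
    have hx' : x ≠ t • x := fun e => hx e.symm
    -- every pair can be swapped
    have hswap : ∀ c d : α, c ≠ d → ∃ g : G, g • c = d ∧ g • d = c := by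
      intro c d hcd
      obtain ⟨g, hg⟩ := hpair x (t • x) c d hx' hcd
      rcases hg with ⟨h3, h4⟩ | ⟨h3, h4⟩
      · refine ⟨g * t * g⁻¹, ?_, ?_⟩
        · rw [mul_smul, mul_smul, ← h3, inv_smul_smul, ← h4]
        · rw [mul_smul, mul_smul, ← h4, inv_smul_smul, htx, h3]
      · refine ⟨g * t * g⁻¹, ?_, ?_⟩
        · rw [mul_smul, mul_smul, ← h4, inv_smul_smul, htx, h3]
        · rw [mul_smul, mul_smul, ← h3, inv_smul_smul, ← h4]
    rw [MulAction.is_two_pretransitive_iff]
    intro a b c d hab hcd
    obtain ⟨g, hg⟩ := hpair a b c d hab hcd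
    rcases hg with ⟨h3, h4⟩ | ⟨h3, h4⟩
    · exact ⟨g, h3, h4⟩
    · obtain ⟨k, hk1, hk2⟩ := hswap c d hcd
      exact ⟨k * g, by rw [mul_smul, h3, hk2], by rw [mul_smul, h4, hk1]⟩
  · intro _
    haveI htr : MulAction.IsPretransitive G α := by
      refine ⟨fun x y => ?_⟩
      by_cases hxy : x = y
      · exact ⟨1, by rw [hxy, one_smul]⟩
      by_contra hcon
      push Not at hcon
      -- third point
      obtain ⟨z, hz⟩ : ∃ z, z ∉ ({x, y} : Finset α) := by
        by_contra hcon2
        push Not at hcon2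
        have h3 : (Finset.univ : Finset α) ⊆ {x, y} := fun z _ => hcon2 z
        have h4 := Finset.card_le_card h3
        rw [Finset.card_univ, Finset.card_pair hxy] at h4
        omega
      rw [Finset.mem_insert, Finset.mem_singleton, not_or] at hz
      obtain ⟨hzx, hzy⟩ := hz
      -- {x,z} -> {y,z}: then z -> y and x -> z
      obtain ⟨g, hg⟩ := hpair x z y z (Ne.symm hzx) (Ne.symm hzy)
      rcases hg with ⟨h3, _⟩ | ⟨h3, h4⟩
      · exact hcon g h3
      · exact hcon (g * g) (by rw [mul_smul, h3, h4])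
    haveI : Nonempty α := Fintype.card_pos_iff.1 (by omega)
    obtain ⟨a0⟩ := (inferInstance : Nonempty α)
    refine ⟨fun {B} hB => ?_⟩
    by_cases hsub : B.Subsingleton
    · exact Or.inl hsub
    right
    rw [Set.not_subsingleton_iff] at hsub
    obtain ⟨a, ha, b, hb, hab⟩ := hsub
    rw [Set.eq_univ_iff_forall]
    intro x
    by_cases hxa : x = a
    · rw [hxa]; exact ha
    -- {a,b} -> {a,x}
    obtain ⟨g, hg⟩ := hpair a b a x hab (Ne.symm hxa)
    rw [MulAction.isBlock_iff_smul_eq_of_mem] at hB
    rcases hg with ⟨h3, h4⟩ | ⟨h3, h4⟩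
    · have h5 := hB ha (by rw [h3]; exact ha : g • a ∈ B)
      rw [← h5, ← h4]
      exact Set.smul_mem_smul_set hb
    · have h5 := hB hb (by rw [h4]; exact ha : g • b ∈ B)
      rw [← h5, ← h3]
      exact Set.smul_mem_smul_set ha

end Cfsg.Agent.S0735
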