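import Cfsg.Statements.S0744
import Mathlib
import Cfsg.Agent.Lib.PermTwo

set_option autoImplicit false
open Cfsg

namespace Cfsg.Agent.S0744

open Cfsg.Agent.Lib.PermTwo

/-- If for some `k > 1` the pointwise stabilisers of all `(k-1)`-subsets have the same order `> 1` and those of all `k`-subsets have the same order, then the group is `(k-1)`-transitive. -/
theorem result {α : Type*} [Fintype α] [DecidableEq α] (G : Subgroup (Equiv.Perm α)) {k : ℕ} (hk : 1 < k) (hkn : k ≤ Fintype.card α) (l m : ℕ) (hl : 1 < l) (hkm1 : ∀ s : Finset α, s.card = k - 1 → Nat.card (fixingSubgroup G (s : Set α)) = l) (hkm : ∀ s : Finset α, s.card = k → Nat.card (fixingSubgroup G (s : Set α)) = m) : MulAction.IsMultiplyPretransitive G α (k - 1) := by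
  refine kTrans_of_fixing (by omega) fun s hs a b ha hb => ?_
  let F : Finset α → Subgroup G := fun T => fixingSubgroup G (T : Set α)
  have hF : ∀ (T : Finset α) (g : G), g ∈ F T ↔ ∀ x ∈ T, g • x = x := fun T g => by
    rw [mem_fixingSubgroup_iff]; rfl
  -- stabilizers
  have hstab : ∀ (T : Finset α) (c : α), Nat.card (MulAction.stabilizer (F T) c) = Nat.card (F (insert c T)) := by
    intro T c
    refine Nat.card_congr
      { toFun := fun g => ⟨g.1.1, (hF _ _).2 fun x hx => by
          rcases Finset.mem_insert.1 hx with rfl | hx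
          · exact g.2
          · exact (hF T g.1.1).1 g.1.2 x hx⟩
        invFun := fun g => ⟨⟨g.1, (hF _ _).2 fun x hx => (hF _ g.1).1 g.2 x (Finset.mem_insert_of_mem hx)⟩,
          (hF _ g.1).1 g.2 c (Finset.mem_insert_self _ _)⟩
        left_inv := fun g => rfl
        right_inv := fun g => rfl }
  have horb : ∀ (T : Finset α) (c : α), Nat.card (MulAction.orbit (F T) c) * Nat.card (F (insert c T)) = Nat.card (F T) := by
    intro T c
    rw [← hstab, mul_comm]
    have h0 := (MulAction.stabilizer (F T) c).card_mul_index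
    rw [MulAction.index_stabilizer] at h0
    exact h0
  have hl' : ∀ c, c ∉ s → Nat.card (F (insert c s)) = l := fun c hc =>
    hkm1 _ (by rw [Finset.card_insert_of_notMem hc]; exact hs)
  have hm' : ∀ c d, c ∉ s → d ∉ insert c s → Nat.card (F (insert d (insert c s))) = m := fun c d hc hd =>
    hkm _ (by rw [Finset.card_insert_of_notMem hd, Finset.card_insert_of_notMem hc]; omega)
  have hm0 : 0 < m := by
    obtain ⟨T, hT⟩ := Finset.exists_subset_card_eq (s := (Finset.univ : Finset α)) (n := k) (by rw [Finset.card_univ]; exact hkn)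
    rw [← hkm T hT.2]; exact Nat.card_pos
  -- common orbit size
  obtain ⟨e, he⟩ : ∃ e, ∀ c d, c ∉ s → d ∉ insert c s → Nat.card (MulAction.orbit (F (insert c s)) d) = e := by
    refine ⟨l / m, fun c d hc hd => ?_⟩
    have h1 := horb (insert c s) d
    rw [hm' c d hc hd, hl' c hc] at h1
    rw [← h1, Nat.mul_div_cancel _ hm0]
  by_contra hcon
  have hbO : b ∉ MulAction.orbit (F s) a := by
    rintro ⟨g, hg⟩
    exact hcon ⟨g, (hF s g).1 g.2, hg⟩
  have hab : b ≠ a := by
    rintro rfl
    exact hbO (MulAction.mem_orbit_self b)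
  have hOs : ∀ c, c ∉ s → ∀ x ∈ MulAction.orbit (F s) c, x ∉ s := by
    rintro c hc _ ⟨g, rfl⟩ hx
    apply hc
    have h1 := (hF s g⁻¹).1 ((F s).inv_mem g.2) _ hx
    have h2 : (g : G)⁻¹ • ((g : G) • c) = c := inv_smul_smul _ _
    change (g : G)⁻¹ • ((g : G) • c) = (g : G) • c at h1
    rw [h2] at h1
    rw [h1]; exact hx
  have hle : F (insert a s) ≤ F s := by
    intro g hg
    rw [hF] at hg ⊢
    exact fun x hx => hg x (Finset.mem_insert_of_mem hx)
  -- e divides |orbit b|
  have h1 : e ∣ Nat.card (MulAction.orbit (F s) b) := by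
    refine dvd_card_of_invariant (K := F (insert a s)) _ ?_ e ?_
    · rintro k _ ⟨g, rfl⟩
      refine ⟨⟨k, hle k.2⟩ * g, ?_⟩
      change ((⟨k, hle k.2⟩ : F s) * g) • b = _
      rw [mul_smul]; rfl
    · intro x hx
      refine he a x ha ?_
      rw [Finset.mem_insert, not_or]
      refine ⟨?_, hOs b hb x hx⟩
      rintro rfl
      obtain ⟨g, hg⟩ := hx
      exact hbO ⟨g⁻¹, by rw [← hg]; exact inv_smul_smul g b⟩
  have h2 : e ∣ Nat.card (MulAction.orbit (F s) a \ {a} : Set α) := by
    refine dvd_card_of_invariant (K := F (insert a s)) _ ?_ e ?_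
    · rintro k _ ⟨⟨g, rfl⟩, hne⟩
      refine ⟨⟨⟨k, hle k.2⟩ * g, ?_⟩, ?_⟩
      · change ((⟨k, hle k.2⟩ : F s) * g) • a = _
        rw [mul_smul]; rfl
      · intro h
        apply hne
        have h3 : (k : G) • a = a := (hF _ k.1).1 k.2 a (Finset.mem_insert_self _ _)
        have h4 : (k : G) • (g • a) = (k : G) • a := by rw [h3]; exact h
        exact smul_left_cancel _ h4
    · rintro x ⟨hx, hxa⟩
      refine he a x ha ?_
      rw [Finset.mem_insert, not_or]
      exact ⟨hxa, hOs a ha x hx⟩
  have h3 : Nat.card (MulAction.orbit (F s) a) = Nat.card (MulAction.orbit (F s) b) := by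
    have e1 := horb s a
    have e2 := horb s b
    rw [hl' a ha] at e1
    rw [hl' b hb] at e2
    exact Nat.eq_of_mul_eq_mul_right (by omega) (e1.trans e2.symm)
  have h4 : Nat.card (MulAction.orbit (F s) a \ {a} : Set α) + 1 = Nat.card (MulAction.orbit (F s) a) := by
    have := Set.ncard_sdiff_singleton_add_one (MulAction.mem_orbit_self (M := F s) a) (Set.toFinite _)
    exact this
  have h5 : e ∣ 1 := by
    rw [← h3, ← h4] at h1
    exact (Nat.dvd_add_right h2).1 h1
  have h6 : e = 1 := Nat.dvd_one.1 h5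
  -- then `F (insert a s)` is trivial
  have h7 : F (insert a s) = ⊥ := by
    rw [eq_bot_iff]
    intro g hg
    rw [Subgroup.mem_bot]
    apply Subtype.ext
    change (g : Equiv.Perm α) = 1
    ext x
    change (g : Equiv.Perm α) x = x
    by_cases hx : x ∈ insert a s
    · exact (hF _ g).1 hg x hx
    · have h8 := he a x ha hx
      rw [h6] at h8
      haveI := (Nat.card_eq_one_iff_unique.1 h8).1
      have h9 : (⟨(⟨g, hg⟩ : F (insert a s)) • x, MulAction.mem_orbit x _⟩ : MulAction.orbit (F (insert a s)) x) =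
          ⟨x, MulAction.mem_orbit_self x⟩ := Subsingleton.elim _ _
      exact congrArg Subtype.val h9
  have h10 := hl' a ha
  rw [h7, Subgroup.card_bot] at h10
  omega

end Cfsg.Agent.S0744
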