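import Cfsg.Statements.S0286
import Mathlib
import Cfsg.Agent.Lib.Orth1
import Cfsg.Agent.Lib.Orth2
import Cfsg.Agent.Lib.Orth3
import Cfsg.Agent.Lib.Orth4
import Cfsg.Agent.Lib.Orth5
import Cfsg.Agent.Lib.Orth6
import Cfsg.Agent.Lib.Orth7
import Cfsg.Agent.Lib.Orth8
import Cfsg.Agent.Lib.Orth9
-- import your own Cfsg.Agent.* helpers here

set_option autoImplicit false
open Cfsg
set_option linter.all false

namespace Cfsg.Agent.S0286

/-- |GO_{2m+1}(q)| = 2 q^(m^2) prod_{i=1}^{m} (q^(2i) - 1) for q odd. -/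
theorem result {F : Type*} [Field F] [Fintype F] {q : ℕ} (hF : Fintype.card F = q) (hodd : Odd q) (m : ℕ) : Nat.card (Cfsg.isometryGroup F (Cfsg.quadFormOdd m F)) = 2 * q ^ (m ^ 2) * ∏ i ∈ Finset.range m, (q ^ (2 * (i + 1)) - 1) := by
  have h2 : (2 : F) ≠ 0 := by
    intro h
    have h3 := FiniteField.even_card_iff_char_two (F := F)
    have h4 : ringChar F = 2 := by
      haveI := CharTwo.of_one_ne_zero_of_two_eq_zero (R := F) one_ne_zero h
      exact ringChar.eq F 2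
    rw [h4, hF] at h3
    have := h3.mp rfl
    rw [Nat.odd_iff] at hodd
    omega
  rw [← Cfsg.Agent.Lib.Orth.coe_qOdd, Nat.card_congr (Cfsg.Agent.Lib.Orth.isoO _).toEquiv,
    Cfsg.Agent.Lib.Orth.card_O_odd h2, Nat.card_eq_fintype_card, hF]


end Cfsg.Agent.S0286
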