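import Cfsg.Statements.S0039
import Cfsg.Agent.Lib.Frob

set_option autoImplicit false
open Cfsg

namespace Cfsg.Agent.S0039

open Subgroup Pointwise Cfsg.Agent.Lib.Frob Cfsg.Agent.Lib.SchurZas Cfsg.Agent.Lib.Basic in
theorem aux {G : Type*} [Group G] [Finite G] (K H : Subgroup G) [K.Normal]
    (hc : Subgroup.IsComplement' K H) (hK : K ≠ ⊥) (hH : H ≠ ⊥) :
    Cfsg.IsFrobeniusComplement H ↔ ∀ h ∈ H, h ≠ 1 → K ⊓ Subgroup.centralizer {h} = ⊥ := by
  constructor
  · intro hF h hh h1
    have hTI : TI H := hF.2.2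
    rw [eq_bot_iff]
    intro x hx
    have hxK := (mem_inf.mp hx).1
    have hxC := mem_centralizer_iff.mp (mem_inf.mp hx).2 h (Set.mem_singleton h)
    have h2 := hTI.mem_of_commute (g := 1) (y := x) h1 (by rw [mem_conj_smul_iff]; simpa using hh) hxC.symm
    have h3 : x ∈ H := by rw [mem_conj_smul_iff] at h2; simpa using h2
    exact mem_bot.mpr (disjoint_def.mp hc.disjoint hxK h3)
  · intro h
    refine ⟨hH, ?_, ?_⟩
    · rintro rfl
      rw [isComplement'_top_right] at hc
      exact hK hc
    · intro g hg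
      have hgt : g ∈ K ⊔ H := by rw [hc.sup_eq_top]; exact mem_top g
      obtain ⟨k, hk, y, hy, rfl⟩ := (mem_sup_iff_left (by rw [normalizer_eq_top]; exact le_top)).mp hgt
      rw [map_mul, mul_smul, conj_smul_eq_self_of_mem hy]
      rw [eq_bot_iff]
      intro x hx
      have hxH := (mem_inf.mp hx).1
      have hxk := (mem_inf.mp hx).2
      rw [mem_conj_smul_iff] at hxk
      -- x⁻¹ (k⁻¹ x k) ∈ K ∩ H
      have h1 : x⁻¹ * (k⁻¹ * x * k) ∈ K := by
        have : x⁻¹ * (k⁻¹ * x * k) = (x⁻¹ * k⁻¹ * x⁻¹⁻¹) * k := by group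
        rw [this]
        exact K.mul_mem ((inferInstance : K.Normal).conj_mem _ (K.inv_mem hk) _) hk
      have h2 : x⁻¹ * (k⁻¹ * x * k) ∈ H := H.mul_mem (H.inv_mem hxH) hxk
      have h3 := disjoint_def.mp hc.disjoint h1 h2
      have h4 : x * k = k * x := by
        have : k⁻¹ * x * k = x := by
          have := inv_mul_eq_one.mp h3
          exact this.symm
        calc x * k = k * (k⁻¹ * x * k) := by group
          _ = k * x := by rw [this]
      by_contra hx1
      rw [mem_bot] at hx1
      have h5 : k ∈ K ⊓ centralizer {x} := by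
        refine mem_inf.mpr ⟨hk, ?_⟩
        rw [mem_centralizer_iff]
        rintro z rfl
        exact h4
      rw [h x hxH hx1, mem_bot] at h5
      apply hg
      rw [h5, one_mul]; exact hy

/-- In a finite group that is a semidirect product of a normal subgroup K by a nontrivial subgroup H, H is a Frobenius complement exactly when each nonidentity element of H acts without nonidentity fixed points on K by conjugation. -/
theorem result {G : Type*} [Group G] [Finite G] (K H : Subgroup G) [K.Normal]
    (hc : Subgroup.IsComplement' K H) (hK : K ≠ ⊥) (hH : H ≠ ⊥) :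
    Cfsg.IsFrobeniusComplement H ↔ ∀ h ∈ H, h ≠ 1 → K ⊓ Subgroup.centralizer {h} = ⊥ := by
  exact aux K H hc hK hH

end Cfsg.Agent.S0039
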