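import Cfsg.Statements.S0740
import Mathlib

set_option autoImplicit false
open Cfsg

namespace Cfsg.Agent.S0740

/-- In a finite Zassenhaus group any two points `a ≠ b` are swapped by an involution; every such involution has exactly one fixed point when the degree is odd and 0 or 2 fixed points when the degree is even; and if the two-point stabiliser has even order, some such involution has exactly 2 fixed points. -/
theorem result {G Ω : Type*} [Group G] [Finite G] [MulAction G Ω] [Fintype Ω] (hZ : Cfsg.IsZassenhausGroup G Ω) {a b : Ω} (hab : a ≠ b) : (∃ s : G, orderOf s = 2 ∧ s • a = b ∧ s • b = a) ∧ (∀ s : G, orderOf s = 2 → s • a = b → s • b = a → (Odd (Fintype.card Ω) → Nat.card (MulAction.fixedBy Ω s) = 1) ∧ (Even (Fintype.card Ω) → Nat.card (MulAction.fixedBy Ω s) = 0 ∨ Nat.card (MulAction.fixedBy Ω s) = 2)) ∧ (Even (Fintype.card Ω) → Even (Nat.card ↥(MulAction.stabilizer G a ⊓ MulAction.stabilizer G b)) → ∃ s : G, orderOf s = 2 ∧ s • a = b ∧ s • b = a ∧ Nat.card (MulAction.fixedBy Ω s) = 2)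 := by
  classical
  obtain ⟨hf, h2, h3, _, _⟩ := hZ
  haveI := hf
  rw [MulAction.is_two_pretransitive_iff] at h2
  -- conjugating an involution which moves a point
  have key : ∀ t : G, orderOf t = 2 → ∃ s : G, (∃ k : G, s = k * t * k⁻¹) ∧ orderOf s = 2 ∧ s • a = b ∧ s • b = a := by
    intro t ht
    have ht1 : t ≠ 1 := by
      rintro rfl
      rw [orderOf_one] at ht; norm_num at ht
    have htt : t * t = 1 := by rw [← pow_two, ← ht, pow_orderOf_eq_one]
    obtain ⟨x, hx⟩ : ∃ x : Ω, t • x ≠ x := by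
      by_contra hcon
      push Not at hcon
      apply ht1
      apply hf.eq_of_smul_eq_smul
      intro x
      rw [hcon x, one_smul]
    obtain ⟨k, hk1, hk2⟩ := h2 (Ne.symm hx) hab
    refine ⟨k * t * k⁻¹, ⟨k, rfl⟩, ?_, ?_, ?_⟩
    · rw [← ht]
      have := orderOf_injective (MulAut.conj k).toMonoidHom (MulAut.conj k).injective t
      simpa using this
    · rw [mul_smul, mul_smul, ← hk1, inv_smul_smul, hk2]
    · rw [mul_smul, mul_smul, ← hk2, inv_smul_smul, ← mul_smul t t, htt, one_smul, hk1]
  have hfix : ∀ k t : G, Nat.card (MulAction.fixedBy Ω (k * t * k⁻¹)) = Nat.card (MulAction.fixedBy Ω t) := by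
    intro k t
    refine Nat.card_congr
      { toFun := fun x => ⟨k⁻¹ • x.1, ?_⟩
        invFun := fun x => ⟨k • x.1, ?_⟩
        left_inv := fun x => Subtype.ext (smul_inv_smul k x.1)
        right_inv := fun x => Subtype.ext (inv_smul_smul k x.1) }
    · have h1 : (k * t * k⁻¹) • x.1 = x.1 := x.2
      rw [MulAction.mem_fixedBy]
      rw [mul_smul, mul_smul] at h1
      rw [eq_inv_smul_iff]; exact h1
    · have h1 : t • x.1 = x.1 := x.2
      rw [MulAction.mem_fixedBy, mul_smul, mul_smul, inv_smul_smul, h1]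
  -- at most two fixed points
  have hle : ∀ t : G, t ≠ 1 → Nat.card (MulAction.fixedBy Ω t) ≤ 2 := by
    intro t ht
    by_contra hcon
    push Not at hcon
    have h4 : 2 < Fintype.card (MulAction.fixedBy Ω t) := by rwa [← Nat.card_eq_fintype_card]
    obtain ⟨x, y, z, hxy, hxz, hyz⟩ := Fintype.two_lt_card_iff.1 h4
    exact ht (h3 t x y z (fun e => hxy (Subtype.ext e)) (fun e => hyz (Subtype.ext e))
      (fun e => hxz (Subtype.ext e)) x.2 y.2 z.2)
  have hpar : ∀ t : G, orderOf t = 2 → (Nat.card (MulAction.fixedBy Ω t)) ≡ Fintype.card Ω [MOD 2] := by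
    intro t ht
    have htt : t ^ 2 = 1 := by rw [← ht, pow_orderOf_eq_one]
    have hP : IsPGroup 2 (Subgroup.zpowers t) := IsPGroup.of_card (n := 1) (by rw [Nat.card_zpowers, ht, pow_one])
    haveI : Fact (Nat.Prime 2) := ⟨Nat.prime_two⟩
    have h4 := hP.card_modEq_card_fixedPoints Ω
    have h5 : Nat.card (MulAction.fixedPoints (Subgroup.zpowers t) Ω) = Nat.card (MulAction.fixedBy Ω t) := by
      congr 1
      apply congrArg
      ext x
      constructor
      · intro hx
        exact hx ⟨t, Subgroup.mem_zpowers t⟩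
      · intro hx
        rintro ⟨g, hg⟩
        have h6 : t ∈ MulAction.stabilizer G x := hx
        exact (Subgroup.zpowers_le.2 h6) hg
    rw [h5, Nat.card_eq_fintype_card] at h4
    exact h4.symm
  refine ⟨?_, ?_, ?_⟩
  · obtain ⟨g, hg1, hg2⟩ := h2 hab (Ne.symm hab)
    have h4 : 2 ∣ orderOf g := by
      have h5 : ∀ k : ℕ, g ^ (2 * k) • a = a := by
        intro k
        induction k with
        | zero => simp
        | succ k ih =>
          have : g ^ (2 * (k + 1)) = g ^ (2 * k) * (g * g) := by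
            rw [mul_add, pow_add, mul_one, pow_two]
          rw [this, mul_smul, mul_smul, hg1, hg2, ih]
      by_contra hodd
      obtain ⟨k, hk⟩ : ∃ k, orderOf g = 2 * k + 1 := ⟨orderOf g / 2, by omega⟩
      have h6 : g ^ (2 * k + 1) • a = b := by
        rw [pow_succ', mul_smul, h5, hg1]
      rw [← hk, pow_orderOf_eq_one, one_smul] at h6
      exact hab h6
    haveI : Fact (Nat.Prime 2) := ⟨Nat.prime_two⟩
    obtain ⟨t, ht⟩ := exists_prime_orderOf_dvd_card' (G := G) 2 (h4.trans (orderOf_dvd_natCard g))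
    obtain ⟨s, _, hs⟩ := key t ht
    exact ⟨s, hs⟩
  · intro s hs _ _
    have hs1 : s ≠ 1 := by
      rintro rfl
      rw [orderOf_one] at hs; norm_num at hs
    have h4 := hle s hs1
    have h5 := hpar s hs
    unfold Nat.ModEq at h5
    constructor
    · intro hodd
      rw [Nat.odd_iff] at hodd
      omega
    · intro heven
      rw [Nat.even_iff] at heven
      omega
  · intro heven hH
    haveI : Fact (Nat.Prime 2) := ⟨Nat.prime_two⟩
    obtain ⟨t, ht⟩ := exists_prime_orderOf_dvd_card' (G := ↥(MulAction.stabilizer G a ⊓ MulAction.stabilizer G b)) 2 (even_iff_two_dvd.1 hH)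
    have ht' : orderOf (t : G) = 2 := by rw [Subgroup.orderOf_coe]; exact ht
    obtain ⟨s, ⟨k, hk⟩, hs, hs1, hs2⟩ := key t ht'
    refine ⟨s, hs, hs1, hs2, ?_⟩
    rw [hk, hfix]
    have ht1 : (t : G) ≠ 1 := by
      intro e
      rw [e, orderOf_one] at ht'; norm_num at ht'
    have h4 := hle (t : G) ht1
    have h5 : 1 < Nat.card (MulAction.fixedBy Ω (t : G)) := by
      rw [Nat.card_eq_fintype_card, Fintype.one_lt_card_iff]
      exact ⟨⟨a, t.2.1⟩, ⟨b, t.2.2⟩, fun e => hab (congrArg Subtype.val e)⟩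
    omega

end Cfsg.Agent.S0740
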