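import Cfsg.Statements.S0879
import Cfsg.Agent.Lib.CharInd

set_option autoImplicit false
open Cfsg

namespace Cfsg.Agent.S0879

open MulAction

variable {G Ω : Type*} [Group G] [MulAction G Ω]

theorem third {G Ω : Type*} [Group G] [MulAction G Ω] (hZ : IsZassenhausGroup G Ω) {a b : Ω} (hab : a ≠ b) :
    ∃ x ∈ stabilizer G a ⊓ stabilizer G b, x ≠ 1 := by
  obtain ⟨-, h2, -, ⟨g, hg1, c, d, hcd, hc, hd⟩, -⟩ := hZ
  rw [MulAction.is_two_pretransitive_iff] at h2
  obtain ⟨k, hk1, hk2⟩ := h2 hcd hab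
  refine ⟨k * g * k⁻¹, ⟨?_, ?_⟩, ?_⟩
  · change (k * g * k⁻¹) • a = a
    rw [← hk1, ← mul_smul, inv_mul_cancel_right, mul_smul, hc]
  · change (k * g * k⁻¹) • b = b
    rw [← hk2, ← mul_smul, inv_mul_cancel_right, mul_smul, hd]
  · intro h
    apply hg1
    exact conj_eq_one_iff.mp h

theorem fix_pair {G Ω : Type*} [Group G] [MulAction G Ω] (hZ : IsZassenhausGroup G Ω) {a b : Ω} (hab : a ≠ b)
    {x : G} (hx : x ∈ stabilizer G a ⊓ stabilizer G b) (hx1 : x ≠ 1) {c : Ω} (hc : x • c = c) :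
    c = a ∨ c = b := by
  by_contra h
  push Not at h
  obtain ⟨-, -, h3, -, -⟩ := hZ
  exact hx1 (h3 x a b c hab (Ne.symm h.2) (Ne.symm h.1) hx.1 hx.2 hc)

theorem conj_mem_iff {G Ω : Type*} [Group G] [MulAction G Ω] {a b : Ω} {x g : G} :
    g * x * g⁻¹ ∈ stabilizer G a ⊓ stabilizer G b ↔
      x ∈ stabilizer G (g⁻¹ • a) ⊓ stabilizer G (g⁻¹ • b) := by
  simp only [Subgroup.mem_inf, mem_stabilizer_iff, mul_smul]
  rw [smul_eq_iff_eq_inv_smul g, smul_eq_iff_eq_inv_smul g]

theorem mem_norm {G Ω : Type*} [Group G] [MulAction G Ω] {a b : Ω} {g : G}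
    (h : (g⁻¹ • a = a ∧ g⁻¹ • b = b) ∨ (g⁻¹ • a = b ∧ g⁻¹ • b = a)) :
    g ∈ Subgroup.normalizer ((stabilizer G a ⊓ stabilizer G b : Subgroup G) : Set G) := by
  rw [Subgroup.mem_normalizer_iff]
  intro x
  change x ∈ stabilizer G a ⊓ stabilizer G b ↔ g * x * g⁻¹ ∈ stabilizer G a ⊓ stabilizer G b
  rw [conj_mem_iff]
  rcases h with ⟨h1, h2⟩ | ⟨h1, h2⟩
  · rw [h1, h2]
  · rw [h1, h2, inf_comm]

theorem swap_of_conj {G Ω : Type*} [Group G] [MulAction G Ω] (hZ : IsZassenhausGroup G Ω) {a b : Ω} (hab : a ≠ b)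
    {x g : G} (hx1 : x ≠ 1) (hx : x ∈ stabilizer G a ⊓ stabilizer G b)
    (hg : g * x * g⁻¹ ∈ stabilizer G a ⊓ stabilizer G b) :
    (g⁻¹ • a = a ∧ g⁻¹ • b = b) ∨ (g⁻¹ • a = b ∧ g⁻¹ • b = a) := by
  rw [conj_mem_iff] at hg
  have h1 := fix_pair hZ hab hx hx1 hg.1
  have h2 := fix_pair hZ hab hx hx1 hg.2
  have hne : g⁻¹ • a ≠ g⁻¹ • b := fun h => hab (MulAction.injective g⁻¹ h)
  rcases h1 with h1 | h1 <;> rcases h2 with h2 | h2
  · exact absurd (h1.trans h2.symm) hne
  · exact Or.inl ⟨h1, h2⟩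
  · exact Or.inr ⟨h1, h2⟩
  · exact absurd (h1.trans h2.symm) hne

/-- Let G be a Zassenhaus group on the finite set Ω and E the stabilizer of two distinct points a, b. Then an element outside the normalizer of E conjugates no non-identity element of E into E, and E has index 2 in its normalizer. -/
theorem result {G Ω : Type*} [Group G] [Finite G] [MulAction G Ω] [Fintype Ω] (hZ : Cfsg.IsZassenhausGroup G Ω) {a b : Ω} (hab : a ≠ b) : (∀ g : G, g ∉ Subgroup.normalizer ((MulAction.stabilizer G a ⊓ MulAction.stabilizer G b : Subgroup G) : Set G) → ∀ x ∈ (MulAction.stabilizer G a ⊓ MulAction.stabilizer G b : Subgroup G), g * x * g⁻¹ ∈ (MulAction.stabilizer G a ⊓ MulAction.stabilizer G b : Subgroup G) → x = 1) ∧ ((MulAction.stabilizer G a ⊓ MulAction.stabilizer G b : Subgroup G).subgroupOf (Subgroup.normalizer ((MulAction.stabilizer G a ⊓ MulAction.stabilizer G b : Subgroup G) : Set G))).index = 2 := by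
  obtain ⟨x₀, hx₀, hx₀1⟩ := third hZ hab
  refine ⟨?_, ?_⟩
  · intro g hg x hx hgx
    by_contra hx1
    exact hg (mem_norm (swap_of_conj hZ hab hx1 hx hgx))
  · have hnorm : ∀ g ∈ Subgroup.normalizer ((MulAction.stabilizer G a ⊓ MulAction.stabilizer G b :
        Subgroup G) : Set G), (g⁻¹ • a = a ∧ g⁻¹ • b = b) ∨ (g⁻¹ • a = b ∧ g⁻¹ • b = a) := by
      intro g hg
      exact swap_of_conj hZ hab hx₀1 hx₀ ((Subgroup.mem_normalizer_iff.mp hg x₀).mp hx₀)
    obtain ⟨s, hs1, hs2⟩ : ∃ s : G, s • a = b ∧ s • b = a := by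
      obtain ⟨-, h2, -, -, -⟩ := hZ
      rw [MulAction.is_two_pretransitive_iff] at h2
      exact h2 hab (Ne.symm hab)
    have hsN : s ∈ Subgroup.normalizer ((MulAction.stabilizer G a ⊓ MulAction.stabilizer G b :
        Subgroup G) : Set G) := by
      apply mem_norm
      right
      exact ⟨by rw [← hs2, inv_smul_smul], by rw [← hs1, inv_smul_smul]⟩
    rw [Subgroup.index_eq_two_iff]
    refine ⟨⟨s, hsN⟩, ?_⟩
    rintro ⟨g, hg⟩
    simp only [Subgroup.mem_subgroupOf]
    have h3 : ∀ k ∈ Subgroup.normalizer ((MulAction.stabilizer G a ⊓ MulAction.stabilizer G b :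
        Subgroup G) : Set G), k ∈ MulAction.stabilizer G a ⊓ MulAction.stabilizer G b ↔
          k⁻¹ • a = a := by
      intro k hk
      constructor
      · intro h
        have : k • a = a := h.1
        rw [inv_smul_eq_iff, this]
      · intro h
        rcases hnorm k hk with h4 | h4
        · exact ⟨by
            have := h4.1
            rw [inv_smul_eq_iff] at this
            exact this.symm, by
            have := h4.2
            rw [inv_smul_eq_iff] at this
            exact this.symm⟩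
        · exact absurd (h.symm.trans h4.1) hab
    have h4 := h3 (g * s) (Subgroup.mul_mem _ hg hsN)
    have h5 := h3 g hg
    change Xor' (g * s ∈ MulAction.stabilizer G a ⊓ MulAction.stabilizer G b)
      (g ∈ MulAction.stabilizer G a ⊓ MulAction.stabilizer G b)
    rw [h4, h5, mul_inv_rev, mul_smul]
    rcases hnorm g hg with h6 | h6
    · right
      refine ⟨h6.1, ?_⟩
      rw [h6.1]
      intro h7
      rw [inv_smul_eq_iff, hs1] at h7
      exact hab h7
    · left
      refine ⟨?_, ?_⟩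
      · rw [h6.1, inv_smul_eq_iff, hs1]
      · rw [h6.1]; exact Ne.symm hab
end Cfsg.Agent.S0879
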