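import Cfsg.Statements.S1524
import Cfsg.Agent.Lib.OddSib
import Cfsg.Agent.Lib.OddCohF
import Cfsg.Agent.Lib.CharFrob

set_option autoImplicit false
open Cfsg

namespace Cfsg.Agent.S1524

open Cfsg.Agent.Lib.OddSib Cfsg.Agent.Lib.OddCohE Cfsg.Agent.Lib.OddCohD Cfsg.Agent.Lib.OddCohC Cfsg.Agent.Lib.OddCohB Cfsg.Agent.Lib.OddCoh

/-- Let G be a finite group and H ≤ L subgroups with L of odd order, H ≠ ⊥ nilpotent and normal in L with a nontrivial complement W₁ in L (H ⊓ W₁ = ⊥, H ⊔ W₁ = L) acting on H without non-identity fixed points (L is a Frobenius group with kernel H), and suppose the underlying set of H is a TI-subset of G whose normaliser is L. Let S be the set of functions on L induced from the non-principal irreducible characters of H. Then (S, L minus 1, induction to G) is coherent. -/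
theorem result {G : Type*} [Group G] [Fintype G] (H L W₁ : Subgroup G) [Fintype L] (hodd : Odd (Nat.card L)) (hHL : H ≤ L) (hW₁L : W₁ ≤ L) (hH1 : H ≠ ⊥) (hW1 : W₁ ≠ ⊥) (hnil : Group.IsNilpotent H) (hHn : ∀ x ∈ L, ∀ h ∈ H, x * h * x⁻¹ ∈ H) (hinf : H ⊓ W₁ = ⊥) (hsup : H ⊔ W₁ = L) (hfpf : ∀ w ∈ W₁, w ≠ 1 → ∀ h ∈ H, w * h = h * w → h = 1) (hTI : Cfsg.IsTISubset (H : Set G)) (hN : Subgroup.normalizer (H : Set G) = L) : Cfsg.IsCoherent (Cfsg.inducedIrrAbove (H.subgroupOf L) ⊥) {1}ᶜ (fun α : L → ℂ => Cfsg.indFun L α) := by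
  classical
  obtain ⟨K, hKdef⟩ : ∃ K : Subgroup L, K = H.subgroupOf L := ⟨_, rfl⟩
  rw [← hKdef]
  haveI : Fintype K := Fintype.ofFinite _
  have hmem : ∀ x : L, x ∈ K ↔ (x : G) ∈ H := fun x => by rw [hKdef]; exact Subgroup.mem_subgroupOf
  haveI hKn : K.Normal := ⟨fun k hk g => (hmem _).mpr (hHn g g.2 k ((hmem k).mp hk))⟩
  have hcardK : Nat.card K = Nat.card H := by
    rw [hKdef]; exact Nat.card_congr (Subgroup.subgroupOfEquivOfLe hHL).toEquiv
  have hK1 : K ≠ ⊥ := by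
    intro h
    apply hH1
    rw [← Subgroup.card_eq_one, ← hcardK, h, Subgroup.card_bot]
  have hnilK : Group.IsNilpotent K := by
    rw [hKdef]
    exact Group.nilpotent_of_mulEquiv (Subgroup.subgroupOfEquivOfLe hHL).symm
  have hsolv : Group.IsSolvable K := inferInstance
  have hfpf' : ∀ g : L, g ∉ K → ∀ k ∈ K, g * k = k * g → k = 1 := by
    refine Cfsg.Agent.Lib.CharFrob.fpf_of_complement (H := W₁.subgroupOf L) ?_ ?_
    · rw [hKdef, ← Subgroup.subgroupOf_sup hHL hW₁L, hsup, Subgroup.subgroupOf_self]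
    · intro h hh hh1 k hk he
      have := hfpf h (Subgroup.mem_subgroupOf.mp hh) (fun e => hh1 (Subtype.ext e)) k ((hmem k).mp hk)
        (congrArg Subtype.val he)
      exact Subtype.ext this
  have hTI' : ∀ g : G, g ∉ L → ∀ t : G, (∃ k ∈ K, (k : G) = t) → (∃ k ∈ K, (k : G) = g * t * g⁻¹) → t = 1 := by
    rintro g hg t ⟨k, hk, rfl⟩ ⟨k', hk', h⟩
    rw [← hN] at hg
    exact hTI g hg _ ((hmem k).mp hk) (by rw [← h]; exact (hmem k').mp hk')
  have hbot : (⊥ : Subgroup L) < K := bot_lt_iff_ne_bot.mpr hK1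
  have hKK : ⁅K, K⁆ < K := by
    haveI : Nontrivial K := (Subgroup.nontrivial_iff_ne_bot K).mpr hK1
    have h1 := Group.IsSolvable.commutator_lt_top_of_nontrivial (G := K)
    have h2 : (commutator K).map K.subtype = ⁅K, K⁆ := Subgroup.map_subtype_commutator K
    rw [← h2]
    refine lt_of_le_of_ne (Subgroup.map_subtype_le _) ?_
    intro h
    apply h1.ne
    rw [eq_top_iff]
    intro k _
    have : (k : L) ∈ (commutator K).map K.subtype := by rw [h]; exact k.2
    obtain ⟨k', hk', e⟩ := this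
    have : k' = k := Subtype.ext e
    rw [← this]; exact hk'
  have hfrob : ∀ k ∈ K, k ∉ ⁅K, K⁆ → ∀ x : L, x * k * x⁻¹ * k⁻¹ ∈ ⁅K, K⁆ → x ∈ K := frob_quot hKK.le hfpf'
  by_cases hpp : ∃ p m : ℕ, p.Prime ∧ Nat.card K = p ^ m
  · obtain ⟨p, m, hp, hm⟩ := hpp
    haveI : Fact p.Prime := ⟨hp⟩
    have hcop : Nat.Coprime K.index p := Cfsg.Agent.Lib.OddCohF.coprime_e trivial hp hm hKK hfrob
    have hHm : Nat.card H = p ^ m := by rw [← hcardK, hm]
    have h1 := Sylow.card_quotient_normalizer_modEq_card_quotient (G := G) hHm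
    have h2 : ¬ p ∣ H.index := by
      intro h
      have h3 : Nat.card (Subgroup.normalizer (H : Set G) ⧸ Subgroup.comap ((Subgroup.normalizer (H : Set G)).subtype) H) = K.index := by
        rw [hKdef, Subgroup.index, Subgroup.subgroupOf]
        subst hN
        rfl
      rw [h3] at h1
      have h4 : p ∣ K.index := by
        have h5 : Nat.card (G ⧸ H) ≡ 0 [MOD p] := (Nat.modEq_zero_iff_dvd).mpr h
        exact (Nat.modEq_zero_iff_dvd).mp (h1.trans h5)
      have h6 := Nat.dvd_gcd h4 dvd_rfl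
      rw [hcop] at h6
      exact hp.one_lt.ne' (Nat.dvd_one.mp h6)
    have hHp : IsPGroup p H := IsPGroup.of_card hHm
    exact sibley (IsPGroup.toSylow hHp h2) rfl hN.symm hTI hodd hmem hfpf' hK1
  · obtain ⟨χ₀, hχ₀, -⟩ := exists_degree_e hsolv hbot
    obtain ⟨R, hS⟩ := cs_frob hodd hfpf' hTI' ⟨χ₀, hχ₀⟩
    haveI : ((⊥ : Subgroup L).subgroupOf K).Normal := inferInstance
    have hnil' : Group.IsNilpotent (↥K ⧸ (⊥ : Subgroup L).subgroupOf K) := inferInstance
    refine kernel_coherent hsolv hS hodd bot_le hnil' (H₁ := ⁅K, K⁆ ⊔ ⊥) rfl (by rw [sup_bot_eq]; exact hKK)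
      (by rw [sup_bot_eq]; exact hfrob) (Or.inr (Or.inr (Or.inl ?_)))
    rintro ⟨p, m, hp, hm⟩
    rw [Subgroup.relIndex_bot_left] at hm
    exact hpp ⟨p, m, hp, hm⟩
end Cfsg.Agent.S1524
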