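import Cfsg.Statements.S0004
import Cfsg.Agent.Lib.Hall

set_option autoImplicit false
open Pointwise
open Cfsg

namespace Cfsg.Agent.S0004

/-- Hall's Theorem, conjugacy: in a finite solvable group of order m * n with m and n coprime, any two subgroups of order m are conjugate. -/
theorem result {G : Type*} [Group G] [Finite G] [Group.IsSolvable G] (m n : ℕ)
    (hG : Nat.card G = m * n) (hmn : m.Coprime n) (H K : Subgroup G)
    (hH : Nat.card H = m) (hK : Nat.card K = m) : ∃ g : G, MulAut.conj g • H = K := by
  have h1 := Cfsg.Agent.Lib.Hall.isHall_of_card hG hmn hH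
  have h2 := Cfsg.Agent.Lib.Hall.isHall_of_card hG hmn hK
  exact Cfsg.Agent.Lib.Hall.hall_conj
    (Cfsg.Agent.Lib.Hall.sep_of_solvable _ (inferInstance : Group.IsSolvable G))
    (Cfsg.Agent.Lib.Hall.solvCond_of_solvable _ (inferInstance : Group.IsSolvable G)) h1 h2

end Cfsg.Agent.S0004
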