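import Cfsg.Statements.S0005
import Cfsg.Agent.Lib.Hall

set_option autoImplicit false
open Cfsg

namespace Cfsg.Agent.S0005

/-- Hall's Theorem, containment: in a finite solvable group of order m * n with m and n coprime, every subgroup of order coprime to n is contained in a subgroup of order m. -/
theorem result {G : Type*} [Group G] [Finite G] [Group.IsSolvable G] (m n : ℕ)
    (hG : Nat.card G = m * n) (hmn : m.Coprime n) (K : Subgroup G) (hK : (Nat.card K).Coprime n) :
    ∃ H : Subgroup G, Nat.card H = m ∧ K ≤ H := by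
  have hKm : Cfsg.Agent.Lib.Hall.PiNum {p | p ∣ m} (Nat.card K) := by
    intro p hp hd
    have h1 : p ∣ m * n := by rw [← hG]; exact hd.trans (Subgroup.card_subgroup_dvd_card K)
    rcases hp.dvd_mul.mp h1 with h | h
    · exact h
    · exact absurd (Nat.dvd_one.mp (hK ▸ Nat.dvd_gcd hd h)) hp.ne_one
  obtain ⟨H, hH, hKH⟩ := Cfsg.Agent.Lib.Hall.exists_hall_ge
    (Cfsg.Agent.Lib.Hall.sep_of_solvable _ (inferInstance : Group.IsSolvable G))
    (Cfsg.Agent.Lib.Hall.solvCond_of_solvable _ (inferInstance : Group.IsSolvable G)) hKm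
  exact ⟨H, Cfsg.Agent.Lib.Hall.card_of_isHall hG hmn hH, hKH⟩

end Cfsg.Agent.S0005
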