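import Cfsg.Statements.S0017
import Cfsg.Agent.Lib.NilpB

set_option autoImplicit false
open Cfsg

namespace Cfsg.Agent.S0017

open Subgroup Cfsg.Agent.Lib.Basic Cfsg.Agent.Lib.Cores

/-- In a finite solvable group whose largest normal subgroup of order prime to p is trivial, the centralizer of the p-core is contained in the p-core. -/
theorem result {G : Type*} [Group G] [Finite G] [Group.IsSolvable G] (p : ℕ) [Fact p.Prime]
    (h : Cfsg.pPrimeCore p G = ⊥) :
    Subgroup.centralizer (Cfsg.pCore p G : Set G) ≤ Cfsg.pCore p G := by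
  have hF : Cfsg.fittingSubgroup G ≤ Cfsg.pCore p G := by
    rw [fitting_eq_iSup_pCore]
    apply iSup_le
    rintro ⟨q, hq⟩
    by_cases hpq : q = p
    · subst hpq; exact le_rfl
    · have := pCore_le_pPrimeCore (G := G) hq Fact.out hpq
      rw [h] at this
      exact this.trans bot_le
  have hF2 : Cfsg.pCore p G ≤ Cfsg.fittingSubgroup G := pCore_le_fitting p
  have hF3 := le_antisymm hF hF2
  rw [← hF3]
  exact Cfsg.Agent.Lib.Nilp.centralizer_fitting_le

end Cfsg.Agent.S0017
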