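import Cfsg.Statements.S0018
import Cfsg.Agent.Lib.NilpB
import Cfsg.Agent.S0017

set_option autoImplicit false
open Cfsg

namespace Cfsg.Agent.S0018

open Subgroup Cfsg.Agent.Lib.Basic Cfsg.Agent.Lib.Cores

/-- A finite solvable group whose Sylow p-subgroups are abelian has p-length one: a Sylow p-subgroup together with the largest normal subgroup of order prime to p generates a normal subgroup. -/
theorem result {G : Type*} [Group G] [Finite G] [Group.IsSolvable G]
    (p : ℕ) [Fact p.Prime] (P : Sylow p G) (hP : IsMulCommutative P) :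
    ((P : Subgroup G) ⊔ Cfsg.pPrimeCore p G).Normal := by
  have hOn := pPrimeCore_normal (G := G) p
  set f := QuotientGroup.mk' (Cfsg.pPrimeCore p G) with hf
  have hfs : Function.Surjective f := QuotientGroup.mk'_surjective _
  have h1 : Cfsg.pPrimeCore p (G ⧸ Cfsg.pPrimeCore p G) = ⊥ := pPrimeCore_quotient_pPrimeCore p
  have h2 := Cfsg.Agent.S0017.result (G := G ⧸ Cfsg.pPrimeCore p G) p h1
  set Q : Sylow p (G ⧸ Cfsg.pPrimeCore p G) := P.mapSurjective hfs with hQ
  have hQP : (Q : Subgroup (G ⧸ Cfsg.pPrimeCore p G)) = (P : Subgroup G).map f := rfl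
  have hQab : IsMulCommutative (Q : Subgroup (G ⧸ Cfsg.pPrimeCore p G)) := by
    rw [hQP]; infer_instance
  have h3 : (Q : Subgroup (G ⧸ Cfsg.pPrimeCore p G)) ≤ Cfsg.pCore p (G ⧸ Cfsg.pPrimeCore p G) := by
    refine le_trans ?_ h2
    refine (le_centralizer_iff_isMulCommutative.mpr hQab).trans ?_
    exact centralizer_le (pCore_le_sylow Q)
  have h4 : (Q : Subgroup (G ⧸ Cfsg.pPrimeCore p G)) = Cfsg.pCore p (G ⧸ Cfsg.pPrimeCore p G) :=
    le_antisymm h3 (pCore_le_sylow Q)
  have h5 : (P : Subgroup G) ⊔ Cfsg.pPrimeCore p G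
      = (Cfsg.pCore p (G ⧸ Cfsg.pPrimeCore p G)).comap f := by
    rw [← h4, hQP, comap_map_eq, hf, QuotientGroup.ker_mk']
  rw [h5]
  exact Normal.comap (pCore_normal p) _

end Cfsg.Agent.S0018
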