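import Cfsg.Statements.S0020
import Cfsg.Agent.Lib.SolvCrit

set_option autoImplicit false
open Pointwise
open Cfsg

namespace Cfsg.Agent.S0020

open Subgroup Cfsg.Agent.Lib Cfsg.Agent.Lib.Basic Cfsg.Agent.Lib.Cores
open scoped Pointwise

theorem index_iInf {G : Type*} [Group G] [Finite G] (Q : ℕ → Subgroup G) (f : ℕ → ℕ)
    (hQ : ∀ p, p.Prime → (Q p).index = p ^ f p) (T : Finset ℕ) : (∀ p ∈ T, p.Prime) →
    (⨅ p ∈ T, Q p : Subgroup G).index = ∏ p ∈ T, p ^ f p := by
  classical
  induction T using Finset.induction_on with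
  | empty => intro _; simp
  | insert q T hq ih =>
    intro hT
    have ih := ih (fun p hp => hT p (Finset.mem_insert_of_mem hp))
    have hqp := hT q (Finset.mem_insert_self q T)
    rw [Finset.iInf_insert, Finset.prod_insert hq, card_inf_of_coprime_index, ih, hQ q hqp]
    rw [ih, hQ q hqp]
    apply Nat.Coprime.pow_left
    apply Nat.Coprime.prod_right
    intro p hp
    apply Nat.Coprime.pow_right
    rw [Nat.coprime_primes hqp (hT p (Finset.mem_insert_of_mem hp))]
    rintro rfl; exact hq hp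

theorem mul_eq_of_card {G : Type*} [Group G] [Finite G] {A B H : Subgroup G} (hA : A ≤ H) (hB : B ≤ H)
    (hcop : (Nat.card A).Coprime (Nat.card B)) (hc : Nat.card A * Nat.card B = Nat.card H) :
    (A : Set G) * (B : Set G) = H := by
  have h1 := card_mul_mul_card_inf A B
  rw [disjoint_iff.mp (disjoint_of_coprime_natCard hcop), card_bot, mul_one] at h1
  have h2 : (A : Set G) * (B : Set G) ⊆ H := by
    rintro _ ⟨a, ha, b, hb, rfl⟩
    exact mul_mem (hA ha) (hB hb)
  apply Set.eq_of_subset_of_ncard_le h2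
  rw [← Nat.card_coe_set_eq, ← Nat.card_coe_set_eq, h1, hc]
  exact le_rfl

/-- A finite solvable group admits a Sylow system: Sylow subgroups, one for each prime, that pairwise permute as sets. -/
theorem result {G : Type*} [Group G] [Finite G] [Group.IsSolvable G] :
    ∃ S : (p : Nat.Primes) → Sylow (p : ℕ) G,
      ∀ p q : Nat.Primes, (S p : Set G) * (S q : Set G) = (S q : Set G) * (S p : Set G) := by
  classical
  have hs : Group.IsSolvable G := inferInstance
  have hn := Nat.card_pos (α := G)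
  have hex : ∀ p : ℕ, ∃ Q : Subgroup G, p.Prime → Q.index = p ^ (Nat.card G).factorization p := by
    intro p
    by_cases hp : p.Prime
    · have : Fact p.Prime := ⟨hp⟩
      obtain ⟨Q, hQ⟩ := Hall.exists_isHall (π := {p}ᶜ) (Hall.sep_of_solvable _ hs)
      refine ⟨Q, fun _ => ?_⟩
      have h1 : ¬ p ∣ Nat.card Q := fun h => (hQ.1 p hp h) rfl
      have h2 : ∀ r : ℕ, r.Prime → r ∣ Q.index → r = p := by
        intro r hr hd
        by_contra hne
        exact hQ.2 r hr hne hd
      have h3 := Q.card_mul_index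
      have h4 : (Nat.card Q).factorization p = 0 := Nat.factorization_eq_zero_of_not_dvd h1
      have h5 : (Nat.card G).factorization p = Q.index.factorization p := by
        rw [← h3, Nat.factorization_mul Nat.card_pos.ne' index_ne_zero_of_finite, Finsupp.add_apply,
          h4, zero_add]
      rw [h5]
      apply Nat.eq_of_factorization_eq index_ne_zero_of_finite (pow_ne_zero _ hp.ne_zero)
      intro r
      rw [hp.factorization_pow, Finsupp.single_apply]
      by_cases hrp : p = r
      · rw [if_pos hrp, hrp]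
      · rw [if_neg hrp]
        by_cases hr : r.Prime
        · exact Nat.factorization_eq_zero_of_not_dvd (fun h => hrp (h2 r hr h).symm)
        · exact Nat.factorization_eq_zero_of_not_prime _ hr
    · exact ⟨⊤, fun h => absurd h hp⟩
  choose Q hQ using hex
  obtain ⟨π, hπ⟩ : ∃ π, π = (Nat.card G).primeFactors := ⟨_, rfl⟩
  have hπp : ∀ p ∈ π, p.Prime := fun p hp => Nat.prime_of_mem_primeFactors (hπ ▸ hp)
  -- the product over all but a set of primes
  have hidx : ∀ T : Finset ℕ, (∀ p ∈ T, p.Prime) → (⨅ p ∈ T, Q p : Subgroup G).index =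
      ∏ p ∈ T, p ^ (Nat.card G).factorization p := index_iInf Q _ (fun p => hQ p)
  have herase : ∀ (T : Finset ℕ) (p : ℕ), p.Prime → (∀ q ∈ π, q ∉ T → q.Prime) → (p ∈ T ∨ ¬ p ∣ Nat.card G) →
      (∏ q ∈ T.erase p, q ^ (Nat.card G).factorization q) * p ^ (Nat.card G).factorization p =
      ∏ q ∈ T, q ^ (Nat.card G).factorization q := by
    intro T p hp _ h
    by_cases hT : p ∈ T
    · rw [mul_comm, Finset.mul_prod_erase _ (fun q => q ^ (Nat.card G).factorization q) hT]
    · rw [Finset.erase_eq_of_notMem hT, Nat.factorization_eq_zero_of_not_dvd (h.resolve_left hT),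
        pow_zero, mul_one]
  have hprod : ∏ q ∈ π, q ^ (Nat.card G).factorization q = Nat.card G := by
    rw [hπ]; exact Nat.prod_factorization_pow_eq_self hn.ne'
  have hmem : ∀ p : ℕ, p.Prime → p ∈ π ∨ ¬ p ∣ Nat.card G := by
    intro p hp
    by_cases hd : p ∣ Nat.card G
    · left; rw [hπ]; exact Nat.mem_primeFactors.mpr ⟨hp, hd, hn.ne'⟩
    · exact Or.inr hd
  have hcard : ∀ p : ℕ, p.Prime → Nat.card (⨅ q ∈ π.erase p, Q q : Subgroup G) =
      p ^ (Nat.card G).factorization p := by
    intro p hp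
    have h1 := (⨅ q ∈ π.erase p, Q q : Subgroup G).card_mul_index
    rw [hidx _ (fun q hq => hπp q (Finset.mem_of_mem_erase hq))] at h1
    have h2 := herase π p hp (fun q hq _ => hπp q hq) (hmem p hp)
    rw [hprod, mul_comm] at h2
    refine (Nat.eq_of_mul_eq_mul_right (Finset.prod_pos fun q hq => ?_) (h2.trans h1.symm)).symm
    exact pow_pos (hπp q (Finset.mem_of_mem_erase hq)).pos _
  refine ⟨fun p => have : Fact (p : ℕ).Prime := ⟨p.2⟩; Sylow.ofCard (⨅ q ∈ π.erase (p : ℕ), Q q : Subgroup G) (hcard p p.2), ?_⟩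
  intro p r
  show ((⨅ q ∈ π.erase (p : ℕ), Q q : Subgroup G) : Set G) * ((⨅ q ∈ π.erase (r : ℕ), Q q : Subgroup G) : Set G)
    = ((⨅ q ∈ π.erase (r : ℕ), Q q : Subgroup G) : Set G) * ((⨅ q ∈ π.erase (p : ℕ), Q q : Subgroup G) : Set G)
  by_cases hpr : (p : ℕ) = r
  · rw [hpr]
  have hp := p.2
  have hr := r.2
  have hH : Nat.card (⨅ q ∈ (π.erase (p : ℕ)).erase (r : ℕ), Q q : Subgroup G) =
      (p : ℕ) ^ (Nat.card G).factorization p * (r : ℕ) ^ (Nat.card G).factorization r := by
    have h1 := (⨅ q ∈ (π.erase (p : ℕ)).erase (r : ℕ), Q q : Subgroup G).card_mul_index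
    rw [hidx _ (fun q hq => hπp q (Finset.mem_of_mem_erase (Finset.mem_of_mem_erase hq)))] at h1
    have h2 := herase π p hp (fun q hq _ => hπp q hq) (hmem p hp)
    have h3 := herase (π.erase (p : ℕ)) r hr (fun q hq _ => hπp q hq) (by
      rcases hmem r hr with h | h
      · exact Or.inl (Finset.mem_erase.mpr ⟨fun h' => hpr h'.symm, h⟩)
      · exact Or.inr h)
    rw [hprod, ← h3] at h2
    have h4 : (∏ q ∈ (π.erase (p : ℕ)).erase (r : ℕ), q ^ (Nat.card G).factorization q) *
      ((p : ℕ) ^ (Nat.card G).factorization p * (r : ℕ) ^ (Nat.card G).factorization r) =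
      (∏ q ∈ (π.erase (p : ℕ)).erase (r : ℕ), q ^ (Nat.card G).factorization q) *
       Nat.card (⨅ q ∈ (π.erase (p : ℕ)).erase (r : ℕ), Q q : Subgroup G) := by
      rw [mul_comm _ (Nat.card _)]
      refine Eq.trans ?_ (h2.trans h1.symm)
      ring
    refine (Nat.eq_of_mul_eq_mul_left (Finset.prod_pos fun q hq => ?_) h4).symm
    exact pow_pos (hπp q (Finset.mem_of_mem_erase (Finset.mem_of_mem_erase hq))).pos _
  have hAH : (⨅ q ∈ π.erase (p : ℕ), Q q : Subgroup G) ≤ ⨅ q ∈ (π.erase (p : ℕ)).erase (r : ℕ), Q q :=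
    biInf_mono fun q hq => Finset.mem_of_mem_erase hq
  have hBH : (⨅ q ∈ π.erase (r : ℕ), Q q : Subgroup G) ≤ ⨅ q ∈ (π.erase (p : ℕ)).erase (r : ℕ), Q q :=
    biInf_mono fun q hq => by
      rw [Finset.erase_right_comm] at hq
      exact Finset.mem_of_mem_erase hq
  have hcop : (Nat.card (⨅ q ∈ π.erase (p : ℕ), Q q : Subgroup G)).Coprime
      (Nat.card (⨅ q ∈ π.erase (r : ℕ), Q q : Subgroup G)) := by
    rw [hcard p hp, hcard r hr]
    exact Nat.Coprime.pow _ _ ((Nat.coprime_primes hp hr).mpr hpr)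
  rw [mul_eq_of_card hAH hBH hcop (by rw [hcard p hp, hcard r hr, hH]),
    mul_eq_of_card hBH hAH hcop.symm (by rw [hcard p hp, hcard r hr, hH, mul_comm])]

end Cfsg.Agent.S0020
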