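import Cfsg.Statements.S0031
import Cfsg.Agent.Lib.Coprime

set_option autoImplicit false
open Cfsg

namespace Cfsg.Agent.S0031

open Pointwise in
theorem aux {G : Type*} [Group G] [Finite G] (φ : G ≃* G)
    (hφ : MonoidHom.FixedPointFree (φ : G →* G)) (p : ℕ) [Fact p.Prime] :
    ∃ P : Sylow p G, (P : Subgroup G).map (φ : G →* G) = P := by
  obtain ⟨P⟩ := (inferInstance : Nonempty (Sylow p G))
  have h1 : ∃ g : G, (P : Subgroup G).map (φ : G →* G) = MulAut.conj g • (P : Subgroup G) := by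
    let Q : Sylow p G := P.mapSurjective (f := (φ : G →* G)) φ.surjective
    obtain ⟨g, hg⟩ := MulAction.exists_smul_eq G P Q
    refine ⟨g, ?_⟩
    change (Q : Subgroup G) = _
    rw [← hg]; rfl
  obtain ⟨g, hg⟩ := h1
  obtain ⟨y, hy⟩ := hφ.commutatorMap_surjective g⁻¹
  have hy1 : y * (φ y)⁻¹ = g⁻¹ := by
    rw [← hy, MonoidHom.commutatorMap_apply, div_eq_mul_inv]; rfl
  have hy2 : φ (y⁻¹) * g = y⁻¹ := by
    have : g = φ y * y⁻¹ := by
      rw [← inv_inv g, ← hy1]; group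
    rw [this, map_inv]; group
  refine ⟨y⁻¹ • P, ?_⟩
  have e1 : ((y⁻¹ • P : Sylow p G) : Subgroup G) = MulAut.conj y⁻¹ • (P : Subgroup G) := rfl
  rw [e1, Cfsg.Agent.Lib.SchurZas.map_conj_smul, hg, ← mul_smul, ← map_mul]
  have : (φ : G →* G) y⁻¹ * g = y⁻¹ := hy2
  rw [this]

/-- A fixed-point-free automorphism of a finite group maps some Sylow p-subgroup to itself. -/
theorem result {G : Type*} [Group G] [Finite G] (φ : G ≃* G)
    (hφ : MonoidHom.FixedPointFree (φ : G →* G)) (p : ℕ) [Fact p.Prime] :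
    ∃ P : Sylow p G, (P : Subgroup G).map (φ : G →* G) = P := by
  exact aux φ hφ p

end Cfsg.Agent.S0031
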