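import Cfsg.Statements.S0032
import Cfsg.Agent.Lib.Basic

set_option autoImplicit false
open Cfsg

namespace Cfsg.Agent.S0032

/-- If an automorphism of a finite group fixes only the identity and maps a normal subgroup N into itself, then the only cosets of N it fixes are those in N: a fixed coset xN forces x ∈ N. -/
theorem result {G : Type*} [Group G] [Finite G] (φ : G ≃* G)
    (hφ : MonoidHom.FixedPointFree (φ : G →* G)) (N : Subgroup G) [N.Normal] (hN : ∀ n ∈ N, φ n ∈ N)
    (x : G) (hx : (φ x)⁻¹ * x ∈ N) : x ∈ N := by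
  have hinj : Function.Injective (fun n : N => (⟨(φ n)⁻¹ * n, N.mul_mem (N.inv_mem (hN n n.2)) n.2⟩ : N)) := by
    intro a b hab
    have h1 : (φ (a : G))⁻¹ * a = (φ (b : G))⁻¹ * b := congrArg Subtype.val hab
    have h2 : φ ((a : G) * (b : G)⁻¹) = (a : G) * (b : G)⁻¹ := by
      rw [map_mul, map_inv]
      have : (a : G) = φ a * ((φ (b : G))⁻¹ * b) := by rw [← h1]; group
      conv_rhs => rw [this]
      group
    have h3 := hφ _ h2
    exact Subtype.ext (mul_inv_eq_one.mp h3)
  obtain ⟨n, hn⟩ := Finite.surjective_of_injective hinj ⟨(φ x)⁻¹ * x, hx⟩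
  have h1 : (φ (n : G))⁻¹ * n = (φ x)⁻¹ * x := congrArg Subtype.val hn
  have h2 : φ (x * (n : G)⁻¹) = x * (n : G)⁻¹ := by
    rw [map_mul, map_inv]
    have : x = φ x * ((φ (n : G))⁻¹ * n) := by rw [h1]; group
    conv_rhs => rw [this]
    group
  have h3 := mul_inv_eq_one.mp (hφ _ h2)
  rw [h3]; exact n.2

end Cfsg.Agent.S0032
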