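import Cfsg.Statements.S0036
import Cfsg.Agent.Lib.Frob

set_option autoImplicit false
open Cfsg

namespace Cfsg.Agent.S0036

open Subgroup Pointwise Cfsg.Agent.Lib.Frob Cfsg.Agent.Lib.SchurZas in
theorem aux {G : Type*} [Group G] [Finite G] (H : Subgroup G) (hH : Cfsg.IsFrobeniusComplement H)
    (t : G) (ht : t ∈ H) (ht1 : t ≠ 1) (ht2 : t * t = 1) :
    ∀ x ∈ Cfsg.frobeniusKernel H, ∀ y ∈ Cfsg.frobeniusKernel H, x * y ∈ Cfsg.frobeniusKernel H := by
  have hTI : TI H := hH.2.2
  have hone : ∀ x : G, x ∈ MulAut.conj (1 : G) • H ↔ x ∈ H := by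
    intro x; rw [mem_conj_smul_iff]; simp
  rw [frobeniusKernel_eq]
  -- Claim 1
  have c1 : ∀ t : G, t ∈ H → t ≠ 1 → t * t = 1 → ∀ x, x ∉ H → t * (x * t * x⁻¹) ∉ conjSet H := by
    rintro t ht ht1 ht2 x hx ⟨hu, y, hy⟩
    obtain ⟨s, hs⟩ : ∃ s, s = x * t * x⁻¹ := ⟨_, rfl⟩
    rw [← hs] at hu hy
    have hs2 : s * s = 1 := by
      have : s * s = x * (t * t) * x⁻¹ := by rw [hs]; group
      rw [this, ht2]; group
    have hti : t⁻¹ = t := inv_eq_of_mul_eq_one_right ht2
    have hsi : s⁻¹ = s := inv_eq_of_mul_eq_one_right hs2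
    have h1 : t * (t * s) * t⁻¹ = (t * s)⁻¹ := by
      rw [mul_inv_rev, hti, hsi, ← mul_assoc, ht2, one_mul]
    have h2 : s * (t * s) * s⁻¹ = (t * s)⁻¹ := by
      rw [mul_inv_rev, hti, hsi]
      calc s * (t * s) * s = s * t * (s * s) := by group
        _ = s * t := by rw [hs2, mul_one]
    have h3 : t ∈ MulAut.conj y • H := hTI.mem_of_conj_mem hu hy (by rw [h1]; exact inv_mem hy)
    have h4 : s ∈ MulAut.conj y • H := hTI.mem_of_conj_mem hu hy (by rw [h2]; exact inv_mem hy)
    have h5 : y ∈ H := hTI.mem_of_inf ht1 ht h3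
    rw [conj_smul_eq_self_of_mem h5] at h4
    apply hx
    refine hTI.mem_of_inf (x := s) ?_ h4 ?_
    · intro h
      apply ht1
      have : t = x⁻¹ * s * x := by rw [hs]; group
      rw [this, h]; group
    · rw [mem_conj_smul_iff, hs]
      have : x⁻¹ * (x * t * x⁻¹) * x = t := by group
      rw [this]; exact ht
  -- Claim 2
  have c2 : ∀ k, k ∉ conjSet H → k = 1 ∨ ∃ x, x ∉ H ∧ k = t * (x * t * x⁻¹) := by
    classical
    let f : G ⧸ H → ((conjSet H)ᶜ : Set G) := fun c =>
      if hc : c.out ∈ H then ⟨1, fun h => h.1 rfl⟩ else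
        ⟨t * (c.out * t * c.out⁻¹), c1 t ht ht1 ht2 c.out hc⟩
    have hne : ∀ x, x ∉ H → t * (x * t * x⁻¹) ≠ 1 := by
      intro x hx h
      apply hx
      have h1 : x * t * x⁻¹ = t := by
        have := eq_inv_of_mul_eq_one_right h
        rw [this]; exact inv_eq_of_mul_eq_one_right ht2
      refine hTI.mem_of_inf ht1 ht ?_
      rw [mem_conj_smul_iff]
      have : x⁻¹ * t * x = t := by
        rw [← h1]
        have e : x⁻¹ * (x * t * x⁻¹) * x = t := by group
        rw [e]; exact h1.symm ▸ rfl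
      rw [this]; exact ht
    have hf : Function.Injective f := by
      intro c d hcd
      have hcd' : (f c : G) = f d := congrArg Subtype.val hcd
      simp only [f] at hcd'
      rw [← c.out_eq', ← d.out_eq']
      refine QuotientGroup.eq.mpr ?_
      by_cases hc : c.out ∈ H
      · by_cases hd : d.out ∈ H
        · exact H.mul_mem (H.inv_mem hc) hd
        · rw [dif_pos hc, dif_neg hd] at hcd'
          exact absurd hcd'.symm (hne _ hd)
      · by_cases hd : d.out ∈ H
        · rw [dif_neg hc, dif_pos hd] at hcd'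
          exact absurd hcd' (hne _ hc)
        · rw [dif_neg hc, dif_neg hd] at hcd'
          have h1 := mul_left_cancel hcd'
          refine hTI.mem_of_mem_conj (x := c.out * t * c.out⁻¹) ?_ ?_ ?_
          · intro h
            apply ht1
            have : t = c.out⁻¹ * (c.out * t * c.out⁻¹) * c.out := by group
            rw [this, h]; group
          · rw [mem_conj_smul_iff]
            have : c.out⁻¹ * (c.out * t * c.out⁻¹) * c.out = t := by group
            rw [this]; exact ht
          · rw [h1, mem_conj_smul_iff]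
            have : d.out⁻¹ * (d.out * t * d.out⁻¹) * d.out = t := by group
            rw [this]; exact ht
    have hcard : Nat.card ((conjSet H)ᶜ : Set G) = Nat.card (G ⧸ H) := by
      rw [← frobeniusKernel_eq, card_kernel hTI, index_eq_card]
    have hsurj : Function.Surjective f :=
      ((Nat.bijective_iff_injective_and_card f).mpr ⟨hf, hcard.symm⟩).2
    intro k hk
    obtain ⟨c, hc⟩ := hsurj ⟨k, hk⟩
    have hc' : (f c : G) = k := congrArg Subtype.val hc
    simp only [f] at hc'
    by_cases h : c.out ∈ H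
    · rw [dif_pos h] at hc'; exact Or.inl hc'.symm
    · rw [dif_neg h] at hc'; exact Or.inr ⟨_, h, hc'.symm⟩
  have hcompl : ∀ x, x ∉ H → x * t * x⁻¹ ∉ H := by
    intro x hx h
    apply hx
    refine hTI.mem_of_inf (x := x * t * x⁻¹) ?_ h ?_
    · intro h
      apply ht1
      have : t = x⁻¹ * (x * t * x⁻¹) * x := by group
      rw [this, h]; group
    · rw [mem_conj_smul_iff]
      have : x⁻¹ * (x * t * x⁻¹) * x = t := by group
      rw [this]; exact ht
  -- Claim 3
  have c3 : ∀ h ∈ H, h * t * h⁻¹ = t := by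
    intro h hh
    by_contra hne
    set t' := h * t * h⁻¹ with ht'
    have ht'H : t' ∈ H := H.mul_mem (H.mul_mem hh ht) (H.inv_mem hh)
    have ht'1 : t' ≠ 1 := by
      intro h1
      apply ht1
      have : t = h⁻¹ * t' * h := by rw [ht']; group
      rw [this, h1]; group
    have ht'2 : t' * t' = 1 := by
      have : t' * t' = h * (t * t) * h⁻¹ := by rw [ht']; group
      rw [this, ht2]; group
    obtain ⟨x, hx⟩ : ∃ x, x ∉ H := by
      by_contra hcon
      push Not at hcon
      exact hH.2.1 (eq_top_iff.mpr fun x _ => hcon x)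
    obtain ⟨s, hs⟩ : ∃ s, s = x * t * x⁻¹ := ⟨_, rfl⟩
    have hs2 : s * s = 1 := by
      have : s * s = x * (t * t) * x⁻¹ := by rw [hs]; group
      rw [this, ht2]; group
    have hsi : s⁻¹ = s := inv_eq_of_mul_eq_one_right hs2
    have h1 : t' * s ∉ conjSet H := by
      have h2 := c1 t' ht'H ht'1 ht'2 (x * h⁻¹) (fun h3 => hx (by
        have := H.mul_mem h3 hh
        simpa using this))
      have e : x * h⁻¹ * t' * (x * h⁻¹)⁻¹ = s := by rw [ht', hs]; group
      rwa [e] at h2
    rcases c2 _ h1 with h2 | ⟨y, hy, h2⟩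
    · -- t' s = 1 : s = t' ∈ H
      apply hcompl x hx
      have : s = t'⁻¹ := eq_inv_of_mul_eq_one_right h2
      rw [← hs, this]; exact H.inv_mem ht'H
    · obtain ⟨r, hr⟩ : ∃ r, r = y * t * y⁻¹ := ⟨_, rfl⟩
      rw [← hr] at h2
      have hr2 : r * r = 1 := by
        have : r * r = y * (t * t) * y⁻¹ := by rw [hr]; group
        rw [this, ht2]; group
      set u := t * t' with hu
      have hus : u * s = r := by
        rw [hu, mul_assoc, h2, ← mul_assoc, ht2, one_mul]
      have hu1 : u ≠ 1 := by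
        intro h3
        apply hne
        have : t' = t⁻¹ := eq_inv_of_mul_eq_one_right h3
        rw [this]; exact inv_eq_of_mul_eq_one_right ht2
      have h3 : s * u * s⁻¹ = u⁻¹ := by
        rw [hsi]
        have h4 : (u * s) * (u * s) = 1 := by rw [hus, hr2]
        have h5 : u * (s * u * s) = 1 := by rw [← h4]; group
        exact (inv_eq_of_mul_eq_one_right h5).symm
      have huH : u ∈ H := H.mul_mem ht ht'H
      have h6 := hTI.mem_of_conj_mem (g := 1) hu1 ((hone u).mpr huH)
        (by rw [h3]; exact inv_mem ((hone u).mpr huH))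
      exact hcompl x hx (hs ▸ (hone s).mp h6)
  -- conj invariance
  have cinv : ∀ g x, x ∉ conjSet H → g * x * g⁻¹ ∉ conjSet H := by
    rintro g x hx ⟨h1, k, hk⟩
    apply hx
    refine ⟨?_, g⁻¹ * k, ?_⟩
    · intro h; apply h1; rw [h]; group
    · rw [mem_conj_smul_iff] at hk ⊢
      have : (g⁻¹ * k)⁻¹ * x * (g⁻¹ * k) = k⁻¹ * (g * x * g⁻¹) * k := by group
      rw [this]; exact hk
  intro x hx y hy
  rcases c2 x hx with rfl | ⟨a, ha, rfl⟩
  · rw [one_mul]; exact hy
  rcases c2 y hy with rfl | ⟨b, hb, rfl⟩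
  · rw [mul_one]; exact hx
  -- x = (t a t a⁻¹ t) t, y = t (b t b⁻¹)
  have e : t * (a * t * a⁻¹) * (t * (b * t * b⁻¹))
      = (t * a) * (t * (((t * a)⁻¹ * b) * t * ((t * a)⁻¹ * b)⁻¹)) * (t * a)⁻¹ := by
    have hti : t⁻¹ = t := inv_eq_of_mul_eq_one_right ht2
    have : (t * a)⁻¹ = a⁻¹ * t := by rw [mul_inv_rev, hti]
    rw [this]
    have h2 : (a⁻¹ * t * b)⁻¹ = b⁻¹ * t * a := by rw [mul_inv_rev, mul_inv_rev, hti, inv_inv]; group
    rw [h2]
    calc t * (a * t * a⁻¹) * (t * (b * t * b⁻¹))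
        = t * a * (t * (a⁻¹ * t * b * t * (b⁻¹ * (1 : G)))) := by group
      _ = t * a * (t * (a⁻¹ * t * b * t * (b⁻¹ * (t * t)))) := by rw [ht2]
      _ = _ := by group
  rw [e]
  apply cinv
  by_cases hw : (t * a)⁻¹ * b ∈ H
  · rw [c3 _ hw, ht2]
    exact fun h => h.1 rfl
  · exact c1 t ht ht1 ht2 _ hw

/-- When a Frobenius complement contains an involution, an elementary argument shows the Frobenius kernel is closed under multiplication (hence a subgroup). -/
theorem result {G : Type*} [Group G] [Finite G] (H : Subgroup G) (hH : Cfsg.IsFrobeniusComplement H)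
    (t : G) (ht : t ∈ H) (ht1 : t ≠ 1) (ht2 : t * t = 1) :
    ∀ x ∈ Cfsg.frobeniusKernel H, ∀ y ∈ Cfsg.frobeniusKernel H, x * y ∈ Cfsg.frobeniusKernel H := by
  exact aux H hH t ht ht1 ht2

end Cfsg.Agent.S0036
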