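import Cfsg.Statements.S0038
import Cfsg.Agent.Lib.FrobB

set_option autoImplicit false
open Pointwise
open Cfsg

namespace Cfsg.Agent.S0038

open Subgroup Cfsg.Agent.Lib Cfsg.Agent.Lib.Frob
open scoped Pointwise

/-- All Frobenius complements of a finite group are conjugate to one another. -/
theorem result {G : Type*} [Group G] [Finite G] (H H₀ : Subgroup G)
    (hH : Cfsg.IsFrobeniusComplement H) (hH₀ : Cfsg.IsFrobeniusComplement H₀) :
    ∃ g : G, MulAut.conj g • H₀ = H := by
  rcases le_total (Nat.card H₀) (Nat.card H) with h | h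
  · obtain ⟨g, hg⟩ := Cfsg.Agent.S0037.result H H₀ hH hH₀ h
    refine ⟨g, FrobB.eq_of_le (show TI H from hH.2.2) hH.2.1 (TI.conj (show TI H₀ from hH₀.2.2) g) ?_ hg⟩
    intro h0
    apply hH₀.1
    rw [← card_eq_one, ← SchurZas.card_conj_smul g, h0, card_bot]
  · obtain ⟨g, hg⟩ := Cfsg.Agent.S0037.result H₀ H hH₀ hH h
    refine ⟨g⁻¹, ?_⟩
    have := FrobB.eq_of_le (show TI H₀ from hH₀.2.2) hH₀.2.1 (TI.conj (show TI H from hH.2.2) g) (by
      intro h0
      apply hH.1
      rw [← card_eq_one, ← SchurZas.card_conj_smul g, h0, card_bot]) hg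
    rw [← this, ← mul_smul, ← map_mul, inv_mul_cancel, map_one, one_smul]

end Cfsg.Agent.S0038
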