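import Cfsg.Statements.S0050
import Cfsg.Agent.Lib.Hall
import Cfsg.Agent.Lib.Coprime

set_option autoImplicit false
open Cfsg

namespace Cfsg.Agent.S0050

open Subgroup Cfsg.Agent.Lib Cfsg.Agent.Lib.Basic Cfsg.Agent.Lib.Cores Cfsg.Agent.Lib.SchurZas
open scoped Pointwise

/-- Frattini argument for Hall subgroups: if L is a solvable normal subgroup and H a subgroup of L of order coprime to its index in L, then L together with the normaliser of H generates the whole group. -/
theorem result {G : Type*} [Group G] [Finite G] (L : Subgroup G) [L.Normal] (hL : Group.IsSolvable L)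
    (H : Subgroup G) (hHL : H ≤ L) (hHall : (Nat.card H).Coprime (H.relIndex L)) :
    L ⊔ Subgroup.normalizer (H : Set G) = ⊤ := by
  rw [eq_top_iff]
  intro g _
  obtain ⟨π, hπ⟩ : ∃ π : Set ℕ, π = {p | p ∣ Nat.card H} := ⟨_, rfl⟩
  have hGL : Nat.card L = Nat.card H * H.relIndex L := (card_mul_relIndex hHL).symm
  have hgL : MulAut.conj g • H ≤ L := by
    intro x hx
    rw [mem_conj_smul_iff] at hx
    have := (inferInstance : L.Normal).conj_mem _ (hHL hx) g
    have e : g * (g⁻¹ * x * g) * g⁻¹ = x := by group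
    rwa [e] at this
  have hc1 : Nat.card (H.subgroupOf L) = Nat.card H := Nat.card_congr (subgroupOfEquivOfLe hHL).toEquiv
  have hc2 : Nat.card ((MulAut.conj g • H).subgroupOf L) = Nat.card H := by
    rw [Nat.card_congr (subgroupOfEquivOfLe hgL).toEquiv, card_conj_smul]
  have h1 := Hall.isHall_of_card hGL hHall hc1
  have h2 := Hall.isHall_of_card hGL hHall hc2
  obtain ⟨l, hl⟩ := Hall.hall_conj (Hall.sep_of_solvable _ hL) (Hall.solvCond_of_solvable _ hL) h1 h2
  have h3 := conj_smul_subgroupOf' l hHL hgL hl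
  have h4 : (l : G)⁻¹ * g ∈ Subgroup.normalizer (H : Set G) := by
    apply Coprime.mem_normalizer_of_conj_smul_eq
    rw [map_mul, mul_smul, ← h3, ← mul_smul, ← map_mul, inv_mul_cancel, map_one, one_smul]
  have e : g = l * ((l : G)⁻¹ * g) := by group
  rw [e]
  exact mul_mem (mem_sup_left l.2) (mem_sup_right h4)

end Cfsg.Agent.S0050
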