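import Cfsg.Statements.S0052
import Cfsg.Agent.Lib.Gaschutz
import Cfsg.Agent.Lib.Nilp

set_option autoImplicit false
open Pointwise
open Cfsg

namespace Cfsg.Agent.S0052

/-- Gaschütz's Theorem, conjugacy: for an abelian normal subgroup K ≤ U with the order of K coprime to the index of U, two complements of K in G having the same intersection with U are conjugate. -/
theorem result {G : Type*} [Group G] [Finite G] (K U : Subgroup G) [K.Normal] [IsMulCommutative K]
    (hKU : K ≤ U) (hcop : (Nat.card K).Coprime U.index)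
    (H₀ H₁ : Subgroup G) (h₀ : Subgroup.IsComplement' K H₀) (h₁ : Subgroup.IsComplement' K H₁) (hU : H₀ ⊓ U = H₁ ⊓ U) :
    ∃ g : G, MulAut.conj g • H₀ = H₁ := by
  have hc := Cfsg.Agent.Lib.Nilp.isMulCommutative_iff_forall.mp (inferInstance : IsMulCommutative K)
  exact Cfsg.Agent.Lib.Gaschutz.conj_complement hKU hc hcop h₀ h₁ hU

end Cfsg.Agent.S0052
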