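import Cfsg.Statements.S0053
import Cfsg.Agent.Lib.NilpB

set_option autoImplicit false
open Cfsg

namespace Cfsg.Agent.S0053

open Subgroup Cfsg.Agent.Lib.Basic Cfsg.Agent.Lib.SchurZas

/-- An abelian minimal normal subgroup N of a finite group is complemented exactly when N is not inside the Frattini subgroup. -/
theorem result {G : Type*} [Group G] [Finite G]
    (N : Subgroup G) [N.Normal] [IsMulCommutative N] (hN : N ≠ ⊥)
    (hmin : ∀ M : Subgroup G, M.Normal → M ≤ N → M = ⊥ ∨ M = N) :
    (∃ H : Subgroup G, Subgroup.IsComplement' N H) ↔ ¬ N ≤ frattini G := by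
  constructor
  · rintro ⟨H, hH⟩ hle
    have hHt : H ≠ ⊤ := by
      rintro rfl
      rw [isComplement'_top_right] at hH
      exact hN hH
    obtain ⟨M, hM, hHM⟩ := exists_le_coatom hHt
    apply hM.1
    rw [eq_top_iff, ← hH.sup_eq_top]
    exact sup_le (hle.trans (frattini_le_coatom hM)) hHM
  · intro hle
    have : ∃ M : Subgroup G, IsCoatom M ∧ ¬ N ≤ M := by
      by_contra hcon
      push Not at hcon
      exact hle (by rw [frattini, Order.radical]; exact le_iInf₂ fun M hM => hcon M hM)
    obtain ⟨M, hM, hNM⟩ := this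
    have hsup : N ⊔ M = ⊤ := by
      rcases hM.le_iff.mp (le_sup_right : M ≤ N ⊔ M) with h3 | h3
      · exact h3
      · exact absurd (h3 ▸ le_sup_left) hNM
    have hn1 : N ≤ normalizer ((N ⊓ M : Subgroup G) : Set G) := by
      have h1 : N ≤ centralizer ((N ⊓ M : Subgroup G) : Set G) :=
        (le_centralizer_iff_isMulCommutative.mpr inferInstance).trans (centralizer_le inf_le_left)
      exact h1.trans (centralizer_le_normalizer _)
    have hn2 : M ≤ normalizer ((N ⊓ M : Subgroup G) : Set G) :=
      le_normalizer_inf (by rw [normalizer_eq_top]; exact le_top) le_normalizer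
    have hn : (N ⊓ M).Normal := by
      rw [← normalizer_eq_top_iff, eq_top_iff, ← hsup]
      exact sup_le hn1 hn2
    refine ⟨M, isComplement'_of_inf_sup ?_ hsup⟩
    refine (hmin _ hn inf_le_left).resolve_right ?_
    intro h
    exact hNM (inf_eq_left.mp h)

end Cfsg.Agent.S0053
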