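import Cfsg.Statements.S0054
import Cfsg.Agent.Lib.NilpB

set_option autoImplicit false
open Cfsg

namespace Cfsg.Agent.S0054

open Subgroup Cfsg.Agent.Lib.Basic Cfsg.Agent.Lib.Nilp

/-- A regular normal subgroup of a finite 2-transitive group is elementary abelian: it is commutative and all its elements have order dividing one prime. -/
theorem result {G : Type*} [Group G] [Finite G]
    {X : Type*} [Nonempty X] [MulAction G X] (h2 : MulAction.IsMultiplyPretransitive G X 2)
    (N : Subgroup G) [N.Normal] (htrans : MulAction.IsPretransitive N X) (hreg : ∀ x : X, MulAction.stabilizer N x = ⊥) :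
    IsMulCommutative N ∧ ∃ p : ℕ, p.Prime ∧ ∀ n ∈ N, n ^ p = 1 := by
  obtain ⟨x₀⟩ := (inferInstance : Nonempty X)
  have hreg' : ∀ n ∈ N, n • x₀ = x₀ → n = 1 := by
    intro n hn h
    have : (⟨n, hn⟩ : N) ∈ MulAction.stabilizer N x₀ := h
    rw [hreg, mem_bot] at this
    exact congrArg Subtype.val this
  have hconj : ∀ n ∈ N, ∀ m ∈ N, n ≠ 1 → m ≠ 1 → ∃ g : G, g * n * g⁻¹ = m := by
    intro n hn m hm hn1 hm1
    have h2' : ∀ a b c d : X, a ≠ b → c ≠ d → ∃ g : G, g • a = c ∧ g • b = d :=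
      fun a b c d h1 h3 => (MulAction.is_two_pretransitive_iff.mp h2) h1 h3
    obtain ⟨g, hg1, hg2⟩ := h2' x₀ (n • x₀) x₀ (m • x₀)
      (fun h => hn1 (hreg' n hn h.symm)) (fun h => hm1 (hreg' m hm h.symm))
    refine ⟨g, ?_⟩
    have hgi : g⁻¹ • x₀ = x₀ := by
      conv_lhs => rw [← hg1]
      rw [inv_smul_smul]
    have h1 : m⁻¹ * (g * n * g⁻¹) = 1 := by
      apply hreg' _ (N.mul_mem (N.inv_mem hm) ((inferInstance : N.Normal).conj_mem _ hn g))
      rw [mul_smul, mul_smul, mul_smul, hgi, hg2, inv_smul_smul]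
    exact (inv_mul_eq_one.mp h1).symm
  by_cases hN : N = ⊥
  · subst hN
    refine ⟨inferInstance, 2, Nat.prime_two, ?_⟩
    intro n hn
    rw [mem_bot] at hn
    rw [hn, one_pow]
  · have hcard : Nat.card N ≠ 1 := fun h => hN (card_eq_one.mp h)
    obtain ⟨p, hp, hd⟩ := Nat.exists_prime_and_dvd hcard
    have : Fact p.Prime := ⟨hp⟩
    obtain ⟨a, ha⟩ := exists_prime_orderOf_dvd_card' p hd
    have ha' : orderOf (a : G) = p := by rw [orderOf_coe]; exact ha
    have ha1 : (a : G) ≠ 1 := by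
      intro h; rw [h, orderOf_one] at ha'; exact hp.one_lt.ne ha'
    have hpow : ∀ n ∈ N, n ^ p = 1 := by
      intro n hn
      by_cases hn1 : n = 1
      · rw [hn1, one_pow]
      · obtain ⟨g, rfl⟩ := hconj a a.2 n hn ha1 hn1
        rw [conj_pow, ← ha', pow_orderOf_eq_one]; group
    have hNp : IsPGroup p N := isPGroup_of_pow_eq_one hpow
    have hnt : Nontrivial N := nontrivial_iff_ne_bot N |>.mpr hN
    have hZ := hNp.center_nontrivial
    obtain ⟨z, hz⟩ := exists_ne (1 : center N)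
    refine ⟨⟨⟨fun x y => ?_⟩⟩, p, hp, hpow⟩
    by_cases hx1 : x = 1
    · rw [hx1, one_mul, mul_one]
    have hz1 : ((z : N) : G) ≠ 1 := fun h => hz (Subtype.ext (Subtype.ext h))
    obtain ⟨g, hg⟩ := hconj (z : N) (z : N).2 x x.2 hz1 (fun h => hx1 (Subtype.ext h))
    apply Subtype.ext
    have h1 := mem_center_iff.mp z.2 ⟨g⁻¹ * y * g, by
      have := (inferInstance : N.Normal).conj_mem _ y.2 g⁻¹
      simpa using this⟩
    have h2 : g⁻¹ * (y : G) * g * ((z : N) : G) = ((z : N) : G) * (g⁻¹ * y * g) := congrArg Subtype.val h1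
    change (x : G) * y = y * x
    rw [← hg]
    calc g * ((z : N) : G) * g⁻¹ * y = g * (((z : N) : G) * (g⁻¹ * y * g)) * g⁻¹ := by group
      _ = g * (g⁻¹ * (y : G) * g * ((z : N) : G)) * g⁻¹ := by rw [h2]
      _ = _ := by group

end Cfsg.Agent.S0054
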