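import Cfsg.Statements.S0059
import Cfsg.Agent.Lib.Coprime

set_option autoImplicit false
open Cfsg

namespace Cfsg.Agent.S0059

open Pointwise Subgroup Cfsg.Agent.Lib.SchurZas Cfsg.Agent.Lib.Basic Cfsg.Agent.Lib.Coprime in
theorem aux {G : Type*} [Group G] [Finite G] {X : Type*} [Nonempty X] [MulAction G X]
    (K H : Subgroup G) [K.Normal] (hc : Subgroup.IsComplement' K H) (hcop : (Nat.card K).Coprime K.index)
    (hsolv : Group.IsSolvable K ∨ Group.IsSolvable (G ⧸ K)) (htrans : MulAction.IsPretransitive K X) :
    (∃ x : X, ∀ h ∈ H, h • x = x) ∧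
    ∀ x y : X, (∀ h ∈ H, h • x = x) → (∀ h ∈ H, h • y = y) → ∃ k ∈ K ⊓ Subgroup.centralizer (H : Set G), k • x = y := by
  have hHK : Nat.card H = K.index := hc.symm.index_eq_card.symm
  have hsH : Group.IsSolvable K ∨ Group.IsSolvable H := by
    refine hsolv.imp_right fun h => ?_
    have hinj : Function.Injective ((QuotientGroup.mk' K).comp H.subtype) := by
      rw [injective_iff_map_eq_one]
      intro x hx
      have h1 : (x : G) ∈ K := (QuotientGroup.eq_one_iff (x : G)).mp hx
      exact Subtype.ext (disjoint_def.mp hc.disjoint h1 x.2)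
    exact @solvable_of_solvable_injective _ _ _ _ _ hinj h
  have hKn : ∀ A : Subgroup G, A ≤ normalizer (K : Set G) := fun A => by
    rw [normalizer_eq_top]; exact le_top
  constructor
  · obtain ⟨x⟩ := (inferInstance : Nonempty X)
    set S := MulAction.stabilizer G x with hS
    have hKS : K ⊔ S = ⊤ := by
      rw [eq_top_iff]
      intro g _
      obtain ⟨k, hk⟩ := MulAction.exists_smul_eq K x (g • x)
      have h1 : (k : G)⁻¹ * g ∈ S := by
        rw [hS, MulAction.mem_stabilizer_iff, mul_smul, ← hk]
        change (k : G)⁻¹ • (k : G) • x = x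
        rw [inv_smul_smul]
      have : g = k * ((k : G)⁻¹ * g) := by group
      rw [this]
      exact mul_mem (mem_sup_left k.2) (mem_sup_right h1)
    -- complement of K ∩ S in S
    have hnK : (K.subgroupOf S).Normal := inferInstance
    have hi : (K.subgroupOf S).index = K.index := by
      change K.relIndex S = _
      rw [← relIndex_sup_right S K, sup_comm, hKS, relIndex_top_right]
    have hcop' : (Nat.card (K.subgroupOf S)).Coprime (K.subgroupOf S).index := by
      rw [hi]
      refine Nat.Coprime.coprime_dvd_left ?_ hcop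
      have e := card_map_of_injective (K := K.subgroupOf S) (f := S.subtype) S.subtype_injective
      rw [← e, subgroupOf_map_subtype]
      exact card_dvd_of_le inf_le_left
    obtain ⟨L, hL⟩ := exists_right_complement'_of_coprime hcop'
    set L' : Subgroup G := L.map S.subtype with hL'
    have hcL : Nat.card L' = K.index := by
      rw [hL', card_map_of_injective S.subtype_injective, ← hi, hL.symm.index_eq_card]
    have hLc : IsComplement' K L' := by
      apply isComplement'_of_coprime
      · rw [hcL, K.card_mul_index]
      · rw [hcL]; exact hcop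
    obtain ⟨g, hg⟩ := conj_of_coprime K hcop H L' hsH hc hLc
    refine ⟨g⁻¹ • x, fun h hh => ?_⟩
    have h1 : g * h * g⁻¹ ∈ L' := by
      rw [← hg, mem_conj_smul_iff]
      have : g⁻¹ * (g * h * g⁻¹) * g = h := by group
      rw [this]; exact hh
    have h2 : g * h * g⁻¹ ∈ S := map_subtype_le _ h1
    have h3 : (g * h * g⁻¹) • x = x := h2
    have : h • g⁻¹ • x = g⁻¹ • ((g * h * g⁻¹) • x) := by
      rw [← mul_smul, ← mul_smul]; congr 1; group
    rw [this, h3]
  · intro x y hx hy
    obtain ⟨k, hk⟩ := MulAction.exists_smul_eq K x y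
    set D := K ⊓ MulAction.stabilizer G x with hD
    have hHD : H ≤ normalizer (D : Set G) := by
      apply le_normalizer_inf (hKn H)
      have : H ≤ MulAction.stabilizer G x := fun h hh => hx h hh
      exact this.trans le_normalizer
    obtain ⟨d, hd, hkd⟩ := exists_mem_centralizer_coset hHD (Nat.Coprime.coprime_dvd_right
      (card_dvd_of_le inf_le_left) (by rw [hHK]; exact hcop.symm))
      (hsH.symm.imp_right (isSolvable_of_le inf_le_left)) (k : G) (by
        intro h hh
        refine mem_inf.mpr ⟨?_, ?_⟩
        · exact K.mul_mem (K.inv_mem k.2) ((inferInstance : K.Normal).conj_mem _ k.2 h)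
        · rw [MulAction.mem_stabilizer_iff, mul_smul, mul_smul, mul_smul]
          have h1 : h⁻¹ • x = x := hx h⁻¹ (H.inv_mem hh)
          rw [h1]
          have h2 : (k : G) • x = y := hk
          rw [h2, hy h hh, ← h2, inv_smul_smul])
    refine ⟨k * d, mem_inf.mpr ⟨K.mul_mem k.2 (mem_inf.mp hd).1, hkd⟩, ?_⟩
    have h1 : d • x = x := (mem_inf.mp hd).2
    rw [mul_smul, h1]; exact hk

/-- Let a finite group act on a set on which a normal subgroup K of coprime order and index is transitive, with K or the quotient solvable. Then any complement H of K has a fixed point, and any two H-fixed points are interchanged by an element of K centralising H. -/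
theorem result {G : Type*} [Group G] [Finite G] {X : Type*} [Nonempty X] [MulAction G X]
    (K H : Subgroup G) [K.Normal] (hc : Subgroup.IsComplement' K H) (hcop : (Nat.card K).Coprime K.index)
    (hsolv : Group.IsSolvable K ∨ Group.IsSolvable (G ⧸ K)) (htrans : MulAction.IsPretransitive K X) :
    (∃ x : X, ∀ h ∈ H, h • x = x) ∧
    ∀ x y : X, (∀ h ∈ H, h • x = x) → (∀ h ∈ H, h • y = y) → ∃ k ∈ K ⊓ Subgroup.centralizer (H : Set G), k • x = y := by
  exact aux K H hc hcop hsolv htrans

end Cfsg.Agent.S0059
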