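import Cfsg.Statements.S0060
import Cfsg.Agent.Lib.Coprime
import Cfsg.Agent.Lib.Cores

set_option autoImplicit false
open Pointwise
open Cfsg

namespace Cfsg.Agent.S0060

open Subgroup Cfsg.Agent.Lib.Basic Cfsg.Agent.Lib.Cores Cfsg.Agent.Lib.Coprime

/-- Brodkey's Theorem: in a finite group with abelian Sylow p-subgroups and no nontrivial normal p-subgroup, some conjugate of a Sylow p-subgroup meets it trivially. -/
theorem result {G : Type*} [Group G] [Finite G] (p : ℕ) [Fact p.Prime]
    (S : Sylow p G) (hS : IsMulCommutative S) (hOp : Cfsg.pCore p G = ⊥) :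
    ∃ g : G, (S : Subgroup G) ⊓ MulAut.conj g • (S : Subgroup G) = ⊥ := by
  -- choose a pair of Sylow subgroups with smallest intersection
  obtain ⟨⟨S₁, T⟩, hmin⟩ := Finite.exists_min (fun x : Sylow p G × Sylow p G =>
    Nat.card ((x.1 : Subgroup G) ⊓ (x.2 : Subgroup G) : Subgroup G))
  have hab : ∀ R : Sylow p G, IsMulCommutative (R : Subgroup G) := by
    intro R
    obtain ⟨g, rfl⟩ := MulAction.exists_smul_eq G S R
    have e : ((g • S : Sylow p G) : Subgroup G) = (S : Subgroup G).map (MulAut.conj g).toMonoidHom := rfl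
    rw [e]; infer_instance
  set D : Subgroup G := (S₁ : Subgroup G) ⊓ (T : Subgroup G) with hD
  have hSD : (S₁ : Subgroup G) ≤ normalizer (D : Set G) :=
    ((le_centralizer_iff_isMulCommutative.mpr (hab S₁)).trans (centralizer_le inf_le_left)).trans
      (centralizer_le_normalizer _)
  have hTD : (T : Subgroup G) ≤ normalizer (D : Set G) :=
    ((le_centralizer_iff_isMulCommutative.mpr (hab T)).trans (centralizer_le inf_le_right)).trans
      (centralizer_le_normalizer _)
  have hDR : ∀ R : Sylow p G, D ≤ R := by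
    intro R
    set N := normalizer (D : Set G) with hN
    -- R ∩ N lies in a conjugate of S₁ under N
    let S₁' : Sylow p N := S₁.subtype hSD
    have hRN : IsPGroup p ((R : Subgroup G).subgroupOf N) :=
      R.isPGroup'.comap_of_injective N.subtype N.subtype_injective
    obtain ⟨Q, hQ⟩ := hRN.exists_le_sylow
    obtain ⟨n, hn⟩ := MulAction.exists_smul_eq N Q S₁'
    -- R^n ∩ T ≤ D
    have h1 : (((n : G) • R : Sylow p G) : Subgroup G) ⊓ (T : Subgroup G) ≤ D := by
      intro x hx
      have hx1 := (mem_inf.mp hx).1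
      have hx2 := (mem_inf.mp hx).2
      refine mem_inf.mpr ⟨?_, hx2⟩
      have hxN : x ∈ N := hTD hx2
      have h2 : (n : G)⁻¹ * x * n ∈ (R : Subgroup G) := by
        have : x ∈ MulAut.conj (n : G) • (R : Subgroup G) := hx1
        rwa [Cfsg.Agent.Lib.SchurZas.mem_conj_smul_iff] at this
      have h3 : n⁻¹ * ⟨x, hxN⟩ * n ∈ Q := hQ (mem_subgroupOf.mpr h2)
      have h4 : (⟨x, hxN⟩ : N) ∈ (n • Q : Sylow p N) := by
        have : (⟨x, hxN⟩ : N) ∈ MulAut.conj n • (Q : Subgroup N) := by
          rw [Cfsg.Agent.Lib.SchurZas.mem_conj_smul_iff]; exact h3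
        exact this
      rw [hn] at h4
      exact h4
    have h2 : Nat.card D ≤ Nat.card ((((n : G) • R : Sylow p G) : Subgroup G) ⊓ (T : Subgroup G) : Subgroup G) :=
      hmin ((n : G) • R, T)
    have h3 := eq_of_le_of_card_ge h1 h2
    have h4 : D ≤ ((n : G) • R : Sylow p G) := by rw [← h3]; exact inf_le_left
    intro x hx
    have h5 : (n : G) * x * (n : G)⁻¹ ∈ D := (mem_normalizer_iff.mp n.2 x).mp hx
    have h6 : (n : G) * x * (n : G)⁻¹ ∈ MulAut.conj (n : G) • (R : Subgroup G) := h4 h5
    rw [Cfsg.Agent.Lib.SchurZas.mem_conj_smul_iff] at h6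
    have e : (n : G)⁻¹ * ((n : G) * x * (n : G)⁻¹) * n = x := by group
    rwa [e] at h6
  have hD0 : D = ⊥ := by
    rw [eq_bot_iff, ← hOp, pCore_eq_iInf_sylow]
    exact le_iInf hDR
  -- conjugate to S
  obtain ⟨g, hg⟩ := MulAction.exists_smul_eq G S₁ S
  obtain ⟨k, hk⟩ := MulAction.exists_smul_eq G S (g • T)
  refine ⟨k, ?_⟩
  have e1 : MulAut.conj k • (S : Subgroup G) = MulAut.conj g • (T : Subgroup G) := by
    have := congrArg (fun R : Sylow p G => (R : Subgroup G)) hk
    exact this
  have e2 : (S : Subgroup G) = MulAut.conj g • (S₁ : Subgroup G) := by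
    have := congrArg (fun R : Sylow p G => (R : Subgroup G)) hg
    exact this.symm
  rw [e1, e2, ← smul_inf, ← hD, hD0, smul_bot]

end Cfsg.Agent.S0060
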