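import Cfsg.Statements.S0064
import Cfsg.Agent.Lib.NilpB

set_option autoImplicit false
open Cfsg

namespace Cfsg.Agent.S0064

/-- A finite group is nilpotent exactly when each of its subgroups is subnormal. -/
theorem result {G : Type*} [Group G] [Finite G] :
    Group.IsNilpotent G ↔ ∀ H : Subgroup G, H.IsSubnormal := by
  constructor
  · intro h H
    have key : ∀ n : ℕ, ∀ H : Subgroup G, H.index ≤ n → H.IsSubnormal := by
      intro n
      induction n with
      | zero => intro H hH; exact absurd (Nat.le_zero.mp hH) Subgroup.index_ne_zero_of_finite
      | succ n ih =>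
        intro H hH
        by_cases hT : H = ⊤
        · rw [hT]; exact Subgroup.IsSubnormal.top
        · have h1 : H < Subgroup.normalizer (H : Set G) :=
            Group.normalizerCondition_of_isNilpotent H (lt_top_iff_ne_top.mpr hT)
          refine Subgroup.IsSubnormal.step _ _ h1.le (ih _ ?_) inferInstance
          have := Subgroup.index_strictAnti h1
          omega
    exact key _ H le_rfl
  · intro h
    refine (Group.isNilpotent_of_finite_tfae.out 0 1).mpr ?_
    intro H hH
    rcases Subgroup.IsSubnormal.iff_eq_top_or_exists.mp (h H) with h1 | ⟨K, hHK, -, hn⟩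
    · exact absurd h1 hH.ne
    · exact hHK.trans_le (Subgroup.le_normalizer_of_normal_subgroupOf hHK.le)

end Cfsg.Agent.S0064
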