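import Cfsg.Statements.S0070
import Cfsg.Agent.Lib.NilpB

set_option autoImplicit false
open Cfsg

namespace Cfsg.Agent.S0070

open Subgroup Cfsg.Agent.Lib.Basic Cfsg.Agent.Lib.SchurZas Cfsg.Agent.Lib.Cores Cfsg.Agent.Lib.Nilp

/-- The Fitting subgroup commutes with passing to the Frattini quotient: the Fitting subgroup of G modulo its Frattini subgroup is the image of the Fitting subgroup of G. -/
theorem result {G : Type*} [Group G] [Finite G] :
    Cfsg.fittingSubgroup (G ⧸ frattini G) = (Cfsg.fittingSubgroup G).map (QuotientGroup.mk' (frattini G)) := by
  set f := QuotientGroup.mk' (frattini G) with hf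
  have hfs : Function.Surjective f := QuotientGroup.mk'_surjective _
  apply le_antisymm
  · set A : Subgroup G := (Cfsg.fittingSubgroup (G ⧸ frattini G)).comap f with hA
    have hAn : A.Normal := Normal.comap fitting_normal _
    have hΦA : frattini G ≤ A := by
      intro x hx
      rw [hA, mem_comap]
      have : f x = 1 := (QuotientGroup.eq_one_iff x).mpr hx
      rw [this]; exact one_mem _
    have hAnil : Group.IsNilpotent A := by
      apply nilpotent_of_frattini A (frattini G) hΦA le_rfl
      have hFnil := fitting_nilpotent (G := G ⧸ frattini G)
      let g : A →* Cfsg.fittingSubgroup (G ⧸ frattini G) :=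
        { toFun := fun a => ⟨f (a : G), a.2⟩
          map_one' := Subtype.ext (map_one f)
          map_mul' := fun a b => Subtype.ext (map_mul f (a : G) (b : G)) }
      have hker : (frattini G).subgroupOf A = g.ker := by
        ext x
        rw [mem_subgroupOf, MonoidHom.mem_ker]
        constructor
        · intro h; exact Subtype.ext ((QuotientGroup.eq_one_iff _).mpr h)
        · intro h; exact (QuotientGroup.eq_one_iff _).mp (congrArg Subtype.val h)
      have hinj : Function.Injective (QuotientGroup.lift ((frattini G).subgroupOf A) g hker.le) := by
        rw [injective_iff_map_eq_one]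
        intro x hx
        obtain ⟨y, rfl⟩ := QuotientGroup.mk'_surjective _ x
        have : g y = 1 := hx
        have h2 : y ∈ (frattini G).subgroupOf A := by rw [hker]; exact this
        exact (QuotientGroup.eq_one_iff y).mpr h2
      exact Cfsg.Agent.Lib.NilpB.nilpotent_of_injective _ hinj hFnil
    have hAF : A ≤ Cfsg.fittingSubgroup G := le_fitting hAn hAnil
    intro x hx
    obtain ⟨y, rfl⟩ := hfs x
    exact ⟨y, hAF hx, rfl⟩
  · exact fitting_map_le f hfs

end Cfsg.Agent.S0070
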