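import Cfsg.Statements.S0073
import Cfsg.Agent.Lib.Wiel

set_option autoImplicit false
open Cfsg

namespace Cfsg.Agent.S0073

open Subgroup Cfsg.Agent.Lib Cfsg.Agent.Lib.PNilp

/-- For a finite non-abelian simple group, either the cube of the least prime divisor of the order divides the order, or 12 does. -/
theorem result {G : Type*} [Group G] [Finite G] [IsSimpleGroup G] (hG : ∃ x y : G, x * y ≠ y * x) : (Nat.card G).minFac ^ 3 ∣ Nat.card G ∨ 12 ∣ Nat.card G := by
  have hG1 : Nat.card G ≠ 1 := by
    intro h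
    obtain ⟨x, y, hxy⟩ := hG
    have : Subsingleton G := (Nat.card_eq_one_iff_unique.mp h).1
    exact hxy (Subsingleton.elim _ _)
  obtain ⟨p, hpdef⟩ : ∃ p, p = (Nat.card G).minFac := ⟨_, rfl⟩
  rw [← hpdef]
  have hp : p.Prime := hpdef ▸ Nat.minFac_prime hG1
  have hpd : p ∣ Nat.card G := hpdef ▸ Nat.minFac_dvd _
  haveI : Fact p.Prime := ⟨hp⟩
  by_contra hcon
  push Not at hcon
  obtain ⟨h3, h12⟩ := hcon
  obtain ⟨P⟩ := (inferInstance : Nonempty (Sylow p G))
  obtain ⟨k, hk⟩ := P.isPGroup'.exists_card_eq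
  change Nat.card (P : Subgroup G) = p ^ k at hk
  have hPd : Nat.card (P : Subgroup G) ∣ Nat.card G := card_subgroup_dvd_card _
  have hk3 : k < 3 := by
    by_contra h
    exact h3 ((pow_dvd_pow p (not_lt.mp h)).trans (hk ▸ hPd))
  have hk0 : k ≠ 0 := by
    rintro rfl
    have h1 := P.not_dvd_index
    have h2 := (P : Subgroup G).card_mul_index
    rw [hk, pow_zero, one_mul] at h2
    exact h1 (h2 ▸ hpd)
  have hPc : IsMulCommutative (P : Subgroup G) := by
    interval_cases k
    · exact absurd rfl hk0
    · rw [pow_one] at hk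
      have := isCyclic_of_prime_card hk
      exact Cyc.isMulCommutative_of_isCyclic this
    · exact IsPGroup.isMulCommutative_of_card_eq_prime_sq hk
  have hN := Wiel.normalizer_le_centralizer_of_fixed P hPc (by
    intro q hq hqp hqd A hA hmod
    have hpq : p < q := lt_of_le_of_ne (hpdef ▸ Nat.minFac_le_of_dvd hq.two_le hqd) (Ne.symm hqp)
    obtain ⟨j, hjk, hj⟩ := (Nat.dvd_prime_pow hp).mp (hk ▸ card_dvd_of_le hA)
    rcases eq_or_lt_of_le hjk with rfl | hlt
    · exact eq_of_le_of_card_ge hA (by rw [hj]; exact hk.le)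
    exfalso
    change Nat.card (P : Subgroup G) ≡ _ [MOD q] at hmod
    rw [hk, hj] at hmod
    have h1 : q ∣ p ^ k - p ^ j := (Nat.modEq_iff_dvd' (Nat.pow_le_pow_right hp.pos hjk)).mp hmod.symm
    have h2 : p ^ k - p ^ j = p ^ j * (p ^ (k - j) - 1) := by
      rw [Nat.mul_sub, mul_one, ← pow_add, Nat.add_sub_cancel' hjk]
    rw [h2] at h1
    have h3' : ¬ q ∣ p ^ j := fun h => by
      have := hq.dvd_of_dvd_pow h
      exact absurd (Nat.le_of_dvd hp.pos this) (by omega)
    have h4 : q ∣ p ^ (k - j) - 1 := by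
      rcases (Nat.Prime.dvd_mul hq).mp h1 with h | h
      · exact absurd h h3'
      · exact h
    have h5 : k - j = 1 ∨ k - j = 2 := by omega
    have hp2 := hp.two_le
    rcases h5 with h5 | h5
    · rw [h5, pow_one] at h4
      have := Nat.le_of_dvd (by omega) h4
      omega
    · rw [h5] at h4
      have h6 : p ^ 2 - 1 = (p + 1) * (p - 1) := by
        simpa using Nat.sq_sub_sq p 1
      rw [h6] at h4
      rcases (Nat.Prime.dvd_mul hq).mp h4 with h | h
      · have h7 := Nat.le_of_dvd (by omega) h
        have h8 : q = p + 1 := by omega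
        have hp' : p = 2 := by
          rcases hp.eq_two_or_odd with h9 | h9
          · exact h9
          · exfalso
            have : q % 2 = 0 := by omega
            rcases hq.eq_two_or_odd with h10 | h10 <;> omega
        subst hp'
        have hk2 : k = 2 := by omega
        subst hk2
        apply h12
        have h4d : 4 ∣ Nat.card G := by
          have := hk ▸ hPd
          exact this
        have h3d : 3 ∣ Nat.card G := by
          rw [h8] at hqd; exact hqd
        have : Nat.Coprime 4 3 := by norm_num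
        exact Nat.Coprime.mul_dvd_of_dvd_of_dvd this h4d h3d
      · have := Nat.le_of_dvd (by omega) h
        omega)
  obtain ⟨N, hNn, hNc, m, hm⟩ := Wiel.pNil_of_normalizer_le_centralizer P hN
  rcases hNn.eq_bot_or_eq_top with h | h
  · subst h
    rw [index_bot] at hm
    have hpg : IsPGroup p G := IsPGroup.of_card hm
    have hPtop : (P : Subgroup G) = ⊤ := by
      have h1 : IsPGroup p (⊤ : Subgroup G) := hpg.to_subgroup ⊤
      exact (P.is_maximal' h1 le_top).symm
    obtain ⟨x, y, hxy⟩ := hG
    have hx : x ∈ (P : Subgroup G) := by rw [hPtop]; trivial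
    have hy : y ∈ (P : Subgroup G) := by rw [hPtop]; trivial
    exact hxy (congrArg Subtype.val (hPc.is_comm.comm ⟨x, hx⟩ ⟨y, hy⟩))
  · subst h
    rw [Subgroup.card_top] at hNc
    exact (hp.coprime_iff_not_dvd.mp hNc.symm) hpd

end Cfsg.Agent.S0073
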