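import Cfsg.Statements.S0074
import Cfsg.Agent.Lib.PNilp

set_option autoImplicit false
open Cfsg

namespace Cfsg.Agent.S0074

open Cfsg.Agent.Lib.PNilp Subgroup
open scoped commutatorElement

/-- For an abelian Sylow p-subgroup P, the intersection of P with the derived subgroup of G equals its intersection with the derived subgroup of the normalizer of P. -/
theorem result {G : Type*} [Group G] [Finite G] {p : ℕ} [Fact p.Prime] (P : Sylow p G) (hP : IsMulCommutative P) : commutator G ⊓ (P : Subgroup G) = ⁅Subgroup.normalizer (P : Set G), Subgroup.normalizer (P : Set G)⁆ ⊓ (P : Subgroup G) := by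
  have hcop := focal_index_coprime_sylow P
  rw [commutator_inf_eq_focal _ hcop]
  apply le_antisymm
  · rw [focalSubgroup_def, closure_le]
    rintro _ ⟨hg, x, hx, u, rfl⟩
    refine mem_inf.mpr ⟨?_, hg⟩
    have h1 : u * x⁻¹ * u⁻¹ ∈ (P : Subgroup G) := by
      have : u * x⁻¹ * u⁻¹ = x⁻¹ * ⁅x, u⁆ := by rw [commutatorElement_def]; group
      rw [this]; exact mul_mem (inv_mem hx) hg
    obtain ⟨n, hn, hnu⟩ := P.conj_eq_normalizer_conj_of_mem x⁻¹ u⁻¹ (inv_mem hx)
      (by rw [inv_inv]; exact h1)
    have : ⁅x, u⁆ = ⁅x, n⁻¹⁆ := by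
      rw [commutatorElement_def, commutatorElement_def]
      calc x * u * x⁻¹ * u⁻¹ = x * (u⁻¹⁻¹ * x⁻¹ * u⁻¹) := by group
        _ = x * (n⁻¹ * x⁻¹ * n) := by rw [hnu]
        _ = _ := by group
    rw [this]
    exact commutator_mem_commutator (le_normalizer hx) (inv_mem hn)
  · rw [← commutator_inf_eq_focal _ hcop]
    exact inf_le_inf_right _ (commutator_mono le_top le_top)

end Cfsg.Agent.S0074
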