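import Cfsg.Statements.S0076
import Cfsg.Agent.Lib.Resid

set_option autoImplicit false
open Cfsg

namespace Cfsg.Agent.S0076

open Subgroup Cfsg.Agent.Lib Cfsg.Agent.Lib.SchurZas in
open scoped Pointwise in
theorem aux {G : Type*} [Group G] [Finite G] {p : ℕ} [Fact p.Prime] (P : Sylow p G) (X Y : Set G)
    (hX : ∀ x ∈ P, (fun y => x * y * x⁻¹) '' X = X)
    (hY : ∀ x ∈ P, (fun y => x * y * x⁻¹) '' Y = Y) (g : G)
    (hg : (fun y => g * y * g⁻¹) '' X = Y) :
    ∃ n ∈ Subgroup.normalizer (P : Set G), (fun y => n * y * n⁻¹) '' X = Y := by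
  have key : ∀ (x : G) (A : Set G), (fun y => x * y * x⁻¹) '' A = MulAut.conj x • A :=
    fun _ _ => rfl
  simp only [key] at *
  -- the stabilizer of `Y`
  obtain ⟨N, hN⟩ : ∃ N : Subgroup G, ∀ x, x ∈ N ↔ MulAut.conj x • Y = Y :=
    ⟨(MulAction.stabilizer (MulAut G) Y).comap MulAut.conj, fun x => Iff.rfl⟩
  have hPN : (P : Subgroup G) ≤ N := fun x hx => (hN x).mpr (hY x hx)
  have hgPN : ((g • P : Sylow p G) : Subgroup G) ≤ N := by
    intro x hx
    have hx' : g⁻¹ * x * g ∈ (P : Subgroup G) := mem_conj_smul_iff.mp hx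
    rw [hN]
    have h1 := hX _ hx'
    rw [← hg, ← mul_smul, ← map_mul]
    have e : x * g = g * (g⁻¹ * x * g) := by group
    rw [e, map_mul, mul_smul, h1]
  obtain ⟨n, hn, hnP⟩ := Resid.exists_mem_smul_eq (g • P) P hgPN hPN
  refine ⟨n * g, ?_, ?_⟩
  · apply Coprime.mem_normalizer_of_conj_smul_eq
    rw [← mul_smul] at hnP
    exact congrArg (fun R : Sylow p G => (R : Subgroup G)) hnP
  · rw [map_mul, mul_smul, hg]
    exact (hN n).mp hn

/-- Two P-invariant subsets of a Sylow p-subgroup P that are conjugate in G are conjugate under the normalizer of P. -/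
theorem result {G : Type*} [Group G] [Finite G] {p : ℕ} [Fact p.Prime] (P : Sylow p G) (X Y : Set G) (hXP : X ⊆ P) (hYP : Y ⊆ P) (hX : ∀ x ∈ P, (fun y => x * y * x⁻¹) '' X = X) (hY : ∀ x ∈ P, (fun y => x * y * x⁻¹) '' Y = Y) (g : G) (hg : (fun y => g * y * g⁻¹) '' X = Y) : ∃ n ∈ Subgroup.normalizer (P : Set G), (fun y => n * y * n⁻¹) '' X = Y := by
  exact aux P X Y hX hY g hg

end Cfsg.Agent.S0076
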