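import Cfsg.Statements.S0077
import Cfsg.Agent.Lib.Resid

set_option autoImplicit false
open Cfsg

namespace Cfsg.Agent.S0077

open Subgroup Cfsg.Agent.Lib Cfsg.Agent.Lib.PNilp
open scoped commutatorElement

/-- If a subgroup Z of the centre of a Sylow p-subgroup P is weakly closed in P, then P meets the derived subgroup of G exactly where it meets the derived subgroup of the normalizer of Z. -/
theorem result {G : Type*} [Group G] [Finite G] {p : ℕ} [Fact p.Prime] (P : Sylow p G) (Z : Subgroup G) (hZ : Z ≤ Subgroup.centralizer (P : Set G)) (hW : Cfsg.IsWeaklyClosed Z P) : commutator G ⊓ (P : Subgroup G) = ⁅Subgroup.normalizer (Z : Set G), Subgroup.normalizer (Z : Set G)⁆ ⊓ (P : Subgroup G) := by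
  have hcop := focal_index_coprime_sylow P
  rw [commutator_inf_eq_focal _ hcop]
  have hPN : (P : Subgroup G) ≤ Subgroup.normalizer (Z : Set G) := by
    intro x hx
    rw [Subgroup.mem_normalizer_iff]
    intro z
    constructor
    · intro hz
      have h1 := mem_centralizer_iff.mp (hZ hz) x hx
      rw [h1, mul_assoc, mul_inv_cancel, mul_one]; exact hz
    · intro hz
      have h1 := mem_centralizer_iff.mp (hZ hz) x⁻¹ (inv_mem hx)
      have : z = x⁻¹ * (x * z * x⁻¹) * x := by group
      rw [this, h1]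
      have e : x * z * x⁻¹ * x⁻¹ * x = x * z * x⁻¹ := by group
      rw [e]; exact hz
  apply le_antisymm
  · rw [focalSubgroup_def, closure_le]
    rintro _ ⟨hg, x, hx, u, rfl⟩
    refine mem_inf.mpr ⟨?_, hg⟩
    have h1 : u * x⁻¹ * u⁻¹ ∈ (P : Subgroup G) := by
      have : u * x⁻¹ * u⁻¹ = x⁻¹ * ⁅x, u⁆ := by rw [commutatorElement_def]; group
      rw [this]; exact mul_mem (inv_mem hx) hg
    obtain ⟨n, hn, hnu⟩ := Resid.weaklyClosed_control P Z hZ hW (inv_mem hx) u h1
    have : ⁅x, u⁆ = ⁅x, n⁆ := by
      rw [commutatorElement_def, commutatorElement_def]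
      calc x * u * x⁻¹ * u⁻¹ = x * (u * x⁻¹ * u⁻¹) := by group
        _ = x * (n * x⁻¹ * n⁻¹) := by rw [hnu]
        _ = _ := by group
    rw [this]
    exact commutator_mem_commutator (hPN hx) hn
  · rw [← commutator_inf_eq_focal _ hcop]
    exact inf_le_inf_right _ (commutator_mono le_top le_top)

end Cfsg.Agent.S0077
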