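import Cfsg.Statements.S0078
import Cfsg.Agent.Lib.Tate

set_option autoImplicit false
open Cfsg

namespace Cfsg.Agent.S0078

open Cfsg.Agent.Lib Subgroup
open scoped commutatorElement Pointwise

/-- In a p-normal group, a Sylow p-subgroup P meets O^p(G) exactly where it meets O^p(V), for any subgroup V containing the normalizer of the centre of P. -/
theorem result {G : Type*} [Group G] [Finite G] {p : ℕ} [Fact p.Prime] (P : Sylow p G) (hn : ∀ Q : Sylow p G, (P : Subgroup G) ⊓ Subgroup.centralizer (P : Set G) ≤ (Q : Subgroup G) → (Q : Subgroup G) ⊓ Subgroup.centralizer (Q : Set G) = (P : Subgroup G) ⊓ Subgroup.centralizer (P : Set G)) (V : Subgroup G) (hV : Subgroup.normalizer (((P : Subgroup G) ⊓ Subgroup.centralizer (P : Set G) : Subgroup G) : Set G) ≤ V) : (P : Subgroup G) ⊓ Cfsg.pResidual p G = (P : Subgroup G) ⊓ (Cfsg.pResidual p V).map V.subtype := by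
  set Z : Subgroup G := (P : Subgroup G) ⊓ Subgroup.centralizer (P : Set G) with hZ
  have hZc : Z ≤ centralizer (P : Set G) := inf_le_right
  have hPZ : (P : Subgroup G) ≤ normalizer (Z : Set G) := by
    intro x hx
    have hc : x ∈ centralizer (Z : Set G) := by
      rw [mem_centralizer_iff]
      intro z hz
      exact (mem_centralizer_iff.mp (hZc hz) x hx).symm
    exact centralizer_le_normalizer _ hc
  have hPV : (P : Subgroup G) ≤ V := hPZ.trans hV
  have hW : Cfsg.IsWeaklyClosed Z P := by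
    refine ⟨inf_le_left, fun g hg => ?_⟩
    have hQ : ∀ x, x ∈ ((g⁻¹ • P : Sylow p G) : Subgroup G) ↔ g * x * g⁻¹ ∈ (P : Subgroup G) := by
      intro x
      constructor
      · rintro ⟨y, hy, rfl⟩
        change g * (g⁻¹ * y * g⁻¹⁻¹) * g⁻¹ ∈ (P : Subgroup G)
        have : g * (g⁻¹ * y * g⁻¹⁻¹) * g⁻¹ = y := by group
        rw [this]; exact hy
      · intro h
        exact ⟨g * x * g⁻¹, h, by change g⁻¹ * (g * x * g⁻¹) * g⁻¹⁻¹ = x; group⟩
    have h1 : Z ≤ ((g⁻¹ • P : Sylow p G) : Subgroup G) := fun z hz => (hQ z).mpr (hg (mem_map_of_mem _ hz))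
    have h2 := hn (g⁻¹ • P) h1
    have h3 : Z.map (MulAut.conj g).toMonoidHom ≤ Z := by
      rintro _ ⟨z, hz, rfl⟩
      have hz' : z ∈ Z := hz
      rw [← h2] at hz'
      refine ⟨(hQ z).mp hz'.1, ?_⟩
      refine mem_centralizer_iff.mpr fun y hy => ?_
      have h4 : g⁻¹ * y * g ∈ ((g⁻¹ • P : Sylow p G) : Subgroup G) := by
        rw [hQ]
        have : g * (g⁻¹ * y * g) * g⁻¹ = y := by group
        rw [this]; exact hy
      have h5 := mem_centralizer_iff.mp hz'.2 _ h4
      change y * (g * z * g⁻¹) = g * z * g⁻¹ * y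
      calc y * (g * z * g⁻¹) = g * (g⁻¹ * y * g * z) * g⁻¹ := by group
        _ = g * (z * (g⁻¹ * y * g)) * g⁻¹ := by rw [h5]
        _ = _ := by group
    refine eq_of_le_of_card_ge h3 ?_
    rw [card_map_of_injective (MulAut.conj g).injective]
  have hfoc : (P : Subgroup G) ⊓ Cfsg.pResidual p G ≤ ⁅V, V⁆ := by
    refine (Resid.inf_pResidual_le_focal P).trans ?_
    rw [focalSubgroup_def, Subgroup.closure_le]
    rintro _ ⟨hg, x, hx, u, rfl⟩
    have h1 : u * x⁻¹ * u⁻¹ ∈ P := by
      have : u * x⁻¹ * u⁻¹ = x⁻¹ * ⁅x, u⁆ := by rw [_root_.commutatorElement_def]; group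
      rw [this]; exact mul_mem (inv_mem hx) hg
    obtain ⟨w, hw, hwu⟩ := Resid.weaklyClosed_control P Z hZc hW (inv_mem hx) u h1
    have : ⁅x, u⁆ = ⁅x, w⁆ := by
      rw [_root_.commutatorElement_def, _root_.commutatorElement_def]
      calc x * u * x⁻¹ * u⁻¹ = x * (u * x⁻¹ * u⁻¹) := by group
        _ = x * (w * x⁻¹ * w⁻¹) := by rw [hwu]
        _ = _ := by group
    rw [this]
    exact commutator_mem_commutator (hPV hx) (hV hw)
  have h1 := Tate.tate_of_control P hPV hfoc
  rw [← h1, subgroupOf_map_subtype]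
  apply le_antisymm
  · exact fun x hx => ⟨hx.1, hx.2, hPV hx.1⟩
  · exact fun x hx => ⟨hx.1, hx.2.1⟩

end Cfsg.Agent.S0078
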