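import Cfsg.Statements.S0082
import Cfsg.Agent.Lib.Resid
import Cfsg.Agent.Lib.Cyc

set_option autoImplicit false
open Cfsg

namespace Cfsg.Agent.S0082

open Subgroup Cfsg.Agent.Lib Cfsg.Agent.Lib.PNilp

/-- With a cyclic Sylow p-subgroup, either there is a normal p-complement or the elements of order prime to p generate the whole group. -/
theorem result {G : Type*} [Group G] [Finite G] {p : ℕ} [Fact p.Prime] (P : Sylow p G) (hP : IsCyclic P) : Cfsg.HasNormalPComplement p G ∨ Cfsg.pResidual p G = ⊤ := by
  have hPc : IsMulCommutative (P : Subgroup G) := Cyc.isMulCommutative_of_isCyclic hP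
  obtain ⟨h1, h2⟩ := Resid.abelian_sylow_decomp P hPc
  have h3 := Resid.inf_pResidual_abelian P hPc
  have hle : ⁅(P : Subgroup G), Subgroup.normalizer (P : Set G)⁆ ≤ P :=
    Coprime.commutator_le_of_normalizes le_rfl
  rw [hasNormalPComplement_iff, Resid.pNil_iff_inf_pResidual P, h3]
  rcases Cyc.le_total_of_le hP P.isPGroup' inf_le_left hle with h | h
  · right
    rw [inf_eq_left.mpr h] at h1
    rw [h1, bot_sup_eq] at h2
    have h4 : (P : Subgroup G) ≤ Cfsg.pResidual p G := by
      rw [← inf_eq_left, h3, h2]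
    have := Resid.sylow_sup_pResidual P
    rwa [sup_eq_right.mpr h4] at this
  · left
    rwa [inf_eq_right.mpr h] at h1

end Cfsg.Agent.S0082
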