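import Cfsg.Statements.S0083
import Cfsg.Agent.Lib.Wiel

set_option autoImplicit false
open Cfsg

namespace Cfsg.Agent.S0083

open Subgroup Cfsg.Agent.Lib Cfsg.Agent.Lib.PNilp

/-- For an abelian Sylow p-subgroup P, a normal p-complement exists exactly when the normalizer of P is an internal direct product of P with some subgroup. -/
theorem result {G : Type*} [Group G] [Finite G] {p : ℕ} [Fact p.Prime] (P : Sylow p G) (hP : IsMulCommutative P) : Cfsg.HasNormalPComplement p G ↔ ∃ Q : Subgroup G, Q ≤ Subgroup.centralizer (P : Set G) ∧ Q ⊓ (P : Subgroup G) = ⊥ ∧ Q ⊔ (P : Subgroup G) = Subgroup.normalizer (P : Set G) := by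
  have hPP : (P : Subgroup G) ≤ Subgroup.centralizer (P : Set G) := le_centralizer _
  rw [hasNormalPComplement_iff]
  constructor
  · intro h
    have hNC := Wiel.normalizer_le_centralizer_of_pNil P hP h
    obtain ⟨Q, hQN, -, hinf, hsup⟩ := Resid.exists_complement_normalizer P
    exact ⟨Q, hQN.trans hNC, by rw [inf_comm]; exact hinf, by rw [sup_comm]; exact hsup⟩
  · rintro ⟨Q, hQ, hQP, hN⟩
    apply Wiel.pNil_of_normalizer_le_centralizer P
    rw [← hN]
    exact sup_le hQ hPP

end Cfsg.Agent.S0083
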