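import Cfsg.Statements.S0084
import Cfsg.Agent.Lib.Wiel

set_option autoImplicit false
open Cfsg

namespace Cfsg.Agent.S0084

open Subgroup Cfsg.Agent.Lib Cfsg.Agent.Lib.PNilp

/-- A group whose Sylow 2-subgroups are Klein four-groups and whose order is prime to 3 has a normal 2-complement. -/
theorem result {G : Type*} [Group G] [Finite G] (T : Sylow 2 G) (hT : IsKleinFour T) (h3 : ¬ 3 ∣ Nat.card G) : Cfsg.HasNormalPComplement 2 G := by
  have hPc : IsMulCommutative (T : Subgroup G) := by
    have := hT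
    exact ⟨⟨fun a b => mul_comm_of_exponent_two hT.exponent_two a b⟩⟩
  have hcard : Nat.card (T : Subgroup G) = 4 := hT.card_four
  rw [hasNormalPComplement_iff]
  apply Wiel.pNil_of_normalizer_le_centralizer T
  apply Wiel.normalizer_le_centralizer_of_fixed T hPc
  intro q hq hq2 hqd A hA hmod
  change Nat.card (T : Subgroup G) ≡ _ [MOD q] at hmod
  have h1 := card_dvd_of_le hA
  rw [hcard] at h1
  have h2 : Nat.card A ∈ Nat.divisors 4 := Nat.mem_divisors.mpr ⟨h1, by norm_num⟩
  have h3' : Nat.divisors 4 = {1, 2, 4} := by decide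
  rw [h3'] at h2
  simp only [Finset.mem_insert, Finset.mem_singleton] at h2
  rw [hcard] at hmod
  rcases h2 with h | h | h
  · rw [h] at hmod
    have := (Nat.modEq_iff_dvd' (by norm_num : 1 ≤ 4)).mp hmod.symm
    have h4 : q ∣ 3 := this
    rw [(Nat.prime_dvd_prime_iff_eq hq (by norm_num)).mp h4] at hqd
    exact absurd hqd h3
  · rw [h] at hmod
    have := (Nat.modEq_iff_dvd' (by norm_num : 2 ≤ 4)).mp hmod.symm
    have h4 : q ∣ 2 := this
    exact absurd ((Nat.prime_dvd_prime_iff_eq hq (by norm_num)).mp h4) hq2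
  · exact eq_of_le_of_card_ge hA (by rw [h]; exact hcard.le)

end Cfsg.Agent.S0084
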