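import Cfsg.Statements.S0085
import Cfsg.Agent.Lib.Wiel

set_option autoImplicit false
open Cfsg

namespace Cfsg.Agent.S0085

open Subgroup Cfsg.Agent.Lib Cfsg.Agent.Lib.PNilp

/-- A group whose Sylow 2-subgroups are elementary abelian of order 8 and whose order is prime to 3 and to 7 has a normal 2-complement. -/
theorem result {G : Type*} [Group G] [Finite G] (T : Sylow 2 G) (h8 : Nat.card T = 8) (he : ∀ x : T, x * x = 1) (h3 : ¬ 3 ∣ Nat.card G) (h7 : ¬ 7 ∣ Nat.card G) : Cfsg.HasNormalPComplement 2 G := by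
  have hPc : IsMulCommutative (T : Subgroup G) := by
    refine ⟨⟨fun a b => ?_⟩⟩
    have h1 : a * b = (a * b)⁻¹ := eq_inv_of_mul_eq_one_left (he (a * b))
    have h2 : a⁻¹ = a := inv_eq_of_mul_eq_one_left (he a)
    have h3 : b⁻¹ = b := inv_eq_of_mul_eq_one_left (he b)
    rw [h1, mul_inv_rev, h2, h3]
  have hcard : Nat.card (T : Subgroup G) = 8 := h8
  rw [hasNormalPComplement_iff]
  apply Wiel.pNil_of_normalizer_le_centralizer T
  apply Wiel.normalizer_le_centralizer_of_fixed T hPc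
  intro q hq hq2 hqd A hA hmod
  change Nat.card (T : Subgroup G) ≡ _ [MOD q] at hmod
  have h1 := card_dvd_of_le hA
  rw [hcard] at h1
  have h2 : Nat.card A ∈ Nat.divisors 8 := Nat.mem_divisors.mpr ⟨h1, by norm_num⟩
  have h3' : Nat.divisors 8 = {1, 2, 4, 8} := by decide
  rw [h3'] at h2
  simp only [Finset.mem_insert, Finset.mem_singleton] at h2
  rw [hcard] at hmod
  rcases h2 with h | h | h | h
  · rw [h] at hmod
    have := (Nat.modEq_iff_dvd' (by norm_num : 1 ≤ 8)).mp hmod.symm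
    have h4 : q ∣ 7 := this
    rw [(Nat.prime_dvd_prime_iff_eq hq (by norm_num)).mp h4] at hqd
    exact absurd hqd h7
  · rw [h] at hmod
    have := (Nat.modEq_iff_dvd' (by norm_num : 2 ≤ 8)).mp hmod.symm
    have h4 : q ∣ 2 * 3 := this
    rcases (Nat.Prime.dvd_mul hq).mp h4 with h5 | h5
    · exact absurd ((Nat.prime_dvd_prime_iff_eq hq (by norm_num)).mp h5) hq2
    · rw [(Nat.prime_dvd_prime_iff_eq hq (by norm_num)).mp h5] at hqd
      exact absurd hqd h3
  · rw [h] at hmod
    have := (Nat.modEq_iff_dvd' (by norm_num : 4 ≤ 8)).mp hmod.symm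
    have h4 : q ∣ 2 * 2 := this
    rcases (Nat.Prime.dvd_mul hq).mp h4 with h5 | h5 <;>
    exact absurd ((Nat.prime_dvd_prime_iff_eq hq (by norm_num)).mp h5) hq2
  · exact eq_of_le_of_card_ge hA (by rw [h]; exact hcard.le)

end Cfsg.Agent.S0085
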