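import Cfsg.Statements.S0086
import Cfsg.Agent.Lib.PNilp

set_option autoImplicit false
open Cfsg

namespace Cfsg.Agent.S0086

/-- A normal complement to a Sylow p-subgroup is exactly the set of elements of order prime to p. -/
theorem result {G : Type*} [Group G] [Finite G] {p : ℕ} [Fact p.Prime] (P : Sylow p G) (N : Subgroup G) [N.Normal] (hN : N.IsComplement' (P : Subgroup G)) (x : G) : x ∈ N ↔ Nat.Coprime (orderOf x) p := by
  have h1 := Cfsg.Agent.Lib.PNilp.pNil_of_isComplement' (inferInstance : N.Normal) hN
  apply Cfsg.Agent.Lib.PNilp.mem_iff_coprime (inferInstance : N.Normal)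
  · have h1 : (P : Subgroup G).index = Nat.card N := hN.index_eq_card
    rw [← h1]
    exact (((Fact.out : p.Prime).coprime_iff_not_dvd).mpr P.not_dvd_index).symm
  · rw [hN.symm.index_eq_card]
    exact P.isPGroup'.exists_card_eq

end Cfsg.Agent.S0086
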