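import Cfsg.Statements.S0087
import Cfsg.Agent.Lib.Wiel

set_option autoImplicit false
open Cfsg

namespace Cfsg.Agent.S0087

open Subgroup Cfsg.Agent.Lib Cfsg.Agent.Lib.PNilp
open scoped Pointwise

/-- A Hall subgroup that is central in its normalizer has a normal complement. -/
theorem result {G : Type*} [Group G] [Finite G] (H : Subgroup G) (hHall : Nat.Coprime (Nat.card H) H.index) (h : Subgroup.normalizer (H : Set G) ≤ Subgroup.centralizer (H : Set G)) : ∃ N : Subgroup G, N.Normal ∧ N.IsComplement' H := by
  have hHH : H ≤ Subgroup.centralizer (H : Set G) := le_normalizer.trans h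
  have hHc : IsMulCommutative H := by
    rw [Nilp.isMulCommutative_iff_forall]
    intro a ha b hb
    exact (mem_centralizer_iff.mp (hHH hb) a ha)
  have hHn : Group.IsNilpotent H := by
    letI : CommGroup H := { (inferInstance : Group H) with mul_comm := hHc.is_comm.comm }
    exact CommGroup.isNilpotent
  apply Wiel.exists_complement_of_control hHn hHall
  intro x hx g hg
  refine ⟨1, one_mem _, ?_⟩
  set y := g * x * g⁻¹ with hy
  -- both H and its conjugate centralize y
  set C := Subgroup.centralizer ({y} : Set G) with hC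
  have hHC : H ≤ C := by
    intro z hz
    rw [hC, mem_centralizer_singleton_iff]
    exact (mem_centralizer_iff.mp (hHH hg) z hz)
  have hHgC : MulAut.conj g • H ≤ C := by
    intro z hz
    rw [SchurZas.mem_conj_smul_iff] at hz
    rw [hC, mem_centralizer_singleton_iff, hy]
    have h1 := mem_centralizer_iff.mp (hHH hx) _ hz
    calc z * (g * x * g⁻¹) = g * ((g⁻¹ * z * g) * x) * g⁻¹ := by group
      _ = g * (x * (g⁻¹ * z * g)) * g⁻¹ := by rw [h1]
      _ = _ := by group
  have hcard1 : Nat.card (H.subgroupOf C) = Nat.card H :=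
    Nat.card_congr (subgroupOfEquivOfLe hHC).toEquiv
  have hcard2 : Nat.card ((MulAut.conj g • H).subgroupOf C) = Nat.card H := by
    rw [Nat.card_congr (subgroupOfEquivOfLe hHgC).toEquiv, SchurZas.card_conj_smul]
  obtain ⟨c, hc⟩ := Wiel.wielandt_conj ((MulAut.conj g • H).subgroupOf C) (H.subgroupOf C) (by
      have h1 : Group.IsNilpotent (MulAut.conj g • H : Subgroup G) :=
        Cores.isNilpotent_map (MulAut.conj g).toMonoidHom hHn
      exact NilpB.nilpotent_of_injective (subgroupOfEquivOfLe hHgC).toMonoidHom
        (MulEquiv.injective _) h1) (by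
      rw [hcard2]
      refine Nat.Coprime.coprime_dvd_right ?_ hHall
      have h1 : ((MulAut.conj g • H).subgroupOf C).index = (H.subgroupOf C).index := by
        have h2 := ((MulAut.conj g • H).subgroupOf C).card_mul_index
        have h3 := (H.subgroupOf C).card_mul_index
        rw [hcard2, ← h3, hcard1] at h2
        exact Nat.eq_of_mul_eq_mul_left Nat.card_pos h2
      rw [h1]
      exact relIndex_dvd_index_of_le hHC) (by rw [hcard1, hcard2])
  have hc' : MulAut.conj (c : G) • (MulAut.conj g • H) = H :=
    SchurZas.conj_smul_subgroupOf' c hHgC hHC hc.symm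
  rw [← mul_smul, ← map_mul] at hc'
  have h1 := h (Coprime.mem_normalizer_of_conj_smul_eq hc')
  have h2 := mem_centralizer_iff.mp h1 x hx
  have h3 : (c : G) * y = y * c := mem_centralizer_singleton_iff.mp c.2
  have h4 : y = (c * g) * x * (c * g)⁻¹ := by
    calc y = (y * c) * (c : G)⁻¹ := by group
      _ = (c * y) * (c : G)⁻¹ := by rw [h3]
      _ = _ := by rw [hy]; group
  rw [h4, ← h2]; group

end Cfsg.Agent.S0087
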