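import Cfsg.Statements.S0088
import Cfsg.Agent.Lib.Resid

set_option autoImplicit false
open Cfsg

namespace Cfsg.Agent.S0088

open Subgroup Cfsg.Agent.Lib

/-- An abelian Hall subgroup meets G' ∩ Z(G) trivially. -/
theorem result {G : Type*} [Group G] [Finite G] (H : Subgroup G) (hc : IsMulCommutative H) (hHall : Nat.Coprime (Nat.card H) H.index) : H ⊓ commutator G ⊓ Subgroup.center G = ⊥ := by
  have := Resid.center_inf_commutator_le H hHall
  rw [(Nilp.isMulCommutative_iff_commutator_eq_bot).mp hc] at this
  exact eq_bot_iff.mpr this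

end Cfsg.Agent.S0088
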