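import Cfsg.Statements.S0089
import Cfsg.Agent.Lib.Resid

set_option autoImplicit false
open Cfsg

namespace Cfsg.Agent.S0089

open Subgroup Cfsg.Agent.Lib

/-- When all Sylow subgroups are abelian, the derived subgroup meets the centre trivially. -/
theorem result {G : Type*} [Group G] [Finite G] (h : ∀ p : ℕ, p.Prime → ∀ P : Sylow p G, IsMulCommutative P) : commutator G ⊓ Subgroup.center G = ⊥ := by
  rw [eq_bot_iff]
  by_contra hne
  obtain ⟨g, hg, hg1⟩ := SetLike.not_le_iff_exists.mp hne
  obtain ⟨q, hq, x, hx, hxC, k, hk⟩ := MinNil.exists_primary_notMem hg1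
  have hx' : x ∈ commutator G ⊓ Subgroup.center G := (zpowers_le.mpr hg) hx
  haveI : Fact q.Prime := ⟨hq⟩
  have hxp : IsPGroup q (zpowers x) := IsPGroup.of_card (n := k) (by rw [Nat.card_zpowers, hk])
  obtain ⟨P, hP⟩ := hxp.exists_le_sylow
  have hcop : (Nat.card P).Coprime (P : Subgroup G).index := P.card_coprime_index
  have h1 := Resid.center_inf_commutator_le (P : Subgroup G) hcop
  rw [(Nilp.isMulCommutative_iff_commutator_eq_bot).mp (h q hq P)] at h1
  exact hxC (h1 ⟨⟨hP (mem_zpowers x), hx'.1⟩, hx'.2⟩)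

end Cfsg.Agent.S0089
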