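import Cfsg.Statements.S0090
import Cfsg.Agent.Lib.Resid

set_option autoImplicit false
open Cfsg

namespace Cfsg.Agent.S0090

open Subgroup Cfsg.Agent.Lib Cfsg.Agent.Lib.PNilp
open scoped commutatorElement

/-- An abelian normal Hall subgroup A splits as the internal direct product of G' ∩ A and Z(G) ∩ A, and [A, G] = G' ∩ A. -/
theorem result {G : Type*} [Group G] [Finite G] (A : Subgroup G) [A.Normal] (hc : IsMulCommutative A) (hHall : Nat.Coprime (Nat.card A) A.index) : ⁅A, (⊤ : Subgroup G)⁆ = commutator G ⊓ A ∧ (commutator G ⊓ A) ⊓ (Subgroup.center G ⊓ A) = ⊥ ∧ (commutator G ⊓ A) ⊔ (Subgroup.center G ⊓ A) = A := by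
  have hn : A.Normal := inferInstance
  obtain ⟨K, hK⟩ := exists_right_complement'_of_coprime hHall
  have hsup : A ⊔ K = ⊤ := hK.isCompl.sup_eq_top
  have hinf : A ⊓ K = ⊥ := hK.isCompl.inf_eq_bot
  have hKA : K ≤ Subgroup.normalizer (A : Set G) := by
    rw [normalizer_eq_top_iff.mpr hn]; exact le_top
  have hcop : (Nat.card K).Coprime (Nat.card A) := by
    rw [← hK.symm.index_eq_card]; exact hHall.symm
  -- [A,G] = [A,K]
  have hAK : ⁅A, (⊤ : Subgroup G)⁆ = ⁅A, K⁆ := by
    apply le_antisymm _ (commutator_mono le_rfl le_top)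
    rw [commutator_le]
    intro x hx n _
    have hmem : n ∈ A ⊔ K := by rw [hsup]; trivial
    obtain ⟨t, ht, r, hr, rfl⟩ := (Basic.mem_sup_iff_left hKA).mp hmem
    have hxt : x * t = t * x := congrArg Subtype.val (hc.is_comm.comm ⟨x, hx⟩ ⟨t, ht⟩)
    have hm : ⁅x, r⁆ ∈ ⁅A, K⁆ := commutator_mem_commutator hx hr
    have hmP : ⁅x, r⁆ ∈ A := Coprime.commutator_le_of_normalizes hKA hm
    have hc' : t * ⁅x, r⁆ * t⁻¹ = ⁅x, r⁆ := by
      have : t * ⁅x, r⁆ = ⁅x, r⁆ * t :=
        congrArg Subtype.val (hc.is_comm.comm ⟨t, ht⟩ ⟨_, hmP⟩)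
      rw [this]; group
    have : ⁅x, t * r⁆ = t * ⁅x, r⁆ * t⁻¹ := by
      rw [commutatorElement_def, commutatorElement_def]
      calc x * (t * r) * x⁻¹ * (t * r)⁻¹ = (x * t) * r * x⁻¹ * r⁻¹ * t⁻¹ := by group
        _ = (t * x) * r * x⁻¹ * r⁻¹ * t⁻¹ := by rw [hxt]
        _ = _ := by group
    rw [this, hc']; exact hm
  -- centralizers
  have hZ : Subgroup.center G ⊓ A = A ⊓ Subgroup.centralizer (K : Set G) := by
    rw [inf_comm]
    apply le_antisymm
    · exact inf_le_inf_left _ (center_le_centralizer _)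
    · refine le_inf inf_le_left ?_
      rintro x ⟨hx, hxK⟩
      rw [mem_center_iff]
      intro g
      have hmem : g ∈ A ⊔ K := by rw [hsup]; trivial
      obtain ⟨t, ht, r, hr, rfl⟩ := (Basic.mem_sup_iff_left hKA).mp hmem
      have h1 : t * x = x * t := congrArg Subtype.val (hc.is_comm.comm ⟨t, ht⟩ ⟨x, hx⟩)
      have h2 := mem_centralizer_iff.mp hxK r hr
      rw [mul_assoc, h2, ← mul_assoc, h1, mul_assoc]
  have hM : ⁅A, (⊤ : Subgroup G)⁆ = commutator G ⊓ A := by
    apply le_antisymm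
    · exact le_inf (commutator_mono le_top le_rfl) (commutator_le_left _ _)
    · have hMn : ⁅A, (⊤ : Subgroup G)⁆.Normal := inferInstance
      have h1 : commutator G ≤ ⁅A, (⊤ : Subgroup G)⁆ ⊔ ⁅K, K⁆ := by
        rw [commutator_def, commutator_le]
        intro x _ y _
        have hmx : x ∈ A ⊔ K := by rw [hsup]; trivial
        have hmy : y ∈ A ⊔ K := by rw [hsup]; trivial
        obtain ⟨a, ha, k, hk, rfl⟩ := (Basic.mem_sup_iff_left hKA).mp hmx
        obtain ⟨b, hb, l, hl, rfl⟩ := (Basic.mem_sup_iff_left hKA).mp hmy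
        set f := QuotientGroup.mk' ⁅A, (⊤ : Subgroup G)⁆ with hf
        have hcen : ∀ a ∈ A, ∀ g : G, f a * f g = f g * f a := by
          intro a ha g
          rw [← map_mul, ← map_mul, hf, QuotientGroup.mk'_apply, QuotientGroup.mk'_apply,
            QuotientGroup.eq]
          have : (a * g)⁻¹ * (g * a) = ⁅g⁻¹, a⁻¹⁆ := by rw [commutatorElement_def]; group
          rw [this]
          rw [commutator_comm]
          exact commutator_mem_commutator (mem_top _) (inv_mem ha)
        have h2 : f ⁅a * k, b * l⁆ = f ⁅k, l⁆ := by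
          rw [map_commutatorElement, map_commutatorElement, commutatorElement_def,
            commutatorElement_def, map_mul, map_mul]
          have h3 := hcen a ha
          have h4 := hcen b hb
          calc f a * f k * (f b * f l) * (f a * f k)⁻¹ * (f b * f l)⁻¹
              = f a * (f k * f b) * f l * (f k)⁻¹ * (f a)⁻¹ * (f l)⁻¹ * (f b)⁻¹ := by group
            _ = (f a * f b) * f k * f l * (f k)⁻¹ * (f a)⁻¹ * (f l)⁻¹ * (f b)⁻¹ := by
                rw [← h4 k]; group
            _ = f b * (f a * (f k * f l * (f k)⁻¹)) * (f a)⁻¹ * (f l)⁻¹ * (f b)⁻¹ := by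
                rw [h3 b]; group
            _ = f b * (f k * f l * (f k)⁻¹ * f a) * (f a)⁻¹ * (f l)⁻¹ * (f b)⁻¹ := by
                rw [← map_inv f k, ← map_mul, ← map_mul, h3 (k * l * k⁻¹)]
            _ = f b * (f k * f l * (f k)⁻¹ * (f l)⁻¹) * (f b)⁻¹ := by group
            _ = (f k * f l * (f k)⁻¹ * (f l)⁻¹ * f b) * (f b)⁻¹ := by
                rw [← map_inv f k, ← map_inv f l, ← map_mul, ← map_mul, ← map_mul,
                  h4 (k * l * k⁻¹ * l⁻¹)]
            _ = _ := by group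
        have h5 : ⁅a * k, b * l⁆ * ⁅k, l⁆⁻¹ ∈ ⁅A, (⊤ : Subgroup G)⁆ := by
          rw [← QuotientGroup.eq_one_iff]
          show f (⁅a * k, b * l⁆ * ⁅k, l⁆⁻¹) = 1
          rw [map_mul, map_inv, h2, mul_inv_cancel]
        have h6 : ⁅a * k, b * l⁆ = (⁅a * k, b * l⁆ * ⁅k, l⁆⁻¹) * ⁅k, l⁆ := by group
        rw [h6]
        exact mul_mem (mem_sup_left h5) (mem_sup_right (commutator_mem_commutator hk hl))
      refine (inf_le_inf_right _ h1).trans ?_
      have hle : ⁅A, (⊤ : Subgroup G)⁆ ≤ A := commutator_le_left _ _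
      rw [← Basic.sup_inf_assoc_of_le' hle (by rw [normalizer_eq_top_iff.mpr hMn]; exact le_top)]
      apply sup_le le_rfl
      have : ⁅K, K⁆ ⊓ A ≤ ⊥ := by
        rw [← hinf, inf_comm]
        refine inf_le_inf_left _ ?_
        rw [commutator_le]
        intro x hx y hy
        exact mul_mem (mul_mem (mul_mem hx hy) (inv_mem hx)) (inv_mem hy)
      exact this.trans bot_le
  refine ⟨hM, ?_, ?_⟩
  · rw [← hM, hAK, hZ, inf_comm]
    exact CoprimeB.abelian_inf_eq_bot hc hKA hcop
  · rw [← hM, hAK, hZ, sup_comm]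
    exact CoprimeB.abelian_sup_eq hc hKA hcop

end Cfsg.Agent.S0090
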