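import Cfsg.Statements.S0091
import Cfsg.Agent.Lib.PNilp

set_option autoImplicit false
open Cfsg

namespace Cfsg.Agent.S0091

open Cfsg.Agent.Lib.PNilp Subgroup

/-- If a nontrivial Sylow p-subgroup controls its own fusion then it is not contained in the derived subgroup. -/
theorem result {G : Type*} [Group G] [Finite G] {p : ℕ} [Fact p.Prime] (P : Sylow p G) (hp : p ∣ Nat.card G) (h : ∀ x ∈ P, ∀ y ∈ P, (∃ g : G, g * x * g⁻¹ = y) → ∃ z ∈ P, z * x * z⁻¹ = y) : ¬ (P : Subgroup G) ≤ commutator G := by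
  intro hle
  have hcop := focal_index_coprime_sylow P
  have h1 : (P : Subgroup G).focalSubgroup = ⁅(P : Subgroup G), (P : Subgroup G)⁆ := by
    apply focal_eq_of_control
    intro x hx g hg
    obtain ⟨z, hz, hzx⟩ := h x hx _ hg ⟨g, rfl⟩
    exact ⟨z, hz, hzx.symm⟩
  have h2 := commutator_inf_eq_focal _ hcop
  rw [inf_eq_right.mpr hle, h1] at h2
  have hP0 : (P : Subgroup G) ≠ ⊥ := P.ne_bot_of_dvd_card hp
  exact (commutator_self_lt P.isPGroup' hP0).ne h2.symm

end Cfsg.Agent.S0091
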