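import Cfsg.Statements.S0093
import Cfsg.Agent.Lib.PGrpB

set_option autoImplicit false
open Cfsg

namespace Cfsg.Agent.S0093

open Subgroup Cfsg.Agent.Lib Cfsg.Agent.Lib.PGrpA Cfsg.Agent.Lib.PGrpB
open scoped commutatorElement

/-- Every finite p-group has a critical subgroup: a characteristic subgroup H whose Frattini subgroup and whose commutator with the whole group lie in the centre of H, and whose centralizer is contained in H. -/
theorem result {P : Type*} [Group P] [Finite P] {p : ℕ} [Fact p.Prime] (hP : IsPGroup p P) : ∃ H : Subgroup P, H.Characteristic ∧ (frattini H).map H.subtype ≤ Subgroup.centralizer (H : Set P) ∧ ⁅H, (⊤ : Subgroup P)⁆ ≤ H ⊓ Subgroup.centralizer (H : Set P) ∧ Subgroup.centralizer (H : Set P) ≤ H := by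
  obtain ⟨H, h1, h2, h3, h4⟩ := exists_critical hP
  refine ⟨H, h1, ?_, ?_, h2⟩
  · have hcl := class2_of_critical h3
    have h5 : frattini H ≤ center H := by
      apply Nilp.frattini_le_of_elementary_quotient (p := p) _ (class2_iff.mp hcl)
      intro x
      rw [mem_center_iff]
      intro y
      exact Subtype.ext (mem_centralizer_iff.mp (mem_inf.mp (h4 x x.2)).2 y y.2)
    refine (Subgroup.map_mono h5).trans ?_
    rintro _ ⟨z, hz, rfl⟩
    rw [mem_centralizer_iff]
    intro y hy
    exact congrArg Subtype.val (mem_center_iff.mp hz ⟨y, hy⟩)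
  · rw [commutator_le]
    intro x hx g _
    exact h3 x hx g

end Cfsg.Agent.S0093
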