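import Cfsg.Statements.S0094
import Cfsg.Agent.Lib.PGrpB

set_option autoImplicit false
open Cfsg

namespace Cfsg.Agent.S0094

open Subgroup Cfsg.Agent.Lib Cfsg.Agent.Lib.PGrpA Cfsg.Agent.Lib.PGrpB
open scoped commutatorElement

/-- In a special p-group every central element has order dividing p. -/
theorem result {P : Type*} [Group P] [Finite P] {p : ℕ} [Fact p.Prime] (h : Cfsg.IsSpecial p P) (z : P) (hz : z ∈ Subgroup.center P) : z ^ p = 1 := by
  obtain ⟨hP, h1, h2⟩ := h
  have hcl : Class2 P := class2_iff.mpr h2.le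
  rw [← h2, _root_.commutator_def, Subgroup.commutator_def] at hz
  have hcc : ∀ x ∈ closure {g : P | ∃ g₁ ∈ (⊤ : Subgroup P), ∃ g₂ ∈ (⊤ : Subgroup P), ⁅g₁, g₂⁆ = g}, x ∈ center P := by
    have : closure {g : P | ∃ g₁ ∈ (⊤ : Subgroup P), ∃ g₂ ∈ (⊤ : Subgroup P), ⁅g₁, g₂⁆ = g} ≤ center P := by
      rw [closure_le]
      rintro _ ⟨a, -, b, -, rfl⟩
      exact hcl a b
    exact this
  induction hz using closure_induction with
  | mem x hx =>
    obtain ⟨a, -, b, -, rfl⟩ := hx
    rw [← hcl.pow_left, commutatorElement_eq_one_iff_mul_comm]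
    have h3 : a ^ p ∈ center P := by rw [← h1]; exact Nilp.pow_mem_frattini hP a
    exact (mem_center_iff.mp h3 b).symm
  | one => exact one_pow _
  | mul x y hx hy hx1 hy1 =>
    rw [(show Commute x y from (mem_center_iff.mp (hcc y hy) x)).mul_pow, hx1, hy1, one_mul]
  | inv x hx hx1 => rw [inv_pow, hx1, inv_one]

end Cfsg.Agent.S0094
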