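import Cfsg.Statements.S0095
import Cfsg.Agent.Lib.ExSp

set_option autoImplicit false
open Cfsg

namespace Cfsg.Agent.S0095

open Cfsg.Agent.Lib

/-- The order of an extraspecial p-group is an odd power p^(2n+1) of p with n ≥ 1. -/
theorem result {P : Type*} [Group P] [Finite P] {p : ℕ} [Fact p.Prime] (h : Cfsg.IsExtraspecial p P) : ∃ n : ℕ, 1 ≤ n ∧ Nat.card P = p ^ (2 * n + 1) := by
  have hpp : p.Prime := Fact.out
  obtain ⟨z, D⟩ := ExSp.dat_of h
  obtain ⟨m, hm⟩ := ExSp.card_odd _ P z D le_rfl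
  refine ⟨m, Nat.pos_of_ne_zero fun h0 => ?_, hm⟩
  rw [h0, mul_zero, zero_add, pow_one] at hm
  have h1 : Subgroup.zpowers z = ⊤ := Subgroup.eq_top_of_card_eq _ (by rw [Nat.card_zpowers, D.ord, hm])
  have h2 : _root_.commutator P = ⊥ := by
    rw [_root_.commutator_def, eq_bot_iff, Subgroup.commutator_le]
    intro x _ y _
    rw [Subgroup.mem_bot, commutatorElement_eq_one_iff_mul_comm]
    exact (D.cc (by rw [h1]; trivial) x).eq
  have h3 := h.2
  rw [← h.1.2.2, h2, Subgroup.card_bot] at h3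
  exact hpp.one_lt.ne h3

end Cfsg.Agent.S0095
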