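import Cfsg.Statements.S0096
import Cfsg.Agent.Lib.PGrpB

set_option autoImplicit false
open Cfsg

namespace Cfsg.Agent.S0096

open Subgroup Cfsg.Agent.Lib Cfsg.Agent.Lib.PGrpA Cfsg.Agent.Lib.PGrpB
open scoped commutatorElement

/-- For odd p, in a p-group of class at most two the elements of order dividing p generate a subgroup of exponent dividing p. -/
theorem result {P : Type*} [Group P] [Finite P] {p : ℕ} [Fact p.Prime] (hp : p ≠ 2) (hP : IsPGroup p P) (h2 : ⁅commutator P, (⊤ : Subgroup P)⁆ = ⊥) (g : P) (hg : g ∈ Subgroup.closure {x : P | x ^ p = 1}) : g ^ p = 1 := by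
  have hcl : Class2 P := class2_iff'.mpr h2
  have h1 : closure {x : P | x ^ p = 1} ≤ hcl.omega Fact.out hp := by
    rw [closure_le]; exact fun x hx => hx
  exact h1 hg

end Cfsg.Agent.S0096
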