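import Cfsg.Statements.S0097
import Cfsg.Agent.Lib.PGrpB
import Cfsg.Agent.S0094

set_option autoImplicit false
open Cfsg

namespace Cfsg.Agent.S0097

open Subgroup Cfsg.Agent.Lib Cfsg.Agent.Lib.PGrpA Cfsg.Agent.Lib.PGrpB
open scoped commutatorElement

/-- For odd p and E extraspecial, the subgroup generated by the elements of order dividing p has exponent dividing p and index at most p. -/
theorem result {E : Type*} [Group E] [Finite E] {p : ℕ} [Fact p.Prime] (hp : p ≠ 2) (h : Cfsg.IsExtraspecial p E) : (Subgroup.closure {x : E | x ^ p = 1}).index ≤ p ∧ ∀ g ∈ Subgroup.closure {x : E | x ^ p = 1}, g ^ p = 1 := by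
  have hpp : p.Prime := Fact.out
  obtain ⟨hs, hc⟩ := h
  obtain ⟨hP, h1, h2⟩ := hs
  have hcl : Class2 E := class2_iff.mpr h2.le
  have h3 : closure {x : E | x ^ p = 1} ≤ hcl.omega Fact.out hp := by
    rw [closure_le]; exact fun x hx => hx
  refine ⟨?_, fun g hg => h3 hg⟩
  have hcp : ∀ x y : E, ⁅x, y⁆ ^ p = 1 := fun x y =>
    Cfsg.Agent.S0094.result (p := p) ⟨hP, h1, h2⟩ _ (hcl x y)
  have h4 : (hcl.powHom hpp hp hcp).ker ≤ closure {x : E | x ^ p = 1} := by
    intro x hx
    exact subset_closure hx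
  have h5 : (hcl.powHom hpp hp hcp).range ≤ center E := by
    rintro _ ⟨x, rfl⟩
    rw [← h1]
    exact Nilp.pow_mem_frattini hP x
  calc (closure {x : E | x ^ p = 1}).index ≤ (hcl.powHom hpp hp hcp).ker.index :=
        Nat.le_of_dvd (Nat.pos_of_ne_zero index_ne_zero_of_finite) (index_dvd_of_le h4)
    _ = Nat.card (hcl.powHom hpp hp hcp).range := index_ker _
    _ ≤ Nat.card (center E) := card_le_of_le h5
    _ = p := hc

end Cfsg.Agent.S0097
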