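import Cfsg.Statements.S0099
import Cfsg.Agent.Lib.ExSpB

set_option autoImplicit false
open Cfsg

namespace Cfsg.Agent.S0099

open Cfsg.Agent.Lib

/-- Among three extraspecial 2-groups of equal order, some two are isomorphic. -/
theorem result {E₁ : Type*} {E₂ : Type*} {E₃ : Type*} [Group E₁] [Group E₂] [Group E₃] [Finite E₁] [Finite E₂] [Finite E₃] (h₁ : Cfsg.IsExtraspecial 2 E₁) (h₂ : Cfsg.IsExtraspecial 2 E₂) (h₃ : Cfsg.IsExtraspecial 2 E₃) (h12 : Nat.card E₁ = Nat.card E₂) (h23 : Nat.card E₂ = Nat.card E₃) : Nonempty (E₁ ≃* E₂) ∨ Nonempty (E₂ ≃* E₃) ∨ Nonempty (E₁ ≃* E₃) := by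
  obtain ⟨z₁, D₁⟩ := ExSp.dat_of h₁
  obtain ⟨z₂, D₂⟩ := ExSp.dat_of h₂
  obtain ⟨z₃, D₃⟩ := ExSp.dat_of h₃
  rcases ExSp.iso_two _ E₁ E₂ E₃ z₁ z₂ z₃ D₁ D₂ D₃ h12 h23 le_rfl with ⟨f, -⟩ | ⟨f, -⟩ | ⟨f, -⟩
  · exact Or.inl ⟨f⟩
  · exact Or.inr (Or.inl ⟨f⟩)
  · exact Or.inr (Or.inr ⟨f⟩)

end Cfsg.Agent.S0099
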