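import Cfsg.Statements.S0101
import Cfsg.Agent.Lib.Resid

set_option autoImplicit false
open Cfsg

namespace Cfsg.Agent.S0101

open Subgroup Cfsg.Agent.Lib

/-- In a perfect central extension, the kernel meets each Sylow p-subgroup P inside the Frattini subgroup of P. -/
theorem result {H : Type*} {G : Type*} [Group H] [Group G] [Finite H] (σ : H →* G) (hσ : Function.Surjective σ) (hc : σ.ker ≤ Subgroup.center H) (hH : commutator H = ⊤) {p : ℕ} [Fact p.Prime] (P : Sylow p H) : σ.ker ⊓ (P : Subgroup H) ≤ (frattini P).map (P : Subgroup H).subtype := by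
  have h1 := Resid.center_inf_commutator_le (P : Subgroup H) P.card_coprime_index
  rw [hH, inf_top_eq] at h1
  have h2 : σ.ker ⊓ (P : Subgroup H) ≤ ⁅(P : Subgroup H), (P : Subgroup H)⁆ := by
    refine le_trans ?_ h1
    rw [inf_comm]
    exact inf_le_inf_left _ hc
  refine h2.trans ?_
  have h3 := Nilp.commutator_le_frattini P.isPGroup'
  have h4 := Subgroup.map_mono (f := (P : Subgroup H).subtype) h3
  rwa [commutator_def, map_commutator, ← MonoidHom.range_eq_map, range_subtype] at h4

end Cfsg.Agent.S0101
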