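import Cfsg.Statements.S0102
import Cfsg.Agent.Lib.Resid

set_option autoImplicit false
open Cfsg

namespace Cfsg.Agent.S0102

open Subgroup Cfsg.Agent.Lib Cfsg.Agent.Lib.PNilp

/-- A finite perfect group with cyclic Sylow p-subgroups has no perfect central extension whose kernel has order divisible by p. -/
theorem result {G : Type*} {H : Type*} [Group G] [Group H] [Finite G] [Finite H] (hG : commutator G = ⊤) {p : ℕ} [Fact p.Prime] (hcyc : ∀ P : Sylow p G, IsCyclic P) (σ : H →* G) (hσ : Function.Surjective σ) (hz : σ.ker ≤ Subgroup.center H) (hH : commutator H = ⊤) : ¬ p ∣ Nat.card σ.ker := by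
  have hp : p.Prime := Fact.out
  intro hd
  obtain ⟨z, hzo⟩ := exists_prime_orderOf_dvd_card' p hd
  have hzp : IsPGroup p (zpowers (z : H)) :=
    IsPGroup.of_card (n := 1) (by rw [Nat.card_zpowers, orderOf_coe, hzo, pow_one])
  obtain ⟨P, hP⟩ := hzp.exists_le_sylow
  -- the Sylow subgroup P is abelian
  have h1 : IsPGroup p ((P : Subgroup H).map σ) := P.isPGroup'.map σ
  obtain ⟨Q, hQ⟩ := h1.exists_le_sylow
  haveI := hcyc Q
  haveI : IsCyclic (Q : Subgroup G) := hcyc Q
  haveI : IsCyclic ((P : Subgroup H).map σ) := isCyclic_of_le hQ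
  have hPc : IsMulCommutative (P : Subgroup H) := by
    have h2 : ((σ.comp (P : Subgroup H).subtype).rangeRestrict).ker ≤ Subgroup.center P := by
      rw [MonoidHom.ker_rangeRestrict]
      intro x hx
      have h3 : (x : H) ∈ Subgroup.center H := hz hx
      rw [mem_center_iff] at h3 ⊢
      intro y
      exact Subtype.ext (h3 y)
    haveI : IsCyclic (σ.comp (P : Subgroup H).subtype).range := by
      rw [MonoidHom.range_comp, range_subtype]; infer_instance
    exact MonoidHom.isMulCommutative_of_isCyclic_of_ker_le_center _ h2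
  have h2 := Resid.center_inf_commutator_le (P : Subgroup H) P.card_coprime_index
  rw [(Nilp.isMulCommutative_iff_commutator_eq_bot).mp hPc, hH, inf_top_eq] at h2
  have h3 : (z : H) ∈ (⊥ : Subgroup H) := h2 ⟨hP (mem_zpowers _), hz z.2⟩
  rw [mem_bot] at h3
  have h4 : z = 1 := Subtype.ext h3
  rw [h4, orderOf_one] at hzo
  exact hp.one_lt.ne hzo

end Cfsg.Agent.S0102
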