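import Cfsg.Statements.S0104
import Cfsg.Agent.Lib.Resid

set_option autoImplicit false
open Cfsg

namespace Cfsg.Agent.S0104

open Subgroup Cfsg.Agent.Lib
open scoped Pointwise

/-- A subgroup Z of a Sylow p-subgroup P that is normalized by N_G(P) is weakly closed in P exactly when it is normal in every Sylow p-subgroup containing it. -/
theorem result {G : Type*} [Group G] [Finite G] {p : ℕ} [Fact p.Prime] (P : Sylow p G) (Z : Subgroup G) (hZP : Z ≤ (P : Subgroup G)) (hZN : Subgroup.normalizer (P : Set G) ≤ Subgroup.normalizer (Z : Set G)) : Cfsg.IsWeaklyClosed Z P ↔ ∀ R : Sylow p G, Z ≤ (R : Subgroup G) → (R : Subgroup G) ≤ Subgroup.normalizer (Z : Set G) := by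
  have hPZ : (P : Subgroup G) ≤ Subgroup.normalizer (Z : Set G) := le_normalizer.trans hZN
  constructor
  · rintro ⟨-, hw⟩ R hZR
    obtain ⟨g, rfl⟩ := MulAction.exists_smul_eq G P R
    have h1 : Z.map (MulAut.conj g⁻¹).toMonoidHom ≤ P := by
      rintro _ ⟨z, hz, rfl⟩
      have := SchurZas.mem_conj_smul_iff.mp (hZR hz)
      show g⁻¹ * z * g⁻¹⁻¹ ∈ (P : Subgroup G)
      rwa [inv_inv]
    have h2 := Coprime.mem_normalizer_of_conj_smul_eq (hw g⁻¹ h1)
    have h3 : g ∈ Subgroup.normalizer (Z : Set G) := by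
      have := inv_mem h2
      rwa [inv_inv] at this
    intro x hx
    have h4 := hPZ (SchurZas.mem_conj_smul_iff.mp hx)
    have h5 := mul_mem (mul_mem h3 h4) (inv_mem h3)
    have e : g * (g⁻¹ * x * g) * g⁻¹ = x := by group
    rwa [e] at h5
  · intro h
    refine ⟨hZP, fun g hg => ?_⟩
    have h1 : Z ≤ ((g⁻¹ • P : Sylow p G) : Subgroup G) := by
      intro z hz
      refine SchurZas.mem_conj_smul_iff.mpr ?_
      have := hg ⟨z, hz, rfl⟩
      rw [inv_inv]; exact this
    obtain ⟨n, hn, hnP⟩ := Resid.exists_mem_smul_eq (g⁻¹ • P) P (h _ h1) hPZ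
    rw [← mul_smul] at hnP
    have h2 : n * g⁻¹ ∈ Subgroup.normalizer (P : Set G) :=
      Coprime.mem_normalizer_of_conj_smul_eq (congrArg (fun R : Sylow p G => (R : Subgroup G)) hnP)
    have h3 := mul_mem (inv_mem (hZN h2)) hn
    have e : (n * g⁻¹)⁻¹ * n = g := by group
    rw [e] at h3
    exact Coprime.conj_smul_eq_of_mem_normalizer h3

end Cfsg.Agent.S0104
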