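import Cfsg.Statements.S0105
import Cfsg.Agent.Lib.Resid

set_option autoImplicit false
open Cfsg

namespace Cfsg.Agent.S0105

open Subgroup Cfsg.Agent.Lib Cfsg.Agent.Lib.PNilp

/-- With an abelian Sylow p-subgroup P, some quotient of G is isomorphic to the part of P central in N_G(P). -/
theorem result {G : Type*} [Group G] [Finite G] {p : ℕ} [Fact p.Prime] (P : Sylow p G) (hP : IsMulCommutative P) : ∃ (N : Subgroup G) (hN : N.Normal), Nonempty (G ⧸ N ≃* ((P : Subgroup G) ⊓ Subgroup.centralizer (Subgroup.normalizer (P : Set G) : Set G) : Subgroup G)) := by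
  have hcop := focal_index_coprime_sylow P
  refine ⟨(P : Subgroup G).transferFocal.ker, inferInstance, ?_⟩
  have h1 := ker_transferFocal_inf _ hcop
  have h2 := ker_transferFocal_sup _ hcop
  rw [Resid.focal_abelian P hP] at h1
  obtain ⟨h3, h4⟩ := Resid.abelian_sylow_decomp P hP
  set K := (P : Subgroup G).transferFocal.ker with hK
  set C := (P : Subgroup G) ⊓ Subgroup.centralizer (Subgroup.normalizer (P : Set G) : Set G) with hC
  have h5 : K.IsComplement' C := by
    apply SchurZas.isComplement'_of_inf_sup
    · rw [eq_bot_iff, ← h3]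
      apply le_inf
      · exact inf_le_right
      · rw [← h1]
        exact inf_le_inf_left _ inf_le_left
    · rw [eq_top_iff, ← h2]
      apply sup_le le_sup_left
      conv_lhs => rw [← h4]
      apply sup_le le_sup_right
      rw [← h1]
      exact inf_le_left.trans le_sup_left
  exact ⟨h5.symm.QuotientMulEquiv⟩

end Cfsg.Agent.S0105
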