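import Cfsg.Statements.S0107
import Cfsg.Agent.S0111

set_option autoImplicit false
open Cfsg

namespace Cfsg.Agent.S0107

open Cfsg.Agent

/-- A finite group with no nontrivial 2-group quotient and dihedral Sylow 2-subgroups of order at least 8 has a single class of involutions. -/
theorem result {G : Type*} [Group G] [Finite G] (T : Sylow 2 G) (n : ℕ) (hn : 2 ≤ n) (hT : Nonempty ((T : Subgroup G) ≃* DihedralGroup (2 ^ n))) (hO : Cfsg.pResidual 2 G = ⊤) (x y : G) (hx : orderOf x = 2) (hy : orderOf y = 2) : ∃ g : G, g * x * g⁻¹ = y := by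
  classical
  obtain ⟨e⟩ := hT
  haveI : NeZero (2 ^ n) := ⟨by positivity⟩
  -- no normal subgroup of index two
  have hno : ∀ M : Subgroup G, M.Normal → M.index = 2 → False := by
    intro M hM hi
    have h1 : Cfsg.pResidual 2 G ≤ M := by
      unfold Cfsg.pResidual
      rw [Subgroup.closure_le]
      intro g hg
      have h2 : g ^ M.index ∈ M := Subgroup.pow_index_mem M g
      rw [hi] at h2
      obtain ⟨m, hm⟩ := exists_pow_eq_self_of_coprime (show (Nat.Coprime 2 (orderOf g)) from (show Nat.Coprime (orderOf g) 2 from hg).symm)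
      change g ∈ M
      rw [← hm]
      exact M.pow_mem h2 m
    rw [hO, top_le_iff] at h1
    rw [h1, Subgroup.index_top] at hi
    omega
  set c : (T : Subgroup G) := e.symm (DihedralGroup.r 1) with hc
  set C : Subgroup (T : Subgroup G) := Subgroup.zpowers c with hC
  have hco : orderOf c = 2 ^ n := by
    rw [hc, MulEquiv.orderOf_eq]
    exact DihedralGroup.orderOf_r_one
  have hCi : C.index = 2 := by
    have h1 := C.card_mul_index
    rw [hC, Nat.card_zpowers, hco, Nat.card_congr e.toEquiv, DihedralGroup.nat_card] at h1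
    have h2 : 0 < 2 ^ n := by positivity
    exact Nat.eq_of_mul_eq_mul_left h2 (by rw [h1]; ring)
  set Q : Subgroup G := C.map (T : Subgroup G).subtype with hQ
  have hQT : Q ≤ (T : Subgroup G) := Subgroup.map_subtype_le _
  have hQi : Q.relIndex (T : Subgroup G) = 2 := by
    refine Eq.trans ?_ hCi
    change (Q.subgroupOf (T : Subgroup G)).index = _
    rw [hQ, Subgroup.subgroupOf, Subgroup.comap_map_eq_self_of_injective (Subgroup.subtype_injective _)]
  -- uniqueness of the involution in `Q`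
  have huniq : ∀ u v : G, u ∈ Q → v ∈ Q → orderOf u = 2 → orderOf v = 2 → u = v := by
    rintro _ _ ⟨u, hu, rfl⟩ ⟨v, hv, rfl⟩ hou hov
    have hou' : orderOf (⟨u, hu⟩ : C) = 2 := by
      refine Eq.trans ?_ hou
      rw [← Subgroup.orderOf_coe, ← Subgroup.orderOf_coe]; rfl
    have hov' : orderOf (⟨v, hv⟩ : C) = 2 := by
      refine Eq.trans ?_ hov
      rw [← Subgroup.orderOf_coe, ← Subgroup.orderOf_coe]; rfl
    haveI : IsCyclic C := by rw [hC]; infer_instance
    haveI : Fintype C := Fintype.ofFinite _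
    have h1 := IsCyclic.card_pow_eq_one_le (α := C) (n := 2) (by norm_num)
    by_contra hne
    have hne' : (⟨u, hu⟩ : C) ≠ ⟨v, hv⟩ := fun h => hne (congrArg (fun z : C => ((z : (T : Subgroup G)) : G)) h)
    have h2 : ({1, ⟨u, hu⟩, ⟨v, hv⟩} : Finset C) ⊆ Finset.univ.filter (fun a : C => a ^ 2 = 1) := by
      intro z hz
      simp only [Finset.mem_insert, Finset.mem_singleton] at hz
      simp only [Finset.mem_filter, Finset.mem_univ, true_and]
      rcases hz with rfl | rfl | rfl
      · simp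
      · exact orderOf_dvd_iff_pow_eq_one.1 hou'.dvd
      · exact orderOf_dvd_iff_pow_eq_one.1 hov'.dvd
    have h3 := (Finset.card_le_card h2).trans h1
    have hu1 : (1 : C) ≠ ⟨u, hu⟩ := by
      intro h; rw [← h, orderOf_one] at hou'; omega
    have hv1 : (1 : C) ≠ ⟨v, hv⟩ := by
      intro h; rw [← h, orderOf_one] at hov'; omega
    rw [Finset.card_insert_of_notMem (by simp [hu1, hv1]), Finset.card_insert_of_notMem (by simpa using hne'), Finset.card_singleton] at h3
    omega
  -- the central involution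
  set z : G := ((c ^ 2 ^ (n - 1) : (T : Subgroup G)) : G) with hz
  have hzQ : z ∈ Q := ⟨c ^ 2 ^ (n - 1), C.pow_mem (Subgroup.mem_zpowers c) _, rfl⟩
  have hzo : orderOf z = 2 := by
    rw [hz, Subgroup.orderOf_coe, orderOf_pow' _ (by positivity), hco]
    have h1 : 2 ^ n = 2 ^ (n - 1) * 2 := by rw [← pow_succ]; congr 1; omega
    rw [h1, Nat.gcd_eq_right (Dvd.intro _ rfl)]
    exact Nat.mul_div_cancel_left 2 (by positivity)
  -- every involution is conjugate to `z`
  have key : ∀ u : G, orderOf u = 2 → ∃ g : G, g * u * g⁻¹ = z := by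
    intro u hu
    have hup : IsPGroup 2 (Subgroup.zpowers u) := IsPGroup.of_card (n := 1) (by rw [Nat.card_zpowers, hu]; rfl)
    obtain ⟨P, hP⟩ := hup.exists_le_sylow
    obtain ⟨g, hg⟩ := MulAction.exists_smul_eq G P T
    have h1 : g * u * g⁻¹ ∈ (T : Subgroup G) := by
      rw [← hg]
      exact ⟨u, hP (Subgroup.mem_zpowers u), rfl⟩
    have hu' : orderOf (g * u * g⁻¹) = 2 := by
      exact (MulEquiv.orderOf_eq (MulAut.conj g) u).trans hu
    by_cases hmem : g * u * g⁻¹ ∈ Q
    · exact ⟨g, huniq _ _ hmem hzQ hu' hzo⟩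
    · rcases S0111.result T Q hQT hQi (g * u * g⁻¹) hu' h1 hmem with ⟨M, hM, hMi, -⟩ | ⟨k, hk⟩
      · exact absurd hMi (fun h => hno M hM h)
      · refine ⟨k * g, ?_⟩
        have e1 : k * g * u * (k * g)⁻¹ = k * (g * u * g⁻¹) * k⁻¹ := by group
        rw [e1]
        refine huniq _ _ hk hzQ ?_ hzo
        exact (MulEquiv.orderOf_eq (MulAut.conj k) _).trans hu'
  obtain ⟨g, hg⟩ := key x hx
  obtain ⟨k, hk⟩ := key y hy
  refine ⟨k⁻¹ * g, ?_⟩
  have e1 : k⁻¹ * g * x * (k⁻¹ * g)⁻¹ = k⁻¹ * (g * x * g⁻¹) * k := by group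
  rw [e1, hg, ← hk]; group

end Cfsg.Agent.S0107
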