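import Cfsg.Statements.S0109
import Cfsg.Agent.Lib.PSolB
import Cfsg.Agent.Lib.FFL
import Cfsg.Agent.Lib.QPairD

set_option autoImplicit false
open Cfsg

namespace Cfsg.Agent.S0109

open Cfsg.Agent.Lib Cfsg.Agent.Lib.Involve

/-- The Thompson factorization Theorem for solvable groups states that, with p odd (and abelian Sylow 2-subgroups when p = 3) and no nontrivial normal subgroup of order prime to p, every element of G is a product of an element normalizing J(P) and an element centralizing the elements of order dividing p in the centre of P. -/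
theorem result {G : Type*} [Group G] [Finite G] {p : ℕ} [Fact p.Prime] (hp : p ≠ 2) (hs : Group.IsSolvable G) (h3 : p = 3 → ∀ T : Sylow 2 G, IsMulCommutative T) (hF : ∀ N : Subgroup G, N.Normal → Nat.Coprime (Nat.card N) p → N = ⊥) (P : Sylow p G) (g : G) : ∃ a ∈ Subgroup.normalizer (Cfsg.thompsonSubgroupOf p (P : Subgroup G) : Set G), ∃ c ∈ Subgroup.centralizer {x : G | x ∈ (P : Subgroup G) ∧ (∀ y ∈ (P : Subgroup G), x * y = y * x) ∧ x ^ p = 1}, g = a * c := by
  classical
  have hpp : p.Prime := Fact.out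
  have hsol : Cfsg.IsPSolvable p G := PSolB.of_isSolvable _ G p le_rfl hs
  have hO : Cfsg.pPrimeCore p G = ⊥ := hF _ (Cores.pPrimeCore_normal p) (Cores.pPrimeCore_coprime p)
  have hfac : Cfsg.IsThompsonFactorizable p G := by
    by_contra hnf
    obtain ⟨h23, E, -, -, -, hn, ⟨e⟩⟩ := FFL.exists_sl_of hsol hO hnf
    have hp3 : p = 3 := by
      rcases h23 with h | h
      · exact absurd h hp
      · exact h
    have h1 : ¬ Involves (DickB.S (ZMod p)) G := QPairD.not_involves_of_sylow hp (h3 hp3)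
    exact h1 ⟨E, _, hn, ⟨e⟩⟩
  obtain ⟨x, hx, c, hc, n, hn, hg⟩ := hfac P g⁻¹
  rw [hO, Subgroup.mem_bot] at hx
  subst hx
  refine ⟨n⁻¹, inv_mem hn, c⁻¹, inv_mem ?_, ?_⟩
  · rw [Subgroup.mem_centralizer_iff] at hc ⊢
    rintro y ⟨hy1, hy2, hy3⟩
    refine hc y (Subgroup.subset_closure ⟨Subgroup.mem_inf.2 ⟨hy1, ?_⟩, hy3⟩)
    rw [Subgroup.mem_centralizer_iff]
    intro z hz
    exact (hy2 z hz).symm
  · have := congrArg (fun z => z⁻¹) hg
    simp only [inv_inv, one_mul, mul_inv_rev] at this
    exact this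

end Cfsg.Agent.S0109
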