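import Cfsg.Statements.S0110
import Cfsg.Agent.Lib.NilpB
import Cfsg.Agent.Lib.Basic

set_option autoImplicit false
open Cfsg

namespace Cfsg.Agent.S0110

open Subgroup Cfsg.Agent.Lib
open scoped commutatorElement

/-- In a p-group G, an extraspecial subgroup E with [G, E] ≤ Z(E) satisfies G = E C_G(E). -/
theorem result {G : Type*} [Group G] [Finite G] {p : ℕ} [Fact p.Prime] (hG : IsPGroup p G) (E : Subgroup G) (hE : Cfsg.IsExtraspecial p E) (h : ⁅(⊤ : Subgroup G), E⁆ ≤ E ⊓ Subgroup.centralizer (E : Set G)) : E ⊔ Subgroup.centralizer (E : Set G) = ⊤ := by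
  have hp : p.Prime := Fact.out
  obtain ⟨⟨hEp, hEf, hEc⟩, hEZ⟩ := hE
  set C := Subgroup.centralizer (E : Set G) with hC
  have hEn : E.Normal := by
    refine ⟨fun x hx g => ?_⟩
    have h1 : ⁅g, x⁆ ∈ E := (h (commutator_mem_commutator (mem_top g) hx)).1
    have : g * x * g⁻¹ = ⁅g, x⁆ * x := by rw [commutatorElement_def]; group
    rw [this]; exact mul_mem h1 hx
  have hCn : C.Normal := by rw [hC]; infer_instance
  have hcenter : Nat.card (E ⊓ C : Subgroup G) = p := by
    rw [← hEZ]
    refine Nat.card_congr ⟨fun x => ⟨⟨x.1, x.2.1⟩, ?_⟩, fun x => ⟨x.1.1, x.1.2, ?_⟩, fun _ => rfl, fun _ => rfl⟩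
    · rw [mem_center_iff]
      intro y
      exact Subtype.ext (mem_centralizer_iff.mp x.2.2 y y.2)
    · exact mem_centralizer_iff.mpr fun y hy => congrArg Subtype.val (mem_center_iff.mp x.2 ⟨y, hy⟩)
  obtain ⟨n, hn⟩ : ∃ n, (frattini E).index = p ^ n := by
    obtain ⟨k, hk⟩ := hEp.exists_card_eq
    obtain ⟨n, -, hn⟩ := (Nat.dvd_prime_pow hp).mp (hk ▸ index_dvd_card (frattini E))
    exact ⟨n, hn⟩
  have hrel : C.relIndex E = p ^ n := by
    rw [← hn, hEf]
    have : C.subgroupOf E = Subgroup.center E := by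
      ext x
      rw [mem_subgroupOf, hC, mem_centralizer_iff, mem_center_iff]
      constructor
      · intro hx y; exact Subtype.ext (hx y y.2)
      · intro hx y hy; exact congrArg Subtype.val (hx ⟨y, hy⟩)
    rw [relIndex, this]
  classical
  haveI := Fintype.ofFinite E
  obtain ⟨T, -, hTc, hTt⟩ := NilpB.exists_subset_card_eq hEp hn Finset.univ (by
    rw [Finset.coe_univ, Subgroup.closure_univ])
  let F : G ⧸ C → (T → (E ⊓ C : Subgroup G)) := fun q t =>
    ⟨⁅q.out, ((t : E) : G)⁆, h (commutator_mem_commutator (mem_top _) (t : E).2)⟩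
  have hF : Function.Injective F := by
    intro q r hqr
    have h1 : ∀ t ∈ T, (q.out)⁻¹ * r.out ∈ Subgroup.centralizer {(t : G)} := by
      intro t ht
      have h2 := congrArg Subtype.val (congrFun hqr ⟨t, ht⟩)
      have h3 : ⁅q.out, (t : G)⁆ = ⁅r.out, (t : G)⁆ := h2
      rw [commutatorElement_def, commutatorElement_def] at h3
      have h4 : q.out * t * (q.out)⁻¹ = r.out * t * (r.out)⁻¹ := mul_right_cancel h3
      rw [mem_centralizer_singleton_iff]
      calc (q.out)⁻¹ * r.out * t = (q.out)⁻¹ * (r.out * t * (r.out)⁻¹) * r.out := by group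
        _ = (q.out)⁻¹ * (q.out * t * (q.out)⁻¹) * r.out := by rw [h4]
        _ = _ := by group
    have h5 : (⊤ : Subgroup E) ≤ (Subgroup.centralizer {(q.out)⁻¹ * r.out}).subgroupOf E := by
      rw [← hTt, closure_le]
      intro t ht
      show (t : G) ∈ Subgroup.centralizer {(q.out)⁻¹ * r.out}
      rw [mem_centralizer_singleton_iff]
      exact (mem_centralizer_singleton_iff.mp (h1 t ht)).symm
    have h6 : (q.out)⁻¹ * r.out ∈ C := by
      refine mem_centralizer_iff.mpr fun y hy => ?_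
      have h7 : (y : G) ∈ Subgroup.centralizer {(q.out)⁻¹ * r.out} := h5 (mem_top (⟨y, hy⟩ : E))
      exact mem_centralizer_singleton_iff.mp h7
    have h7 := (QuotientGroup.eq (s := C)).mpr h6
    rwa [QuotientGroup.out_eq', QuotientGroup.out_eq'] at h7
  have hle : C.index ≤ p ^ n := by
    rw [index_eq_card]
    refine (Nat.card_le_card_of_injective F hF).trans ?_
    rw [Nat.card_fun, hcenter]
    simp [hTc]
  have h1 : C.relIndex (C ⊔ E) = C.relIndex E :=
    Basic.index_sup_of_normalizes (by rw [normalizer_eq_top_iff.mpr hCn]; exact le_top)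
  have h2 := relIndex_mul_index (le_sup_left : C ≤ C ⊔ E)
  rw [h1, hrel] at h2
  rw [sup_comm, ← index_eq_one]
  have h3 : (C ⊔ E).index ≠ 0 := index_ne_zero_of_finite
  have h4 : 0 < p ^ n := pow_pos hp.pos n
  have h5 : p ^ n * (C ⊔ E).index ≤ p ^ n * 1 := by rw [h2, mul_one]; exact hle
  have := Nat.le_of_mul_le_mul_left h5 h4
  omega

end Cfsg.Agent.S0110
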