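import Cfsg.Statements.S0118
import Cfsg.Agent.Lib.ZJeB

set_option autoImplicit false
open Cfsg

namespace Cfsg.Agent.S0118

open Cfsg.Agent.Lib Cfsg.Agent.Lib.Involve

/-- Glauberman's ZJ-Theorem, in the case of groups with no section isomorphic to SL(2,p), p odd: conjugation of subsets of a Sylow p-subgroup P inside P is always induced from the normalizer of Z(J(P)). -/
theorem result {G : Type*} [Group G] [Finite G] {p : ℕ} [Fact p.Prime] (hp : p ≠ 2) (hfree : ¬ ∃ (H K : Subgroup G) (hK : (K.subgroupOf H).Normal), Nonempty ((H ⧸ K.subgroupOf H) ≃* Matrix.SpecialLinearGroup (Fin 2) (ZMod p))) (P : Sylow p G) (A : Set G) (hA : A ⊆ (P : Set G)) (g : G) (hAg : (fun a => g⁻¹ * a * g) '' A ⊆ (P : Set G)) : ∃ n ∈ Subgroup.normalizer (Cfsg.centerThompsonOf p (P : Subgroup G) : Set G), ∀ a ∈ A, n⁻¹ * a * n = g⁻¹ * a * g := by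
  classical
  have h1 : ¬ Involves (DickB.S (ZMod p)) G := fun h => hfree h
  have h2 : ¬ Involves (Cfsg.qd p) G := by
    intro h
    refine h1 (involves_trans ?_ h)
    exact involves_of_surj (QdD.lin (p := p)) (fun g => ⟨⟨QdA.aff g 0 0, QdD.aff_mem g 0 0⟩, QdD.lin_aff g 0 0⟩)
  obtain ⟨n, hn, h3⟩ := ZJeB.fusion hp h2 P hA (g := g⁻¹) (by
    rintro _ ⟨a, ha, rfl⟩
    have := hAg ⟨a, ha, rfl⟩
    simpa using this)
  refine ⟨n⁻¹, inv_mem hn, fun a ha => ?_⟩
  have := h3 a ha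
  rw [inv_inv] at this ⊢
  exact this

end Cfsg.Agent.S0118
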