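import Cfsg.Statements.S0123
import Cfsg.Agent.Lib.ClThree
import Cfsg.Agent.Lib.PGrpA

set_option autoImplicit false
open Cfsg

namespace Cfsg.Agent.S0123

open Cfsg.Agent.Lib
open scoped commutatorElement

/-- For a p-group of small class relative to p (class ≤ 2 with p odd, or class ≤ 3 with p > 3) whose derived subgroup is generated by elements of order dividing p, the p-th power map is multiplicative. -/
theorem result {R : Type*} [Group R] [Finite R] {p : ℕ} [Fact p.Prime] (hR : IsPGroup p R) (hcl : (p ≠ 2 ∧ ⁅commutator R, (⊤ : Subgroup R)⁆ = ⊥) ∨ (3 < p ∧ ⁅⁅commutator R, (⊤ : Subgroup R)⁆, (⊤ : Subgroup R)⁆ = ⊥)) (hder : commutator R ≤ Subgroup.closure {x : R | x ^ p = 1}) (x y : R) : (x * y) ^ p = x ^ p * y ^ p := by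
  have hpp : p.Prime := Fact.out
  rcases hcl with ⟨hp2, h⟩ | ⟨hp3, h⟩
  · have h2 : PGrpA.Class2 R := by
      intro x y
      rw [Subgroup.mem_center_iff]
      intro w
      have h1 : ⁅x, y⁆ ∈ _root_.commutator R := by
        rw [_root_.commutator_def]; exact Subgroup.commutator_mem_commutator (Subgroup.mem_top _) (Subgroup.mem_top _)
      have h2 : ⁅⁅x, y⁆, w⁆ ∈ (⊥ : Subgroup R) := by
        rw [← h]; exact Subgroup.commutator_mem_commutator h1 (Subgroup.mem_top w)
      rw [Subgroup.mem_bot, commutatorElement_eq_one_iff_mul_comm] at h2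
      exact h2.symm
    have hexp : ∀ g ∈ _root_.commutator R, g ^ p = 1 := by
      intro g hg
      have h3 : Subgroup.closure {x : R | x ^ p = 1} ≤ h2.omega hpp hp2 := by
        rw [Subgroup.closure_le]; exact fun x hx => hx
      exact h3 (hder hg)
    obtain ⟨k, hk⟩ := PGrpA.odd_dvd_choose_two hpp hp2 (dvd_refl p)
    rw [h2.mul_pow, hk, pow_mul, hexp ⁅y, x⁆, one_pow, mul_one]
    rw [_root_.commutator_def]; exact Subgroup.commutator_mem_commutator (Subgroup.mem_top _) (Subgroup.mem_top _)
  · have h3 := ClThree.cl3_of h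
    refine h3.mul_pow_of_exp hpp hp3 (fun a b => ?_) x y
    refine h3.omega hpp hp3 (hder ?_)
    rw [_root_.commutator_def]; exact Subgroup.commutator_mem_commutator (Subgroup.mem_top _) (Subgroup.mem_top _)

end Cfsg.Agent.S0123
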