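import Cfsg.Statements.S0125
import Cfsg.Agent.Lib.Resid

set_option autoImplicit false
open Cfsg

namespace Cfsg.Agent.S0125

open Subgroup Cfsg.Agent.Lib

/-- The centralizer of a self-centralizing normal subgroup A of a Sylow p-subgroup is the direct product of A with a normal p'-subgroup. -/
theorem result {G : Type*} [Group G] [Finite G] {p : ℕ} [Fact p.Prime] (R : Sylow p G) (A : Subgroup G) (hAR : A ≤ (R : Subgroup G)) (hAn : (R : Subgroup G) ≤ Subgroup.normalizer (A : Set G)) (hC : (R : Subgroup G) ⊓ Subgroup.centralizer (A : Set G) = A) : ∃ H : Subgroup G, H ≤ Subgroup.centralizer (A : Set G) ∧ Nat.Coprime (Nat.card H) p ∧ Subgroup.centralizer (A : Set G) ≤ Subgroup.normalizer (H : Set G) ∧ H ⊓ A = ⊥ ∧ H ⊔ A = Subgroup.centralizer (A : Set G) := by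
  have hp : p.Prime := Fact.out
  set C := Subgroup.centralizer (A : Set G) with hCd
  have hAC : A ≤ C := by
    rw [← hC]; exact inf_le_right
  have hRC : (R : Subgroup G) ≤ Subgroup.normalizer (C : Set G) := by
    intro r hr
    have hrN := hAn hr
    rw [Subgroup.mem_normalizer_iff]
    intro c
    have key : ∀ r ∈ Subgroup.normalizer (A : Set G), ∀ c ∈ C, r * c * r⁻¹ ∈ C := by
      intro r hr c hc
      rw [hCd, mem_centralizer_iff]
      intro a ha
      have h1 : r⁻¹ * a * r ∈ A := by
        have := (Subgroup.mem_normalizer_iff.mp (inv_mem hr) a).mp ha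
        rwa [inv_inv] at this
      have h2 := mem_centralizer_iff.mp hc _ h1
      calc a * (r * c * r⁻¹) = r * ((r⁻¹ * a * r) * c) * r⁻¹ := by group
        _ = r * (c * (r⁻¹ * a * r)) * r⁻¹ := by rw [h2]
        _ = _ := by group
    constructor
    · exact key r hrN c
    · intro h
      have := key r⁻¹ (inv_mem hrN) _ h
      have e : r⁻¹ * (r * c * r⁻¹) * r⁻¹⁻¹ = c := by group
      rwa [e] at this
  have hidx : ¬ p ∣ (A.subgroupOf C).index := by
    intro hd
    have h1 := CoprimeB.relIndex_sup_of_normalizes hRC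
    have h2 : (R : Subgroup G).relIndex C = A.relIndex C := by
      rw [← inf_relIndex_right (R : Subgroup G) C, hC]
    rw [h2] at h1
    apply R.not_dvd_index
    refine dvd_trans ?_ (relIndex_dvd_index_of_le (le_sup_right : (R : Subgroup G) ≤ C ⊔ R))
    rw [h1]; exact hd
  haveI hn : (A.subgroupOf C).Normal := by
    refine ⟨fun x hx g => ?_⟩
    have h1 : (x : G) * g = g * x := mem_centralizer_iff.mp g.2 x hx
    have : g * x * g⁻¹ = x := by
      apply Subtype.ext
      show (g : G) * x * (g : G)⁻¹ = x
      rw [← h1]; group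
    rw [this]; exact hx
  have hcardA : Nat.card (A.subgroupOf C) = Nat.card A :=
    Nat.card_congr (subgroupOfEquivOfLe hAC).toEquiv
  have hcop : (Nat.card (A.subgroupOf C)).Coprime (A.subgroupOf C).index := by
    obtain ⟨k, hk⟩ := (R.isPGroup'.to_le hAR).exists_card_eq
    rw [hcardA, hk]
    exact Nat.Coprime.pow_left k ((hp.coprime_iff_not_dvd).mpr hidx)
  obtain ⟨K, hK⟩ := exists_right_complement'_of_coprime hcop
  have hA : (A.subgroupOf C).map C.subtype = A := by
    rw [subgroupOf_map_subtype, inf_eq_left.mpr hAC]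
  have h1 : K.map C.subtype ⊓ A = ⊥ := by
    rw [← hA, ← map_inf _ _ _ C.subtype_injective, inf_comm, hK.isCompl.inf_eq_bot,
      Subgroup.map_bot]
  have h2 : K.map C.subtype ⊔ A = C := by
    rw [← hA, ← Subgroup.map_sup, sup_comm, hK.isCompl.sup_eq_top, ← MonoidHom.range_eq_map,
      range_subtype]
  refine ⟨K.map C.subtype, map_subtype_le _, ?_, ?_, h1, h2⟩
  · rw [card_map_of_injective C.subtype_injective, ← hK.symm.index_eq_card]
    exact ((hp.coprime_iff_not_dvd).mpr hidx).symm
  · conv_lhs => rw [← h2]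
    apply sup_le le_normalizer
    refine le_trans ?_ (centralizer_le_normalizer _)
    rw [le_centralizer_iff]
    exact map_subtype_le _

end Cfsg.Agent.S0125
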