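import Cfsg.Statements.S0127
import Cfsg.Agent.Lib.PGrpF

set_option autoImplicit false
open Cfsg

namespace Cfsg.Agent.S0127

open Subgroup Cfsg.Agent.Lib Cfsg.Agent.Lib.PGrpF

/-- For odd p, in a non-cyclic p-group with a cyclic subgroup of index p, the elements of order dividing p generate an elementary abelian subgroup of order p^2. -/
theorem result {R : Type*} [Group R] [Finite R] {p : ℕ} [Fact p.Prime] (hp : p ≠ 2) (hR : IsPGroup p R) (hnc : ¬ IsCyclic R) (C : Subgroup R) (hC : IsCyclic C) (hCi : C.index = p) : Cfsg.IsElementaryAbelian p (Subgroup.closure {x : R | x ^ p = 1}) ∧ Nat.card (Subgroup.closure {x : R | x ^ p = 1}) = p ^ 2 := by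
  have hpp : p.Prime := Fact.out
  obtain ⟨a, b, m, ha, hb, hba, hcen, hx⟩ := omega_of_cyclic_index hp hR hnc hC hCi
  have hap : (a ^ p ^ m) ^ p = 1 := by rw [← pow_mul, ← pow_succ, ← ha]; exact pow_orderOf_eq_one a
  have hbp : b ^ p = 1 := by rw [← hb]; exact pow_orderOf_eq_one b
  have hEeq : Subgroup.closure {x : R | x ^ p = 1} = Subgroup.closure ({a ^ p ^ m, b} : Set R) := by
    apply le_antisymm
    · rw [Subgroup.closure_le]; exact fun x h => hx x h
    · apply Subgroup.closure_mono
      rintro x (rfl | rfl)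
      · exact hap
      · exact hbp
  have hcomm : IsMulCommutative (Subgroup.closure ({a ^ p ^ m, b} : Set R)) := by
    apply isMulCommutative_closure
    rintro x (rfl | rfl) y (rfl | rfl)
    · rfl
    · exact hcen.symm
    · exact hcen
    · rfl
  have hc2 := Nilp.isMulCommutative_iff_forall.mp hcomm
  have hexp : ∀ x ∈ Subgroup.closure ({a ^ p ^ m, b} : Set R), x ^ p = 1 := by
    intro x hx
    induction hx using Subgroup.closure_induction with
    | mem x hx =>
      rcases hx with rfl | rfl
      · exact hap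
      · exact hbp
    | one => exact one_pow _
    | mul x z hx hz hx1 hz1 => rw [(show Commute x z from hc2 x hx z hz).mul_pow, hx1, hz1, one_mul]
    | inv x hx hx1 => rw [inv_pow, hx1, inv_one]
  rw [hEeq]
  refine ⟨⟨hcomm, hexp⟩, ?_⟩
  have hordA : orderOf (a ^ p ^ m) = p := by
    rw [orderOf_pow_of_dvd (pow_ne_zero _ hpp.ne_zero) (by rw [ha]; exact pow_dvd_pow _ (Nat.le_succ m)),
      ha, pow_succ, Nat.mul_div_cancel_left _ (pow_pos hpp.pos m)]
  have h1 : Subgroup.closure ({a ^ p ^ m, b} : Set R) = zpowers (a ^ p ^ m) ⊔ zpowers b := by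
    rw [zpowers_eq_closure, zpowers_eq_closure, ← Subgroup.closure_union]; rfl
  rw [h1, Basic.card_sup_of_inf_eq_bot, Nat.card_zpowers, Nat.card_zpowers, hordA, hb, sq]
  · rw [zpowers_le, Subgroup.mem_normalizer_iff]
    intro x
    constructor
    · intro hx
      obtain ⟨k, rfl⟩ := mem_zpowers_iff.mp hx
      rw [((show Commute b (a ^ p ^ m) from hcen).zpow_right k).eq, mul_inv_cancel_right]
      exact hx
    · intro hx
      obtain ⟨k, hk⟩ := mem_zpowers_iff.mp hx
      have : x = b⁻¹ * (a ^ p ^ m) ^ k * b := by rw [hk]; group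
      rw [this, ((show Commute b (a ^ p ^ m) from hcen).inv_left.zpow_right k).eq, inv_mul_cancel_right]
      exact zpow_mem (mem_zpowers _) k
  · rw [eq_bot_iff]
    intro x hx
    obtain ⟨h2, h3⟩ := Subgroup.mem_inf.mp hx
    by_contra hx1
    rw [Subgroup.mem_bot] at hx1
    have h4 : orderOf x = p := orderOf_eq_prime (hexp x (h1 ▸ mem_sup_left h2)) hx1
    have h5 : zpowers x = zpowers b := by
      apply Subgroup.eq_of_le_of_card_ge (zpowers_le.mpr h3)
      rw [Nat.card_zpowers, Nat.card_zpowers, h4, hb]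
    have h6 : b ∈ zpowers x := h5 ▸ mem_zpowers b
    exact hba (zpowers_le.mpr (pow_mem (mem_zpowers a) _) (zpowers_le.mpr h2 h6))

end Cfsg.Agent.S0127
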