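import Cfsg.Statements.S0129
import Cfsg.Agent.Lib.PGrpB

set_option autoImplicit false
open Cfsg

namespace Cfsg.Agent.S0129

open Subgroup Cfsg.Agent.Lib Cfsg.Agent.Lib.PGrpA Cfsg.Agent.Lib.PGrpB

/-- The order of a p-group is bounded by p^(a(a+1)/2) when it has a maximal normal abelian subgroup of order p^a. -/
theorem result {G : Type*} [Group G] [Finite G] {p : ℕ} [Fact p.Prime] (hG : IsPGroup p G) (A : Subgroup G) [A.Normal] (hA : IsMulCommutative A) (hmax : ∀ B : Subgroup G, B.Normal → IsMulCommutative B → A ≤ B → B = A) (a : ℕ) (ha : Nat.card A = p ^ a) : Nat.card G ≤ p ^ (a * (a + 1) / 2) := by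
  have hp : p.Prime := Fact.out
  have := hG.isNilpotent
  have hC : centralizer (A : Set G) = A := Nilp.centralizer_eq_of_maximal_abelian_normal A hA hmax
  have h1 := index_centralizer_le hG a A inferInstance ha
  rw [hC] at h1
  rw [← A.card_mul_index, ha]
  calc _ ≤ p ^ a * p ^ (a * (a - 1) / 2) := Nat.mul_le_mul_left _ h1
    _ = p ^ (a + a * (a - 1) / 2) := by rw [pow_add]
    _ ≤ _ := by
      apply Nat.pow_le_pow_right hp.pos
      apply le_of_eq
      cases a with
      | zero => simp
      | succ b =>
        simp only [Nat.add_sub_cancel]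
        have h2 : 2 ∣ (b + 1) * b := by
          rw [mul_comm]; exact Nat.even_mul_succ_self b |>.two_dvd
        obtain ⟨c, hc⟩ := h2
        rw [hc, Nat.mul_div_cancel_left _ (by norm_num)]
        have h3 : (b + 1) * (b + 1 + 1) = 2 * (b + 1 + c) := by
          have : (b + 1) * (b + 1 + 1) = (b + 1) * b + 2 * (b + 1) := by ring
          rw [this, hc]; ring
        rw [h3, Nat.mul_div_cancel_left _ (by norm_num)]

end Cfsg.Agent.S0129
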