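import Cfsg.Statements.S0130
import Cfsg.Agent.Lib.PGrpB

set_option autoImplicit false
open Cfsg

namespace Cfsg.Agent.S0130

open Subgroup Cfsg.Agent.Lib Cfsg.Agent.Lib.PGrpA Cfsg.Agent.Lib.PGrpB

/-- If A is maximal among the normal abelian subgroups of exponent dividing p^n of a p-group (p^n ≠ 2), then A contains every element of order dividing p^n in its centralizer. -/
theorem result {G : Type*} [Group G] [Finite G] {p : ℕ} [Fact p.Prime] (hG : IsPGroup p G) (n : ℕ) (hn : p ^ n ≠ 2) (A : Subgroup G) [A.Normal] (hA : IsMulCommutative A) (hAe : ∀ a ∈ A, a ^ p ^ n = 1) (hmax : ∀ B : Subgroup G, B.Normal → IsMulCommutative B → (∀ b ∈ B, b ^ p ^ n = 1) → A ≤ B → B = A) (x : G) (hx : x ∈ Subgroup.centralizer (A : Set G)) (hxn : x ^ p ^ n = 1) : x ∈ A := by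
  rcases Nat.eq_zero_or_pos n with h0 | h0
  · subst h0
    rw [pow_zero, pow_one] at hxn
    rw [hxn]; exact one_mem _
  · exact maximal_normal_abelian hG h0.ne' hn (S := ⊤) le_top (Nilp.isMulCommutative_iff_forall.mp hA) hAe
      (fun B hB _ hBc hBe hAB => hmax B hB (Nilp.isMulCommutative_iff_forall.mpr hBc) hBe hAB)
      (mem_top x) (fun a ha => mem_centralizer_iff.mp hx a ha) hxn

end Cfsg.Agent.S0130
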