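import Cfsg.Statements.S0131
import Cfsg.Agent.Lib.PNilp

set_option autoImplicit false
open Cfsg

namespace Cfsg.Agent.S0131

open Cfsg.Agent.Lib.PNilp Subgroup

/-- P/P' has a normal complement in G exactly when the focal subgroup G' ∩ P is as small as possible, namely P'. -/
theorem result {G : Type*} [Group G] [Finite G] {p : ℕ} [Fact p.Prime] (P : Sylow p G) : (∃ N : Subgroup G, N.Normal ∧ N ⊓ (P : Subgroup G) = ⁅(P : Subgroup G), (P : Subgroup G)⁆ ∧ N ⊔ (P : Subgroup G) = ⊤) ↔ commutator G ⊓ (P : Subgroup G) = ⁅(P : Subgroup G), (P : Subgroup G)⁆ := by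
  have hcop := focal_index_coprime_sylow P
  constructor
  · rintro ⟨N, hN, h1, h2⟩
    apply le_antisymm
    · -- G/N ≅ P / (N ⊓ P) abelian
      rw [← h1]
      apply inf_le_inf_right
      rw [commutator_def, commutator_le]
      intro x _ y _
      rw [← QuotientGroup.eq_one_iff]
      obtain ⟨a, ha, n, hn, rfl⟩ := (Cfsg.Agent.Lib.Basic.mem_sup_iff_right (N := N) (H := P)
        (by rw [normalizer_eq_top]; exact le_top)).mp (h2 ▸ mem_top x)
      obtain ⟨b, hb, m, hm, rfl⟩ := (Cfsg.Agent.Lib.Basic.mem_sup_iff_right (N := N) (H := P)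
        (by rw [normalizer_eq_top]; exact le_top)).mp (h2 ▸ mem_top y)
      have hn' : (n : G ⧸ N) = 1 := (QuotientGroup.eq_one_iff n).mpr hn
      have hm' : (m : G ⧸ N) = 1 := (QuotientGroup.eq_one_iff m).mpr hm
      have hab : ((a * b * a⁻¹ * b⁻¹ : G) : G ⧸ N) = 1 := by
        rw [QuotientGroup.eq_one_iff]
        have : a * b * a⁻¹ * b⁻¹ ∈ ⁅(P : Subgroup G), (P : Subgroup G)⁆ := by
          have := commutator_mem_commutator ha hb
          exact this
        rw [← h1] at this
        exact (mem_inf.mp this).1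
      simp only [commutatorElement_def, QuotientGroup.mk_mul, QuotientGroup.mk_inv, hn', hm',
        mul_one] at hab ⊢
      exact hab
    · exact le_inf (commutator_mono le_top le_top) (commutator_le_self _)
  · intro h
    refine ⟨(P : Subgroup G).transferFocal.ker, inferInstance, ?_, ker_transferFocal_sup _ hcop⟩
    rw [ker_transferFocal_inf _ hcop, ← commutator_inf_eq_focal _ hcop, h]

end Cfsg.Agent.S0131
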