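import Cfsg.Statements.S0132
import Cfsg.Agent.Lib.MinNil

set_option autoImplicit false
open Cfsg

namespace Cfsg.Agent.S0132

open Cfsg.Agent.Lib.PNilp Cfsg.Agent.Lib.MinNil Subgroup

/-- A minimal non-p-nilpotent finite group is a minimal non-nilpotent group with a normal Sylow p-subgroup. -/
theorem result {G : Type*} [Group G] [Finite G] {p : ℕ} [Fact p.Prime] (h1 : ¬ Cfsg.HasNormalPComplement p G) (h2 : ∀ H : Subgroup G, H ≠ ⊤ → Cfsg.HasNormalPComplement p H) : (∀ H : Subgroup G, H ≠ ⊤ → Group.IsNilpotent H) ∧ ¬ Group.IsNilpotent G ∧ ∀ P : Sylow p G, (P : Subgroup G).Normal := by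
  rw [hasNormalPComplement_iff] at h1
  have h2' : ∀ H : Subgroup G, H ≠ ⊤ → PNil p H := fun H hH => hasNormalPComplement_iff.mp (h2 H hH)
  refine ⟨proper_nilpotent h1 h2', fun h => h1 (pNil_of_isNilpotent h), fun R => ?_⟩
  obtain ⟨P, hPn, -⟩ := ito_structure h1 h2'
  have := Sylow.unique_of_normal P hPn
  have hR : R = P := Subsingleton.elim R P
  rw [hR]; exact hPn

end Cfsg.Agent.S0132
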