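import Cfsg.Statements.S0162
import Cfsg.Agent.Lib.CharTable
import Cfsg.Agent.Lib.CharInt

set_option autoImplicit false
open Cfsg

namespace Cfsg.Agent.S0162

/-- If a finite group has odd order, its order is congruent to its number of conjugacy classes modulo 16. -/
theorem result {G : Type*} [Group G] [Finite G] (hodd : Odd (Nat.card G)) : Nat.card G ≡ Nat.card (ConjClasses G) [MOD 16] := by
  classical
  cases nonempty_fintype G
  choose d hd0 hd using fun χ : Cfsg.IrrCharacter G => Lib.CharBasic.isIrr_one_eq χ.2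
  have hsum := Lib.CharTable.sum_sq_degrees d hd
  rw [← Lib.CharBasic.card_irr, Nat.card_eq_fintype_card (α := Cfsg.IrrCharacter G)]
  have hoddd : ∀ χ, Odd (d χ) := by
    intro χ
    obtain ⟨n, ρ, hρ, hρχ⟩ := χ.2
    have h1 : d χ = n := by
      have := hd χ
      rw [← hρχ, Representation.char_one] at this
      have h2 : ((Module.finrank ℂ (Fin n → ℂ) : ℕ) : ℂ) = d χ := this
      rw [Module.finrank_fin_fun] at h2
      exact_mod_cast h2.symm
    have h2 := Lib.CharInt.degree_dvd_card ρ
    rw [Module.finrank_fin_fun, ← h1] at h2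
    exact hodd.of_dvd_nat h2
  have h8 : ∀ χ, ∃ e : ℕ, d χ ^ 2 = 1 + 8 * e := by
    intro χ
    obtain ⟨k, hk⟩ := hoddd χ
    have : 2 ∣ k * (k + 1) := (Nat.even_mul_succ_self k).two_dvd
    obtain ⟨e, he⟩ := this
    refine ⟨e, ?_⟩
    rw [hk]
    nlinarith
  choose e he using h8
  have heven : (∑ χ : Cfsg.IrrCharacter G, (e χ : ZMod 2)) = 0 := by
    apply Finset.sum_involution (fun χ _ => Lib.CharTable.conjPerm χ)
    · intro χ _
      have : e (Lib.CharTable.conjPerm χ) = e χ := by
        have h1 : d (Lib.CharTable.conjPerm χ) = d χ := by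
          have h2 := hd (Lib.CharTable.conjPerm χ)
          have h3 : (Lib.CharTable.conjPerm χ).1 1 = (starRingEnd ℂ) (χ.1 1) := rfl
          rw [h3, hd χ] at h2
          simp only [map_natCast] at h2
          exact_mod_cast h2.symm
        have h2 := he (Lib.CharTable.conjPerm χ)
        rw [h1, he χ] at h2
        omega
      rw [this]
      exact CharTwo.add_self_eq_zero _
    · intro χ _ hne heq
      apply hne
      have hreal : ∀ g : G, (χ.1 g).im = 0 := by
        intro g
        exact Complex.conj_eq_iff_im.mp (congrFun (congrArg Subtype.val heq) g)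
      have h1 := Lib.CharTable.real_eq_one_of_odd hodd χ hreal
      have h2 : d χ = 1 := by
        have h3 := hd χ
        rw [h1] at h3
        have h4 : (1:ℂ) = (d χ : ℂ) := h3
        exact_mod_cast h4.symm
      have h3 := he χ
      rw [h2] at h3
      have : e χ = 0 := by omega
      rw [this]; simp
    · intro χ _
      exact Lib.CharTable.conjPerm.left_inv χ
    · intro χ _; exact Finset.mem_univ _
  have h2 : (2 : ℕ) ∣ ∑ χ : Cfsg.IrrCharacter G, e χ := by
    rw [← ZMod.natCast_eq_zero_iff]
    push_cast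
    exact heven
  obtain ⟨m, hm⟩ := h2
  rw [← hsum]
  have h3 : ∑ χ : Cfsg.IrrCharacter G, d χ ^ 2 = Fintype.card (Cfsg.IrrCharacter G) + 16 * m := by
    rw [Finset.sum_congr rfl (fun χ _ => he χ), Finset.sum_add_distrib, ← Finset.mul_sum, hm]
    simp
    ring
  rw [h3]
  unfold Nat.ModEq
  simp
end Cfsg.Agent.S0162
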