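import Cfsg.Statements.S0163
import Cfsg.Agent.Lib.CharBrauer

set_option autoImplicit false
open Cfsg

namespace Cfsg.Agent.S0163

/-- Brauer's induction Theorem: every character of a finite group is a ℤ-linear combination of functions induced from linear characters (homomorphisms to ℂˣ) of elementary subgroups. -/
theorem result {G : Type*} [Group G] [Fintype G] (χ : G → ℂ) (hχ : Cfsg.IsCharacter G χ) : ∃ l : List ((E : Subgroup G) × ((E →* ℂˣ) × ℤ)), (∀ t ∈ l, ∃ p : ℕ, p.Prime ∧ Cfsg.IsElementary p t.1) ∧ χ = (l.map fun t => (t.2.2 : ℂ) • Cfsg.indFun t.1 (fun e => (t.2.1 e : ℂ))).sum := by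
  have h := Lib.CharBrauer.mem_lin_span (Lib.CharBrauer.brauer hχ)
  clear hχ
  induction h using AddSubgroup.closure_induction with
  | mem x hx =>
    obtain ⟨p, E, l, hp, hE, rfl⟩ := hx
    refine ⟨[⟨E, l, 1⟩], ?_, ?_⟩
    · intro t ht
      rw [List.mem_singleton] at ht
      subst ht
      exact ⟨p, hp, hE⟩
    · simp only [List.map_cons, List.map_nil, List.sum_cons, List.sum_nil, Int.cast_one, one_smul,
        add_zero]
      rfl
  | zero => exact ⟨[], by simp, by simp⟩
  | add x y _ _ hx hy =>
    obtain ⟨l1, h1, h2⟩ := hx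
    obtain ⟨l2, h3, h4⟩ := hy
    refine ⟨l1 ++ l2, ?_, ?_⟩
    · intro t ht
      rcases List.mem_append.mp ht with h | h
      · exact h1 t h
      · exact h3 t h
    · rw [List.map_append, List.sum_append, ← h2, ← h4]
  | neg x _ hx =>
    obtain ⟨l1, h1, h2⟩ := hx
    refine ⟨l1.map (fun t => ⟨t.1, t.2.1, -t.2.2⟩), ?_, ?_⟩
    · intro t ht
      obtain ⟨s, hs, rfl⟩ := List.mem_map.mp ht
      exact h1 s hs
    · rw [List.map_map, h2]
      clear h1 h2
      induction l1 with
      | nil => simp
      | cons a l ih =>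
        rw [List.map_cons, List.sum_cons, List.map_cons, List.sum_cons, ← ih]
        simp; abel
end Cfsg.Agent.S0163
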