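import Cfsg.Statements.S0168
import Cfsg.Agent.Lib.CharRep

set_option autoImplicit false
open Cfsg

namespace Cfsg.Agent.S0168

/-- The Burnside–Brauer Theorem. Let χ be the character of a faithful complex representation of a finite group, taking m distinct values. Then every irreducible character has nonzero inner product with χ ^ i for some i < m. -/
theorem result {G : Type*} [Group G] [Fintype G] {V : Type*} [AddCommGroup V] [Module ℂ V] [FiniteDimensional ℂ V] (ρ : Representation ℂ G V) (hfaithful : Function.Injective ρ) (ψ : G → ℂ) (hψ : Cfsg.IsIrrCharacter G ψ) : ∃ i : ℕ, i < Nat.card (Set.range ρ.character) ∧ Cfsg.classInner (fun g => ρ.character g ^ i) ψ ≠ 0 := by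
  classical
  by_contra hcon
  push Not at hcon
  have hfin : (Set.range ρ.character).Finite := Set.finite_range _
  let s : Finset ℂ := hfin.toFinset
  have hs : ∀ g, ρ.character g ∈ s := fun g => hfin.mem_toFinset.mpr ⟨g, rfl⟩
  have hcard : s.card = Nat.card (Set.range ρ.character) := by
    rw [Nat.card_coe_set_eq, Set.ncard_eq_toFinset_card _ hfin]
  -- the Lagrange polynomial which is `1` at the degree and `0` at the other values
  let P : Polynomial ℂ := Lagrange.interpolate s id (fun z => if z = ρ.character 1 then 1 else 0)
  have hP : ∀ g, P.eval (ρ.character g) = if ρ.character g = ρ.character 1 then 1 else 0 := by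
    intro g
    have := Lagrange.eval_interpolate_at_node (s := s) (v := id)
      (fun z : ℂ => if z = ρ.character 1 then (1 : ℂ) else 0) (fun _ _ _ _ h => h) (hs g)
    simpa [P] using this
  have hdeg : P.degree < s.card := Lagrange.degree_interpolate_lt _ (fun _ _ _ _ h => h)
  have h1 : classInner (fun g => P.eval (ρ.character g)) ψ = 0 := by
    have : (fun g => P.eval (ρ.character g)) =
        ∑ i ∈ Finset.range s.card, P.coeff i • (fun g => ρ.character g ^ i) := by
      funext g
      have hP0 : P ≠ 0 := by
        intro h0
        have := hP 1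
        rw [h0] at this
        simp at this
      rw [Polynomial.eval_eq_sum_range' ((Polynomial.natDegree_lt_iff_degree_lt hP0).mpr hdeg)]
      simp [Finset.sum_apply]
    rw [this, Lib.CharBasic.classInner_sum_left]
    refine Finset.sum_eq_zero fun i hi => ?_
    rw [Lib.CharBasic.classInner_smul_left, hcon i (by rw [← hcard]; exact Finset.mem_range.mp hi),
      mul_zero]
  rw [Lib.CharBasic.classInner_def] at h1
  simp only [hP] at h1
  have h2 : ∀ g : G, ρ.character g = ρ.character 1 ↔ g = 1 := by
    intro g
    constructor
    · intro h
      rw [ρ.char_one] at h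
      have := (Lib.CharRep.char_eq_degree_iff ρ g).mp h
      exact hfaithful (by rw [this, map_one]; rfl)
    · rintro rfl; rfl
  simp only [h2, ite_mul, one_mul, zero_mul, Finset.sum_ite_eq', Finset.mem_univ, if_true] at h1
  rcases mul_eq_zero.mp h1 with h | h
  · exact Lib.CharBasic.card_ne_zero' (inv_eq_zero.mp h)
  · rw [map_eq_zero] at h
    exact Lib.CharBasic.isIrr_one_ne_zero hψ h
end Cfsg.Agent.S0168
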