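import Cfsg.Statements.S0175
import Cfsg.Agent.Lib.CharInd
import Cfsg.Agent.Lib.CharKer

set_option autoImplicit false
open Cfsg

namespace Cfsg.Agent.S0175

open Cfsg.Agent.Lib.CharBasic Cfsg.Agent.Lib.CharInd

theorem aux_mem {G : Type*} [Group G] [Fintype G] (H : Subgroup G) (x : G)
    (h : Cfsg.indFun H (fun _ => 1) x = Cfsg.indFun H (fun _ => 1) 1) : x ∈ H := by
  classical
  have key : ∀ y : G, Cfsg.indFun H (fun _ => 1) y =
      (Nat.card H : ℂ)⁻¹ * ((Finset.univ.filter (fun g : G => g⁻¹ * y * g ∈ H)).card : ℂ) := by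
    intro y
    rw [indFun_apply, ← Finset.sum_boole]
    congr 1
    refine Finset.sum_congr rfl fun g _ => ?_
    by_cases hg : g⁻¹ * y * g ∈ H
    · rw [ext_mem H _ hg, if_pos hg]
    · rw [ext_notMem H _ hg, if_neg hg]
  rw [key, key] at h
  have h0 : (Nat.card H : ℂ)⁻¹ ≠ 0 := inv_ne_zero (Nat.cast_ne_zero.mpr Nat.card_pos.ne')
  have h1 := mul_left_cancel₀ h0 h
  have h2 : (Finset.univ.filter (fun g : G => g⁻¹ * 1 * g ∈ H)) = Finset.univ := by
    apply Finset.filter_true_of_mem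
    intro g _
    rw [mul_one, inv_mul_cancel]; exact H.one_mem
  rw [h2] at h1
  have h3 : (Finset.univ.filter (fun g : G => g⁻¹ * x * g ∈ H)).card = (Finset.univ : Finset G).card := by exact_mod_cast h1
  have h4 := Finset.eq_univ_of_card _ (h3.trans Finset.card_univ)
  have h5 : (1 : G) ∈ Finset.univ.filter (fun g : G => g⁻¹ * x * g ∈ H) := by rw [h4]; exact Finset.mem_univ _
  have h6 := (Finset.mem_filter.mp h5).2
  rwa [inv_one, one_mul, mul_one] at h6

theorem aux_step {G : Type*} [Group G] [Fintype G]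
    (hM : ∀ χ : G → ℂ, Cfsg.IsIrrCharacter G χ → ∃ (H : Subgroup G) (lam : H →* ℂˣ), χ = Cfsg.indFun H (fun h => (lam h : ℂ)))
    (n : ℕ) : ∃ m : ℕ, ∀ χ : G → ℂ, Cfsg.IsIrrCharacter G χ → ∀ d : ℕ, χ 1 = d → d ≤ n → ∀ x ∈ derivedSeries G m, χ x = χ 1 := by
  classical
  induction n with
  | zero =>
    refine ⟨0, fun χ hχ d hd hd0 => ?_⟩
    exact absurd (by rw [hd, Nat.le_zero.mp hd0, Nat.cast_zero]) (isIrr_one_ne_zero hχ)
  | succ n ih =>
    obtain ⟨m, hm⟩ := ih
    refine ⟨m + 1, fun χ hχ d hd hdn x hx => ?_⟩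
    by_cases hdn' : d ≤ n
    · exact hm χ hχ d hd hdn' x (derivedSeries_antitone G (Nat.le_succ m) hx)
    have hdn1 : d = n + 1 := by omega
    obtain ⟨H, lam, hlam⟩ := hM χ hχ
    have hidx : H.index = n + 1 := by
      have h1 := indFun_one H (fun h => (lam h : ℂ))
      rw [← hlam, hd, map_one, Units.val_one, mul_one, hdn1] at h1
      exact_mod_cast h1.symm
    have hθc : Cfsg.IsCharacter G (Cfsg.indFun H (fun _ => (1:ℂ))) := isChar_ind H isChar_trivial
    obtain ⟨a, ha⟩ := exists_mult hθc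
    let one : Cfsg.IrrCharacter G := ⟨fun _ => 1, isIrr_trivial⟩
    have ha1 : a one = 1 := by
      have h1 := inner_sum_irr (fun χ => (a χ : ℂ)) one
      rw [← ha] at h1
      rw [reciprocity H _ _ (classFn_const 1)] at h1
      have h2 : Cfsg.classInner (fun _ : H => (1:ℂ)) (fun _ : H => (1:ℂ)) = 1 := irr_inner_self isIrr_trivial
      have h3 : (a one : ℂ) = 1 := h1.symm.trans h2
      exact_mod_cast h3
    choose dg hdg1 hdg2 using fun φ : Cfsg.IrrCharacter G => isIrr_one_eq φ.2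
    have hsum : n + 1 = ∑ φ : Cfsg.IrrCharacter G, a φ * dg φ := by
      have h1 := congrFun ha 1
      rw [indFun_one, mul_one, hidx, Finset.sum_apply] at h1
      have h2 : ((n + 1 : ℕ) : ℂ) = ((∑ φ : Cfsg.IrrCharacter G, a φ * dg φ : ℕ) : ℂ) := by
        rw [h1, Nat.cast_sum]
        refine Finset.sum_congr rfl fun φ _ => ?_
        rw [Pi.smul_apply, smul_eq_mul, hdg2, Nat.cast_mul]
      exact_mod_cast h2
    have hker : ∀ y ∈ derivedSeries G m, Cfsg.indFun H (fun _ => 1) y = Cfsg.indFun H (fun _ => 1) 1 := by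
      intro y hy
      rw [ha, Finset.sum_apply, Finset.sum_apply]
      refine Finset.sum_congr rfl fun φ _ => ?_
      rw [Pi.smul_apply, Pi.smul_apply]
      by_cases haφ : a φ = 0
      · rw [haφ, Nat.cast_zero, zero_smul, zero_smul]
      by_cases hφ1 : φ = one
      · rw [hφ1]
      have h1 : a one * dg one + a φ * dg φ ≤ n + 1 := by
        rw [hsum, ← Finset.sum_pair (f := fun φ => a φ * dg φ) (Ne.symm hφ1)]
        exact Finset.sum_le_sum_of_subset (Finset.subset_univ _)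
      have h2 : 1 ≤ a one * dg one := by
        rw [ha1, one_mul]; exact hdg1 one
      have h3 : dg φ ≤ a φ * dg φ := Nat.le_mul_of_pos_left _ (Nat.pos_of_ne_zero haφ)
      rw [hm φ.1 φ.2 (dg φ) (hdg2 φ) (by omega) y hy]
    have hle : derivedSeries G m ≤ H := fun y hy => aux_mem H y (hker y hy)
    have hle2 : derivedSeries G (m + 1) ≤ lam.ker.map H.subtype := by
      rw [derivedSeries_succ, Subgroup.commutator_le]
      intro g₁ hg₁ g₂ hg₂
      refine ⟨(⟨g₁, hle hg₁⟩ : H) * ⟨g₂, hle hg₂⟩ * (⟨g₁, hle hg₁⟩ : H)⁻¹ * (⟨g₂, hle hg₂⟩ : H)⁻¹, ?_, rfl⟩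
      show lam _ = 1
      rw [map_mul, map_mul, map_mul, map_inv, map_inv, mul_comm (lam _) (lam _), mul_inv_cancel_right, mul_inv_cancel]
    have hval : ∀ y ∈ derivedSeries G (m + 1), Cfsg.extendByZero H (fun h => (lam h : ℂ)) y = 1 := by
      intro y hy
      obtain ⟨z, hz, rfl⟩ := hle2 hy
      have h1 : lam z = 1 := hz
      show Cfsg.extendByZero H (fun h => (lam h : ℂ)) (z : G) = 1
      rw [ext_mem H _ z.2]
      show (lam z : ℂ) = 1
      rw [h1, Units.val_one]
    rw [hlam, indFun_apply, indFun_apply]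
    congr 1
    refine Finset.sum_congr rfl fun g _ => ?_
    rw [hval _ (by
      have h1 := (derivedSeries_normal G (m + 1)).conj_mem x hx g⁻¹
      rwa [inv_inv] at h1), hval _ (by
      rw [mul_one, inv_mul_cancel]; exact Subgroup.one_mem _)]

/-- Taketa's Theorem on M-groups: if every irreducible complex character of a finite group is induced from a linear character (a homomorphism to ℂˣ) of some subgroup, the group is solvable. -/
theorem result {G : Type*} [Group G] [Fintype G] (hM : ∀ χ : G → ℂ, Cfsg.IsIrrCharacter G χ → ∃ (H : Subgroup G) (lam : H →* ℂˣ), χ = Cfsg.indFun H (fun h => (lam h : ℂ))) : Group.IsSolvable G := by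
  classical
  choose dg hdg1 hdg2 using fun φ : Cfsg.IrrCharacter G => isIrr_one_eq φ.2
  obtain ⟨m, hm⟩ := aux_step hM (∑ φ : Cfsg.IrrCharacter G, dg φ)
  refine ⟨⟨m, ?_⟩⟩
  rw [eq_bot_iff]
  intro x hx
  have h1 : IsConj x 1 := irr_separates fun φ =>
    hm φ.1 φ.2 (dg φ) (hdg2 φ) (Finset.single_le_sum (f := dg) (fun _ _ => Nat.zero_le _) (Finset.mem_univ φ)) x hx
  exact Subgroup.mem_bot.mpr (isConj_one_left.mp h1)
end Cfsg.Agent.S0175
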