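import Cfsg.Statements.S0177
import Cfsg.Agent.Lib.CharMono

set_option autoImplicit false
open Cfsg

namespace Cfsg.Agent.S0177

open Lib.CharBasic Lib.CharInd Lib.CharExc Lib.CharSolomon

/-- `|A|` on generators, zero elsewhere. -/
noncomputable def th (A : Type*) [Group A] : A → ℂ := by
  classical
  exact fun a => if Subgroup.zpowers a = ⊤ then (Nat.card A : ℂ) else 0

theorem th_classFn (A : Type*) [Group A] : IsClassFunction A (th A) := by
  classical
  intro g h
  have : Subgroup.zpowers (h * g * h⁻¹) = ⊤ ↔ Subgroup.zpowers g = ⊤ := by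
    have h1 : Subgroup.zpowers (h * g * h⁻¹) =
        (Subgroup.zpowers g).map (MulAut.conj h).toMonoidHom := by
      rw [MonoidHom.map_zpowers]; simp
    rw [h1]
    constructor
    · intro h2
      rw [eq_top_iff]
      intro x _
      have : (MulAut.conj h) x ∈ (Subgroup.zpowers g).map (MulAut.conj h).toMonoidHom := by
        rw [h2]; trivial
      obtain ⟨y, hy, hyx⟩ := this
      rwa [← (MulAut.conj h).injective hyx]
    · intro h2
      rw [h2]
      exact Subgroup.map_top_of_surjective _ (MulAut.conj h).surjective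
  simp only [th]
  by_cases h1 : Subgroup.zpowers g = ⊤
  · rw [if_pos h1, if_pos (this.mpr h1)]
  · rw [if_neg h1, if_neg (fun h2 => h1 (this.mp h2))]

/-- Artin's identity. -/
theorem sum_th (G : Type*) [Group G] [Fintype G] :
    ∑ A : Subgroup G, indFun A (th A) = fun _ => (Nat.card G : ℂ) := by
  classical
  funext g
  rw [Finset.sum_apply]
  have h1 : ∀ A : Subgroup G, indFun A (th A) g =
      ∑ x : G, if Subgroup.zpowers (x⁻¹ * g * x) = A then (1:ℂ) else 0 := by
    intro A
    rw [indFun_apply, Finset.mul_sum]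
    refine Finset.sum_congr rfl fun x _ => ?_
    have hA : (Nat.card A : ℂ) ≠ 0 := Nat.cast_ne_zero.mpr Nat.card_pos.ne'
    by_cases hx : x⁻¹ * g * x ∈ A
    · rw [ext_mem _ _ hx]
      simp only [th]
      have h2 : Subgroup.zpowers (⟨x⁻¹ * g * x, hx⟩ : A) = ⊤ ↔
          Subgroup.zpowers (x⁻¹ * g * x) = A := by
        constructor
        · intro h
          have := congrArg (Subgroup.map A.subtype) h
          rw [MonoidHom.map_zpowers, ← MonoidHom.range_eq_map, Subgroup.range_subtype] at this
          exact this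
        · intro h
          rw [eq_top_iff]
          rintro ⟨y, hy⟩ _
          rw [← h] at hy
          obtain ⟨k, hk⟩ := hy
          exact ⟨k, Subtype.ext hk⟩
      by_cases h3 : Subgroup.zpowers (x⁻¹ * g * x) = A
      · rw [if_pos h3, if_pos (h2.mpr h3), inv_mul_cancel₀ hA]
      · rw [if_neg h3, if_neg (fun h => h3 (h2.mp h)), mul_zero]
    · rw [ext_notMem _ _ hx, mul_zero, if_neg]
      intro h
      exact hx (by rw [← h]; exact Subgroup.mem_zpowers _)
  simp only [h1]
  rw [Finset.sum_comm]
  simp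

theorem th_gen : ∀ (n : ℕ) (A : Type*) [Group A] [Fintype A], Nat.card A = n → IsCyclic A →
    IsGeneralizedCharacter A (th A) := by
  intro n
  induction n using Nat.strong_induction_on with
  | _ n ih =>
  intro A _ _ hn hcyc
  classical
  have h := sum_th A
  rw [← Finset.add_sum_erase _ _ (Finset.mem_univ (⊤ : Subgroup A))] at h
  have h1 : indFun (⊤ : Subgroup A) (th (⊤ : Subgroup A)) = th A := by
    rw [← Lib.CharMono.indFun_top (th_classFn A)]
    congr 1
    funext x
    simp only [th]
    have h2 : Subgroup.zpowers x = ⊤ ↔ Subgroup.zpowers (x : A) = ⊤ := by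
      constructor
      · intro h
        have := congrArg (Subgroup.map (⊤ : Subgroup A).subtype) h
        rw [MonoidHom.map_zpowers, ← MonoidHom.range_eq_map, Subgroup.range_subtype] at this
        exact this
      · intro h
        rw [eq_top_iff]
        rintro ⟨y, hy⟩ _
        have hy' : y ∈ Subgroup.zpowers (x : A) := by rw [h]; trivial
        obtain ⟨k, hk⟩ := hy'
        exact ⟨k, Subtype.ext hk⟩
    have h3 : Nat.card (⊤ : Subgroup A) = Nat.card A := Nat.card_congr Subgroup.topEquiv.toEquiv
    rw [h3]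
    by_cases h4 : Subgroup.zpowers x = ⊤
    · rw [if_pos h4, if_pos (h2.mp h4)]
    · rw [if_neg h4, if_neg (fun h => h4 (h2.mpr h))]
  rw [h1] at h
  have h2 : th A = (fun _ => (Nat.card A : ℂ)) -
      ∑ B ∈ Finset.univ.erase (⊤ : Subgroup A), indFun B (th B) := by
    rw [← h]; abel
  rw [h2]
  refine gen_sub ?_ (gen_sum _ _ fun B hB => ?_)
  · have : (fun _ : A => (Nat.card A : ℂ)) = ((Nat.card A : ℕ) : ℂ) • fun _ => (1:ℂ) := by
      funext x; simp
    rw [this]
    exact gen_nsmul _ (gen_of_irr isIrr_trivial)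
  · have hB' : B ≠ ⊤ := (Finset.mem_erase.mp hB).1
    have : Fintype B := Fintype.ofFinite _
    apply isGen_ind
    refine ih (Nat.card B) ?_ B rfl inferInstance
    rw [← hn]
    exact lt_of_le_of_ne (Subgroup.card_le_card_group _)
      (fun h => hB' ((Subgroup.card_eq_iff_eq_top _).mp h))

theorem mem_span (G : Type*) [Group G] [Fintype G] (χ : G → ℂ) (hχ : IsCharacter G χ) :
    (Nat.card G : ℂ) • χ ∈ AddSubgroup.closure {φ : G → ℂ | ∃ (A : Subgroup G) (l : A →* ℂˣ),
      IsCyclic A ∧ φ = indFun A (fun a => (l a : ℂ))} := by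
  classical
  have h1 : (Nat.card G : ℂ) • χ = ∑ A : Subgroup G, indFun A (th A * fun a : A => χ a) := by
    have h2 : (Nat.card G : ℂ) • χ = (fun _ => (Nat.card G : ℂ)) * χ := by funext x; simp
    rw [h2, ← sum_th, Finset.sum_mul]
    refine Finset.sum_congr rfl fun A _ => ?_
    rw [indFun_mul _ _ _ (isChar_classFn hχ)]
  rw [h1]
  refine sum_mem fun A _ => ?_
  have : Fintype A := Fintype.ofFinite _
  by_cases hA : IsCyclic A
  · obtain ⟨α, β, hα, hβ, hαβ⟩ := gen_mul (th_gen _ A rfl hA) (gen_of_char (isChar_res A hχ))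
    rw [hαβ, indFun_sub]
    have key : ∀ α : A → ℂ, IsCharacter A α → indFun A α ∈
        AddSubgroup.closure {φ : G → ℂ | ∃ (A : Subgroup G) (l : A →* ℂˣ),
          IsCyclic A ∧ φ = indFun A (fun a => (l a : ℂ))} := by
      intro α hα
      rw [char_eq_sum_inner hα, indFun_sum]
      refine sum_mem fun ψ _ => ?_
      obtain ⟨n, hn⟩ := exists_nat_inner hα ψ.2
      rw [hn, indFun_smul, Nat.cast_smul_eq_nsmul]
      refine nsmul_mem ?_ n
      obtain ⟨l, hl⟩ := irr_lin_of_comm
        (IsCyclic.isMulCommutative (α := A)).is_comm.comm ψ.2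
      rw [hl]
      exact AddSubgroup.subset_closure ⟨A, l, hA, rfl⟩
    exact sub_mem (key α hα) (key β hβ)
  · have h3 : th A = 0 := by
      funext a
      simp only [th]
      rw [if_neg]
      · rfl
      · intro h
        exact hA (isCyclic_iff_exists_zpowers_eq_top.mpr ⟨a, h⟩)
    rw [h3, zero_mul, indFun_zero]
    exact zero_mem _

/-- The Artin induction Theorem: for a character χ of a finite group, |G| • χ is a ℤ-linear combination of functions induced from homomorphisms of cyclic subgroups into ℂˣ. -/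
theorem result {G : Type*} [Group G] [Fintype G] (χ : G → ℂ) (hχ : Cfsg.IsCharacter G χ) : ∃ l : List ((A : Subgroup G) × ((A →* ℂˣ) × ℤ)), (∀ t ∈ l, IsCyclic t.1) ∧ (Nat.card G : ℂ) • χ = (l.map fun t => (t.2.2 : ℂ) • Cfsg.indFun t.1 (fun a => (t.2.1 a : ℂ))).sum := by
  have h := mem_span G χ hχ
  clear hχ
  generalize (Nat.card G : ℂ) • χ = f at h ⊢
  induction h using AddSubgroup.closure_induction with
  | mem x hx =>
    obtain ⟨A, l, hA, rfl⟩ := hx
    refine ⟨[⟨A, l, 1⟩], ?_, ?_⟩
    · intro t ht
      rw [List.mem_singleton] at ht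
      subst ht
      exact hA
    · simp only [List.map_cons, List.map_nil, List.sum_cons, List.sum_nil, Int.cast_one, one_smul,
        add_zero]
  | zero => exact ⟨[], by simp, by simp⟩
  | add x y _ _ hx hy =>
    obtain ⟨l1, h1, h2⟩ := hx
    obtain ⟨l2, h3, h4⟩ := hy
    refine ⟨l1 ++ l2, ?_, ?_⟩
    · intro t ht
      rcases List.mem_append.mp ht with h | h
      · exact h1 t h
      · exact h3 t h
    · rw [List.map_append, List.sum_append, ← h2, ← h4]
  | neg x _ hx =>
    obtain ⟨l1, h1, h2⟩ := hx
    refine ⟨l1.map (fun t => ⟨t.1, t.2.1, -t.2.2⟩), ?_, ?_⟩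
    · intro t ht
      obtain ⟨s, hs, rfl⟩ := List.mem_map.mp ht
      exact h1 s hs
    · rw [List.map_map, h2]
      clear h1 h2
      induction l1 with
      | nil => simp
      | cons a l ih =>
        rw [List.map_cons, List.sum_cons, List.map_cons, List.sum_cons, ← ih]
        simp; abel
end Cfsg.Agent.S0177
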