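import Cfsg.Statements.S0178
import Cfsg.Agent.Lib.CharInd

set_option autoImplicit false
open Cfsg

namespace Cfsg.Agent.S0178

/-- The degree of an irreducible complex representation of a finite group is at most the index of any abelian subgroup. -/
theorem result {G : Type*} [Group G] [Finite G] {V : Type*} [AddCommGroup V] [Module ℂ V] [FiniteDimensional ℂ V] (ρ : Representation ℂ G V) [ρ.IsIrreducible] (A : Subgroup G) (hA : ∀ a ∈ A, ∀ b ∈ A, a * b = b * a) : Module.finrank ℂ V ≤ A.index := by
  classical
  cases nonempty_fintype G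
  have : Fintype A := Fintype.ofFinite _
  have hχ := Lib.CharBasic.isIrrCharacter_of_rep ρ
  have hres := Lib.CharInd.isChar_res A (Lib.CharBasic.isChar_of_irr hχ)
  have hne : (fun x : A => ρ.character x) ≠ 0 := by
    intro h
    have := congrFun h 1
    simp only [OneMemClass.coe_one, Pi.zero_apply] at this
    exact Lib.CharBasic.isIrr_one_ne_zero hχ this
  obtain ⟨ψ, hψ⟩ := Lib.CharBasic.char_ne_zero_exists_constituent hres hne
  have hcomm : ∀ a b : A, a * b = b * a := fun a b => Subtype.ext (hA a a.2 b b.2)
  obtain ⟨lam, hlam⟩ := Lib.CharBasic.irr_lin_of_comm hcomm ψ.2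
  have h1 : Cfsg.classInner (Cfsg.indFun A ψ.1) ρ.character ≠ 0 := by
    rw [Lib.CharInd.reciprocity A ψ.1 _ (Lib.CharBasic.isChar_classFn (Lib.CharBasic.isChar_of_irr hχ)),
      ← Lib.CharBasic.classInner_conj_symm]
    simpa using hψ
  have h2 := Lib.CharInd.degree_le_of_constituent
    (Lib.CharInd.isChar_ind A (Lib.CharBasic.isChar_of_irr ψ.2)) hχ h1
  rw [Lib.CharInd.indFun_one, Representation.char_one, hlam] at h2
  simp only [map_one, Units.val_one, mul_one, Complex.natCast_re] at h2
  exact_mod_cast h2
end Cfsg.Agent.S0178
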