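import Cfsg.Statements.S0181
import Cfsg.Agent.Lib.CharKer
import Cfsg.Agent.Lib.CharInt
import Cfsg.Agent.Lib.CharClifford

set_option autoImplicit false
open Cfsg

namespace Cfsg.Agent.S0181

open Lib.CharBasic Lib.CharInd Lib.CharNormal Lib.CharKer

/-- Let H be a normal subgroup of a finite group G and ρ an irreducible complex representation whose kernel does not contain H. If g commutes with no non-identity element of H, then the character of ρ vanishes at g. -/
theorem result {G : Type*} [Group G] [Finite G] {V : Type*} [AddCommGroup V] [Module ℂ V] [FiniteDimensional ℂ V] (ρ : Representation ℂ G V) [ρ.IsIrreducible] (H : Subgroup G) [H.Normal] (hker : ∃ h ∈ H, ρ h ≠ LinearMap.id) (g : G) (hg : ∀ h ∈ H, h * g = g * h → h = 1) : ρ.character g = 0 := by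
  classical
  cases nonempty_fintype G
  cases nonempty_fintype H
  have hirr : IsIrrCharacter G ρ.character := isIrrCharacter_of_rep ρ
  have hcl : IsClassFunction G ρ.character := isChar_classFn (isChar_of_irr hirr)
  -- `g` is conjugate to each element of `H g`
  let f : H → H := fun x => ⟨x * (g * (x : G)⁻¹ * g⁻¹), H.mul_mem x.2
    (Subgroup.Normal.conj_mem inferInstance _ (H.inv_mem x.2) g)⟩
  have hinj : Function.Injective f := by
    intro x y hxy
    have h1 : (x : G) * (g * (x : G)⁻¹ * g⁻¹) = y * (g * (y : G)⁻¹ * g⁻¹) :=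
      congrArg Subtype.val hxy
    have h3 : (x : G) * g * (x : G)⁻¹ = y * g * (y : G)⁻¹ := by
      have := congrArg (· * g) h1
      simpa [mul_assoc] using this
    have h2 : (y : G)⁻¹ * x = 1 := by
      refine hg _ (H.mul_mem (H.inv_mem y.2) x.2) ?_
      calc (y : G)⁻¹ * x * g = (y : G)⁻¹ * (x * g * (x : G)⁻¹) * x := by group
        _ = (y : G)⁻¹ * (y * g * (y : G)⁻¹) * x := by rw [h3]
        _ = g * ((y : G)⁻¹ * x) := by group
    exact Subtype.ext (by rw [← mul_one (y : G), ← h2, mul_inv_cancel_left])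
  have hsurj := Finite.injective_iff_surjective.mp hinj
  have hall : ∀ n : H, ρ.character ((n : G) * g) = ρ.character g := by
    intro n
    obtain ⟨x, hx⟩ := hsurj n
    have h1 : (x : G) * (g * (x : G)⁻¹ * g⁻¹) = n := congrArg Subtype.val hx
    rw [← h1, show (x : G) * (g * (x : G)⁻¹ * g⁻¹) * g = x * g * (x : G)⁻¹ by group]
    exact hcl g x
  -- the sum over `H` acts as zero
  have hinner : classInner (fun n : H => ρ.character n) (fun _ => 1) = 0 := by
    rcases inner_trivial_eq_zero_or (N := H) hirr with h | h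
    · exact h
    · exfalso
      obtain ⟨x, hx, hne⟩ := hker
      apply hne
      rw [← Lib.CharRep.char_eq_degree_iff, h x hx, ρ.char_one]
  have hT : ∀ g, (∑ n : H, ρ n) ∘ₗ ρ g = ρ g ∘ₗ (∑ n : H, ρ n) := by
    intro g
    change (∑ n : H, ρ n) * ρ g = ρ g * ∑ n : H, ρ n
    rw [Finset.sum_mul, Finset.mul_sum]
    refine Fintype.sum_equiv (cjAut (N := H) g⁻¹).toEquiv _ _ fun n => ?_
    rw [← map_mul, ← map_mul]
    congr 1
    change (n : G) * g = g * ((cjAut g⁻¹ n : H) : G)
    rw [cjAut_coe]; group
  have hs := Lib.CharInt.schur ρ _ hT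
  have hHc : (Nat.card H : ℂ) ≠ 0 := Nat.cast_ne_zero.mpr Nat.card_pos.ne'
  have htr : LinearMap.trace ℂ V (∑ n : H, ρ n) = 0 := by
    rw [map_sum]
    rw [classInner_def] at hinner
    rcases mul_eq_zero.mp hinner with h | h
    · exact absurd (inv_eq_zero.mp h) hHc
    · rw [← h]
      refine Finset.sum_congr rfl fun n _ => ?_
      rw [map_one, mul_one]; rfl
  rw [htr, zero_div, zero_smul] at hs
  have h1 : ∑ n : H, ρ.character ((n : G) * g) = 0 := by
    have : ∑ n : H, ρ.character ((n : G) * g) = LinearMap.trace ℂ V ((∑ n : H, ρ n) * ρ g) := by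
      rw [Finset.sum_mul, map_sum]
      refine Finset.sum_congr rfl fun n _ => ?_
      rw [← map_mul]; rfl
    rw [this, hs, zero_mul, map_zero]
  simp only [hall, Finset.sum_const, Finset.card_univ, nsmul_eq_mul] at h1
  rw [← Nat.card_eq_fintype_card (α := H)] at h1
  exact (mul_eq_zero.mp h1).resolve_left hHc
end Cfsg.Agent.S0181
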