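import Cfsg.Statements.S0184
import Cfsg.Agent.Lib.CharKer
import Cfsg.Agent.Lib.CharInt
import Cfsg.Agent.Lib.CharClifford
import Cfsg.Agent.Lib.Nilp

set_option autoImplicit false
open Cfsg

namespace Cfsg.Agent.S0184

open Lib.CharBasic Lib.CharKer

/-- A finite p-group admits a faithful irreducible complex representation if and only if its centre is cyclic. -/
theorem result {G : Type*} [Group G] [Finite G] (p : ℕ) [Fact p.Prime] (hG : IsPGroup p G) : (∃ (n : ℕ) (ρ : Representation ℂ G (Fin n → ℂ)), ρ.IsIrreducible ∧ Function.Injective ρ) ↔ IsCyclic (Subgroup.center G) := by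
  classical
  cases nonempty_fintype G
  constructor
  · rintro ⟨n, ρ, hρ, hinj⟩
    choose c hc using fun z : Subgroup.center G => Lib.CharInt.center_scalar ρ z.1 z.2
    have hn : Nontrivial (Fin n → ℂ) := ((isIrreducible_iff ρ).mp hρ).1
    obtain ⟨v, hv⟩ := exists_ne (0 : Fin n → ℂ)
    have hcne : ∀ z, c z ≠ 0 := by
      intro z h0
      have h1 : ρ z.1 v = 0 := by rw [hc, h0]; simp
      have h2 : ρ z.1⁻¹ (ρ z.1 v) = v := by
        rw [← Module.End.mul_apply, ← map_mul]; simp
      rw [h1, map_zero] at h2
      exact hv h2.symm
    let f : Subgroup.center G →* ℂ :=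
      { toFun := c
        map_one' := by
          have := congrArg (fun T => T v) (hc 1)
          simp only [OneMemClass.coe_one, map_one, Module.End.one_apply, LinearMap.smul_apply,
            LinearMap.id_apply] at this
          have h3 : (c 1 - 1) • v = 0 := by rw [sub_smul, one_smul, ← this, sub_self]
          exact sub_eq_zero.mp ((smul_eq_zero.mp h3).resolve_right hv)
        map_mul' := by
          intro a b
          have h1 := congrArg (fun T => T v) (hc (a * b))
          simp only [Subgroup.coe_mul, map_mul, Module.End.mul_apply, hc, LinearMap.smul_apply,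
            LinearMap.id_apply, map_smul, smul_smul] at h1
          have h3 : (c a * c b - c (a * b)) • v = 0 := by
            rw [sub_smul, mul_comm (c a), h1, sub_self]
          exact (sub_eq_zero.mp ((smul_eq_zero.mp h3).resolve_right hv)).symm }
    have hfinj : Function.Injective f := by
      intro a b hab
      have : ρ a.1 = ρ b.1 := by
        rw [hc, hc]
        exact congrArg (· • LinearMap.id) hab
      exact Subtype.ext (hinj this)
    exact isCyclic_of_subgroup_isDomain f hfinj
  · intro hcyc
    by_cases htriv : Subsingleton G
    · refine ⟨1, Representation.trivial ℂ G (Fin 1 → ℂ), ?_, fun a b _ => Subsingleton.elim a b⟩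
      exact irreducible_of_finrank_one _ (by simp)
    have hnt : Nontrivial G := not_subsingleton_iff_nontrivial.mp htriv
    have hnil : Group.IsNilpotent G := hG.isNilpotent
    have hZ : Subgroup.center G ≠ ⊥ := hG.bot_lt_center.ne'
    have hZnt : Nontrivial (Subgroup.center G) := (Subgroup.nontrivial_iff_ne_bot _).mpr hZ
    have hZp : IsPGroup p (Subgroup.center G) := hG.to_subgroup _
    obtain ⟨m, hm⟩ := hZp.exists_card_eq
    have hm0 : m ≠ 0 := by
      rintro rfl
      have := Finite.one_lt_card (α := Subgroup.center G)
      rw [hm] at this; simp at this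
    have hpd : p ∣ Nat.card (Subgroup.center G) := by rw [hm]; exact dvd_pow_self p hm0
    obtain ⟨z, hz⟩ := exists_prime_orderOf_dvd_card' p hpd
    -- a character with `z` not in the kernel
    have hex : ∃ χ : IrrCharacter G, χ.1 z ≠ χ.1 1 := by
      by_contra hcon
      push Not at hcon
      have h1 := irr_separates hcon
      rw [isConj_comm, isConj_iff] at h1
      obtain ⟨c, hc⟩ := h1
      have h2 : (z : G) = 1 := by rw [← hc]; simp
      have h3 : z = 1 := Subtype.ext h2
      rw [h3, orderOf_one] at hz
      exact (Fact.out : p.Prime).one_lt.ne hz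
    obtain ⟨⟨χ, hχ⟩, hne⟩ := hex
    have hχc := isChar_of_irr hχ
    have hker : kerChar χ hχc = ⊥ := by
      by_contra hK
      have := kerChar_normal hχc
      have h1 := Lib.Nilp.normal_inf_center_ne_bot (kerChar χ hχc) hK
      -- an element of order `p` in the intersection
      have h2 : IsPGroup p (kerChar χ hχc ⊓ Subgroup.center G : Subgroup G) := hG.to_subgroup _
      have hnt2 : Nontrivial (kerChar χ hχc ⊓ Subgroup.center G : Subgroup G) :=
        (Subgroup.nontrivial_iff_ne_bot _).mpr h1
      obtain ⟨k, hk⟩ := h2.exists_card_eq
      have hk0 : k ≠ 0 := by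
        rintro rfl
        have := Finite.one_lt_card (α := (kerChar χ hχc ⊓ Subgroup.center G : Subgroup G))
        rw [hk] at this; simp at this
      obtain ⟨y, hy⟩ := exists_prime_orderOf_dvd_card' p
        (show p ∣ Nat.card (kerChar χ hχc ⊓ Subgroup.center G : Subgroup G) by
          rw [hk]; exact dvd_pow_self p hk0)
      let y' : Subgroup.center G := ⟨y.1, y.2.2⟩
      have hy' : orderOf y' = p := by
        rw [← hy, ← Subgroup.orderOf_coe, ← Subgroup.orderOf_coe]
      have hyz : Subgroup.zpowers y' = Subgroup.zpowers z := by
        have hpp : 0 < p := (Fact.out : p.Prime).pos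
        have hle := IsCyclic.card_pow_eq_one_le (α := Subgroup.center G) hpp
        have key : ∀ w : Subgroup.center G, orderOf w = p →
            Finset.univ.filter (fun a => a ∈ Subgroup.zpowers w) =
              Finset.univ.filter (fun a : Subgroup.center G => a ^ p = 1) := by
          intro w hw
          apply Finset.eq_of_subset_of_card_le
          · intro a ha
            rw [Finset.mem_filter] at ha ⊢
            refine ⟨ha.1, ?_⟩
            obtain ⟨j, rfl⟩ := ha.2
            simp only
            rw [← zpow_natCast, ← zpow_mul, mul_comm, zpow_mul, zpow_natCast, ← hw,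
              pow_orderOf_eq_one, one_zpow]
          · refine hle.trans ?_
            rw [← Fintype.card_subtype, ← Nat.card_eq_fintype_card]
            have : Nat.card {x // x ∈ Subgroup.zpowers w} = p := by
              rw [← hw]; exact Nat.card_zpowers w
            exact this.ge
        ext a
        have h5 := (key y' hy').trans (key z hz).symm
        have h6 := Finset.ext_iff.mp h5 a
        simpa using h6
      have h3 : z ∈ Subgroup.zpowers y' := by rw [hyz]; exact Subgroup.mem_zpowers z
      obtain ⟨j, hj⟩ := h3
      apply hne
      have h4 : (z : G) = (y.1) ^ j := by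
        rw [← hj]; rfl
      have h5 : (z : G) ∈ kerChar χ hχc := by
        rw [h4]; exact Subgroup.zpow_mem _ y.2.1 j
      exact h5
    obtain ⟨n, ρ, hρ, rfl⟩ := hχ
    refine ⟨n, ρ, hρ, ?_⟩
    have h1 : (MonoidHom.ker ρ) = ⊥ := by
      rw [eq_bot_iff, ← hker]
      intro g hg
      rw [mem_kerChar, char_eq_one_iff]
      exact hg
    exact (MonoidHom.ker_eq_bot_iff ρ).mp h1
end Cfsg.Agent.S0184
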