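import Cfsg.Statements.S0185
import Cfsg.Agent.Lib.CharRep
import Cfsg.Agent.Lib.CharInt
import Cfsg.Agent.Lib.CharInd

set_option autoImplicit false
open Cfsg

namespace Cfsg.Agent.S0185

open Lib.CharBasic Lib.CharInd

/-- If a finite group has a faithful complex representation of degree less than the smallest prime dividing its order, the group is abelian. -/
theorem result {G : Type*} [Group G] [Finite G] {V : Type*} [AddCommGroup V] [Module ℂ V] [FiniteDimensional ℂ V] (ρ : Representation ℂ G V) (hfaithful : Function.Injective ρ) (hdeg : ∀ p : ℕ, p.Prime → p ∣ Nat.card G → Module.finrank ℂ V < p) (a b : G) : a * b = b * a := by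
  classical
  cases nonempty_fintype G
  have hc : IsCharacter G ρ.character := isCharacter_of_rep ρ
  have key : ρ.character (a * b * a⁻¹ * b⁻¹) = ρ.character 1 := by
    have h1 := char_eq_sum_inner hc
    rw [h1]
    simp only [Finset.sum_apply, Pi.smul_apply]
    refine Finset.sum_congr rfl fun ψ _ => ?_
    by_cases h0 : classInner ρ.character ψ.1 = 0
    · rw [h0]; simp
    congr 1
    obtain ⟨k, σ, hσ, hσψ⟩ := ψ.2
    have hle := degree_le_of_constituent hc ψ.2 h0
    rw [ρ.char_one, ← hσψ, σ.char_one] at hle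
    simp only [Complex.natCast_re, Nat.cast_le] at hle
    have hdvd := Lib.CharInt.degree_dvd_card σ
    have h1 : Module.finrank ℂ (Fin k → ℂ) = 1 := by
      by_contra hne
      obtain ⟨p, hp, hpd⟩ := Nat.exists_prime_and_dvd hne
      have h2 := hdeg p hp (hpd.trans hdvd)
      have h3 := Nat.le_of_dvd (by
        rcases Nat.eq_zero_or_pos (Module.finrank ℂ (Fin k → ℂ)) with h | h
        · rw [h] at hdvd
          exact absurd (Nat.eq_zero_of_zero_dvd hdvd) Nat.card_pos.ne'
        · exact h) hpd
      omega
    obtain ⟨lam, hlam⟩ := exists_lin_of_one (isChar_of_irr ψ.2)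
      (by rw [← hσψ, σ.char_one, h1, Nat.cast_one])
    rw [hlam]
    simp only [map_mul, map_inv, map_one]
    rw [show lam a * lam b * (lam a)⁻¹ * (lam b)⁻¹ = 1 by
      rw [mul_comm (lam a) (lam b), mul_assoc (lam b), mul_inv_cancel, mul_one, mul_inv_cancel]]
  rw [ρ.char_one, Lib.CharRep.char_eq_degree_iff] at key
  have h2 : a * b * a⁻¹ * b⁻¹ = 1 := hfaithful (by rw [key, map_one]; rfl)
  rw [mul_inv_eq_one, mul_inv_eq_iff_eq_mul] at h2
  exact h2
end Cfsg.Agent.S0185
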