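import Cfsg.Statements.S0186
import Cfsg.Agent.Lib.CharKer
import Cfsg.Agent.Lib.CharTable
import Cfsg.Agent.Lib.CharInt
import Cfsg.Agent.Lib.CharClifford
import Cfsg.Agent.Lib.CharBurnside

set_option autoImplicit false
open Cfsg

namespace Cfsg.Agent.S0186

open Lib.CharBasic Lib.CharInd

/-- Let G be a finite simple group of order n and p a prime dividing n. If G has more than n / p^2 conjugacy classes, then every Sylow p-subgroup of G is abelian. -/
theorem result {G : Type*} [Group G] [Finite G] [IsSimpleGroup G] (p : ℕ) [Fact p.Prime] (hp : p ∣ Nat.card G) (hmany : Nat.card G < p ^ 2 * Nat.card (ConjClasses G)) (P : Sylow p G) (a b : G) (ha : a ∈ P) (hb : b ∈ P) : a * b = b * a := by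
  classical
  cases nonempty_fintype G
  by_contra hne
  -- `p ^ 2` divides the group order
  have hPG := P.isPGroup'
  obtain ⟨m, hm⟩ := hPG.exists_card_eq
  have hnab : ¬ ∀ x y : P, x * y = y * x := by
    intro h
    apply hne
    exact congrArg Subtype.val (h ⟨a, ha⟩ ⟨b, hb⟩)
  have hm2 : 2 ≤ m := by
    by_contra hlt
    apply hnab
    have hm' : m = 0 ∨ m = 1 := by omega
    rcases hm' with rfl | rfl
    · rw [pow_zero, Nat.card_eq_one_iff_unique] at hm
      intro x y
      have := hm.1
      exact Subsingleton.elim _ _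
    · rw [pow_one] at hm
      have : IsCyclic P := isCyclic_of_prime_card hm
      intro x y
      exact IsCyclic.commutative.is_comm.comm x y
  have hp2 : p ^ 2 ∣ Nat.card G := by
    calc p ^ 2 ∣ p ^ m := pow_dvd_pow p hm2
      _ = Nat.card P := hm.symm
      _ ∣ Nat.card G := Subgroup.card_subgroup_dvd_card _
  have hGnab : ¬ ∀ a b : G, a * b = b * a := fun h => hne (h a b)
  -- all nonprincipal characters have degree at least `p`
  choose d hd0 hd using fun χ : IrrCharacter G => isIrr_one_eq χ.2
  have hdeg : ∀ χ : IrrCharacter G, χ.1 ≠ (fun _ => 1) → p ≤ d χ := by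
    intro χ hχ
    by_contra hlt
    push Not at hlt
    -- all constituents of the restriction to `P` are linear
    have hres : IsCharacter P (fun x : P => χ.1 x) := isChar_res _ (isChar_of_irr χ.2)
    apply hnab
    intro x y
    have key : χ.1 (((x * y * x⁻¹ * y⁻¹ : P)) : G) = χ.1 1 := by
      have h1 := congrFun (char_eq_sum_inner hres) (x * y * x⁻¹ * y⁻¹)
      have h2 := congrFun (char_eq_sum_inner hres) 1
      simp only [Finset.sum_apply, Pi.smul_apply] at h1 h2
      rw [h1]
      refine Eq.trans ?_ h2.symm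
      refine Finset.sum_congr rfl fun ψ _ => ?_
      by_cases h0 : classInner (fun x : P => χ.1 x) ψ.1 = 0
      · rw [h0]; simp
      congr 1
      obtain ⟨k, σ, hσ, hσψ⟩ := ψ.2
      have hle := degree_le_of_constituent hres ψ.2 h0
      rw [show χ.1 ((1 : P) : G) = χ.1 1 from rfl, hd, ← hσψ, σ.char_one] at hle
      simp only [Complex.natCast_re, Nat.cast_le] at hle
      have hdvd := Lib.CharInt.degree_dvd_card σ
      rw [hm] at hdvd
      obtain ⟨j, -, hj⟩ := (Nat.dvd_prime_pow Fact.out).mp hdvd
      have hj0 : j = 0 := by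
        by_contra hj0
        have : p ≤ p ^ j := Nat.le_self_pow hj0 p
        omega
      obtain ⟨lam, hlam⟩ := exists_lin_of_one (isChar_of_irr ψ.2)
        (by rw [← hσψ, σ.char_one, hj, hj0]; simp)
      rw [hlam]
      simp only [map_mul, map_inv, map_one]
      rw [show lam x * lam y * (lam x)⁻¹ * (lam y)⁻¹ = 1 by
        rw [mul_comm (lam x) (lam y), mul_assoc (lam y), mul_inv_cancel, mul_one, mul_inv_cancel]]
    have hker := Lib.CharKer.kerChar_normal (isChar_of_irr χ.2)
    rcases hker.eq_bot_or_eq_top with h | h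
    · have : (((x * y * x⁻¹ * y⁻¹ : P)) : G) ∈ Lib.CharKer.kerChar χ.1 (isChar_of_irr χ.2) := key
      rw [h, Subgroup.mem_bot] at this
      have h3 : x * y * x⁻¹ * y⁻¹ = 1 := Subtype.ext this
      rw [mul_inv_eq_one, mul_inv_eq_iff_eq_mul] at h3
      exact h3
    · exfalso
      apply hχ
      have hconst : ∀ g, χ.1 g = χ.1 1 := by
        intro g
        have : g ∈ Lib.CharKer.kerChar χ.1 (isChar_of_irr χ.2) := by rw [h]; trivial
        exact this
      have h1 := irr_inner_self χ.2
      have h2 : χ.1 = χ.1 1 • fun _ => (1:ℂ) := by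
        funext g; rw [hconst g]; simp
      have h3 : classInner χ.1 (fun _ => 1) ≠ 0 := by
        rw [h2, classInner_smul_left, irr_inner_self isIrr_trivial, mul_one]
        exact isIrr_one_ne_zero χ.2
      exact irr_eq_of_inner_ne_zero χ.2 isIrr_trivial h3
  have hsum := Lib.CharTable.sum_sq_degrees d hd
  let one : IrrCharacter G := ⟨fun _ => 1, isIrr_trivial⟩
  rw [← Finset.add_sum_erase _ _ (Finset.mem_univ one)] at hsum
  have hge : (Finset.univ.erase one).card • p ^ 2 ≤ ∑ χ ∈ Finset.univ.erase one, d χ ^ 2 := by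
    apply Finset.card_nsmul_le_sum
    intro χ hχ
    have := hdeg χ (fun h => (Finset.mem_erase.mp hχ).1 (Subtype.ext h))
    exact Nat.pow_le_pow_left this 2
  have hk : (Finset.univ.erase one).card = Nat.card (ConjClasses G) - 1 := by
    rw [Finset.card_erase_of_mem (Finset.mem_univ _), Finset.card_univ,
      ← Nat.card_eq_fintype_card, card_irr]
  have hkpos : 0 < Nat.card (ConjClasses G) := Nat.card_pos
  have h1 : 0 < d one ^ 2 := pow_pos (hd0 one) 2
  rw [hk, smul_eq_mul] at hge
  obtain ⟨t, ht⟩ := hp2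
  have h2 : (Nat.card (ConjClasses G) - 1) * p ^ 2 < p ^ 2 * t := by
    rw [← ht, ← hsum]; omega
  have h3 : Nat.card (ConjClasses G) - 1 < t := by
    rw [mul_comm] at h2
    exact Nat.lt_of_mul_lt_mul_left h2
  rw [ht] at hmany
  have h4 := Nat.lt_of_mul_lt_mul_left hmany
  omega
end Cfsg.Agent.S0186
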