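import Cfsg.Statements.S0187
import Cfsg.Agent.Lib.CharBasic

set_option autoImplicit false
open Cfsg

namespace Cfsg.Agent.S0187

/-- A finite group is commutative if and only if every irreducible complex character has degree 1. -/
theorem result {G : Type*} [Group G] [Finite G] : (∀ a b : G, a * b = b * a) ↔ ∀ χ : Cfsg.IrrCharacter G, (χ : G → ℂ) 1 = 1 := by
  classical
  cases nonempty_fintype G
  constructor
  · intro h χ
    obtain ⟨lam, hlam⟩ := Lib.CharBasic.irr_lin_of_comm h χ.2
    rw [hlam]; simp
  · intro h a b
    choose lam hlam using fun χ : Cfsg.IrrCharacter G =>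
      Lib.CharBasic.exists_lin_of_one (Lib.CharBasic.isChar_of_irr χ.2) (h χ)
    have key : ∀ χ : Cfsg.IrrCharacter G, χ.1 (a * b * (b * a)⁻¹) = χ.1 1 := by
      intro χ
      rw [hlam χ]
      simp only [map_mul, map_inv, map_one]
      rw [mul_comm (lam χ b) (lam χ a), mul_inv_cancel]
    have h1 := Lib.CharBasic.irr_separates key
    rw [isConj_one_left] at h1
    exact mul_inv_eq_one.mp h1
end Cfsg.Agent.S0187
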