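import Cfsg.Statements.S0191
import Cfsg.Agent.Lib.CharGal
import Cfsg.Agent.Lib.CharRep

set_option autoImplicit false
open Cfsg

namespace Cfsg.Agent.S0191

open Lib.CharBasic Lib.CharGal

/-- An irreducible complex representation of a finite group of degree greater than 1 has a character that vanishes somewhere. -/
theorem result {G : Type*} [Group G] [Finite G] {V : Type*} [AddCommGroup V] [Module ℂ V] [FiniteDimensional ℂ V] (ρ : Representation ℂ G V) [ρ.IsIrreducible] (hdeg : 1 < Module.finrank ℂ V) : ∃ g : G, ρ.character g = 0 := by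
  classical
  cases nonempty_fintype G
  by_contra hcon
  push Not at hcon
  have hirr : IsIrrCharacter G ρ.character := isIrrCharacter_of_rep ρ
  have hc := isChar_of_irr hirr
  -- the product over the nonidentity elements is a nonzero integer
  let P : ℂ := ∏ g ∈ Finset.univ.erase (1 : G), ρ.character g
  have hPint : IsIntegral ℤ P := IsIntegral.prod _ fun g _ => char_isIntegral hc g
  have hPfix : ∀ σ : ℂ ≃+* ℂ, σ P = P := by
    intro σ
    obtain ⟨k, hk, hall⟩ := exists_pow_galois (G := G) σ
    simp only [P, map_prod]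
    have hbij : Function.Bijective (fun g : G => g ^ k) := by
      have : (Nat.card G).Coprime k := hk.symm
      exact (powCoprime this).bijective
    let e : G ≃ G := Equiv.ofBijective _ hbij
    refine Finset.prod_bij (fun g _ => g ^ k) ?_ ?_ ?_ ?_
    · intro g hg
      rw [Finset.mem_erase] at hg ⊢
      refine ⟨fun h => hg.1 (hbij.1 (by simpa using h)), Finset.mem_univ _⟩
    · intro a _ b _ h; exact hbij.1 h
    · intro b hb
      obtain ⟨a, ha⟩ := hbij.2 b
      refine ⟨a, ?_, ha⟩
      rw [Finset.mem_erase] at hb ⊢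
      refine ⟨?_, Finset.mem_univ _⟩
      rintro rfl
      apply hb.1
      rw [← ha]; simp
    · intro g _
      exact hall _ hc g
  obtain ⟨n, hn⟩ := isInt_of_fixed P hPint hPfix
  have hP0 : P ≠ 0 := Finset.prod_ne_zero_iff.mpr fun g _ => hcon g
  have hn0 : n ≠ 0 := by
    rintro rfl
    exact hP0 (by rw [hn]; simp)
  have hPnorm : 1 ≤ ‖P‖ := by
    rw [hn, Complex.norm_intCast]
    have : 1 ≤ |n| := Int.one_le_abs hn0
    exact_mod_cast this
  -- norms
  have hlog : 0 ≤ ∑ g ∈ Finset.univ.erase (1 : G), Real.log (‖ρ.character g‖ ^ 2) := by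
    rw [← Real.log_prod (fun g _ => by
      have := hcon g
      positivity)]
    apply Real.log_nonneg
    rw [Finset.prod_pow, ← norm_prod]
    change 1 ≤ ‖P‖ ^ 2
    nlinarith
  have hle : ∑ g ∈ Finset.univ.erase (1 : G), Real.log (‖ρ.character g‖ ^ 2) ≤
      ∑ g ∈ Finset.univ.erase (1 : G), (‖ρ.character g‖ ^ 2 - 1) := by
    refine Finset.sum_le_sum fun g _ => ?_
    apply Real.log_le_sub_one_of_pos
    have := hcon g
    positivity
  have hself := irr_inner_self hirr
  rw [classInner_self_eq] at hself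
  have hself' : ((Nat.card G : ℝ)⁻¹ * ∑ g : G, ‖ρ.character g‖ ^ 2 : ℝ) = 1 := by
    exact_mod_cast hself
  have hG : (0 : ℝ) < Nat.card G := by exact_mod_cast Nat.card_pos
  have hsum : ∑ g : G, ‖ρ.character g‖ ^ 2 = Nat.card G := by
    field_simp at hself'
    exact hself'
  rw [← Finset.add_sum_erase _ _ (Finset.mem_univ (1 : G)), ρ.char_one] at hsum
  have hcard : ((Finset.univ.erase (1 : G)).card : ℝ) = Nat.card G - 1 := by
    rw [Finset.card_erase_of_mem (Finset.mem_univ _), Finset.card_univ, Nat.card_eq_fintype_card]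
    rw [Nat.cast_sub (by exact Fintype.card_pos)]
    simp
  rw [Finset.sum_sub_distrib, Finset.sum_const, nsmul_eq_mul, mul_one, hcard] at hle
  have hd : (1 : ℝ) < ‖((Module.finrank ℂ V : ℕ) : ℂ)‖ ^ 2 := by
    rw [Complex.norm_natCast]
    have : (1 : ℝ) < Module.finrank ℂ V := by exact_mod_cast hdeg
    nlinarith
  linarith
end Cfsg.Agent.S0191
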