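import Cfsg.Statements.S0192
import Cfsg.Agent.Lib.CharRep
import Cfsg.Agent.Lib.CharInd

set_option autoImplicit false
open Cfsg

namespace Cfsg.Agent.S0192

open Lib.CharBasic Lib.CharInd Module

theorem inner_one_eq {G : Type*} [Group G] [Fintype G] {V : Type*} [AddCommGroup V] [Module ℂ V]
    [FiniteDimensional ℂ V] (ρ : Representation ℂ G V) :
    classInner ρ.character (fun _ => 1) = finrank ℂ ρ.invariants := by
  have hc : (Fintype.card G : ℂ) ≠ 0 := by
    rw [← Nat.card_eq_fintype_card]; exact card_ne_zero'
  have : Invertible (Fintype.card G : ℂ) := invertibleOfNonzero hc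
  rw [← (Representation.isProj_averageMap ρ).trace, classInner_def]
  simp only [map_one, mul_one, Representation.averageMap, GroupAlgebra.average, map_smul, map_sum,
    Nat.card_eq_fintype_card, invOf_eq_inv, smul_eq_mul]
  congr 1
  refine Finset.sum_congr rfl fun g _ => ?_
  simp [Representation.character]

/-- Brauer's generation criterion. Let G be a finite simple group, H₁ and H₂ subgroups, and χ a non-principal irreducible character. If the multiplicity of the principal character in χ restricted to H₁ ⊓ H₂ is less than the sum of the corresponding multiplicities for H₁ and H₂, then H₁ and H₂ do not generate G. -/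
theorem result {G : Type*} [Group G] [Fintype G] [IsSimpleGroup G] (H₁ H₂ : Subgroup G) [Fintype H₁] [Fintype H₂] [Fintype ↥(H₁ ⊓ H₂)] (χ : G → ℂ) (hχ : Cfsg.IsIrrCharacter G χ) (hχ1 : χ ≠ fun _ => 1) (hlt : (Cfsg.classInner (fun x : ↥(H₁ ⊓ H₂) => χ x) (fun _ => 1)).re < (Cfsg.classInner (fun x : H₁ => χ x) (fun _ => 1)).re + (Cfsg.classInner (fun x : H₂ => χ x) (fun _ => 1)).re) : H₁ ⊔ H₂ ≠ ⊤ := by
  classical
  intro htop
  obtain ⟨n, ρ, hρ, rfl⟩ := hχ
  have hirr := (isIrreducible_iff ρ).mp hρ
  let σ : ∀ H : Subgroup G, Representation ℂ H (Fin n → ℂ) := fun H => ρ.comp H.subtype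
  have h1 : ∀ (H : Subgroup G) [Fintype H],
      classInner (fun x : H => ρ.character x) (fun _ => 1) = finrank ℂ (σ H).invariants := by
    intro H _
    rw [← inner_one_eq]
    rfl
  rw [h1, h1, h1] at hlt
  simp only [Complex.natCast_re] at hlt
  have hlt' : finrank ℂ (σ (H₁ ⊓ H₂)).invariants <
      finrank ℂ (σ H₁).invariants + finrank ℂ (σ H₂).invariants := by exact_mod_cast hlt
  have hsup : (σ H₁).invariants ⊔ (σ H₂).invariants ≤ (σ (H₁ ⊓ H₂)).invariants := by
    apply sup_le
    · intro v hv
      rw [Representation.mem_invariants] at hv ⊢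
      exact fun g => hv ⟨g, g.2.1⟩
    · intro v hv
      rw [Representation.mem_invariants] at hv ⊢
      exact fun g => hv ⟨g, g.2.2⟩
  have h2 := Submodule.finrank_sup_add_finrank_inf_eq (σ H₁).invariants (σ H₂).invariants
  have h3 := Submodule.finrank_mono hsup
  have h4 : finrank ℂ ((σ H₁).invariants ⊓ (σ H₂).invariants : Submodule ℂ (Fin n → ℂ)) ≠ 0 := by
    omega
  have h5 : (σ H₁).invariants ⊓ (σ H₂).invariants ≠ ⊥ := by
    intro h; rw [h] at h4; simp at h4
  obtain ⟨v, hv, hv0⟩ := Submodule.exists_mem_ne_zero_of_ne_bot h5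
  -- the fixed points of `G` are everything
  have hfix : ∀ g : G, ρ g v = v := by
    let S : Subgroup G :=
      { carrier := {g | ρ g v = v}
        one_mem' := by simp
        mul_mem' := by
          intro a b ha hb
          change ρ (a * b) v = v
          rw [map_mul, Module.End.mul_apply, hb, ha]
        inv_mem' := by
          intro a ha
          change ρ a⁻¹ v = v
          conv_lhs => rw [← (show ρ a v = v from ha)]
          rw [← Module.End.mul_apply, ← map_mul]; simp }
    have hS : (⊤ : Subgroup G) ≤ S := by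
      rw [← htop]
      apply sup_le
      · intro g hg
        exact (Representation.mem_invariants _ _).mp hv.1 ⟨g, hg⟩
      · intro g hg
        exact (Representation.mem_invariants _ _).mp hv.2 ⟨g, hg⟩
    exact fun g => hS (Subgroup.mem_top g)
  have h6 : (ρ.invariants) = ⊤ := by
    rcases hirr.2 ρ.invariants (fun g w hw => by
      rw [(Representation.mem_invariants _ _).mp hw g]; exact hw) with h | h
    · exfalso
      have : v ∈ ρ.invariants := (Representation.mem_invariants _ _).mpr hfix
      rw [h] at this
      exact hv0 (by simpa using this)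
    · exact h
  apply hχ1
  have h7 : classInner ρ.character (fun _ => 1) ≠ 0 := by
    rw [inner_one_eq, h6]
    have := hirr.1
    rw [finrank_top]
    exact Nat.cast_ne_zero.mpr (Module.finrank_pos (R := ℂ) (M := Fin n → ℂ)).ne'
  exact irr_eq_of_inner_ne_zero ⟨n, ρ, hρ, rfl⟩ isIrr_trivial h7
end Cfsg.Agent.S0192
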