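import Cfsg.Statements.S0194
import Cfsg.Agent.Lib.CharNormal

set_option autoImplicit false
open scoped ComplexConjugate
open Cfsg

namespace Cfsg.Agent.S0194

/-- Let G have odd order, H be a normal subgroup and θ a non-principal irreducible character of H. Then the function induced from θ is orthogonal to its complex conjugate. -/
theorem result {G : Type*} [Group G] [Fintype G] (hodd : Odd (Nat.card G)) (H : Subgroup G) [H.Normal] (θ : H → ℂ) (hθ : Cfsg.IsIrrCharacter H θ) (hθ1 : θ ≠ fun _ => 1) : Cfsg.classInner (fun g => conj (Cfsg.indFun H θ g)) (Cfsg.indFun H θ) = 0 := by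
  classical
  have : Fintype H := Fintype.ofFinite _
  have h1 : (fun g => (starRingEnd ℂ) (Cfsg.indFun H θ g)) =
      Cfsg.indFun H (fun h => (starRingEnd ℂ) (θ h)) := by
    ext g; exact Lib.CharInd.conj_indFun H θ g
  rw [h1]
  have h2 := Lib.CharNormal.ind_inner_ind_irr (Lib.CharTable.isIrr_conj hθ) hθ
  have h3 : Nat.card {x : G // Lib.CharNormal.cj x θ = fun h => (starRingEnd ℂ) (θ h)} = 0 := by
    rw [Finite.card_eq_zero_iff]
    constructor
    rintro ⟨x, hx⟩
    -- iterate: cj (x^n) θ = θ or conj θ according to parity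
    have h4 : ∀ n : ℕ, Lib.CharNormal.cj (x ^ n) θ =
        if Even n then θ else fun h => (starRingEnd ℂ) (θ h) := by
      intro n
      induction n with
      | zero => simp
      | succ n ih =>
        rw [pow_succ, Lib.CharNormal.cj_mul, ih]
        by_cases hn : Even n
        · rw [if_pos hn, if_neg (by rw [Nat.even_add_one]; simpa using hn), hx]
        · rw [if_neg hn, if_pos (by rw [Nat.even_add_one]; exact hn)]
          ext h
          have := congrFun hx h
          rw [Lib.CharNormal.cj_apply] at this ⊢
          rw [this, Complex.conj_conj]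
    have h5 := h4 (Nat.card G)
    rw [pow_card_eq_one', Lib.CharNormal.cj_one, if_neg (Nat.not_even_iff_odd.mpr hodd)] at h5
    apply hθ1
    have hoddH : Odd (Nat.card H) := hodd.of_dvd_nat (Subgroup.card_subgroup_dvd_card H)
    apply Lib.CharTable.real_eq_one_of_odd hoddH ⟨θ, hθ⟩
    intro g
    exact Complex.conj_eq_iff_im.mp (congrFun h5.symm g)
  rw [h3] at h2
  have h4 : (Nat.card H : ℂ) ≠ 0 := by exact_mod_cast Nat.card_pos.ne'
  simpa [h4] using h2
end Cfsg.Agent.S0194
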