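import Cfsg.Statements.S0196
import Cfsg.Agent.Lib.CharBasic

set_option autoImplicit false
open Cfsg

namespace Cfsg.Agent.S0196

/-- Let A be a subgroup of a finite group G that equals the centralizer of each of its non-identity elements, and let N be its normalizer. Then the index of A in N divides |A| − 1 (N/A permutes the non-identity elements of A in orbits of full length). -/
theorem result {G : Type*} [Group G] [Finite G] (A : Subgroup G) (hA : ∀ x ∈ A, x ≠ 1 → Subgroup.centralizer ({x} : Set G) = A) : (A.subgroupOf (Subgroup.normalizer (A : Set G))).index ∣ Nat.card A - 1 := by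
  classical
  by_cases hA1 : Nat.card A = 1
  · simp [hA1]
  -- `A` is abelian
  have hab : ∀ a ∈ A, ∀ b ∈ A, a * b = b * a := by
    intro a ha b hb
    by_cases ha1 : a = 1
    · simp [ha1]
    have := hA a ha ha1
    rw [← this, Subgroup.mem_centralizer_singleton_iff] at hb
    exact hb.symm
  let N : Subgroup G := Subgroup.normalizer (A : Set G)
  have hAN : A ≤ N := Subgroup.le_normalizer
  -- conjugation action of `N` on the nonidentity elements
  have hmem : ∀ (n : N) (a : G), a ∈ A → (n : G) * a * (n : G)⁻¹ ∈ A := by
    intro n a ha
    exact (Subgroup.mem_normalizer_iff.mp n.2 a).mp ha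
  let X := {a : G // a ∈ A ∧ a ≠ 1}
  let act : MulAction N X :=
    { smul := fun n a => ⟨n * a.1 * (n : G)⁻¹, hmem n a.1 a.2.1, by
        intro h
        apply a.2.2
        rw [mul_inv_eq_one] at h
        exact mul_left_cancel (a := (n : G)) (by rw [h, mul_one])⟩
      one_smul := fun a => Subtype.ext (by change ((1 : N) : G) * a.1 * ((1 : N) : G)⁻¹ = a.1; simp)
      mul_smul := fun m n a => Subtype.ext (by
        change ((m * n : N) : G) * a.1 * ((m * n : N) : G)⁻¹ =
          m * (n * a.1 * (n : G)⁻¹) * (m : G)⁻¹
        rw [Subgroup.coe_mul]; group) }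
  have hstab : ∀ a : X, MulAction.stabilizer N a = A.subgroupOf N := by
    intro a
    ext n
    rw [Subgroup.mem_subgroupOf, MulAction.mem_stabilizer_iff]
    have h1 : n • a = a ↔ (n : G) * a.1 * (n : G)⁻¹ = a.1 := by
      constructor
      · intro h; exact congrArg Subtype.val h
      · intro h; exact Subtype.ext h
    rw [h1]
    have h2 := hA a.1 a.2.1 a.2.2
    have h3 : (n : G) ∈ A ↔ (n : G) ∈ Subgroup.centralizer ({a.1} : Set G) := by rw [h2]
    rw [h3, Subgroup.mem_centralizer_singleton_iff, mul_inv_eq_iff_eq_mul]
  have hX : Nat.card X = Nat.card A - 1 := by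
    have e : A ≃ Option X :=
      { toFun := fun a => if h : (a : G) = 1 then none else some ⟨a, a.2, h⟩
        invFun := fun o => o.elim 1 fun x => ⟨x.1, x.2.1⟩
        left_inv := fun a => by
          by_cases h : (a : G) = 1
          · simp only [h, dif_pos, Option.elim_none]
            exact Subtype.ext h.symm
          · simp [h]
        right_inv := fun o => by
          cases o with
          | none => simp
          | some x => simp [x.2.2] }
    rw [Nat.card_congr e, Finite.card_option]; simp
  rw [← hX]
  have horb : ∀ x : X, Nat.card (MulAction.orbit N x) = (A.subgroupOf N).index := by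
    intro x
    have := MulAction.index_stabilizer N x
    rw [hstab] at this
    exact this.symm
  have h4 := Nat.card_congr (MulAction.selfEquivSigmaOrbits N X)
  have : Fintype (Quotient (MulAction.orbitRel N X)) := Fintype.ofFinite _
  rw [Nat.card_sigma] at h4
  rw [h4]
  apply Finset.dvd_sum
  intro q _
  rw [horb]
end Cfsg.Agent.S0196
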