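import Cfsg.Statements.S0200
import Cfsg.Agent.Lib.Subnorm
import Cfsg.Agent.Lib.InvolB

set_option autoImplicit false
open Cfsg

namespace Cfsg.Agent.S0200

open Subgroup Cfsg.Agent.Lib Cfsg.Agent.Lib.Subnorm Cfsg.Agent.Lib.Invol Cfsg.Agent.Lib.InvolB
open scoped Pointwise

/-- An involution lying in no normal 2-subgroup of a finite group inverts a nontrivial element of odd order (a consequence of the Baer–Suzuki Theorem). -/
theorem result {G : Type*} [Group G] [Finite G] (t : G) (ht : orderOf t = 2) (hO : ∀ N : Subgroup G, N.Normal → IsPGroup 2 N → t ∉ N) : ∃ h : G, h ≠ 1 ∧ Odd (orderOf h) ∧ t * h * t⁻¹ = h⁻¹ := by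
  by_contra hcon
  push Not at hcon
  have hX : IsPGroup 2 (zpowers t) :=
    IsPGroup.of_card (n := 1) (by rw [Nat.card_zpowers, ht, pow_one])
  refine hO (Cfsg.pCore 2 G) (Cores.pCore_normal 2) (Cores.pCore_isPGroup 2) ?_
  refine baer_suzuki hX (fun g => ?_) (mem_zpowers t)
  set s := g * t * g⁻¹ with hs
  have hso : orderOf s = 2 := by
    rw [hs, show g * t * g⁻¹ = MulAut.conj g t from rfl, MulEquiv.orderOf_eq]; exact ht
  have h1 : zpowers t ⊔ MulAut.conj g • zpowers t = closure ({t, s} : Set G) := by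
    have h2 : MulAut.conj g • zpowers t = zpowers s := by
      show (zpowers t).map (MulAut.conj g).toMonoidHom = _
      rw [MonoidHom.map_zpowers]; rfl
    rw [h2, zpowers_eq_closure, zpowers_eq_closure, ← Subgroup.closure_union]
    rfl
  rw [h1]
  obtain ⟨a, m, hm, ham⟩ := Nat.exists_eq_two_pow_mul_odd (orderOf_pos (t * s)).ne'
  have hm1 : m = 1 := by
    by_contra hne
    have hmt := mul_self ht
    have hms := mul_self hso
    refine hcon ((t * s) ^ (2 ^ a)) ?_ ?_ ?_
    · intro h
      have h3 := orderOf_dvd_of_pow_eq_one h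
      rw [ham] at h3
      have h4 : m ∣ 1 := by
        have : 2 ^ a * m ∣ 2 ^ a * 1 := by rw [mul_one]; exact h3
        exact Nat.dvd_of_mul_dvd_mul_left (by positivity) this
      exact hne (Nat.dvd_one.mp h4)
    · rw [orderOf_pow_of_dvd (by positivity) (by rw [ham]; exact dvd_mul_right _ _), ham,
        Nat.mul_div_cancel_left _ (by positivity)]
      exact hm
    · have h3 := left_mul_zpow hmt hms ((2 ^ a : ℕ) : ℤ)
      rw [zpow_natCast, zpow_neg, zpow_natCast] at h3
      rw [h3]; group
  rw [hm1, mul_one] at ham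
  exact isPGroup_closure ht hso ham

end Cfsg.Agent.S0200
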