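import Cfsg.Statements.S0203
import Cfsg.Agent.Lib.InvolB
import Cfsg.Agent.Lib.Wiel

set_option autoImplicit false
open Cfsg

namespace Cfsg.Agent.S0203

open Cfsg.Agent.Lib.Invol Cfsg.Agent.Lib.InvolB Cfsg.Agent.Lib Subgroup Cfsg.Agent.Lib.PNilp in
theorem dich {G : Type*} [Group G] [Finite G] (P : Sylow 2 G) (hP : IsKleinFour (P : Subgroup G)) :
    (PNil 2 G ∧ Nat.card {C : ConjClasses G // ∃ t : G, orderOf t = 2 ∧ ConjClasses.mk t = C} = 3) ∨
    (¬ PNil 2 G ∧ Nat.card {C : ConjClasses G // ∃ t : G, orderOf t = 2 ∧ ConjClasses.mk t = C} = 1) := by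
  classical
  have hPc : IsMulCommutative (P : Subgroup G) := by
    exact ⟨⟨fun a b => mul_comm_of_exponent_two hP.exponent_two a b⟩⟩
  have hcard : Nat.card (P : Subgroup G) = 4 := hP.card_four
  have hexp : ∀ x ∈ (P : Subgroup G), x ≠ 1 → orderOf x = 2 := by
    intro x hx hx1
    apply orderOf_eq_two _ hx1
    have : (⟨x, hx⟩ : (P : Subgroup G)) * ⟨x, hx⟩ = 1 := by
      haveI := hP
      exact IsKleinFour.mul_self _
    exact congrArg Subtype.val this
  -- each involution is conjugate into P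
  have hinto : ∀ t : G, orderOf t = 2 → ∃ y ∈ (P : Subgroup G), y ≠ 1 ∧ IsConj y t := by
    intro t ht
    have htp : IsPGroup 2 (zpowers t) :=
      IsPGroup.of_card (n := 1) (by rw [Nat.card_zpowers, ht, pow_one])
    obtain ⟨R, hR⟩ := htp.exists_le_sylow
    obtain ⟨g, hg⟩ := MulAction.exists_smul_eq G R P
    refine ⟨g * t * g⁻¹, ?_, ?_, ?_⟩
    · rw [← hg]
      refine SchurZas.mem_conj_smul_iff.mpr ?_
      have e : g⁻¹ * (g * t * g⁻¹) * g = t := by group
      rw [e]; exact hR (mem_zpowers t)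
    · intro h
      apply ne_one ht
      calc t = g⁻¹ * (g * t * g⁻¹) * g := by group
        _ = 1 := by rw [h]; group
    · exact (isConj_iff.mpr ⟨g, rfl⟩ : IsConj t (g * t * g⁻¹)).symm
  have hcard3 : Nat.card {x : G // x ∈ (P : Subgroup G) ∧ x ≠ 1} = 3 := by
    have h1 : Nat.card (Option {x : G // x ∈ (P : Subgroup G) ∧ x ≠ 1}) = 4 := by
      rw [← hcard]
      refine Nat.card_eq_of_bijective (fun o => (o.elim 1 (fun x => ⟨x.1, x.2.1⟩) : (P : Subgroup G))) ⟨?_, ?_⟩
      · rintro (_ | ⟨a, ha, ha1⟩) (_ | ⟨c, hc, hc1⟩) h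
        · rfl
        · exact absurd (congrArg Subtype.val h).symm hc1
        · exact absurd (congrArg Subtype.val h) ha1
        · have h1 : a = c := Subtype.mk.inj h
          subst h1; rfl
      · rintro ⟨g, hg⟩
        by_cases h1 : g = 1
        · exact ⟨none, Subtype.ext h1.symm⟩
        · exact ⟨some ⟨g, hg, h1⟩, rfl⟩
    rw [Finite.card_option] at h1
    omega
  let F : {x : G // x ∈ (P : Subgroup G) ∧ x ≠ 1} →
      {C : ConjClasses G // ∃ t : G, orderOf t = 2 ∧ ConjClasses.mk t = C} := fun x =>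
    ⟨ConjClasses.mk x.1, x.1, hexp _ x.2.1 x.2.2, rfl⟩
  have hFs : Function.Surjective F := by
    rintro ⟨C, t, ht, rfl⟩
    obtain ⟨y, hy, hy1, hyt⟩ := hinto t ht
    exact ⟨⟨y, hy, hy1⟩, Subtype.ext (ConjClasses.mk_eq_mk_iff_isConj.mpr hyt)⟩
  -- fusion is controlled by the normalizer
  have hfus : ∀ x ∈ (P : Subgroup G), ∀ y ∈ (P : Subgroup G), IsConj x y →
      ∃ n ∈ Subgroup.normalizer (P : Set G), n * x * n⁻¹ = y := by
    intro x hx y hy hxy
    obtain ⟨g, hg⟩ := isConj_iff.mp hxy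
    haveI := hPc
    obtain ⟨n, hn, hnu⟩ := P.conj_eq_normalizer_conj_of_mem x g⁻¹ hx
      (by rw [inv_inv, hg]; exact hy)
    refine ⟨n⁻¹, inv_mem hn, ?_⟩
    rw [inv_inv, ← hnu, inv_inv, hg]
  by_cases hN : Subgroup.normalizer (P : Set G) ≤ Subgroup.centralizer (P : Set G)
  · left
    refine ⟨Wiel.pNil_of_normalizer_le_centralizer P hN, ?_⟩
    rw [← hcard3]
    refine (Nat.card_eq_of_bijective F ⟨?_, hFs⟩).symm
    rintro ⟨x, hx, hx1⟩ ⟨y, hy, hy1⟩ h
    have h1 : IsConj x y := ConjClasses.mk_eq_mk_iff_isConj.mp (Subtype.mk.inj h)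
    obtain ⟨n, hn, hny⟩ := hfus x hx y hy h1
    have h2 := mem_centralizer_iff.mp (hN hn) x hx
    have : x = y := by rw [← hny, ← h2]; group
    exact Subtype.ext this
  · right
    refine ⟨fun h => hN (Wiel.normalizer_le_centralizer_of_pNil P hPc h), ?_⟩
    obtain ⟨g, hg, hgC⟩ := SetLike.not_le_iff_exists.mp hN
    obtain ⟨q, hq, x, hx, hxC, k, hk⟩ := MinNil.exists_primary_notMem hgC
    have hxN : x ∈ Subgroup.normalizer (P : Set G) := (zpowers_le.mpr hg) hx
    haveI : Fact q.Prime := ⟨hq⟩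
    have hq2 : q ≠ 2 := by
      rintro rfl
      exact hxC ((le_centralizer (P : Subgroup G)) (Wiel.mem_sylow_of_mem_normalizer P hxN hk))
    have h1 := Resid.card_fixed_modEq (P := (P : Subgroup G)) (q := q) hxN (j := k)
      (by rw [← hk]; exact pow_orderOf_eq_one x)
    rw [hcard] at h1
    have h2 := card_dvd_of_le (inf_le_left : (P : Subgroup G) ⊓ Subgroup.centralizer {x} ≤ P)
    rw [hcard] at h2
    have h3 : Nat.card ((P : Subgroup G) ⊓ Subgroup.centralizer {x} : Subgroup G) ∈ Nat.divisors 4 :=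
      Nat.mem_divisors.mpr ⟨h2, by norm_num⟩
    have h3' : Nat.divisors 4 = {1, 2, 4} := by decide
    rw [h3'] at h3
    simp only [Finset.mem_insert, Finset.mem_singleton] at h3
    have h4 : (P : Subgroup G) ⊓ Subgroup.centralizer {x} = ⊥ := by
      rcases h3 with h | h | h
      · exact Subgroup.card_eq_one.mp h
      · exfalso
        rw [h] at h1
        have := (Nat.modEq_iff_dvd' (by norm_num : 2 ≤ 4)).mp h1.symm
        have h4 : q ∣ 2 := this
        exact absurd ((Nat.prime_dvd_prime_iff_eq hq (by norm_num)).mp h4) hq2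
      · exfalso
        have h5 : (P : Subgroup G) ⊓ Subgroup.centralizer {x} = P :=
          eq_of_le_of_card_ge inf_le_left (by rw [h]; exact hcard.le)
        apply hxC
        rw [mem_centralizer_iff]
        intro y hy
        have h6 : y ∈ (P : Subgroup G) ⊓ Subgroup.centralizer {x} := by rw [h5]; exact hy
        exact (mem_centralizer_singleton_iff.mp h6.2)
    have hq3 : q = 3 := by
      rw [h4, Subgroup.card_bot] at h1
      have := (Nat.modEq_iff_dvd' (by norm_num : 1 ≤ 4)).mp h1.symm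
      exact (Nat.prime_dvd_prime_iff_eq hq (by norm_num)).mp this
    have hnofix : ∀ a ∈ (P : Subgroup G), a ≠ 1 → x * a * x⁻¹ ≠ a := by
      intro a ha ha1 h
      apply ha1
      have : a ∈ (P : Subgroup G) ⊓ Subgroup.centralizer {x} := by
        refine ⟨ha, mem_centralizer_singleton_iff.mpr ?_⟩
        calc a * x = (x * a * x⁻¹) * x := by rw [h]
          _ = x * a := by group
      rw [h4] at this
      exact mem_bot.mp this
    -- x has odd order, so x^2 generates <x>
    have hodd : (orderOf x).Coprime 2 := by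
      rw [hk, hq3]; exact Nat.Coprime.pow_left k (by norm_num)
    obtain ⟨m, hm⟩ := exists_pow_eq_self_of_coprime (x := x) (n := 2) hodd.symm
    have hnofix2 : ∀ a ∈ (P : Subgroup G), a ≠ 1 → x * (x * a * x⁻¹) * x⁻¹ ≠ a := by
      intro a ha ha1 h
      apply hnofix a ha ha1
      have h5 : x ^ 2 ∈ Subgroup.centralizer {a} := by
        rw [mem_centralizer_singleton_iff, pow_two]
        calc x * x * a = (x * (x * a * x⁻¹) * x⁻¹) * (x * x) := by group
          _ = _ := by rw [h]
      have h6 : x ∈ Subgroup.centralizer {a} := by rw [← hm]; exact pow_mem h5 m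
      rw [mem_centralizer_singleton_iff] at h6
      rw [h6]; group
    have hconjP : ∀ a ∈ (P : Subgroup G), x * a * x⁻¹ ∈ (P : Subgroup G) := fun a ha =>
      (Subgroup.mem_normalizer_iff.mp hxN a).mp ha
    have hconj1 : ∀ a : G, a ≠ 1 → x * a * x⁻¹ ≠ 1 := by
      intro a ha h
      apply ha
      calc a = x⁻¹ * (x * a * x⁻¹) * x := by group
        _ = 1 := by rw [h]; group
    -- all nontrivial elements of P are conjugate
    have hall : ∀ a b : {x : G // x ∈ (P : Subgroup G) ∧ x ≠ 1}, IsConj a.1 b.1 := by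
      intro a b
      let b1 : {x : G // x ∈ (P : Subgroup G) ∧ x ≠ 1} :=
        ⟨x * a.1 * x⁻¹, hconjP _ a.2.1, hconj1 _ a.2.2⟩
      let b2 : {x : G // x ∈ (P : Subgroup G) ∧ x ≠ 1} :=
        ⟨x * b1.1 * x⁻¹, hconjP _ b1.2.1, hconj1 _ b1.2.2⟩
      have h5 : a ≠ b1 := fun h => hnofix a.1 a.2.1 a.2.2 (congrArg Subtype.val h).symm
      have h6 : b1 ≠ b2 := fun h => hnofix b1.1 b1.2.1 b1.2.2 (congrArg Subtype.val h).symm
      have h7 : a ≠ b2 := fun h => hnofix2 a.1 a.2.1 a.2.2 (congrArg Subtype.val h).symm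
      haveI := Fintype.ofFinite {x : G // x ∈ (P : Subgroup G) ∧ x ≠ 1}
      have h8 : ({a, b1, b2} : Finset {x : G // x ∈ (P : Subgroup G) ∧ x ≠ 1}) = Finset.univ := by
        apply Finset.eq_univ_of_card
        rw [← Nat.card_eq_fintype_card, hcard3]
        rw [Finset.card_insert_of_notMem (by simp [h5, h7]), Finset.card_insert_of_notMem (by simp [h6]),
          Finset.card_singleton]
      have h9 : b ∈ ({a, b1, b2} : Finset {x : G // x ∈ (P : Subgroup G) ∧ x ≠ 1}) := by
        rw [h8]; exact Finset.mem_univ _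
      simp only [Finset.mem_insert, Finset.mem_singleton] at h9
      rcases h9 with h | h | h
      · rw [h]
      · rw [h]; exact isConj_iff.mpr ⟨x, rfl⟩
      · rw [h]
        exact (isConj_iff.mpr ⟨x, rfl⟩ : IsConj a.1 b1.1).trans (isConj_iff.mpr ⟨x, rfl⟩)
    rw [Nat.card_eq_one_iff_unique]
    constructor
    · refine ⟨fun C D => ?_⟩
      obtain ⟨c, rfl⟩ := hFs C
      obtain ⟨d, rfl⟩ := hFs D
      exact Subtype.ext (ConjClasses.mk_eq_mk_iff_isConj.mpr (hall c d))
    · have : Nonempty {x : G // x ∈ (P : Subgroup G) ∧ x ≠ 1} := by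
        rw [← Finite.card_pos_iff, hcard3]; norm_num
      exact this.map F

/-- If a Sylow 2-subgroup P of a finite group G is a Klein four-group, then G has three classes of involutions if and only if P has a normal complement in G. -/
theorem result {G : Type*} [Group G] [Finite G] (P : Sylow 2 G) (hP : IsKleinFour (P : Subgroup G)) : Nat.card {C : ConjClasses G // ∃ t : G, orderOf t = 2 ∧ ConjClasses.mk t = C} = 3 ↔ ∃ N : Subgroup G, N.Normal ∧ Subgroup.IsComplement' N (P : Subgroup G) := by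
  rcases dich P hP with ⟨h1, h2⟩ | ⟨h1, h2⟩
  · exact ⟨fun _ => (Cfsg.Agent.Lib.PNilp.exists_complement_iff P).mpr h1, fun _ => h2⟩
  · refine ⟨fun h => ?_, fun h => absurd ((Cfsg.Agent.Lib.PNilp.exists_complement_iff P).mp h) h1⟩
    rw [h2] at h; omega

end Cfsg.Agent.S0203
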