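import Cfsg.Statements.S0210
import Cfsg.Agent.Lib.Invol

set_option autoImplicit false
open Cfsg

namespace Cfsg.Agent.S0210

open Cfsg.Agent.Lib.Invol

/-- If x, y are involutions whose product has even order, no element of the subgroup generated by x and y conjugates x to y. -/
theorem result {G : Type*} [Group G] [Finite G] (x y : G) (hx : orderOf x = 2) (hy : orderOf y = 2) (heven : Even (orderOf (x * y))) (d : G) (hd : d ∈ Subgroup.closure ({x, y} : Set G)) : d * x * d⁻¹ ≠ y := by
  intro h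
  have h1 := mul_self hx
  have h2 := mul_self hy
  have key : ∀ k : ℤ, (x * y) ^ k * x * ((x * y) ^ k)⁻¹ ≠ y := by
    intro k hk
    rw [zpow_conj h1 h2] at hk
    have h3 : (x * y) ^ (-2 * k - 1) = 1 := by
      have h4 : (x * y) ^ (-2 * k) = x * y := by
        have : x * (x * (x * y) ^ (-2 * k)) = x * y := by rw [hk]
        rwa [← mul_assoc, h1, one_mul] at this
      rw [zpow_sub_one, h4, mul_inv_cancel]
    have h5 := orderOf_dvd_iff_zpow_eq_one.mpr h3
    obtain ⟨m, hm⟩ := heven
    have : (2 : ℤ) ∣ -2 * k - 1 := by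
      refine dvd_trans ⟨m, ?_⟩ h5
      rw [hm]; push_cast; ring
    omega
  rcases (closure_eq h1 h2).mp hd with ⟨k, rfl⟩ | ⟨k, rfl⟩
  · exact key k h
  · apply key (-k)
    have h3 : x * (x * y) ^ k = (x * y) ^ (-k) * x := left_mul_zpow h1 h2 k
    rw [h3] at h
    have h4 : (x * y) ^ (-k) * x * x * ((x * y) ^ (-k) * x)⁻¹ =
        (x * y) ^ (-k) * x * ((x * y) ^ (-k))⁻¹ := by
      rw [mul_inv_rev, inv_eq h1]
      calc (x * y) ^ (-k) * x * x * (x * ((x * y) ^ (-k))⁻¹)
          = (x * y) ^ (-k) * (x * x) * (x * ((x * y) ^ (-k))⁻¹) := by simp only [mul_assoc]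
        _ = _ := by rw [h1, mul_one, ← mul_assoc]
    rw [h4] at h
    exact h

end Cfsg.Agent.S0210
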