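import Cfsg.Statements.S0211
import Cfsg.Agent.Lib.Invol

set_option autoImplicit false
open Cfsg

namespace Cfsg.Agent.S0211

open Cfsg.Agent.Lib.Invol

/-- Let x, y be involutions with xy of even order n and z = (xy)^(n/2). Then xz is conjugate to x by an element of the subgroup generated by x, y if and only if 4 divides n. -/
theorem result {G : Type*} [Group G] [Finite G] (x y : G) (hx : orderOf x = 2) (hy : orderOf y = 2) (heven : Even (orderOf (x * y))) : (∃ d ∈ Subgroup.closure ({x, y} : Set G), d * x * d⁻¹ = x * (x * y) ^ (orderOf (x * y) / 2)) ↔ 4 ∣ orderOf (x * y) := by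
  have h1 := mul_self hx
  have h2 := mul_self hy
  have hpos := orderOf_pos (x * y)
  have key : ∀ k : ℤ, (x * y) ^ k * x * ((x * y) ^ k)⁻¹ = x * (x * y) ^ (orderOf (x * y) / 2) →
      4 ∣ orderOf (x * y) := by
    intro k hk
    rw [zpow_conj h1 h2] at hk
    have h3 := mul_left_cancel hk
    have h4 : (x * y) ^ (((orderOf (x * y) / 2 : ℕ) : ℤ) + 2 * k) = 1 := by
      rw [zpow_add, zpow_natCast, ← h3, ← zpow_add]
      have : -2 * k + 2 * k = 0 := by ring
      rw [this, zpow_zero]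
    have h5 := orderOf_dvd_iff_zpow_eq_one.mpr h4
    obtain ⟨m, hm⟩ := heven
    have h6 : orderOf (x * y) / 2 = m := by omega
    rw [h6, hm] at h5
    have h7 : (2 : ℤ) ∣ (m : ℤ) + 2 * k := by
      refine dvd_trans ⟨m, ?_⟩ h5
      push_cast; ring
    have h8 : (2 : ℤ) ∣ (m : ℤ) := by omega
    have h9 : 2 ∣ m := by exact_mod_cast h8
    obtain ⟨l, hl⟩ := h9
    exact ⟨l, by omega⟩
  constructor
  · rintro ⟨d, hd, h⟩
    rcases (closure_eq h1 h2).mp hd with ⟨k, rfl⟩ | ⟨k, rfl⟩
    · exact key k h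
    · apply key (-k)
      have h3 : x * (x * y) ^ k = (x * y) ^ (-k) * x := left_mul_zpow h1 h2 k
      rw [h3] at h
      have h4 : (x * y) ^ (-k) * x * x * ((x * y) ^ (-k) * x)⁻¹ =
          (x * y) ^ (-k) * x * ((x * y) ^ (-k))⁻¹ := by
        rw [mul_inv_rev, inv_eq h1]
        calc (x * y) ^ (-k) * x * x * (x * ((x * y) ^ (-k))⁻¹)
            = (x * y) ^ (-k) * (x * x) * (x * ((x * y) ^ (-k))⁻¹) := by simp only [mul_assoc]
          _ = _ := by rw [h1, mul_one, ← mul_assoc]
      rw [h4] at h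
      exact h
  · rintro ⟨l, hl⟩
    refine ⟨(x * y) ^ (-(l : ℤ)), (closure_eq h1 h2).mpr (Or.inl ⟨_, rfl⟩), ?_⟩
    rw [zpow_conj h1 h2]
    have : orderOf (x * y) / 2 = 2 * l := by omega
    rw [this, ← zpow_natCast]
    congr 2
    push_cast; ring

end Cfsg.Agent.S0211
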