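import Cfsg.Statements.S0212
import Cfsg.Agent.Lib.InvolB
import Cfsg.Agent.Lib.ClassSizes
import Cfsg.Agent.S0238

set_option autoImplicit false
open Cfsg

namespace Cfsg.Agent.S0212

open Cfsg.Agent.Lib.Invol Cfsg.Agent.Lib.InvolB Cfsg.Agent.Lib Subgroup

/-- The Brauer–Fowler bound: if G is a finite simple group and t an involution of G whose centralizer has order n, then |G| ≤ (2n^2)!. -/
theorem result {G : Type*} [Group G] [Finite G] [IsSimpleGroup G] (t : G) (ht : orderOf t = 2) : Nat.card G ≤ Nat.factorial (2 * (Nat.card (Subgroup.centralizer ({t} : Set G))) ^ 2) := by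
  classical
  haveI := Fintype.ofFinite G
  obtain ⟨n, hn⟩ : ∃ n, n = Nat.card (Subgroup.centralizer ({t} : Set G)) := ⟨_, rfl⟩
  rw [← hn]
  have hnpos : 0 < n := by rw [hn]; exact Nat.card_pos
  obtain ⟨m, hm⟩ : ∃ m, m = Nat.card {y : G // IsConj t y} := ⟨_, rfl⟩
  have e1 : m * n = Nat.card G := by
    rw [hm, hn, ← ClassSizes.index_centralizer_eq, mul_comm, card_mul_index]
  have ht1 := ne_one ht
  by_cases hm1 : m ≤ 1
  · -- G has order at most n, actually G centralizes t
    have h1 : Nat.card G ≤ n := by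
      rw [← e1]
      calc m * n ≤ 1 * n := Nat.mul_le_mul_right n hm1
        _ = n := one_mul n
    refine h1.trans (le_trans ?_ (Nat.self_le_factorial _))
    nlinarith
  push Not at hm1
  -- a large centralizer
  have key : ∃ x : G, x ≠ 1 ∧ m * (m - 1) ≤ (Nat.card G - 1) * Nat.card (Subgroup.centralizer ({x} : Set G)) := by
    by_contra hcon
    push Not at hcon
    -- count pairs
    let PP := {y : G // IsConj t y} × {y : G // IsConj t y}
    let F : PP → G := fun p => p.1.1 * p.2.1
    have hcard : Nat.card PP = m * m := by rw [Nat.card_prod, ← hm]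
    have hord : ∀ {x y : G}, IsConj x y → orderOf x = 2 → orderOf y = 2 := by
      intro x y h hx
      obtain ⟨g, rfl⟩ := isConj_iff.mp h
      rw [show g * x * g⁻¹ = MulAut.conj g x from rfl, MulEquiv.orderOf_eq]; exact hx
    have hfib : ∀ x : G, Nat.card {p : PP // F p = x} ≤ Nat.card (Subgroup.centralizer ({x} : Set G)) := by
      intro x
      refine le_trans ?_ (Cfsg.Agent.S0238.result x).1
      refine Nat.card_le_card_of_injective (fun p => ⟨(p.1.1.1, p.1.2.1), hord p.1.1.2 ht, hord p.1.2.2 ht, p.2⟩) ?_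
      rintro ⟨⟨⟨a, ha⟩, ⟨b, hb⟩⟩, hp⟩ ⟨⟨⟨c, hc⟩, ⟨d, hd⟩⟩, hq⟩ h
      have h1 := Prod.mk.inj (Subtype.mk.inj h)
      have h2 : a = c := h1.1
      have h3 : b = d := h1.2
      subst h2; subst h3; rfl
    have hfib1 : Nat.card {p : PP // F p = 1} ≤ m := by
      rw [hm]
      refine Nat.card_le_card_of_injective (fun p => p.1.1) ?_
      rintro ⟨⟨⟨a, ha⟩, ⟨b, hb⟩⟩, hp⟩ ⟨⟨⟨c, hc⟩, ⟨d, hd⟩⟩, hq⟩ h
      have h1 : a = c := Subtype.mk.inj h
      subst h1
      have hp' : a * b = 1 := hp
      have hq' : a * d = 1 := hq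
      have : b = d := mul_left_cancel (hp'.trans hq'.symm)
      subst this; rfl
    have hsum : m * m = ∑ x : G, Nat.card {p : PP // F p = x} := by
      rw [← hcard, ← Nat.card_congr (Equiv.sigmaFiberEquiv F), Nat.card_sigma]
    rw [← Finset.add_sum_erase _ _ (Finset.mem_univ (1 : G))] at hsum
    obtain ⟨x0, hx0⟩ : ∃ x0 : G, x0 ≠ 1 := ⟨t, ht1⟩
    -- each other fibre is small
    have h2 : (Nat.card G - 1) * ∑ x ∈ Finset.univ.erase (1 : G), Nat.card {p : PP // F p = x} <
        (Nat.card G - 1) * (m * (m - 1)) := by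
      rw [Finset.mul_sum]
      have h3 : ∑ x ∈ Finset.univ.erase (1 : G), (Nat.card G - 1) * Nat.card {p : PP // F p = x} <
          ∑ x ∈ Finset.univ.erase (1 : G), m * (m - 1) := by
        apply Finset.sum_lt_sum_of_nonempty
        · exact ⟨t, Finset.mem_erase.mpr ⟨ht1, Finset.mem_univ _⟩⟩
        · intro x hx
          have hx1 := (Finset.mem_erase.mp hx).1
          exact lt_of_le_of_lt (Nat.mul_le_mul_left _ (hfib x)) (hcon x hx1)
      refine lt_of_lt_of_eq h3 ?_
      rw [Finset.sum_const, Finset.card_erase_of_mem (Finset.mem_univ _), smul_eq_mul,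
        Finset.card_univ, Nat.card_eq_fintype_card]
    have h3 := lt_of_mul_lt_mul_left h2 (Nat.zero_le _)
    have h4 : m * m < m + m * (m - 1) := by omega
    have h5 : m + m * (m - 1) = m * m := by
      obtain ⟨k, rfl⟩ : ∃ k, m = k + 1 := ⟨m - 1, by omega⟩
      simp only [Nat.add_sub_cancel]; ring
    omega
  obtain ⟨x, hx1, hx⟩ := key
  set C := Subgroup.centralizer ({x} : Set G) with hC
  have hCidx : C.index * Nat.card C = Nat.card G := by rw [mul_comm]; exact C.card_mul_index
  have hidx : C.index ≤ 2 * n ^ 2 := by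
    have hCpos : 0 < Nat.card C := Nat.card_pos
    by_contra hcon
    push Not at hcon
    -- (2 n^2 + 1) |C| ≤ |G|
    have h1 : (2 * n ^ 2 + 1) * Nat.card C ≤ Nat.card G := by
      rw [← hCidx]; exact Nat.mul_le_mul_right _ hcon
    have h2 : (2 * n ^ 2 + 1) * (m * (m - 1)) ≤ (m * n - 1) * (m * n) := by
      calc (2 * n ^ 2 + 1) * (m * (m - 1)) ≤ (2 * n ^ 2 + 1) * ((m * n - 1) * Nat.card C) := by
            rw [e1]; exact Nat.mul_le_mul_left _ hx
        _ = (m * n - 1) * ((2 * n ^ 2 + 1) * Nat.card C) := by ring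
        _ ≤ _ := by rw [e1]; exact Nat.mul_le_mul_left _ h1
    obtain ⟨k, rfl⟩ : ∃ k, m = k + 2 := ⟨m - 2, by omega⟩
    have h4 : (k + 2) * n - 1 < (k + 2) * n := by
      have : 0 < (k + 2) * n := Nat.mul_pos (by omega) hnpos
      omega
    have h5 : ((k + 2) * n - 1) * ((k + 2) * n) < ((k + 2) * n) * ((k + 2) * n) :=
      Nat.mul_lt_mul_of_pos_right h4 (Nat.mul_pos (by omega) hnpos)
    have h6 : k + 2 - 1 = k + 1 := rfl
    rw [h6] at h2
    have h7 : (2 * n ^ 2 + 1) * ((k + 2) * (k + 1)) < ((k + 2) * n) * ((k + 2) * n) := lt_of_le_of_lt h2 h5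
    have h8 : ((k + 2) * n) * ((k + 2) * n) ≤ 2 * n ^ 2 * ((k + 2) * (k + 1)) := by
      have : (k + 2) ≤ 2 * (k + 1) := by omega
      calc ((k + 2) * n) * ((k + 2) * n) = n ^ 2 * (k + 2) * (k + 2) := by ring
        _ ≤ n ^ 2 * (k + 2) * (2 * (k + 1)) := Nat.mul_le_mul_left _ this
        _ = _ := by ring
    nlinarith
  -- C is proper
  have hCtop : C ≠ ⊤ := by
    intro h
    have hcen : x ∈ Subgroup.center G := by
      rw [mem_center_iff]
      intro g
      have : g ∈ C := by rw [h]; trivial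
      exact mem_centralizer_singleton_iff.mp this
    have h1 : Subgroup.center G = ⊤ := by
      rcases (inferInstance : (Subgroup.center G).Normal).eq_bot_or_eq_top with h2 | h2
      · rw [h2, mem_bot] at hcen; exact absurd hcen hx1
      · exact h2
    -- then m = 1
    have h2 : m = 1 := by
      rw [hm, ← ClassSizes.index_centralizer_eq, index_eq_one, eq_top_iff]
      intro g _
      rw [mem_centralizer_singleton_iff]
      have : t ∈ Subgroup.center G := by rw [h1]; trivial
      exact (mem_center_iff.mp this g)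
    omega
  -- faithful action on cosets
  have hcore : C.normalCore = ⊥ := by
    rcases (inferInstance : C.normalCore.Normal).eq_bot_or_eq_top with h2 | h2
    · exact h2
    · exfalso
      apply hCtop
      rw [eq_top_iff, ← h2]
      exact normalCore_le C
  have hinj : Function.Injective (MulAction.toPermHom G (G ⧸ C)) := by
    rw [← MonoidHom.ker_eq_bot_iff, ← normalCore_eq_ker]; exact hcore
  have h1 := Nat.card_le_card_of_injective _ hinj
  have h2 : Nat.card (Equiv.Perm (G ⧸ C)) = C.index.factorial := by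
    rw [Nat.card_perm, index_eq_card]
  rw [h2] at h1
  exact h1.trans (Nat.factorial_le hidx)

end Cfsg.Agent.S0212
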