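import Cfsg.Statements.S0213
import Cfsg.Agent.Lib.InvolB
import Cfsg.Agent.Lib.ClassSizes

set_option autoImplicit false
open Cfsg

namespace Cfsg.Agent.S0213

open Cfsg.Agent.Lib.Invol Cfsg.Agent.Lib.InvolB Cfsg.Agent.Lib Subgroup

/-- Thompson Order Formula, two-class case: if every involution of the finite group G is conjugate to exactly one of the non-conjugate involutions x₁, x₂, and nᵢ is the number of pairs (u, v) with u conjugate to x₁, v conjugate to x₂ and xᵢ in the cyclic group generated by uv, then |G| = |C(x₂)| n₁ + |C(x₁)| n₂. -/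
theorem result {G : Type*} [Group G] [Finite G] (x₁ x₂ : G) (h₁ : orderOf x₁ = 2) (h₂ : orderOf x₂ = 2) (hnc : ¬ IsConj x₁ x₂) (hall : ∀ t : G, orderOf t = 2 → IsConj x₁ t ∨ IsConj x₂ t) : Nat.card G = Nat.card (Subgroup.centralizer ({x₂} : Set G)) * Nat.card {p : G × G // IsConj x₁ p.1 ∧ IsConj x₂ p.2 ∧ x₁ ∈ Subgroup.zpowers (p.1 * p.2)} + Nat.card (Subgroup.centralizer ({x₁} : Set G)) * Nat.card {p : G × G // IsConj x₁ p.1 ∧ IsConj x₂ p.2 ∧ x₂ ∈ Subgroup.zpowers (p.1 * p.2)} := by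
  classical
  haveI := Fintype.ofFinite G
  have hord : ∀ {x y : G}, IsConj x y → orderOf x = 2 → orderOf y = 2 := by
    intro x y h hx
    obtain ⟨g, rfl⟩ := isConj_iff.mp h
    rw [show g * x * g⁻¹ = MulAut.conj g x from rfl, MulEquiv.orderOf_eq]; exact hx
  -- the map
  let PP := {p : G × G // IsConj x₁ p.1 ∧ IsConj x₂ p.2}
  have heven : ∀ p : G × G, IsConj x₁ p.1 → IsConj x₂ p.2 → Even (orderOf (p.1 * p.2)) := by
    intro p h1 h2
    refine exists_commuting (hord h1 h₁) (hord h2 h₂) ?_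
    intro h
    exact hnc ((h1.trans h).trans h2.symm)
  let c : PP → G := fun p => (p.1.1 * p.1.2) ^ (orderOf (p.1.1 * p.1.2) / 2)
  have hc : ∀ p : PP, orderOf (c p) = 2 := fun p => orderOf_half (heven p.1 p.2.1 p.2.2)
  have hmem : ∀ (p : PP) (x : G), orderOf x = 2 → (x ∈ Subgroup.zpowers (p.1.1 * p.1.2) ↔ c p = x) := by
    intro p x hx
    constructor
    · intro h
      have hcy : IsCyclic (Subgroup.zpowers (p.1.1 * p.1.2)) := inferInstance
      have h1 : zpowers (c p) ≤ zpowers x := by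
        apply Cyc.le_of_card_dvd_of_le hcy
        · rw [zpowers_le]; exact pow_mem (mem_zpowers _) _
        · rwa [zpowers_le]
        · rw [Nat.card_zpowers, Nat.card_zpowers, hc p, hx]
      have h2 : c p ∈ zpowers x := h1 (mem_zpowers _)
      obtain ⟨k, hk⟩ := mem_zpowers_iff.mp h2
      have h6 : x ^ (2 : ℤ) = 1 := by
        have := mul_self hx
        rw [← pow_two] at this
        exact_mod_cast this
      rcases Int.even_or_odd k with ⟨m, hm⟩ | ⟨m, hm⟩
      · exfalso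
        apply ne_one (hc p)
        rw [← hk, hm, ← two_mul, zpow_mul, h6, one_zpow]
      · rw [← hk, hm, zpow_add, zpow_mul, h6, one_zpow, one_mul, zpow_one]
    · intro h
      rw [← h]
      exact pow_mem (mem_zpowers _) _
  have hP : Nat.card PP = Nat.card {y : G // IsConj x₁ y} * Nat.card {y : G // IsConj x₂ y} := by
    rw [← Nat.card_prod]
    exact Nat.card_congr ⟨fun p => (⟨p.1.1, p.2.1⟩, ⟨p.1.2, p.2.2⟩), fun p => ⟨(p.1.1, p.2.1), p.1.2, p.2.2⟩,
      fun _ => rfl, fun _ => rfl⟩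
  -- conjugation on pairs
  have hcc : ∀ (g : G) (a b : G), g * (a * b) ^ (orderOf (a * b) / 2) * g⁻¹ =
      ((g * a * g⁻¹) * (g * b * g⁻¹)) ^ (orderOf ((g * a * g⁻¹) * (g * b * g⁻¹)) / 2) := by
    intro g a b
    have e : (g * a * g⁻¹) * (g * b * g⁻¹) = g * (a * b) * g⁻¹ := by group
    have e2 : orderOf (g * (a * b) * g⁻¹) = orderOf (a * b) := by
      rw [show g * (a * b) * g⁻¹ = MulAut.conj g (a * b) from rfl, MulEquiv.orderOf_eq]
    rw [e, e2, conj_pow]
  let cj : G → PP → PP := fun g p => ⟨(g * p.1.1 * g⁻¹, g * p.1.2 * g⁻¹),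
    p.2.1.trans (isConj_iff.mpr ⟨g, rfl⟩), p.2.2.trans (isConj_iff.mpr ⟨g, rfl⟩)⟩
  have hcj : ∀ g p, c (cj g p) = g * c p * g⁻¹ := fun g p => (hcc g p.1.1 p.1.2).symm
  have hcjinj : ∀ g, Function.Injective (cj g) := by
    intro g p q h
    have h1 := Subtype.mk.inj h
    have h2 : g * p.1.1 * g⁻¹ = g * q.1.1 * g⁻¹ := (Prod.mk.inj h1).1
    have h3 : g * p.1.2 * g⁻¹ = g * q.1.2 * g⁻¹ := (Prod.mk.inj h1).2
    exact Subtype.ext (Prod.ext (mul_left_cancel (mul_right_cancel h2))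
      (mul_left_cancel (mul_right_cancel h3)))
  let A : G → ℕ := fun y => Nat.card {p : PP // c p = y}
  have hAle : ∀ g y, A y ≤ A (g * y * g⁻¹) := by
    intro g y
    refine Nat.card_le_card_of_injective
      (fun p : {p : PP // c p = y} => (⟨cj g p.1, by rw [hcj, p.2]⟩ : {p : PP // c p = g * y * g⁻¹})) ?_
    intro p q h
    exact Subtype.ext (hcjinj g (Subtype.mk.inj h))
  have hA : ∀ {x y : G}, IsConj x y → A y = A x := by
    intro x y h
    obtain ⟨g, rfl⟩ := isConj_iff.mp h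
    apply le_antisymm _ (hAle g x)
    have := hAle g⁻¹ (g * x * g⁻¹)
    have e : g⁻¹ * (g * x * g⁻¹) * g⁻¹⁻¹ = x := by group
    rwa [e] at this
  have hAz : ∀ y : G, ¬ IsConj x₁ y → ¬ IsConj x₂ y → A y = 0 := by
    intro y h1 h2
    show Nat.card {p : PP // c p = y} = 0
    rw [Nat.card_eq_zero]
    left
    refine ⟨fun p => ?_⟩
    rcases hall y (by rw [← p.2]; exact hc p.1) with h | h
    · exact h1 h
    · exact h2 h
  have hsum : Nat.card PP = Nat.card {y : G // IsConj x₁ y} * A x₁ + Nat.card {y : G // IsConj x₂ y} * A x₂ := by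
    rw [← Nat.card_congr (Equiv.sigmaFiberEquiv c), Nat.card_sigma]
    have h1 : ∀ y : G, Nat.card {p : PP // c p = y} =
        (if IsConj x₁ y then A x₁ else 0) + (if IsConj x₂ y then A x₂ else 0) := by
      intro y
      by_cases h1 : IsConj x₁ y
      · have h2 : ¬ IsConj x₂ y := fun h => hnc (h1.trans h.symm)
        rw [if_pos h1, if_neg h2, add_zero]
        exact hA h1
      · by_cases h2 : IsConj x₂ y
        · rw [if_neg h1, if_pos h2, zero_add]
          exact hA h2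
        · rw [if_neg h1, if_neg h2]
          exact hAz y h1 h2
    rw [Finset.sum_congr rfl (fun y _ => h1 y), Finset.sum_add_distrib]
    simp only [Finset.sum_ite, Finset.sum_const, Finset.sum_const_zero, smul_eq_mul, mul_zero,
      add_zero]
    congr 1 <;> congr 1 <;> rw [Nat.card_eq_fintype_card, Fintype.card_subtype]
  have hAx : ∀ x : G, orderOf x = 2 → A x = Nat.card {p : G × G // IsConj x₁ p.1 ∧ IsConj x₂ p.2 ∧
      x ∈ Subgroup.zpowers (p.1 * p.2)} := by
    intro x hx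
    refine Nat.card_congr ⟨fun p => ⟨p.1.1, p.1.2.1, p.1.2.2, (hmem p.1 x hx).mpr p.2⟩,
      fun p => ⟨⟨p.1, p.2.1, p.2.2.1⟩, (hmem ⟨p.1, p.2.1, p.2.2.1⟩ x hx).mp p.2.2.2⟩,
      fun _ => rfl, fun _ => rfl⟩
  rw [← hAx x₁ h₁, ← hAx x₂ h₂]
  have e1 : Nat.card {y : G // IsConj x₁ y} * Nat.card (Subgroup.centralizer ({x₁} : Set G)) = Nat.card G := by
    rw [← ClassSizes.index_centralizer_eq, mul_comm, card_mul_index]
  have e2 : Nat.card {y : G // IsConj x₂ y} * Nat.card (Subgroup.centralizer ({x₂} : Set G)) = Nat.card G := by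
    rw [← ClassSizes.index_centralizer_eq, mul_comm, card_mul_index]
  have hpos : 0 < Nat.card G := Nat.card_pos
  rw [hP] at hsum
  apply Nat.eq_of_mul_eq_mul_left hpos
  set n1 := Nat.card {y : G // IsConj x₁ y}
  set n2 := Nat.card {y : G // IsConj x₂ y}
  set c1 := Nat.card (Subgroup.centralizer ({x₁} : Set G))
  set c2 := Nat.card (Subgroup.centralizer ({x₂} : Set G))
  calc Nat.card G * Nat.card G = (n1 * c1) * (n2 * c2) := by rw [e1, e2]
    _ = (n1 * n2) * c1 * c2 := by ring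
    _ = (n1 * A x₁ + n2 * A x₂) * c1 * c2 := by rw [hsum]
    _ = (n1 * c1) * (c2 * A x₁) + (n2 * c2) * (c1 * A x₂) := by ring
    _ = Nat.card G * (c2 * A x₁) + Nat.card G * (c1 * A x₂) := by rw [e1, e2]
    _ = _ := by ring

end Cfsg.Agent.S0213
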