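import Cfsg.Statements.S0216
import Cfsg.Agent.Lib.InvolB

set_option autoImplicit false
open Cfsg

namespace Cfsg.Agent.S0216

open Cfsg.Agent.Lib.Invol Cfsg.Agent.Lib.InvolB

/-- For an involution u in a Sylow 2-subgroup P of a finite group G, the following are equivalent: no G-conjugate of u other than u lies in P; every commutator of u with an element of G has odd order. -/
theorem result {G : Type*} [Group G] [Finite G] (P : Sylow 2 G) (u : G) (hu : orderOf u = 2) (huP : u ∈ P) : (∀ g : G, g * u * g⁻¹ ∈ P → g * u * g⁻¹ = u) ↔ (∀ g : G, Odd (orderOf (u * g * u⁻¹ * g⁻¹))) := by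
  have hinv : u⁻¹ = u := inv_eq (mul_self hu)
  have key : ∀ g : G, u * g * u⁻¹ * g⁻¹ = u * (g * u * g⁻¹) := by
    intro g; rw [hinv]; group
  constructor
  · intro h g
    rw [key]
    exact Isolated.odd_orderOf h hu g
  · intro h g hg
    have h1 := h g
    rw [key] at h1
    obtain ⟨k, hk⟩ := isPGroup_closure_of_mem_sylow P (mul_mem huP hg)
    rw [hk] at h1
    have hk0 : k = 0 := by
      by_contra h0
      have : Even (2 ^ k) := (Nat.even_pow.mpr ⟨even_two, h0⟩)
      exact absurd h1 (Nat.not_odd_iff_even.mpr this)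
    rw [hk0, pow_zero, orderOf_eq_one_iff] at hk
    have := eq_inv_of_mul_eq_one_right hk
    rw [this, hinv]

end Cfsg.Agent.S0216
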