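import Cfsg.Statements.S0218

set_option autoImplicit false
open Cfsg

namespace Cfsg.Agent.S0218

theorem aux (N : ℕ) [NeZero N] : Nat.card {x : QuaternionGroup N // orderOf x = 2} = 1 := by
  rw [Nat.card_eq_one_iff_unique]
  have hN : N ≠ 0 := NeZero.ne N
  have hn : ((N : ℕ) : ZMod (2 * N)) + ((N : ℕ) : ZMod (2 * N)) = 0 := by
    rw [← Nat.cast_add, ← two_mul]
    exact ZMod.natCast_self _
  have hne : ((N : ℕ) : ZMod (2 * N)) ≠ 0 := by
    intro h
    rw [ZMod.natCast_eq_zero_iff] at h
    have h1 := Nat.le_of_dvd (by omega) h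
    omega
  have huniq : ∀ x : QuaternionGroup N, orderOf x = 2 →
      x = QuaternionGroup.a ((N : ℕ) : ZMod (2 * N)) := by
    intro x hx
    rcases x with i | i
    · have h1 : QuaternionGroup.a i * QuaternionGroup.a i = (1 : QuaternionGroup N) := by
        have := pow_orderOf_eq_one (QuaternionGroup.a i)
        rw [hx, pow_two] at this
        exact this
      rw [QuaternionGroup.a_mul_a, QuaternionGroup.one_def] at h1
      have h2 : i + i = 0 := QuaternionGroup.a.inj h1
      have h3 : i ≠ 0 := by
        rintro rfl
        rw [QuaternionGroup.a_zero, orderOf_one] at hx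
        omega
      congr 1
      haveI : NeZero (2 * N) := ⟨by omega⟩
      have h4 : ((i.val + i.val : ℕ) : ZMod (2 * N)) = 0 := by
        rw [Nat.cast_add, ZMod.natCast_zmod_val]; exact h2
      rw [ZMod.natCast_eq_zero_iff] at h4
      have h5 : i.val < 2 * N := ZMod.val_lt i
      have h6 : i.val ≠ 0 := by
        intro h; exact h3 ((ZMod.val_eq_zero i).mp h)
      obtain ⟨c, hc⟩ := h4
      have h7 : c = 1 := by
        rcases Nat.lt_trichotomy c 1 with h | h | h
        · have : c = 0 := by omega
          subst this
          omega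
        · exact h
        · exfalso
          have : 2 * N * 2 ≤ 2 * N * c := Nat.mul_le_mul_left _ h
          omega
      subst h7
      have h8 : i.val = N := by omega
      have h9 : i = ((i.val : ℕ) : ZMod (2 * N)) := (ZMod.natCast_zmod_val i).symm
      rw [h8] at h9
      exact h9
    · rw [QuaternionGroup.orderOf_xa] at hx
      omega
  refine ⟨⟨fun x y => Subtype.ext ((huniq x.1 x.2).trans (huniq y.1 y.2).symm)⟩,
    ⟨⟨QuaternionGroup.a ((N : ℕ) : ZMod (2 * N)), ?_⟩⟩⟩
  apply orderOf_eq_prime
  · rw [pow_two, QuaternionGroup.a_mul_a, hn, QuaternionGroup.a_zero]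
  · rw [QuaternionGroup.one_def]
    intro h
    exact hne (QuaternionGroup.a.inj h)

/-- The generalized quaternion group of order 2^(n+3) contains exactly one element of order 2. -/
theorem result (n : ℕ) : Nat.card {x : QuaternionGroup (2 ^ (n + 1)) // orderOf x = 2} = 1 := by
  exact aux _

end Cfsg.Agent.S0218
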