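import Cfsg.Statements.S0219
import Cfsg.Agent.Lib.InvolB

set_option autoImplicit false
open Cfsg

namespace Cfsg.Agent.S0219

open Cfsg.Agent.Lib Cfsg.Agent.Lib.PNilp Subgroup in
theorem aux {G : Type*} [Group G] [Finite G] (heven : Even (Nat.card G)) (T : Sylow 2 G)
    (hT : IsCyclic (T : Subgroup G)) : ∃ H : Subgroup G, H.index = 2 := by
  have h1 : (Nat.card G).minFac = 2 := (Nat.minFac_eq_two_iff _).mpr heven.two_dvd
  have hc := IsCyclic.isComplement' h1 (P := T) hT
  have hp := pNil_of_isComplement' (MonoidHom.normal_ker _) hc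
  obtain ⟨N, hN, hNc, k, hk⟩ := hp
  have hk0 : k ≠ 0 := by
    rintro rfl
    rw [pow_zero, index_eq_one] at hk
    subst hk
    rw [Subgroup.card_top] at hNc
    have := Nat.Prime.coprime_iff_not_dvd Nat.prime_two |>.mp hNc.symm
    exact this heven.two_dvd
  have hQ : IsPGroup 2 (G ⧸ N) := IsPGroup.of_card (n := k) (by rw [← index_eq_card, hk])
  have hNt : N ≠ ⊤ := by
    rintro rfl
    rw [index_top] at hk
    have : 2 ^ k ≠ 1 := by
      have := Nat.one_lt_two_pow hk0
      omega
    exact this hk.symm
  haveI : Nontrivial (G ⧸ N) := QuotientGroup.nontrivial_iff.mpr hNt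
  obtain ⟨M, hM, -⟩ := Basic.exists_le_coatom (H := (⊥ : Subgroup (G ⧸ N))) bot_ne_top
  refine ⟨M.comap (QuotientGroup.mk' N), ?_⟩
  rw [index_comap_of_surjective _ (QuotientGroup.mk'_surjective N)]
  exact Nilp.index_eq_prime_of_coatom hQ hM

/-- If a finite group has even order and a cyclic Sylow 2-subgroup, then it has a subgroup of index 2 (consider the parity of permutations in the regular representation). -/
theorem result {G : Type*} [Group G] [Finite G] (heven : Even (Nat.card G)) (T : Sylow 2 G) (hT : IsCyclic (T : Subgroup G)) : ∃ H : Subgroup G, H.index = 2 := by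
  exact aux heven T hT

end Cfsg.Agent.S0219
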