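import Cfsg.Statements.S0220
import Cfsg.Agent.Lib.InvolB
import Cfsg.Agent.S0219

set_option autoImplicit false
open Cfsg

namespace Cfsg.Agent.S0220

open Cfsg.Agent.Lib Cfsg.Agent.Lib.PNilp Cfsg.Agent.Lib.Invol Subgroup

/-- If x is an involution of a finite group G and a Sylow 2-subgroup of the centralizer of x is cyclic, then G has a subgroup of index 2; in particular G is not simple unless it has order 2. -/
theorem result {G : Type*} [Group G] [Finite G] (x : G) (hx : orderOf x = 2) (S : Sylow 2 ↥(Subgroup.centralizer ({x} : Set G))) (hS : IsCyclic (S : Subgroup ↥(Subgroup.centralizer ({x} : Set G)))) : ∃ H : Subgroup G, H.index = 2 := by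
  have hxC : x ∈ Subgroup.centralizer ({x} : Set G) := mem_centralizer_singleton_iff.mpr rfl
  obtain ⟨C, hC⟩ : ∃ C, C = Subgroup.centralizer ({x} : Set G) := ⟨_, rfl⟩
  -- x lies in S
  have hxS : (⟨x, hxC⟩ : Subgroup.centralizer ({x} : Set G)) ∈ S := by
    have hcen : (⟨x, hxC⟩ : Subgroup.centralizer ({x} : Set G)) ∈ Subgroup.center _ := by
      rw [mem_center_iff]
      intro g
      exact Subtype.ext (mem_centralizer_singleton_iff.mp g.2)
    refine Wiel.mem_sylow_of_mem_normalizer S (k := 1) ?_ (by
      rw [pow_one, ← orderOf_coe]; exact hx)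
    exact (centralizer_le_normalizer _) (center_le_centralizer _ hcen)
  obtain ⟨T, hT⟩ := (S.isPGroup'.map (Subgroup.centralizer ({x} : Set G)).subtype).exists_le_sylow
  have hTS : (T : Subgroup G) = (S : Subgroup _).map (Subgroup.centralizer ({x} : Set G)).subtype := by
    by_contra hne
    have hlt := lt_of_le_of_ne hT (Ne.symm hne)
    have h1 := lt_inf_normalizer (T.isPGroup'.isNilpotent) hlt
    -- N_T(S) centralizes x
    have h2 : (T : Subgroup G) ⊓ Subgroup.normalizer (((S : Subgroup _).map
        (Subgroup.centralizer ({x} : Set G)).subtype : Subgroup G) : Set G) ≤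
        Subgroup.centralizer ({x} : Set G) := by
      rintro g ⟨-, hg⟩
      have hxm : x ∈ (S : Subgroup _).map (Subgroup.centralizer ({x} : Set G)).subtype :=
        ⟨_, hxS, rfl⟩
      have hgx := (Subgroup.mem_normalizer_iff.mp hg x).mp hxm
      have hcyc : IsCyclic ((S : Subgroup _).map (Subgroup.centralizer ({x} : Set G)).subtype) :=
        isCyclic_of_surjective ((S : Subgroup _).equivMapOfInjective _
          (Subgroup.subtype_injective _)) (MulEquiv.surjective _)
      have hgo : orderOf (g * x * g⁻¹) = 2 := by
        rw [show g * x * g⁻¹ = MulAut.conj g x from rfl, MulEquiv.orderOf_eq]; exact hx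
      have h3 : zpowers (g * x * g⁻¹) ≤ zpowers x := by
        apply Cyc.le_of_card_dvd_of_le hcyc
        · rwa [zpowers_le]
        · rwa [zpowers_le]
        · rw [Nat.card_zpowers, Nat.card_zpowers, hgo, hx]
      have h4 : g * x * g⁻¹ ∈ zpowers x := h3 (mem_zpowers _)
      obtain ⟨k, hk⟩ := mem_zpowers_iff.mp h4
      have h5 : g * x * g⁻¹ = x := by
        rcases Int.even_or_odd k with ⟨m, hm⟩ | ⟨m, hm⟩
        · exfalso
          apply ne_one hgo
          have h6 : x ^ (2 : ℤ) = 1 := by
            have := mul_self hx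
            rw [← pow_two] at this
            exact_mod_cast this
          rw [← hk, hm, ← two_mul, zpow_mul, h6, one_zpow]
        · have h6 : x ^ (2 : ℤ) = 1 := by
            have := mul_self hx
            rw [← pow_two] at this
            exact_mod_cast this
          rw [← hk, hm, zpow_add, zpow_mul, h6, one_zpow, one_mul, zpow_one]
      rw [mem_centralizer_singleton_iff]
      calc g * x = (g * x * g⁻¹) * g := by group
        _ = x * g := by rw [h5]
    have h3 : IsPGroup 2 ((T : Subgroup G).subgroupOf (Subgroup.centralizer ({x} : Set G))) :=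
      T.isPGroup'.comap_subtype
    have h4 : (S : Subgroup _) ≤ (T : Subgroup G).subgroupOf (Subgroup.centralizer ({x} : Set G)) := by
      intro y hy
      exact hT ⟨y, hy, rfl⟩
    have h5 := S.is_maximal' h3 h4
    apply h1.not_ge
    intro y hy
    have hyC := h2 hy
    refine ⟨⟨y, hyC⟩, ?_, rfl⟩
    rw [← h5]
    exact hy.1
  have hcyc : IsCyclic (T : Subgroup G) := by
    rw [hTS]
    exact isCyclic_of_surjective ((S : Subgroup _).equivMapOfInjective _
          (Subgroup.subtype_injective _)) (MulEquiv.surjective _)
  refine Cfsg.Agent.S0219.aux ?_ T hcyc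
  have h1 := orderOf_dvd_natCard x
  rw [hx] at h1
  exact (even_iff_two_dvd).mpr h1

end Cfsg.Agent.S0220
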