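import Cfsg.Statements.S0221
import Cfsg.Agent.Lib.PGrpK
import Cfsg.Agent.S0111

set_option autoImplicit false
open Cfsg

namespace Cfsg.Agent.S0221

open Subgroup Cfsg.Agent.Lib.Basic Cfsg.Agent.Lib.PGrpK

theorem conj_order {G : Type*} [Group G] (g x : G) : orderOf (g * x * g⁻¹) = orderOf x := by
  have : orderOf (MulAut.conj g x) = orderOf x :=
      orderOf_injective (MulAut.conj g).toMonoidHom (MulAut.conj g).injective x
  exact this

/-- inside the Sylow subgroup -/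
theorem in_two_group {P : Type*} [Group P] [Finite P] {V W : Subgroup P}
    (hVc : Nat.card V = 4) (hV2 : ∀ v ∈ V, v ^ 2 = 1) (hVW : V ≤ W)
    (hWc : Nat.card W = 8) (hW2 : ∀ w ∈ W, w ^ 2 = 1) {t : P} (ht : t ^ 2 = 1)
    (htV : t ∈ centralizer (V : Set P)) :
    ∃ E : Subgroup P, (∀ e ∈ E, e * t = t * e) ∧ Nat.card E = 8 ∧ ∀ e ∈ E, e ^ 2 = 1 := by
  by_cases h : t ∈ V
  · exact ⟨W, fun e he => comm_of_sq hW2 e he t (hVW h), hWc, hW2⟩
  · obtain ⟨E, hVE, htE, hEc, hE2⟩ := extend hVc hV2 ht h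
      (fun v hv => mem_centralizer_iff.mp htV v hv)
    exact ⟨E, fun e he => comm_of_sq hE2 e he t htE, hEc, hE2⟩

theorem aux {G : Type*} [Group G] [Finite G] (hno : ∀ H : Subgroup G, H.index ≠ 2)
    (hrank : ∃ E : Subgroup G, Nat.card E = 8 ∧ ∀ e ∈ E, e ^ 2 = 1) (x : G) (hx : orderOf x = 2) :
    ∃ g : G, ∃ E : Subgroup G, (∀ e ∈ E, e * (g * x * g⁻¹) = (g * x * g⁻¹) * e) ∧ Nat.card E = 8 ∧
      ∀ e ∈ E, e ^ 2 = 1 := by
  obtain ⟨E, hEc, hE2⟩ := hrank
  have hEp : IsPGroup 2 E := IsPGroup.of_card (n := 3) (by rw [hEc]; norm_num)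
  obtain ⟨P, hEP⟩ := hEp.exists_le_sylow
  have hxp : IsPGroup 2 (zpowers x) := IsPGroup.of_card (n := 1) (by rw [Nat.card_zpowers, hx]; norm_num)
  obtain ⟨Q, hxQ⟩ := hxp.exists_le_sylow
  obtain ⟨g₀, hg₀⟩ := MulAction.exists_smul_eq G Q P
  obtain ⟨t, ht⟩ : ∃ t, t = g₀ * x * g₀⁻¹ := ⟨_, rfl⟩
  have htP : t ∈ (P : Subgroup G) := by
    rw [← hg₀, ht]
    have h1 : x ∈ (Q : Subgroup G) := hxQ (mem_zpowers x)
    have h2 := smul_mem_pointwise_smul x (MulAut.conj g₀) (Q : Subgroup G) h1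
    exact h2
  have hto : orderOf t = 2 := by rw [ht, conj_order, hx]
  obtain ⟨V, W, hVn, hVc, hV2, hVW, hWc, hW2, hCi⟩ := exists_klein (G := (P : Subgroup G)) P.isPGroup'
    ⟨E.subgroupOf P, by rw [Nat.card_congr (subgroupOfEquivOfLe hEP).toEquiv, hEc], fun e he =>
      Subtype.ext (hE2 _ (mem_subgroupOf.mp he))⟩
  -- it suffices to find a conjugate of `t` in `C_P(V)`
  have key : ∀ g : G, ∀ h : g * t * g⁻¹ ∈ (P : Subgroup G),
      (⟨g * t * g⁻¹, h⟩ : (P : Subgroup G)) ∈ centralizer (V : Set (P : Subgroup G)) →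
      ∃ g : G, ∃ E : Subgroup G, (∀ e ∈ E, e * (g * x * g⁻¹) = (g * x * g⁻¹) * e) ∧ Nat.card E = 8 ∧
      ∀ e ∈ E, e ^ 2 = 1 := by
    intro g h hc
    have h2 : (g * t * g⁻¹) ^ 2 = 1 := by
      rw [conj_pow, ← hto, pow_orderOf_eq_one]; group
    obtain ⟨F, hF1, hF2, hF3⟩ := in_two_group hVc hV2 hVW hWc hW2 (t := ⟨g * t * g⁻¹, h⟩)
      (Subtype.ext h2) hc
    refine ⟨g * g₀, F.map (P : Subgroup G).subtype, ?_, ?_, ?_⟩
    · rintro _ ⟨e, he, rfl⟩
      have h3 := congrArg Subtype.val (hF1 e he)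
      have e1 : g * g₀ * x * (g * g₀)⁻¹ = g * t * g⁻¹ := by rw [ht]; group
      rw [e1]
      exact h3
    · rw [Nat.card_congr (equivMapOfInjective F _ (subtype_injective _)).symm.toEquiv, hF2]
    · rintro _ ⟨e, he, rfl⟩
      exact congrArg Subtype.val (hF3 e he)
  have hCpos : (centralizer (V : Set (P : Subgroup G))).index ≠ 0 := index_ne_zero_of_finite
  by_cases hone : (centralizer (V : Set (P : Subgroup G))).index = 1
  · rw [index_eq_one] at hone
    refine key 1 (by simpa using htP) ?_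
    rw [hone]; trivial
  · have hi2 : (centralizer (V : Set (P : Subgroup G))).index = 2 := by omega
    obtain ⟨M, hM⟩ : ∃ M, M = (centralizer (V : Set (P : Subgroup G))).map (P : Subgroup G).subtype := ⟨_, rfl⟩
    have hMP : M ≤ (P : Subgroup G) := by rw [hM]; exact map_subtype_le _
    have hMrel : M.relIndex (P : Subgroup G) = 2 := by
      rw [relIndex, hM, subgroupOf, comap_map_eq_self_of_injective (subtype_injective _), hi2]
    have hmem : ∀ y : G, y ∈ M → ∃ h : y ∈ (P : Subgroup G), (⟨y, h⟩ : (P : Subgroup G)) ∈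
        centralizer (V : Set (P : Subgroup G)) := by
      intro y hy
      rw [hM] at hy
      obtain ⟨z, hz, rfl⟩ := hy
      exact ⟨z.2, hz⟩
    by_cases htM : t ∈ M
    · obtain ⟨h1, h2⟩ := hmem t htM
      refine key 1 (by simpa using h1) ?_
      have e1 : (⟨1 * t * 1⁻¹, by simpa using h1⟩ : (P : Subgroup G)) = ⟨t, h1⟩ :=
        Subtype.ext (by simp)
      rw [e1]; exact h2
    · rcases Cfsg.Agent.S0111.result P M hMP hMrel t hto htP htM with ⟨K, -, hK, -⟩ | ⟨g, hg⟩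
      · exact absurd hK (hno K)
      · obtain ⟨h1, h2⟩ := hmem _ hg
        exact key g h1 h2

/-- Let G be a finite group with no subgroup of index 2 whose 2-rank is at least 3 (it contains an elementary abelian subgroup of order 8). Then the centralizer of every involution of G also contains an elementary abelian subgroup of order 8. -/
theorem result {G : Type*} [Group G] [Finite G] (hno : ∀ H : Subgroup G, H.index ≠ 2) (hrank : ∃ E : Subgroup G, Nat.card E = 8 ∧ ∀ e ∈ E, e ^ 2 = 1) (x : G) (hx : orderOf x = 2) : ∃ E : Subgroup G, E ≤ Subgroup.centralizer ({x} : Set G) ∧ Nat.card E = 8 ∧ ∀ e ∈ E, e ^ 2 = 1 := by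
  obtain ⟨g, E, h1, h2, h3⟩ := aux hno hrank x hx
  refine ⟨E.map (MulAut.conj g⁻¹).toMonoidHom, ?_, ?_, ?_⟩
  · rintro _ ⟨e, he, rfl⟩
    rw [Subgroup.mem_centralizer_singleton_iff]
    have h4 := h1 e he
    have e1 : (MulAut.conj g⁻¹).toMonoidHom e = g⁻¹ * e * g := by simp
    rw [e1]
    calc g⁻¹ * e * g * x = g⁻¹ * (e * (g * x * g⁻¹)) * g := by group
      _ = _ := by rw [h4]; group
  · rw [Nat.card_congr (Subgroup.equivMapOfInjective E _ (MulAut.conj g⁻¹).injective).symm.toEquiv, h2]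
  · rintro _ ⟨e, he, rfl⟩
    rw [← map_pow, h3 e he, map_one]

end Cfsg.Agent.S0221
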