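import Cfsg.Statements.S0225
import Mathlib
import Cfsg.Agent.Lib.ZStarC

set_option autoImplicit false
open Cfsg

namespace Cfsg.Agent.S0225

open Cfsg.Agent.Lib.BSuz Cfsg.Agent.Lib.ZStar

theorem klein {G : Type*} [Group G] [Finite G] {z s : G} (hz : z ^ 2 = 1) (hz1 : z ≠ 1) (hs : s ^ 2 = 1)
    (hs1 : s ≠ 1) (hzs : z ≠ s) (hc : Commute z s) : ∃ E : Subgroup G, IsKleinFour E := by
  have hzi := sq_eq_one_inv hz
  have hsi := sq_eq_one_inv hs
  have hzz : z * z = 1 := by rw [← sq]; exact hz
  have hss : s * s = 1 := by rw [← sq]; exact hs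
  have hzs1 : z * s ≠ 1 := by
    intro h; rw [mul_eq_one_iff_eq_inv, hsi] at h; exact hzs h
  let E : Subgroup G :=
    { carrier := {x | x = 1 ∨ x = z ∨ x = s ∨ x = z * s}
      one_mem' := Or.inl rfl
      mul_mem' := by
        have h1 : z * (z * s) = s := by rw [← mul_assoc, hzz, one_mul]
        have h2 : s * (z * s) = z := by rw [hc.eq, ← mul_assoc, hss, one_mul]
        have h3 : z * s * z = s := by rw [mul_assoc, ← hc.eq]; exact h1
        have h4 : z * s * s = z := by rw [mul_assoc, hss, mul_one]
        have h5 : z * s * (z * s) = 1 := by rw [mul_assoc, h2, hzz]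
        have h6 : s * z = z * s := hc.eq.symm
        rintro a b (rfl | rfl | rfl | rfl) (rfl | rfl | rfl | rfl) <;>
          simp only [Set.mem_setOf_eq, one_mul, mul_one, hzz, hss, h1, h2, h3, h4, h5, h6, true_or, or_true]
      inv_mem' := by
        have h5 : (z * s)⁻¹ = z * s := by rw [mul_inv_rev, hzi, hsi]; exact hc.eq.symm
        rintro a (rfl | rfl | rfl | rfl)
        · left; exact inv_one
        · right; left; exact hzi
        · right; right; left; exact hsi
        · right; right; right; exact h5 }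
  have hE : ∀ x : E, x ^ 2 = 1 := by
    rintro ⟨x, hx⟩
    apply Subtype.ext
    change x ^ 2 = 1
    rcases hx with rfl | rfl | rfl | rfl
    · exact one_pow 2
    · exact hz
    · exact hs
    · rw [hc.mul_pow, hz, hs, one_mul]
  have hcard : Nat.card E = 4 := by
    have h1 : Nat.card E = ({1, z, s, z * s} : Set G).ncard := by
      rw [← Nat.card_coe_set_eq]
      refine Nat.card_congr (Equiv.subtypeEquivRight fun x => ?_)
      change (x = 1 ∨ x = z ∨ x = s ∨ x = z * s) ↔ x ∈ ({1, z, s, z * s} : Set G)
      simp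
    rw [h1]
    classical
    rw [Set.ncard_eq_toFinset_card']
    have h2 : ({1, z, s, z * s} : Set G).toFinset = ({1, z, s, z * s} : Finset G) := by simp
    rw [h2, Finset.card_insert_of_notMem, Finset.card_insert_of_notMem, Finset.card_insert_of_notMem,
      Finset.card_singleton]
    · simp only [Finset.mem_singleton]
      intro h; exact hz1 (mul_eq_right.mp h.symm)
    · simp only [Finset.mem_insert, Finset.mem_singleton]
      rintro (h | h)
      · exact hzs h
      · exact hs1 (mul_eq_left.mp h.symm)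
    · simp only [Finset.mem_insert, Finset.mem_singleton]
      rintro (h | h | h)
      · exact hz1 h.symm
      · exact hs1 h.symm
      · exact hzs1 h.symm
  refine ⟨E, ⟨hcard, ?_⟩⟩
  have h1 : Monoid.exponent E ∣ 2 := Monoid.exponent_dvd_of_forall_pow_eq_one hE
  rcases (Nat.dvd_prime Nat.prime_two).mp h1 with h2 | h2
  · exfalso
    rw [Monoid.exp_eq_one_iff] at h2
    have : Nat.card E = 1 := Nat.card_of_subsingleton 1
    omega
  · exact h2

/-- If a finite group G has even order but contains no Klein four-subgroup (2-rank 1), then some involution z of G is central modulo a normal subgroup of odd order: there is a normal subgroup N of odd order containing every commutator z g z⁻¹ g⁻¹. -/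
theorem result {G : Type*} [Group G] [Finite G] (heven : Even (Nat.card G)) (hrank : ∀ E : Subgroup G, ¬ IsKleinFour E) : ∃ z : G, orderOf z = 2 ∧ ∃ N : Subgroup G, N.Normal ∧ Odd (Nat.card N) ∧ ∀ g : G, z * g * z⁻¹ * g⁻¹ ∈ N := by
  obtain ⟨P⟩ : Nonempty (Sylow 2 G) := inferInstance
  have h2 : 2 ∣ Nat.card P := Sylow.dvd_card_of_dvd_card P (even_iff_two_dvd.mp heven)
  haveI : Nontrivial P := by
    rw [← Finite.one_lt_card_iff_nontrivial]
    exact lt_of_lt_of_le one_lt_two (Nat.le_of_dvd Nat.card_pos h2)
  have hc := P.isPGroup'.center_nontrivial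
  have hcp : IsPGroup 2 (Subgroup.center P) := P.isPGroup'.to_subgroup _
  have h3 : 2 ∣ Nat.card (Subgroup.center P) := by
    obtain ⟨k, hk⟩ := IsPGroup.iff_card.mp hcp
    have hk0 : k ≠ 0 := by
      rintro rfl
      rw [pow_zero] at hk
      have := Finite.one_lt_card_iff_nontrivial.mpr hc
      omega
    rw [hk]; exact dvd_pow_self 2 hk0
  obtain ⟨w, hw⟩ := exists_prime_orderOf_dvd_card' 2 h3
  have hw2 : orderOf ((w : P) : G) = 2 := by rw [Subgroup.orderOf_coe, Subgroup.orderOf_coe]; exact hw
  have hsq : ((w : P) : G) ^ 2 = 1 := by have := pow_orderOf_eq_one ((w : P) : G); rwa [hw2] at this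
  have hne : ((w : P) : G) ≠ 1 := by
    intro h
    rw [h, orderOf_one] at hw2
    norm_num at hw2
  have hUI : UI P ((w : P) : G) := by
    refine ⟨(w : P).2, hne, hsq, ?_⟩
    intro s hs hs2 hs1
    by_contra hne2
    have hcomm : Commute ((w : P) : G) s := by
      have := Subgroup.mem_center_iff.mp w.2 ⟨s, hs⟩
      exact (congrArg Subtype.val this).symm
    obtain ⟨E, hE⟩ := klein hsq hne hs2 hs1 (fun h => hne2 h.symm) hcomm
    exact hrank E hE
  refine ⟨_, hw2, Cfsg.pPrimeCore 2 G, Cfsg.Agent.Lib.Cores.pPrimeCore_normal 2, ?_, zstar_unique hUI⟩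
  have := Cfsg.Agent.Lib.Cores.pPrimeCore_not_dvd (G := G) 2
  rw [← Nat.not_even_iff_odd, even_iff_two_dvd]; exact this

end Cfsg.Agent.S0225
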