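import Cfsg.Statements.S0228
import Cfsg.Agent.Lib.InvolB

set_option autoImplicit false
open Cfsg

namespace Cfsg.Agent.S0228

open Cfsg.Agent.Lib.Invol Cfsg.Agent.Lib.InvolB Cfsg.Agent.Lib Subgroup

/-- A group of order 12 in which no involution is central is isomorphic to the alternating group on four letters. -/
theorem result {G : Type*} [Group G] [Finite G] (hG : Nat.card G = 12) (hz : ∀ z : G, orderOf z = 2 → z ∉ Subgroup.center G) : Nonempty (G ≃* alternatingGroup (Fin 4)) := by
  classical
  haveI : Fact (Nat.Prime 3) := ⟨Nat.prime_three⟩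
  have hfin : Finite G := Nat.finite_of_card_ne_zero (by omega)
  obtain ⟨P⟩ := (inferInstance : Nonempty (Sylow 3 G))
  have hPcard : Nat.card (P : Subgroup G) = 3 := by
    have h1 := P.card_eq_multiplicity
    change Nat.card (P : Subgroup G) = _ at h1
    rw [h1, hG]
    have : (Nat.factorization 12) 3 = 1 := by
      have : (12 : ℕ) = 2 ^ 2 * 3 := by norm_num
      rw [this, Nat.factorization_mul (by norm_num) (by norm_num), Nat.Prime.factorization_pow Nat.prime_two,
        Nat.Prime.factorization Nat.prime_three]
      simp
    rw [this, pow_one]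
  have hidx : (P : Subgroup G).index = 4 := by
    have h1 := (P : Subgroup G).card_mul_index
    rw [hPcard, hG] at h1
    omega
  -- number of Sylow 3-subgroups
  have h1 : Nat.card (Sylow 3 G) ∣ 4 := hidx ▸ P.card_dvd_index
  have h2 : Nat.card (Sylow 3 G) ≡ 1 [MOD 3] := card_sylow_modEq_one 3 G
  have h3 : Nat.card (Sylow 3 G) = 1 ∨ Nat.card (Sylow 3 G) = 4 := by
    have : Nat.card (Sylow 3 G) ∈ Nat.divisors 4 := Nat.mem_divisors.mpr ⟨h1, by norm_num⟩
    have h3' : Nat.divisors 4 = {1, 2, 4} := by decide
    rw [h3'] at this
    simp only [Finset.mem_insert, Finset.mem_singleton] at this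
    rcases this with h | h | h
    · exact Or.inl h
    · rw [h] at h2; exact absurd h2 (by decide)
    · exact Or.inr h
  have hIdx2 : ∀ Q : Sylow 2 G, Nat.card (Q : Subgroup G) = 4 := by
    intro Q
    have h1 := Q.card_eq_multiplicity
    change Nat.card (Q : Subgroup G) = _ at h1
    rw [h1, hG]
    have : (Nat.factorization 12) 2 = 2 := by
      have : (12 : ℕ) = 2 ^ 2 * 3 := by norm_num
      rw [this, Nat.factorization_mul (by norm_num) (by norm_num), Nat.Prime.factorization_pow Nat.prime_two,
        Nat.Prime.factorization Nat.prime_three]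
      simp
    rw [this]; norm_num
  rcases h3 with h3 | h3
  · -- P normal: contradiction
    exfalso
    have hPn : (P : Subgroup G).Normal := by
      have := (Nat.card_eq_one_iff_unique.mp h3).1
      exact P.normal_of_subsingleton
    obtain ⟨Q⟩ := (inferInstance : Nonempty (Sylow 2 G))
    have hQc : IsMulCommutative (Q : Subgroup G) :=
      IsPGroup.isMulCommutative_of_card_eq_prime_sq (p := 2) (hIdx2 Q)
    -- generator of P
    obtain ⟨a, haP⟩ := exists_prime_orderOf_dvd_card' (G := (P : Subgroup G)) 3 (by rw [hPcard])
    have hgen : ∀ y ∈ (P : Subgroup G), y = 1 ∨ y = a ∨ y = (a : G)⁻¹ := by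
      intro y hy
      have h4 : zpowers a = ⊤ := by
        apply eq_top_of_card_eq
        rw [Nat.card_zpowers, haP, hPcard]
      have h5 : (⟨y, hy⟩ : (P : Subgroup G)) ∈ zpowers a := by rw [h4]; trivial
      obtain ⟨k, hk⟩ := mem_zpowers_iff.mp h5
      have h6 : (a : (P : Subgroup G)) ^ (3 : ℤ) = 1 := by
        have := pow_orderOf_eq_one a
        rw [haP] at this
        exact_mod_cast this
      have h7 : k % 3 = 0 ∨ k % 3 = 1 ∨ k % 3 = 2 := by omega
      have h8 : a ^ k = a ^ (k % 3) := by
        conv_lhs => rw [← Int.mul_ediv_add_emod k 3, zpow_add, zpow_mul, h6, one_zpow, one_mul]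
      rw [h8] at hk
      rcases h7 with h7 | h7 | h7
      · left
        rw [h7, zpow_zero] at hk
        exact (congrArg Subtype.val hk).symm
      · right; left
        rw [h7, zpow_one] at hk
        exact (congrArg Subtype.val hk).symm
      · right; right
        rw [h7] at hk
        have h9 : a ^ (2 : ℤ) = a⁻¹ := by
          rw [← mul_left_inj a, inv_mul_cancel, ← zpow_add_one]; exact h6
        rw [h9] at hk
        exact (congrArg Subtype.val hk).symm
    have ha1 : (a : G) ≠ 1 := by
      intro h
      have : a = 1 := Subtype.ext h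
      rw [this, orderOf_one] at haP; omega
    -- elements of Q centralize or invert a
    have hact : ∀ q : G, q * a * q⁻¹ = a ∨ q * a * q⁻¹ = (a : G)⁻¹ := by
      intro q
      rcases hgen _ (hPn.conj_mem a a.2 q) with h | h | h
      · exfalso
        apply ha1
        calc (a : G) = q⁻¹ * (q * a * q⁻¹) * q := by group
          _ = 1 := by rw [h]; group
      · exact Or.inl h
      · exact Or.inr h
    -- an involution in Q
    obtain ⟨t, ht⟩ := exists_prime_orderOf_dvd_card' (G := (Q : Subgroup G)) 2 (by rw [hIdx2]; norm_num)
    have hcen : ∃ t : G, t ∈ (Q : Subgroup G) ∧ orderOf t = 2 ∧ t * a * t⁻¹ = a := by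
      rcases hact t with h | h
      · exact ⟨t, t.2, by rw [orderOf_coe]; exact ht, h⟩
      · -- some q outside ⟨t⟩
        have h4 : ∃ q : (Q : Subgroup G), q ∉ zpowers t := by
          by_contra hcon
          push Not at hcon
          have h5 : zpowers t = ⊤ := by rw [eq_top_iff]; intro x _; exact hcon x
          have h6 : Nat.card (zpowers t) = 4 := by rw [h5, Subgroup.card_top, hIdx2]
          rw [Nat.card_zpowers, ht] at h6
          omega
        obtain ⟨q, hq⟩ := h4
        obtain ⟨r, hr, hra⟩ : ∃ r : (Q : Subgroup G), r ∉ zpowers t ∧ (r : G) * a * (r : G)⁻¹ = a := by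
          rcases hact q with h5 | h5
          · exact ⟨q, hq, h5⟩
          · refine ⟨q * t, ?_, ?_⟩
            · intro h6
              exact hq (by
                have := mul_mem h6 (inv_mem (mem_zpowers t))
                rwa [mul_inv_cancel_right] at this)
            · show ((q : G) * t) * a * ((q : G) * t)⁻¹ = a
              calc ((q : G) * t) * a * ((q : G) * t)⁻¹ = q * (t * a * (t : G)⁻¹) * (q : G)⁻¹ := by group
                _ = q * (a : G)⁻¹ * (q : G)⁻¹ := by rw [h]
                _ = ((q : G) * (a : G) * (q : G)⁻¹)⁻¹ := by group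
                _ = a := by rw [h5, inv_inv]
        have hr1 : r ≠ 1 := fun h6 => hr (h6 ▸ one_mem _)
        by_cases hr2 : r * r = 1
        · exact ⟨r, r.2, by rw [orderOf_coe]; exact orderOf_eq_two hr2 hr1, hra⟩
        · refine ⟨(r : G) * r, mul_mem r.2 r.2, ?_, ?_⟩
          · apply orderOf_eq_two
            · have h6 := pow_card_eq_one' (x := r)
              rw [hIdx2] at h6
              have h7 : r * r * (r * r) = 1 := by
                rw [← h6]; simp only [pow_succ, pow_zero, one_mul, mul_assoc]
              exact congrArg Subtype.val h7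
            · intro h6
              exact hr2 (Subtype.ext h6)
          · calc (r : G) * r * a * ((r : G) * r)⁻¹ = r * (r * a * (r : G)⁻¹) * (r : G)⁻¹ := by group
              _ = a := by rw [hra, hra]
    obtain ⟨z, hzQ, hzo, hza⟩ := hcen
    apply hz z hzo
    -- z commutes with P and Q
    have hPQ : (P : Subgroup G) ⊔ Q = ⊤ := by
      apply Cores.eq_top_of_sylow_le
      intro r hr
      by_cases hr2 : r = 2
      · subst hr2; exact ⟨Q, le_sup_right⟩
      · by_cases hr3 : r = 3
        · subst hr3; exact ⟨P, le_sup_left⟩
        · haveI : Fact r.Prime := ⟨hr⟩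
          obtain ⟨R⟩ := (inferInstance : Nonempty (Sylow r G))
          refine ⟨R, ?_⟩
          have h4 : (R : Subgroup G) = ⊥ := by
            rw [← Subgroup.card_eq_one]
            obtain ⟨k, hk⟩ := R.isPGroup'.exists_card_eq
            change Nat.card (R : Subgroup G) = r ^ k at hk
            rcases Nat.eq_zero_or_pos k with h | h
            · rw [hk, h, pow_zero]
            · exfalso
              have h5 : r ∣ 2 ^ 2 * 3 := by
                have := (dvd_pow_self r h.ne').trans
                  (hk ▸ card_subgroup_dvd_card (R : Subgroup G))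
                rw [hG] at this; exact this
              rcases (Nat.Prime.dvd_mul hr).mp h5 with h6 | h6
              · exact hr2 ((Nat.prime_dvd_prime_iff_eq hr Nat.prime_two).mp (hr.dvd_of_dvd_pow h6))
              · exact hr3 ((Nat.prime_dvd_prime_iff_eq hr Nat.prime_three).mp h6)
          rw [h4]; exact bot_le
    have h5 : (P : Subgroup G) ⊔ Q ≤ Subgroup.centralizer {z} := by
      rw [sup_le_iff]
      constructor
      · intro y hy
        rw [mem_centralizer_singleton_iff]
        have hza' : (a : G) * z = z * a := by
          calc (a : G) * z = (z * a * z⁻¹) * z := by rw [hza]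
            _ = z * a := by group
        rcases hgen y hy with h | h | h
        · rw [h]; group
        · rw [h]; exact hza'
        · rw [h]
          calc (a : G)⁻¹ * z = (a : G)⁻¹ * (z * a) * (a : G)⁻¹ := by group
            _ = (a : G)⁻¹ * (a * z) * (a : G)⁻¹ := by rw [hza']
            _ = z * (a : G)⁻¹ := by group
      · intro y hy
        rw [mem_centralizer_singleton_iff]
        exact congrArg Subtype.val (hQc.is_comm.comm ⟨y, hy⟩ ⟨z, hzQ⟩)
    rw [hPQ] at h5
    rw [mem_center_iff]
    intro g
    exact mem_centralizer_singleton_iff.mp (h5 (mem_top g))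
  · -- four Sylow subgroups
    have hNP : Subgroup.normalizer ((P : Subgroup G) : Set G) = P := by
      have h4 : (Subgroup.normalizer ((P : Subgroup G) : Set G)).index = 4 := by
        rw [← h3]; exact (P.card_eq_index_normalizer).symm
      have h5 := (Subgroup.normalizer ((P : Subgroup G) : Set G)).card_mul_index
      rw [h4, hG] at h5
      refine (eq_of_le_of_card_ge le_normalizer ?_).symm
      rw [hPcard]; omega
    let e : Sylow 3 G ≃ Fin 4 := Finite.equivFinOfCardEq h3
    let f : G →* Equiv.Perm (Fin 4) := (e.permCongrHom.toMonoidHom).comp (MulAction.toPermHom G (Sylow 3 G))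
    have hf : Function.Injective f := by
      have h4 : Function.Injective (MulAction.toPermHom G (Sylow 3 G)) := by
        rw [← MonoidHom.ker_eq_bot_iff]
        have h5 : (MulAction.toPermHom G (Sylow 3 G)).ker ≤ (P : Subgroup G) := by
          intro g hg
          have h6 : g • P = P := by
            have := congrArg (fun σ : Equiv.Perm (Sylow 3 G) => σ P) (MonoidHom.mem_ker.mp hg)
            exact this
          rw [← hNP]
          exact Coprime.mem_normalizer_of_conj_smul_eq
            (congrArg (fun R : Sylow 3 G => (R : Subgroup G)) h6)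
        have h6 : Nat.card (MulAction.toPermHom G (Sylow 3 G)).ker ∣ 3 := by
          have := card_dvd_of_le h5
          rwa [hPcard] at this
        rcases (Nat.dvd_prime Nat.prime_three).mp h6 with h7 | h7
        · exact Subgroup.card_eq_one.mp h7
        · exfalso
          have h8 : (MulAction.toPermHom G (Sylow 3 G)).ker = (P : Subgroup G) :=
            eq_of_le_of_card_ge h5 (by rw [h7]; exact hPcard.le)
          have h9 : (P : Subgroup G).Normal := by rw [← h8]; infer_instance
          have h10 : Subgroup.normalizer ((P : Subgroup G) : Set G) = ⊤ := normalizer_eq_top_iff.mpr h9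
          rw [hNP] at h10
          have := hPcard
          rw [h10, Subgroup.card_top, hG] at this
          omega
      exact (e.permCongrHom.injective).comp h4
    have hrange : f.range = alternatingGroup (Fin 4) := by
      apply Equiv.Perm.eq_alternatingGroup_of_index_eq_two
      have h4 := f.range.card_mul_index
      have h5 : Nat.card f.range = 12 := by
        rw [← hG]; exact (Nat.card_congr (f.ofInjective hf).toEquiv).symm
      rw [h5, Nat.card_perm, Nat.card_fin] at h4
      have : Nat.factorial 4 = 24 := rfl
      omega
    have e2 := f.ofInjective hf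
    rw [hrange] at e2
    exact ⟨e2⟩

end Cfsg.Agent.S0228
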