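import Cfsg.Statements.S0229
import Cfsg.Agent.Lib.InvolB

set_option autoImplicit false
open Cfsg

namespace Cfsg.Agent.S0229

open Cfsg.Agent.Lib.Invol Cfsg.Agent.Lib.InvolB Cfsg.Agent.Lib Subgroup

/-- Let t be an involution of a Sylow 2-subgroup S of a finite group G, conjugate in G to no other element of S, and let s be an involution of G not conjugate to t. Then the order of st is twice an odd number. -/
theorem result {G : Type*} [Group G] [Finite G] (S : Sylow 2 G) (t : G) (ht : orderOf t = 2) (htS : t ∈ S) (hiso : ∀ g : G, g * t * g⁻¹ ∈ S → g * t * g⁻¹ = t) (s : G) (hs : orderOf s = 2) (hns : ¬ IsConj s t) : orderOf (s * t) % 4 = 2 := by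
  have h1 : Even (orderOf (s * t)) := exists_commuting hs ht hns
  by_contra hcon
  have h4 : 4 ∣ orderOf (s * t) := by
    obtain ⟨m, hm⟩ := h1
    omega
  have hst : (s * t)⁻¹ = t * s := by
    rw [mul_inv_rev, inv_eq (mul_self hs), inv_eq (mul_self ht)]
  have hord : orderOf (t * s) = orderOf (s * t) := by rw [← hst, orderOf_inv]
  rw [← hord] at h4 h1
  have hmt := mul_self ht
  have hms := mul_self hs
  obtain ⟨l, hl⟩ := h4
  -- conj of t by (ts)^{-l}
  have h5 := zpow_conj hmt hms (-(l : ℤ))
  have h6 : (-2 * -(l : ℤ)) = ((orderOf (t * s) / 2 : ℕ) : ℤ) := by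
    have : orderOf (t * s) / 2 = 2 * l := by omega
    rw [this]; push_cast; ring
  rw [h6, zpow_natCast] at h5
  set c := (t * s) ^ (orderOf (t * s) / 2) with hc
  have hco : orderOf c = 2 := orderOf_half h1
  have hct : Commute c t := commute_half_left hmt hms h1
  have htco : orderOf (t * c) = 2 := by
    rw [← h5, show (t * s) ^ (-(l : ℤ)) * t * ((t * s) ^ (-(l : ℤ)))⁻¹ =
      MulAut.conj ((t * s) ^ (-(l : ℤ))) t from rfl, MulEquiv.orderOf_eq]
    exact ht
  have h7 : orderOf (t * (t * c)) = 2 ^ 1 := by
    rw [← mul_assoc, hmt, one_mul, hco, pow_one]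
  have h8 := isPGroup_closure ht htco h7
  have h9 := Isolated.of_isPGroup (P := S) hiso h8 (subset_closure (by simp))
    (g := (t * s) ^ (-(l : ℤ))) (by rw [h5]; exact subset_closure (by simp))
  rw [h5] at h9
  have : c = 1 := by
    have : t * c = t * 1 := by rw [mul_one]; exact h9
    exact mul_left_cancel this
  exact ne_one hco this

end Cfsg.Agent.S0229
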