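import Cfsg.Statements.S0230
import Cfsg.Agent.Lib.InvolB
import Cfsg.Agent.Lib.ClassSizes

set_option autoImplicit false
open Cfsg

namespace Cfsg.Agent.S0230

open Cfsg.Agent.Lib.Invol Cfsg.Agent.Lib.InvolB Cfsg.Agent.Lib Subgroup

/-- Let G be a finite group with two non-conjugate involutions, and let t be an involution whose centralizer has maximal order among centralizers of involutions. Then |G| < |C_G(t)|^3. -/
theorem result {G : Type*} [Group G] [Finite G] (s t : G) (hs : orderOf s = 2) (ht : orderOf t = 2) (hnc : ¬ IsConj s t) (hmax : ∀ u : G, orderOf u = 2 → Nat.card (Subgroup.centralizer ({u} : Set G)) ≤ Nat.card (Subgroup.centralizer ({t} : Set G))) : Nat.card G < Nat.card (Subgroup.centralizer ({t} : Set G)) ^ 3 := by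
  classical
  have hord : ∀ {x y : G}, IsConj x y → orderOf x = 2 → orderOf y = 2 := by
    intro x y h hx
    obtain ⟨g, rfl⟩ := isConj_iff.mp h
    rw [show g * x * g⁻¹ = MulAut.conj g x from rfl, MulEquiv.orderOf_eq]; exact hx
  obtain ⟨m, hm⟩ : ∃ m, m = Nat.card (Subgroup.centralizer ({t} : Set G)) := ⟨_, rfl⟩
  rw [← hm] at hmax ⊢
  have hmpos : 0 < m := by rw [hm]; exact Nat.card_pos
  haveI : Nonempty (Fin m) := ⟨⟨0, hmpos⟩⟩
  -- for each involution an injection of the centralizer in `Fin m`
  have hex : ∀ u : G, orderOf u = 2 → ∃ f : Subgroup.centralizer ({u} : Set G) → Fin m,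
      Function.Injective f := by
    intro u hu
    have h1 := hmax u hu
    obtain ⟨e⟩ := (Finite.equivFin (Subgroup.centralizer ({u} : Set G))) |> fun e => (⟨e⟩ : Nonempty _)
    exact ⟨fun x => Fin.castLE h1 (e x), fun x y h => e.injective (Fin.castLE_injective h1 h)⟩
  choose! f hf using hex
  have hcomm : ∀ u : {y : G // IsConj t y}, ∃ c : {c : G // orderOf c = 2 ∧ Commute c s},
      u.1 ∈ Subgroup.centralizer ({c.1} : Set G) := by
    intro u
    have hu := hord u.2 ht
    have heven : Even (orderOf (s * u.1)) := by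
      refine exists_commuting hs hu ?_
      intro h
      exact hnc (h.trans u.2.symm)
    exact ⟨⟨_, orderOf_half heven, commute_half_left (mul_self hs) (mul_self hu) heven⟩,
      mem_centralizer_singleton_iff.mpr (commute_half_right (mul_self hs) (mul_self hu) heven).symm⟩
  choose c hc using hcomm
  have h1 : Nat.card {y : G // IsConj t y} ≤ Nat.card {c : G // orderOf c = 2 ∧ Commute c s} * m := by
    rw [← Nat.card_fin m, ← Nat.card_prod]
    refine Nat.card_le_card_of_injective (fun u => (c u, f (c u).1 ⟨u.1, hc u⟩)) ?_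
    intro u v h
    have h2 : c u = c v := (Prod.mk.inj h).1
    have h3 : f (c u).1 ⟨u.1, hc u⟩ = f (c v).1 ⟨v.1, hc v⟩ := (Prod.mk.inj h).2
    have h4 : ∀ (a b : {c : G // orderOf c = 2 ∧ Commute c s}) (hab : a = b) (hv : v.1 ∈ Subgroup.centralizer ({b.1} : Set G))
        (hv' : v.1 ∈ Subgroup.centralizer ({a.1} : Set G)),
        f b.1 ⟨v.1, hv⟩ = f a.1 ⟨v.1, hv'⟩ := by
      rintro a b rfl hv hv'; rfl
    rw [h4 (c u) (c v) h2 (hc v) (by rw [h2]; exact hc v)] at h3
    have h5 := hf _ (c u).2.1 h3
    exact Subtype.ext (Subtype.mk.inj h5)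
  have h2 : Nat.card {c : G // orderOf c = 2 ∧ Commute c s} < Nat.card (Subgroup.centralizer ({s} : Set G)) := by
    rw [Nat.lt_iff_add_one_le, ← Finite.card_option]
    refine Nat.card_le_card_of_injective
      (fun o : Option {c : G // orderOf c = 2 ∧ Commute c s} =>
        (o.elim 1 (fun t => ⟨t.1, mem_centralizer_singleton_iff.mpr t.2.2⟩) :
        Subgroup.centralizer ({s} : Set G))) ?_
    rintro (_ | ⟨a, ha, hab⟩) (_ | ⟨c, hc, hcd⟩) h
    · rfl
    · exact absurd (congrArg Subtype.val h).symm (ne_one hc)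
    · exact absurd (congrArg Subtype.val h) (ne_one ha)
    · have h1 : a = c := Subtype.mk.inj h
      subst h1; rfl
  have h3 := hmax s hs
  have e1 : Nat.card {y : G // IsConj t y} * m = Nat.card G := by
    rw [hm, ← ClassSizes.index_centralizer_eq, mul_comm, card_mul_index]
  rw [← e1]
  have h4 : Nat.card {c : G // orderOf c = 2 ∧ Commute c s} < m := lt_of_lt_of_le h2 h3
  calc Nat.card {y : G // IsConj t y} * m
      ≤ (Nat.card {c : G // orderOf c = 2 ∧ Commute c s} * m) * m := Nat.mul_le_mul_right m h1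
    _ < (m * m) * m := by
        apply Nat.mul_lt_mul_of_pos_right _ hmpos
        exact Nat.mul_lt_mul_of_pos_right h4 hmpos
    _ = m ^ 3 := by ring

end Cfsg.Agent.S0230
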