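import Cfsg.Statements.S0231
import Cfsg.Agent.Lib.InvolB

set_option autoImplicit false
open scoped Pointwise
open Cfsg

namespace Cfsg.Agent.S0231

open Cfsg.Agent.Lib.Invol Cfsg.Agent.Lib.InvolB Cfsg.Agent.Lib Subgroup
open scoped Pointwise

/-- Let T be a Sylow 2-subgroup of the finite group G which is not normal and which intersects every other Sylow 2-subgroup trivially. Then G has a single conjugacy class of involutions. -/
theorem result {G : Type*} [Group G] [Finite G] (T : Sylow 2 G) (hnn : ¬ (T : Subgroup G).Normal) (hTI : ∀ g : G, MulAut.conj g • (T : Subgroup G) ≠ T → MulAut.conj g • (T : Subgroup G) ⊓ T = ⊥) (s t : G) (hs : orderOf s = 2) (ht : orderOf t = 2) : IsConj s t := by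
  classical
  by_contra hnc
  -- Sylow subgroups are TI
  have hTI' : ∀ R S : Sylow 2 G, (R : Subgroup G) ⊓ S ≠ ⊥ → (R : Subgroup G) = S := by
    intro R S hRS
    obtain ⟨g, rfl⟩ := MulAction.exists_smul_eq G T R
    obtain ⟨k, rfl⟩ := MulAction.exists_smul_eq G T S
    have e : ∀ k : G, ((k • T : Sylow 2 G) : Subgroup G) = MulAut.conj k • (T : Subgroup G) :=
      fun _ => rfl
    rw [e, e] at hRS ⊢
    have h1 : MulAut.conj k⁻¹ • (MulAut.conj g • (T : Subgroup G) ⊓ MulAut.conj k • (T : Subgroup G)) ≠ ⊥ := by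
      intro h
      apply hRS
      have := congrArg (fun K : Subgroup G => MulAut.conj k • K) h
      simp only [← mul_smul, ← map_mul, mul_inv_cancel, map_one, one_smul] at this
      rw [this, eq_bot_iff]
      intro x hx
      rw [SchurZas.mem_conj_smul_iff, mem_bot] at hx
      rw [mem_bot]
      calc x = k * (k⁻¹ * x * k) * k⁻¹ := by group
        _ = 1 := by rw [hx]; group
    rw [Subgroup.smul_inf, ← mul_smul, ← map_mul, ← mul_smul, ← map_mul, inv_mul_cancel, map_one,
      one_smul] at h1
    by_contra hne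
    apply h1
    apply hTI
    intro h
    apply hne
    have e2 : MulAut.conj g • (T : Subgroup G) =
        MulAut.conj k • (MulAut.conj (k⁻¹ * g) • (T : Subgroup G)) := by
      rw [← mul_smul, ← map_mul, mul_inv_cancel_left]
    rw [e2, h]
  -- involutions commuting lie in a common Sylow
  have hcomm : ∀ a c : G, orderOf a = 2 → orderOf c = 2 → Commute a c →
      ∃ S : Sylow 2 G, a ∈ S ∧ c ∈ S := by
    intro a c ha hc hac
    have h1 : ∃ j, orderOf (a * c) = 2 ^ j := by
      have : (a * c) ^ 2 = 1 := by rw [hac.mul_pow, pow_two, pow_two, mul_self ha, mul_self hc, one_mul]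
      have := orderOf_dvd_of_pow_eq_one this
      rcases (Nat.dvd_prime Nat.prime_two).mp this with h | h
      · exact ⟨0, by rw [h, pow_zero]⟩
      · exact ⟨1, by rw [h, pow_one]⟩
    obtain ⟨j, hj⟩ := h1
    obtain ⟨S, hS⟩ := (isPGroup_closure ha hc hj).exists_le_sylow
    exact ⟨S, hS (subset_closure (by simp)), hS (subset_closure (by simp))⟩
  have hsame : ∀ (R S : Sylow 2 G) (x : G), x ≠ 1 → x ∈ R → x ∈ S → (R : Subgroup G) = S := by
    intro R S x hx hR hS
    apply hTI'
    intro h
    have : x ∈ (R : Subgroup G) ⊓ S := ⟨hR, hS⟩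
    rw [h, mem_bot] at this
    exact hx this
  -- a Sylow containing t
  have htp : IsPGroup 2 (zpowers t) := IsPGroup.of_card (n := 1) (by rw [Nat.card_zpowers, ht, pow_one])
  obtain ⟨R, hR⟩ := htp.exists_le_sylow
  have htR : t ∈ R := hR (mem_zpowers t)
  have hall : ∀ g : G, g * s * g⁻¹ ∈ R := by
    intro g
    have hso : orderOf (g * s * g⁻¹) = 2 := by
      rw [show g * s * g⁻¹ = MulAut.conj g s from rfl, MulEquiv.orderOf_eq]; exact hs
    have hnc' : ¬ IsConj (g * s * g⁻¹) t := by
      intro h
      exact hnc ((isConj_iff.mpr ⟨g, rfl⟩ : IsConj s (g * s * g⁻¹)).trans h)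
    have heven := exists_commuting hso ht hnc'
    obtain ⟨S1, ha1, ha2⟩ := hcomm _ _ (orderOf_half heven) hso
      (commute_half_left (mul_self hso) (mul_self ht) heven)
    obtain ⟨S2, hb1, hb2⟩ := hcomm _ _ (orderOf_half heven) ht
      (commute_half_right (mul_self hso) (mul_self ht) heven)
    have e1 := hsame S1 S2 _ (ne_one (orderOf_half heven)) ha1 hb1
    have e2 := hsame S2 R t (ne_one ht) hb2 htR
    have : g * s * g⁻¹ ∈ (S1 : Subgroup G) := ha2
    rw [e1, e2] at this
    exact this
  -- then all Sylow subgroups coincide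
  apply hnn
  have hRn : ∀ g : G, ((g • R : Sylow 2 G) : Subgroup G) = R := by
    intro g
    refine hsame (g • R) R s (ne_one hs) ?_ ?_
    · refine SchurZas.mem_conj_smul_iff.mpr ?_
      have := hall g⁻¹
      rwa [inv_inv] at this
    · have := hall 1
      simpa using this
  obtain ⟨k, hk⟩ := MulAction.exists_smul_eq G R T
  have hRT : (R : Subgroup G) = T := by rw [← hk, hRn k]
  rw [← hRT, ← normalizer_eq_top_iff, eq_top_iff]
  intro g _
  exact Coprime.mem_normalizer_of_conj_smul_eq (hRn g)

end Cfsg.Agent.S0231
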