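import Cfsg.Statements.S0232
import Cfsg.Agent.Lib.BrFow
import Cfsg.Agent.S0219

set_option autoImplicit false
open Cfsg

namespace Cfsg.Agent.S0232

open Cfsg.Agent.Lib Subgroup in
theorem aux (n : ℕ) : ∀ (G : Type _) [Group G] [Finite G], Nat.card G ≤ n → Even (Nat.card G) →
    2 < Nat.card G → ∃ H : Subgroup G, H ≠ ⊤ ∧ Nat.card G < (Nat.card H) ^ 3 := by
  induction n with
  | zero =>
    intro G _ _ h _ h2
    omega
  | succ n ih =>
    intro G _ _ hcard heven hgt
    by_cases hno : ∀ H : Subgroup G, H.index ≠ 2
    · haveI : Nontrivial G := by
        obtain ⟨t, ht⟩ := InvolB.exists_involution heven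
        exact ⟨⟨t, 1, Invol.ne_one ht⟩⟩
      by_cases hZ : Odd (Nat.card (Subgroup.center G))
      · obtain ⟨H, hH, hmin⟩ := BrFow.exists_min_index (G := G)
        refine ⟨H, hH, ?_⟩
        have h1 := BrFow.count hZ hno H.index hmin
        -- index at most m
        obtain ⟨t, ht⟩ := InvolB.exists_involution heven
        have hC : Subgroup.centralizer ({t} : Set G) ≠ ⊤ := by
          intro h
          have hcen : t ∈ Subgroup.center G := by
            rw [mem_center_iff]
            intro y
            have : y ∈ Subgroup.centralizer ({t} : Set G) := by rw [h]; trivial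
            exact mem_centralizer_singleton_iff.mp this
          have h1 := orderOf_dvd_natCard (⟨t, hcen⟩ : Subgroup.center G)
          rw [← orderOf_coe] at h1
          change orderOf t ∣ _ at h1
          rw [ht] at h1
          exact absurd hZ (Nat.not_odd_iff_even.mpr (even_iff_two_dvd.mpr h1))
        have h2 := hmin _ hC
        have h3 : (Subgroup.centralizer ({t} : Set G)).index ≤ Nat.card {s : G // orderOf s = 2} := by
          rw [ClassSizes.index_centralizer_eq]
          refine Nat.card_le_card_of_injective (fun y => ⟨y.1, ?_⟩) ?_
          · obtain ⟨g, hg⟩ := isConj_iff.mp y.2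
            rw [← hg, show g * t * g⁻¹ = MulAut.conj g t from rfl, MulEquiv.orderOf_eq]; exact ht
          · intro a b h
            exact Subtype.ext (Subtype.mk.inj h)
        have h4 : H.index ≤ Nat.card {s : G // orderOf s = 2} := h2.trans h3
        have h5 := H.card_mul_index
        set m := Nat.card {s : G // orderOf s = 2}
        set g := Nat.card G
        set i := H.index
        set k := Nat.card H
        have hm : m ≤ g := by
          exact Nat.card_le_card_of_injective (Subtype.val) Subtype.val_injective
        have hipos : 0 < i := Nat.pos_of_ne_zero index_ne_zero_of_finite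
        have hgpos : 0 < g := Nat.card_pos
        -- i^3 < g^2
        have h6 : i ^ 3 < g ^ 2 := by
          have h7 : i ^ 2 ≤ m ^ 2 := Nat.pow_le_pow_left h4 2
          have h8 : 2 * i ^ 3 < 2 * g ^ 2 := by
            have h9 : 2 * i * m ^ 2 < g ^ 2 + g * m := by nlinarith
            have h10 : g * m ≤ g ^ 2 := by nlinarith
            have h11 : 2 * i * i ^ 2 ≤ 2 * i * m ^ 2 := Nat.mul_le_mul_left _ h7
            have h12 : 2 * i ^ 3 = 2 * i * i ^ 2 := by ring
            omega
          omega
        -- g < k^3
        have h7 : g ^ 3 = k ^ 3 * i ^ 3 := by rw [← mul_pow, h5]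
        by_contra hcon
        push Not at hcon
        have h8 : k ^ 3 * i ^ 3 ≤ g * i ^ 3 := Nat.mul_le_mul_right _ hcon
        have h9 : g * i ^ 3 < g * g ^ 2 := Nat.mul_lt_mul_of_pos_left h6 hgpos
        have h10 : g * g ^ 2 = g ^ 3 := by ring
        omega
      · -- central involution
        rw [Nat.not_odd_iff_even] at hZ
        obtain ⟨t, ht⟩ := InvolB.exists_involution hZ
        set N : Subgroup G := zpowers (t : G) with hN
        have hNn : N.Normal := by
          refine ⟨fun x hx g => ?_⟩
          have h1 : N ≤ Subgroup.center G := by rw [hN, zpowers_le]; exact t.2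
          have h2 := mem_center_iff.mp (h1 hx) g
          rw [h2, mul_assoc, mul_inv_cancel, mul_one]; exact hx
        have hNc : Nat.card N = 2 := by rw [hN, Nat.card_zpowers, orderOf_coe]; exact ht
        have hq : Nat.card (G ⧸ N) * 2 = Nat.card G := by
          have := N.card_mul_index
          rw [hNc, index_eq_card] at this
          rw [mul_comm]; exact this
        by_cases hqe : Even (Nat.card (G ⧸ N))
        · by_cases hq2 : 2 < Nat.card (G ⧸ N)
          · obtain ⟨H, hH, hlt⟩ := ih (G ⧸ N) (by omega) hqe hq2
            refine ⟨H.comap (QuotientGroup.mk' N), ?_, ?_⟩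
            · intro h
              apply hH
              have := congrArg (Subgroup.map (QuotientGroup.mk' N)) h
              rwa [map_comap_eq_self_of_surjective (QuotientGroup.mk'_surjective N),
                ← MonoidHom.range_eq_map, MonoidHom.range_eq_top.mpr (QuotientGroup.mk'_surjective N)] at this
            · have h1 : Nat.card (H.comap (QuotientGroup.mk' N)) = 2 * Nat.card H := by
                rw [Cores.card_comap_eq _ (QuotientGroup.mk'_surjective N), QuotientGroup.ker_mk', hNc]
              rw [h1]
              have : (2 * Nat.card H) ^ 3 = 8 * (Nat.card H) ^ 3 := by ring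
              omega
          · -- |G| = 4
            have h1 : Nat.card (G ⧸ N) = 2 := by
              obtain ⟨k, hk⟩ := hqe
              have : 0 < Nat.card (G ⧸ N) := Nat.card_pos
              omega
            refine ⟨N, ?_, ?_⟩
            · intro h
              rw [h, Subgroup.card_top] at hNc
              omega
            · rw [hNc]; omega
        · -- odd quotient: the Sylow 2-subgroup is N, cyclic
          exfalso
          rw [Nat.not_even_iff_odd] at hqe
          have hcard2 : Nat.card N = 2 ^ (Nat.card G).factorization 2 := by
            rw [hNc, ← hq, Nat.factorization_mul (by have : 0 < Nat.card (G ⧸ N) := Nat.card_pos; omega)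
              (by norm_num)]
            have h1 : (Nat.card (G ⧸ N)).factorization 2 = 0 :=
              Nat.factorization_eq_zero_of_not_dvd (by
                intro h; exact absurd hqe (Nat.not_odd_iff_even.mpr (even_iff_two_dvd.mpr h)))
            rw [Finsupp.add_apply, h1, zero_add, Nat.Prime.factorization Nat.prime_two]
            simp
          obtain ⟨H, hH⟩ := Cfsg.Agent.S0219.aux heven (Sylow.ofCard N hcard2)
            (isCyclic_of_prime_card (p := 2) hNc)
          exact hno H hH
    · push Not at hno
      obtain ⟨H, hH⟩ := hno
      refine ⟨H, ?_, ?_⟩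
      · rintro rfl
        rw [index_top] at hH; omega
      · have h1 := H.card_mul_index
        rw [hH] at h1
        obtain ⟨k, hk⟩ : ∃ k, k = Nat.card H := ⟨_, rfl⟩
        rw [← hk] at h1 ⊢
        rw [← h1]
        have h2 : 2 ≤ k := by omega
        have : k ^ 3 = k * k ^ 2 := by ring
        rw [this]
        apply Nat.mul_lt_mul_of_pos_left _ (by omega)
        nlinarith

/-- A finite group G of even order greater than 2 has a proper subgroup H with |G| < |H|^3. -/
theorem result {G : Type*} [Group G] [Finite G] (heven : Even (Nat.card G)) (hgt : 2 < Nat.card G) : ∃ H : Subgroup G, H ≠ ⊤ ∧ Nat.card G < (Nat.card H) ^ 3 := by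
  exact aux _ G le_rfl heven hgt

end Cfsg.Agent.S0232
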