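import Cfsg.Statements.S0234
import Cfsg.Agent.Lib.BrFow
import Cfsg.Agent.S0073
import Cfsg.Agent.S0228

set_option autoImplicit false
open Cfsg

namespace Cfsg.Agent.S0234

open Cfsg.Agent.Lib Subgroup in
theorem card_dvd_factorial {G : Type*} [Group G] [Finite G] [IsSimpleGroup G] (H : Subgroup G)
    (hH : H ≠ ⊤) : Function.Injective (MulAction.toPermHom G (G ⧸ H)) := by
  have hcore : H.normalCore = ⊥ := by
    rcases (inferInstance : H.normalCore.Normal).eq_bot_or_eq_top with h2 | h2
    · exact h2
    · exfalso
      apply hH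
      rw [eq_top_iff, ← h2]
      exact normalCore_le H
  rw [← MonoidHom.ker_eq_bot_iff, ← normalCore_eq_ker]; exact hcore

open Cfsg.Agent.Lib Subgroup in
theorem card_dvd {G : Type*} [Group G] [Finite G] [IsSimpleGroup G] (H : Subgroup G)
    (hH : H ≠ ⊤) : Nat.card G ∣ H.index.factorial := by
  have h1 := card_dvd_of_injective _ (card_dvd_factorial H hH)
  rwa [Nat.card_perm, ← index_eq_card] at h1

theorem cardA5 : Nat.card {t : alternatingGroup (Fin 5) // orderOf t = 2} = 15 := by
  have h1 : Nat.card {t : alternatingGroup (Fin 5) // orderOf t = 2} =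
      Nat.card {t : alternatingGroup (Fin 5) // t * t = 1 ∧ t ≠ 1} := by
    refine Nat.card_congr (Equiv.subtypeEquivRight fun t => ?_)
    constructor
    · intro h
      exact ⟨Cfsg.Agent.Lib.Invol.mul_self h, Cfsg.Agent.Lib.Invol.ne_one h⟩
    · rintro ⟨h, h'⟩
      exact Cfsg.Agent.Lib.Invol.orderOf_eq_two h h'
  rw [h1, Nat.card_eq_fintype_card]
  decide +kernel

/-- In a finite simple group G of even order greater than 2, the number n of involutions satisfies 3n < |G|. -/
theorem result {G : Type*} [Group G] [Finite G] [IsSimpleGroup G] (heven : Even (Nat.card G)) (hgt : 2 < Nat.card G) : 3 * Nat.card {t : G // orderOf t = 2} < Nat.card G := by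
  classical
  obtain ⟨g, hg⟩ : ∃ g, g = Nat.card G := ⟨_, rfl⟩
  obtain ⟨m, hm⟩ : ∃ m, m = Nat.card {t : G // orderOf t = 2} := ⟨_, rfl⟩
  -- noncommutative
  have hnc : ∃ x y : G, x * y ≠ y * x := by
    by_contra hcon
    push Not at hcon
    letI : CommGroup G := { (inferInstance : Group G) with mul_comm := hcon }
    have h1 : (Nat.card G).Prime := IsSimpleGroup.prime_card
    have h2 := (Nat.prime_dvd_prime_iff_eq Nat.prime_two h1).mp heven.two_dvd
    omega
  have hcen : Subgroup.center G = ⊥ := by
    rcases (inferInstance : (Subgroup.center G).Normal).eq_bot_or_eq_top with h2 | h2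
    · exact h2
    · exfalso
      obtain ⟨x, y, hxy⟩ := hnc
      have : y ∈ Subgroup.center G := by rw [h2]; trivial
      exact hxy (Subgroup.mem_center_iff.mp this x)
  have hZ : Odd (Nat.card (Subgroup.center G)) := by rw [hcen, Subgroup.card_bot]; exact odd_one
  have hno : ∀ H : Subgroup G, H.index ≠ 2 := by
    intro H hH
    have hn := Subgroup.normal_of_index_eq_two hH
    rcases hn.eq_bot_or_eq_top with h | h
    · rw [h, Subgroup.index_bot] at hH; omega
    · rw [h, Subgroup.index_top] at hH; omega
  have h812 : 8 ∣ g ∨ 12 ∣ g := by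
    have h1 := Cfsg.Agent.S0073.result hnc
    have h2 : (Nat.card G).minFac = 2 := (Nat.minFac_eq_two_iff _).mpr heven.two_dvd
    rw [h2] at h1
    rw [hg]; exact h1
  haveI : Nontrivial G := IsSimpleGroup.toNontrivial
  obtain ⟨H, hH, hmin⟩ := Cfsg.Agent.Lib.BrFow.exists_min_index (G := G)
  have hcount := Cfsg.Agent.Lib.BrFow.count hZ hno H.index hmin
  rw [← hm, ← hg] at hcount
  have hdvd := card_dvd H hH
  rw [← hg] at hdvd
  obtain ⟨t, ht⟩ : ∃ t, t = H.index := ⟨_, rfl⟩
  rw [← ht] at hcount hdvd
  have ht1 : t ≠ 1 := by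
    intro h; rw [h] at ht; exact hH (Subgroup.index_eq_one.mp ht.symm)
  have ht0 : t ≠ 0 := by rw [ht]; exact Subgroup.index_ne_zero_of_finite
  have hgpos : 0 < g := by rw [hg]; exact Nat.card_pos
  -- the Sylow 2-subgroup
  obtain ⟨P⟩ := (inferInstance : Nonempty (Sylow 2 G))
  have hPtop : (P : Subgroup G) ≠ ⊤ := by
    intro h
    have hp : IsPGroup 2 G := by
      have := P.isPGroup'
      rw [h] at this
      exact this.of_equiv Subgroup.topEquiv
    have := hp.center_nontrivial
    rw [hcen] at this
    exact not_nontrivial _ this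
  have hPi := hmin _ hPtop
  rw [← ht] at hPi
  have hPodd : ¬ 2 ∣ (P : Subgroup G).index := P.not_dvd_index
  have hPd : (P : Subgroup G).index ∣ g := hg ▸ Subgroup.index_dvd_card _
  rw [← hm, ← hg]
  by_contra hcon
  push Not at hcon
  have ht5 : t < 6 := by
    by_contra h6
    push Not at h6
    have h1 : 12 * m ^ 2 + 12 * m + g ≤ g ^ 2 + g * m := by
      refine le_trans ?_ hcount
      have := Nat.mul_le_mul_right (m ^ 2) (Nat.mul_le_mul_left 2 h6)
      have h2 := Nat.mul_le_mul_right m (Nat.mul_le_mul_left 2 h6)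
      omega
    nlinarith
  have hodd3 : ∀ k : ℕ, (P : Subgroup G).index ∣ k → k ∣ 24 → False := by
    intro k hk hk2
    have h1 : (P : Subgroup G).index ∈ Nat.divisors 24 := Nat.mem_divisors.mpr ⟨hk.trans hk2, by norm_num⟩
    have h2 : Nat.divisors 24 = {1, 2, 3, 4, 6, 8, 12, 24} := by decide
    rw [h2] at h1
    simp only [Finset.mem_insert, Finset.mem_singleton] at h1
    have h3 : (P : Subgroup G).index ≠ 1 := fun h => hPtop (Subgroup.index_eq_one.mp h)
    have h4 : (P : Subgroup G).index = 3 := by omega
    have h5 := card_dvd _ hPtop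
    rw [h4, ← hg] at h5
    have h6 : g ≤ 6 := Nat.le_of_dvd (by decide) h5
    rcases h812 with h | h
    · have := Nat.le_of_dvd hgpos h; omega
    · have := Nat.le_of_dvd hgpos h; omega
  have ht' : t = 2 ∨ t = 3 ∨ t = 4 ∨ t = 5 := by omega
  rcases ht' with rfl | rfl | rfl | rfl
  · exact hodd3 g hPd (hdvd.trans (by decide))
  · exact hodd3 g hPd (hdvd.trans (by decide))
  · exact hodd3 g hPd (hdvd.trans (by decide))
  · -- embed into S5
    let e : G ⧸ H ≃ Fin 5 := Finite.equivFinOfCardEq (by rw [← Subgroup.index_eq_card, ht])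
    let f : G →* Equiv.Perm (Fin 5) := (e.permCongrHom.toMonoidHom).comp (MulAction.toPermHom G (G ⧸ H))
    have hf : Function.Injective f := (e.permCongrHom.injective).comp (card_dvd_factorial H hH)
    have hsign : ∀ x : G, Equiv.Perm.sign (f x) = 1 := by
      let s : G →* ℤˣ := Equiv.Perm.sign.comp f
      have h1 : s.ker = ⊤ := by
        rcases (inferInstance : s.ker.Normal).eq_bot_or_eq_top with h2 | h2
        · exfalso
          have h3 : Function.Injective s := (MonoidHom.ker_eq_bot_iff s).mp h2
          have h4 := Nat.card_le_card_of_injective _ h3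
          have h5 : Nat.card ℤˣ = 2 := by rw [Nat.card_eq_fintype_card]; rfl
          omega
        · exact h2
      intro x
      have : x ∈ s.ker := by rw [h1]; trivial
      exact this
    let f' : G →* alternatingGroup (Fin 5) := f.codRestrict _ (fun x => hsign x)
    have hf' : Function.Injective f' := by
      intro x y h
      exact hf (congrArg Subtype.val h)
    have hA : Nat.card (alternatingGroup (Fin 5)) = 60 := by
      rw [nat_card_alternatingGroup, Nat.card_fin]; rfl
    have hg60 : g ∣ 60 := by
      have := Subgroup.card_dvd_of_injective f' hf'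
      rwa [← hg, hA] at this
    have h12 : 12 ∣ g := by
      rcases h812 with h | h
      · exact absurd (h.trans hg60) (by decide)
      · exact h
    have hcases : g = 12 ∨ g = 60 := by
      obtain ⟨k, rfl⟩ := h12
      obtain ⟨l, hl⟩ := hg60
      have hk : k ∣ 5 := ⟨l, by
        have h3 : 12 * (k * l) = 12 * 5 := by rw [← mul_assoc, ← hl]
        exact (Nat.eq_of_mul_eq_mul_left (by norm_num) h3).symm⟩
      rcases (Nat.dvd_prime Nat.prime_five).mp hk with rfl | rfl
      · left; rfl
      · right; rfl
    rcases hcases with h | h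
    · exact hodd3 g hPd (by rw [h]; decide)
    · have hbij : Function.Bijective f' := by
        rw [Nat.bijective_iff_injective_and_card]
        exact ⟨hf', by rw [hA, ← hg, h]⟩
      have e2 : G ≃* alternatingGroup (Fin 5) := MulEquiv.ofBijective f' hbij
      have h15 : m = 15 := by
        rw [hm, ← cardA5]
        refine Nat.card_congr (e2.toEquiv.subtypeEquiv fun x => ?_)
        show orderOf x = 2 ↔ orderOf (e2 x) = 2
        rw [MulEquiv.orderOf_eq]
      omega

end Cfsg.Agent.S0234
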