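import Cfsg.Statements.S0235
import Cfsg.Agent.Lib.Invol

set_option autoImplicit false
open Cfsg

namespace Cfsg.Agent.S0235

open Cfsg.Agent.Lib.Invol

/-- If x² ≠ 1, the ordered pairs (u, v) of involutions with uv = x correspond bijectively to the involutions t with t x t⁻¹ = x⁻¹ (via (u, v) ↦ u), so the two counts agree. -/
theorem result {G : Type*} [Group G] [Finite G] (x : G) (hx : x ^ 2 ≠ 1) : Nat.card {p : G × G // orderOf p.1 = 2 ∧ orderOf p.2 = 2 ∧ p.1 * p.2 = x} = Nat.card {t : G // orderOf t = 2 ∧ t * x * t⁻¹ = x⁻¹} := by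
  refine Nat.card_congr ⟨fun p => ⟨p.1.1, p.2.1, ?_⟩, fun t => ⟨(t.1, t.1 * x), t.2.1, ?_, ?_⟩, ?_, ?_⟩
  · obtain ⟨⟨a, b⟩, ha, hb, hab⟩ := p
    simp only at ha hb hab ⊢
    rw [← hab, mul_inv_rev, inv_eq (mul_self ha), inv_eq (mul_self hb), ← mul_assoc,
      mul_self ha, one_mul]
  · obtain ⟨t, ht, hi⟩ := t
    simp only
    have h1 : (t * x) * (t * x) = 1 := by
      rw [inv_eq (mul_self ht)] at hi
      rw [← mul_assoc, hi, inv_mul_cancel]
    refine orderOf_eq_two h1 ?_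
    intro h
    apply hx
    have : x = t⁻¹ := eq_inv_of_mul_eq_one_right h
    rw [this, inv_eq (mul_self ht), pow_two, mul_self ht]
  · obtain ⟨t, ht, hi⟩ := t
    simp only
    rw [← mul_assoc, mul_self ht, one_mul]
  · rintro ⟨⟨a, b⟩, ha, hb, hab⟩
    simp only at ha hb hab ⊢
    apply Subtype.ext
    simp only [Prod.mk.injEq, true_and]
    rw [← hab, ← mul_assoc, mul_self ha, one_mul]
  · rintro ⟨t, ht, hi⟩
    rfl

end Cfsg.Agent.S0235
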