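import Cfsg.Statements.S0239
import Cfsg.Agent.Lib.InvolB

set_option autoImplicit false
open Cfsg

namespace Cfsg.Agent.S0239

open Cfsg.Agent.Lib.Invol Cfsg.Agent.Lib.InvolB Cfsg.Agent.Lib Subgroup

/-- If some nontrivial element x of a finite group G is conjugate to x⁻¹, then |G| is even. -/
theorem result {G : Type*} [Group G] [Finite G] (x : G) (hx : x ≠ 1) (hreal : IsConj x x⁻¹) : Even (Nat.card G) := by
  by_contra hodd
  rw [Nat.not_even_iff_odd] at hodd
  obtain ⟨c, hc⟩ := isConj_iff.mp hreal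
  have h1 : (c ^ 2) * x * (c ^ 2)⁻¹ = x := by
    calc (c ^ 2) * x * (c ^ 2)⁻¹ = c * (c * x * c⁻¹) * c⁻¹ := by rw [pow_two]; group
      _ = c * x⁻¹ * c⁻¹ := by rw [hc]
      _ = (c * x * c⁻¹)⁻¹ := by group
      _ = x := by rw [hc, inv_inv]
  have h2 : c ^ 2 ∈ Subgroup.centralizer {x} := by
    rw [mem_centralizer_singleton_iff]
    calc c ^ 2 * x = (c ^ 2 * x * (c ^ 2)⁻¹) * c ^ 2 := by group
      _ = x * c ^ 2 := by rw [h1]
  have hco : ∀ g : G, (orderOf g).Coprime 2 := fun g =>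
    Nat.Coprime.coprime_dvd_left (orderOf_dvd_natCard g) (Nat.coprime_two_right.mpr hodd)
  obtain ⟨m, hm⟩ := exists_pow_eq_self_of_coprime (x := c) (n := 2) (hco c).symm
  have h3 : c ∈ Subgroup.centralizer {x} := by
    rw [← hm]; exact pow_mem h2 m
  rw [mem_centralizer_singleton_iff] at h3
  have h4 : x = x⁻¹ := by
    rw [← hc, h3]; group
  have h5 : x ^ 2 = 1 := by
    rw [pow_two]; nth_rewrite 1 [h4]; exact inv_mul_cancel x
  have h6 := orderOf_dvd_of_pow_eq_one h5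
  have h7 : orderOf x = 1 := Nat.eq_one_of_dvd_coprimes (hco x) dvd_rfl h6
  exact hx (orderOf_eq_one_iff.mp h7)

end Cfsg.Agent.S0239
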