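import Cfsg.Statements.S0240
import Cfsg.Agent.Lib.Invol

set_option autoImplicit false
open Cfsg

namespace Cfsg.Agent.S0240

open Cfsg.Agent.Lib.Invol

/-- Let G be a finite group with n involutions and H a subgroup with |H|·(n+1) > |G|. Then some nontrivial h ∈ H is strongly real in G: an involution t of G satisfies t h t⁻¹ = h⁻¹. -/
theorem result {G : Type*} [Group G] [Finite G] (H : Subgroup G) (hH : Nat.card G < Nat.card H * (Nat.card {t : G // orderOf t = 2} + 1)) : ∃ h : G, h ∈ H ∧ h ≠ 1 ∧ ∃ t : G, orderOf t = 2 ∧ t * h * t⁻¹ = h⁻¹ := by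
  classical
  -- two elements of `{1} ∪ I` in the same left coset of `H`
  let S : Type _ := Option {t : G // orderOf t = 2}
  let f : S → G := fun s => s.elim 1 (fun t => t.1)
  have hfS : ∀ s, f s * f s = 1 := by
    rintro (_ | t)
    · exact one_mul 1
    · exact mul_self t.2
  have hfinj : Function.Injective f := by
    rintro (_ | s) (_ | t) h
    · rfl
    · exact absurd h.symm (ne_one t.2)
    · exact absurd h (ne_one s.2)
    · exact congrArg some (Subtype.ext h)
  have hcard : Nat.card (G ⧸ H) < Nat.card S := by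
    have h1 : Nat.card S = Nat.card {t : G // orderOf t = 2} + 1 := Finite.card_option
    rw [h1, ← Subgroup.index_eq_card]
    have h2 := H.card_mul_index
    by_contra hcon
    push Not at hcon
    have := Nat.mul_le_mul_left (Nat.card H) hcon
    omega
  obtain ⟨s, t, hst, h⟩ : ∃ s t : S, s ≠ t ∧ (QuotientGroup.mk (f s) : G ⧸ H) = QuotientGroup.mk (f t) := by
    by_contra hcon
    push Not at hcon
    have hinj : Function.Injective (fun s : S => (QuotientGroup.mk (f s) : G ⧸ H)) := by
      intro s t h
      by_contra hne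
      exact hcon s t hne h
    have := Nat.card_le_card_of_injective _ hinj
    omega
  rw [QuotientGroup.eq] at h
  rw [inv_eq (hfS s)] at h
  refine ⟨f s * f t, h, ?_, ?_⟩
  · intro h1
    apply hst
    apply hfinj
    have := eq_inv_of_mul_eq_one_left h1
    rw [this, inv_eq (hfS t)]
  · have hcomm : ∀ a b : G, a * a = 1 → b * b = 1 → a * (a * b) * a⁻¹ = (a * b)⁻¹ := by
      intro a b ha hb
      rw [mul_inv_rev, inv_eq ha, inv_eq hb, ← mul_assoc, ha, one_mul]
    rcases s with _ | s
    · rcases t with _ | t
      · exact absurd rfl hst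
      · refine ⟨t.1, t.2, ?_⟩
        show t.1 * (1 * t.1) * (t.1)⁻¹ = (1 * t.1)⁻¹
        rw [one_mul, inv_eq (mul_self t.2), mul_self t.2, one_mul]
    · exact ⟨s.1, s.2, hcomm _ _ (mul_self s.2) (hfS t)⟩

end Cfsg.Agent.S0240
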