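import Cfsg.Statements.S0241
import Cfsg.Agent.Lib.InvolB

set_option autoImplicit false
open Cfsg

namespace Cfsg.Agent.S0241

open Cfsg.Agent.Lib.Invol Cfsg.Agent.Lib.InvolB Cfsg.Agent.Lib Subgroup

/-- If x ≠ 1 is conjugate to x⁻¹ in a finite group G and |C_G(x)| is odd, then some involution t satisfies t x t⁻¹ = x⁻¹. -/
theorem result {G : Type*} [Group G] [Finite G] (x : G) (hx : x ≠ 1) (hreal : IsConj x x⁻¹) (hodd : Odd (Nat.card (Subgroup.centralizer ({x} : Set G)))) : ∃ t : G, orderOf t = 2 ∧ t * x * t⁻¹ = x⁻¹ := by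
  obtain ⟨c, hc⟩ := isConj_iff.mp hreal
  have h1 : (c ^ 2) * x * (c ^ 2)⁻¹ = x := by
    calc (c ^ 2) * x * (c ^ 2)⁻¹ = c * (c * x * c⁻¹) * c⁻¹ := by rw [pow_two]; group
      _ = c * x⁻¹ * c⁻¹ := by rw [hc]
      _ = (c * x * c⁻¹)⁻¹ := by group
      _ = x := by rw [hc, inv_inv]
  have h2 : c ^ 2 ∈ Subgroup.centralizer {x} := by
    rw [mem_centralizer_singleton_iff]
    calc c ^ 2 * x = (c ^ 2 * x * (c ^ 2)⁻¹) * c ^ 2 := by group
      _ = x * c ^ 2 := by rw [h1]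
  obtain ⟨l, hl⟩ := hodd
  set m := Nat.card (Subgroup.centralizer ({x} : Set G)) with hm
  have h3 : (c ^ m) * (c ^ m) = 1 := by
    have h4 : (c ^ 2) ^ m = 1 := by
      have := pow_card_eq_one' (x := (⟨c ^ 2, h2⟩ : Subgroup.centralizer ({x} : Set G)))
      exact congrArg Subtype.val this
    rw [← pow_add, ← two_mul, pow_mul]; exact h4
  have h5 : (c ^ m) * x * (c ^ m)⁻¹ = x⁻¹ := by
    have h6 : c ^ m = (c ^ 2) ^ l * c := by rw [hl, pow_succ, pow_mul]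
    have h7 : (c ^ 2) ^ l ∈ Subgroup.centralizer {x} := pow_mem h2 l
    rw [mem_centralizer_singleton_iff] at h7
    have h8 : ((c ^ 2) ^ l) * x⁻¹ = x⁻¹ * (c ^ 2) ^ l := by
      have := h7
      calc ((c ^ 2) ^ l) * x⁻¹ = x⁻¹ * (x * (c ^ 2) ^ l) * x⁻¹ := by group
        _ = x⁻¹ * ((c ^ 2) ^ l * x) * x⁻¹ := by rw [this]
        _ = _ := by group
    calc (c ^ m) * x * (c ^ m)⁻¹ = ((c ^ 2) ^ l) * (c * x * c⁻¹) * ((c ^ 2) ^ l)⁻¹ := by
          rw [h6]; group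
      _ = ((c ^ 2) ^ l) * x⁻¹ * ((c ^ 2) ^ l)⁻¹ := by rw [hc]
      _ = x⁻¹ := by rw [h8]; group
  refine ⟨c ^ m, orderOf_eq_two h3 ?_, h5⟩
  intro h
  rw [h] at h5
  have h6 : x * x = 1 := by
    have : x = x⁻¹ := by simpa using h5
    nth_rewrite 1 [this]; exact inv_mul_cancel x
  have h7 : orderOf x = 2 := orderOf_eq_two h6 hx
  have h8 := orderOf_dvd_natCard (⟨x, mem_centralizer_singleton_iff.mpr rfl⟩ :
    Subgroup.centralizer ({x} : Set G))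
  rw [← orderOf_coe] at h8
  change orderOf x ∣ _ at h8
  rw [h7] at h8
  omega

end Cfsg.Agent.S0241
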