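import Cfsg.Statements.S0244
import Mathlib
-- import your own Cfsg.Agent.* helpers here

set_option autoImplicit false
open Cfsg

namespace Cfsg.Agent.S0244

/-- Sp_2 = SL_2: a matrix on Fin 1 ⊕ Fin 1 lies in Mathlib's symplectic group iff its determinant is 1. -/
theorem result {R : Type*} [CommRing R] (A : Matrix (Fin 1 ⊕ Fin 1) (Fin 1 ⊕ Fin 1) R) : A ∈ Matrix.symplecticGroup (Fin 1) R ↔ A.det = 1 := by
  constructor
  · intro h
    exact SymplecticGroup.det_eq_one h
  · intro h
    rw [SymplecticGroup.mem_iff]
    have h1 : A (Sum.inl 0) (Sum.inl 0) * A (Sum.inr 0) (Sum.inr 0)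
        - A (Sum.inl 0) (Sum.inr 0) * A (Sum.inr 0) (Sum.inl 0) = 1 := by
      rw [← h, ← Matrix.det_submatrix_equiv_self (finSumFinEquiv (m := 1) (n := 1)).symm A,
        Matrix.det_fin_two]
      rfl
    ext i j
    rcases i with i | i <;> rcases j with j | j <;> fin_cases i <;> fin_cases j <;>
      simp [Matrix.mul_apply, Matrix.J, Matrix.fromBlocks]
    · ring
    · linear_combination -h1
    · linear_combination h1
    · ring


end Cfsg.Agent.S0244
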