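import Cfsg.Statements.S0246
import Mathlib
import Cfsg.Agent.Lib.Symp3
-- import your own Cfsg.Agent.* helpers here

set_option autoImplicit false
open Cfsg
set_option linter.all false

namespace Cfsg.Agent.S0246

/-- The centre of Sp_{2m}(q), m at least 1, is {1, -1}: it has order gcd(2, q-1). -/
theorem result {F : Type*} [Field F] [Fintype F] {q : ℕ} (hF : Fintype.card F = q) (m : ℕ) (hm : 1 ≤ m) : Nat.card (Subgroup.center (Matrix.symplecticGroup (Fin m) F)) = Nat.gcd 2 (q - 1) := by
  subst hF
  rw [Lib.Symp.card_center hm, Lib.Symp.card_sq_eq_one]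


end Cfsg.Agent.S0246
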