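import Cfsg.Statements.S0252
import Mathlib
import Cfsg.Agent.Lib.Sm1
-- import your own Cfsg.Agent.* helpers here

set_option autoImplicit false
open Cfsg
set_option linter.all false

namespace Cfsg.Agent.S0252

/-- PSL_2(4) is isomorphic to A_5. -/
theorem result {F : Type*} [Field F] [Fintype F] (hF : Fintype.card F = 4) : Nonempty (Matrix.ProjectiveSpecialLinearGroup (Fin 2) F ≃* alternatingGroup (Fin 5)) := by
  exact Cfsg.Agent.Lib.Sm.psl_four hF


end Cfsg.Agent.S0252
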