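import Cfsg.Statements.S0253
import Mathlib
import Cfsg.Agent.Lib.Sm2
-- import your own Cfsg.Agent.* helpers here

set_option autoImplicit false
open Cfsg
set_option linter.all false

namespace Cfsg.Agent.S0253

/-- PSL_2(5) is isomorphic to A_5. -/
theorem result {F : Type*} [Field F] [Fintype F] (hF : Fintype.card F = 5) : Nonempty (Matrix.ProjectiveSpecialLinearGroup (Fin 2) F ≃* alternatingGroup (Fin 5)) := by
  haveI : IsSimpleGroup (Matrix.ProjectiveSpecialLinearGroup (Fin 2) F) := by
    classical
    exact Matrix.ProjectiveSpecialLinearGroup.rank_two_simple (by rw [Nat.card_eq_fintype_card, hF]; norm_num)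
  apply Cfsg.Agent.Lib.Sm.sixty
  have h1 := Cfsg.Agent.Lib.Sm.card_PSL2 (F := F)
  rw [hF] at h1
  have : Nat.gcd 2 (5 - 1) = 2 := by norm_num
  rw [this] at h1
  omega


end Cfsg.Agent.S0253
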