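import Cfsg.Statements.S0261
import Mathlib
import Cfsg.Agent.Lib.Qu1
-- import your own Cfsg.Agent.* helpers here

set_option autoImplicit false
open Cfsg
set_option linter.all false

namespace Cfsg.Agent.S0261

/-- For q odd, the Sylow 2-subgroups of SL_2(q) are generalised quaternion. -/
theorem result {F : Type*} [Field F] [Fintype F] (hF : Odd (Fintype.card F)) (P : Sylow 2 (Matrix.SpecialLinearGroup (Fin 2) F)) : ∃ k : ℕ, 1 ≤ k ∧ Nonempty ((P : Subgroup (Matrix.SpecialLinearGroup (Fin 2) F)) ≃* QuaternionGroup (2 ^ k)) := by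
  classical
  exact Cfsg.Agent.Lib.Qu.quat_of_not_cyclic (Cfsg.Agent.Lib.Tw.two_ne_zero_of_odd hF) P.isPGroup' (P : Subgroup (Matrix.SpecialLinearGroup (Fin 2) F)).subtype
    (P : Subgroup (Matrix.SpecialLinearGroup (Fin 2) F)).subtype_injective (Cfsg.Agent.Lib.Qu.not_cyclic hF P)


end Cfsg.Agent.S0261
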