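import Cfsg.Statements.S0262
import Mathlib
import Cfsg.Agent.Lib.Qu1
-- import your own Cfsg.Agent.* helpers here

set_option autoImplicit false
open Cfsg
set_option linter.all false

namespace Cfsg.Agent.S0262

/-- For an odd prime r different from the characteristic, the Sylow r-subgroups of SL_2(q) are cyclic. -/
theorem result {F : Type*} [Field F] [Fintype F] (p : ℕ) [Fact p.Prime] [CharP F p] (r : ℕ) [Fact r.Prime] (hr : r ≠ 2) (hrp : r ≠ p) (R : Sylow r (Matrix.SpecialLinearGroup (Fin 2) F)) : IsCyclic (R : Subgroup (Matrix.SpecialLinearGroup (Fin 2) F)) := by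
  classical
  by_cases h : r ∣ Nat.card (Matrix.SpecialLinearGroup (Fin 2) F)
  · obtain ⟨x, hx, hxo, hle⟩ := Cfsg.Agent.Lib.Tor.exists_central R h
    have hreg := Cfsg.Agent.Lib.Tor.reg_of_order (p := p) (Fact.out : r.Prime) hr hrp hxo
    haveI := Cfsg.Agent.Lib.Tor.Ct_cyclic hreg
    exact isCyclic_of_injective (Subgroup.inclusion hle) (Subgroup.inclusion_injective _)
  · have h1 := R.card_eq_multiplicity
    rw [Nat.factorization_eq_zero_of_not_dvd h, pow_zero] at h1
    haveI : Subsingleton (R : Subgroup (Matrix.SpecialLinearGroup (Fin 2) F)) := (Nat.card_eq_one_iff_unique.mp h1).1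
    infer_instance


end Cfsg.Agent.S0262
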