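import Cfsg.Statements.S0263
import Mathlib
import Cfsg.Agent.Lib.GLSL
-- import your own Cfsg.Agent.* helpers here

set_option autoImplicit false
open Cfsg

namespace Cfsg.Agent.S0263

/-- A Sylow p-subgroup of GL_n(q), p the characteristic, has order q^(n(n-1)/2). -/
theorem result {F : Type*} [Field F] [Fintype F] {q : ℕ} (hF : Fintype.card F = q) (p : ℕ) [Fact p.Prime] [CharP F p] (n : ℕ) (P : Sylow p (Matrix.GeneralLinearGroup (Fin n) F)) : Nat.card P = q ^ (n * (n - 1) / 2) := by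
  subst hF
  obtain ⟨n', hp, hq⟩ := FiniteField.card F p
  rw [Sylow.card_eq_multiplicity, Lib.GLSL.card_GL_eq]
  have hpr : p.Prime := hp
  have hcop : ∀ i ∈ Finset.range n, ¬ p ∣ (Fintype.card F ^ (i + 1) - 1) := by
    intro i _ hdvd
    have h1 : p ∣ Fintype.card F ^ (i + 1) := by
      rw [hq]
      exact dvd_pow (dvd_pow_self p n'.pos.ne') (Nat.succ_ne_zero i)
    have h2 : 1 ≤ Fintype.card F ^ (i + 1) := Nat.one_le_pow _ _ Fintype.card_pos
    have h3 : p ∣ 1 := by
      have := (Nat.dvd_sub h1 hdvd)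
      rwa [Nat.sub_sub_self h2] at this
    exact hpr.one_lt.ne' (Nat.dvd_one.mp h3)
  have hne : ∏ i ∈ Finset.range n, (Fintype.card F ^ (i + 1) - 1) ≠ 0 := by
    intro h0
    rw [Finset.prod_eq_zero_iff] at h0
    obtain ⟨i, hi, h0⟩ := h0
    exact hcop i hi (h0 ▸ dvd_zero p)
  have hnd : ¬ p ∣ ∏ i ∈ Finset.range n, (Fintype.card F ^ (i + 1) - 1) := by
    intro h
    obtain ⟨i, hi, h1⟩ := (Prime.dvd_finsetProd_iff hpr.prime _).mp h
    exact hcop i hi h1
  rw [Nat.factorization_mul (pow_ne_zero _ Fintype.card_ne_zero) hne, Finsupp.add_apply,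
    Nat.factorization_eq_zero_of_not_dvd hnd, add_zero, hq, ← pow_mul, 
    Nat.Prime.factorization_pow hpr]
  simp


end Cfsg.Agent.S0263
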