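import Cfsg.Statements.S0264
import Mathlib
import Cfsg.Agent.Lib.SLn
-- import your own Cfsg.Agent.* helpers here

set_option autoImplicit false
open Cfsg
open scoped commutatorElement
set_option linter.all false

namespace Cfsg.Agent.S0264

/-- GL_n(F)' = SL_n(F) (as the kernel of det), for every field F and every n, except n = 2 over the field of two elements. -/
theorem result {F : Type*} [Field F] (n : ℕ) (h : n = 2 → ∃ a : F, a ≠ 0 ∧ a ≠ 1) : commutator (Matrix.GeneralLinearGroup (Fin n) F) = (Matrix.GeneralLinearGroup.det : Matrix.GeneralLinearGroup (Fin n) F →* Fˣ).ker := by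
  apply le_antisymm
  · rw [commutator_def, Subgroup.commutator_le]
    intro g _ h _
    rw [MonoidHom.mem_ker, map_commutatorElement, commutatorElement_eq_one_iff_mul_comm, mul_comm]
  · rw [← Lib.GLSL.range_toGL]
    rw [MonoidHom.range_eq_map, ← Lib.SLn.closure_transvectionSet, MonoidHom.map_closure,
      Subgroup.closure_le]
    rintro _ ⟨_, ⟨i, j, hij, c, rfl⟩, rfl⟩
    have hn2 : 2 ≤ n := by
      have := i.2
      have := j.2
      by_contra hlt
      apply hij
      apply Fin.ext
      omega
    rcases Nat.lt_or_ge 2 n with h3 | h3
    · have h4 : commutator (Matrix.SpecialLinearGroup (Fin n) F) = ⊤ :=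
        Lib.SLn.commutator_eq_top (by simp; omega)
      have h5 : (Matrix.SpecialLinearGroup.transvection hij c : Matrix.SpecialLinearGroup (Fin n) F)
          ∈ commutator (Matrix.SpecialLinearGroup (Fin n) F) := by rw [h4]; trivial
      have h6 := Subgroup.mem_map_of_mem
        (Matrix.SpecialLinearGroup.toGL : Matrix.SpecialLinearGroup (Fin n) F →* _) h5
      rw [commutator_def, Subgroup.map_commutator] at h6
      exact Subgroup.commutator_mono le_top le_top h6
    · obtain ⟨a, ha, ha1⟩ := h (by omega)
      have hd : (Matrix.diagonal (fun k : Fin n => if k = i then a else 1)).det ≠ 0 := by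
        rw [Matrix.det_diagonal, Finset.prod_ne_zero_iff]
        intro k _
        split_ifs <;> simp [ha]
      let D : Matrix.GeneralLinearGroup (Fin n) F := Matrix.GeneralLinearGroup.mkOfDetNeZero _ hd
      let T : F → Matrix.GeneralLinearGroup (Fin n) F := fun b =>
        Matrix.SpecialLinearGroup.toGL (Matrix.SpecialLinearGroup.transvection hij b)
      have hT : ∀ b b', T (b + b') = T b * T b' := by
        intro b b'
        simp only [T, ← map_mul, Matrix.SpecialLinearGroup.transvection_add]
      have hTi : ∀ b, (T b)⁻¹ = T (-b) := by
        intro b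
        simp only [T, ← map_inv, Matrix.SpecialLinearGroup.transvection_inv]
      have h1 : ∀ b, D * T b = T (b * a) * D := by
        intro b
        apply Units.ext
        have hDc : (D : Matrix (Fin n) (Fin n) F)
          = Matrix.diagonal (fun k : Fin n => if k = i then a else 1) := rfl
        rw [Units.val_mul, Units.val_mul, hDc]
        simp only [T, Matrix.SpecialLinearGroup.coe_GL_coe_matrix,
          Matrix.SpecialLinearGroup.transvection_coe]
        ext k l
        rw [Matrix.diagonal_mul, Matrix.mul_diagonal]
        by_cases hk : i = k <;> by_cases hl : i = l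
        · subst hk; subst hl
          simp [Matrix.single_apply, hij.symm]
        · subst hk
          simp [Matrix.single_apply, Matrix.one_apply_ne hl, Ne.symm hl, mul_comm]
        · subst hl
          simp [Matrix.single_apply, hk, Matrix.one_apply_ne (Ne.symm hk), Ne.symm hk]
        · simp [Matrix.single_apply, hk, hl, Ne.symm hk, Ne.symm hl]
      have h2 : ⁅D, T (c / (a - 1))⁆ = T c := by
        rw [commutatorElement_def, h1, hTi, mul_assoc, mul_assoc, mul_inv_cancel_left, ← hT]
        congr 1
        have : a - 1 ≠ 0 := sub_ne_zero_of_ne ha1
        field_simp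
        ring
      have h3 : T c ∈ commutator (Matrix.GeneralLinearGroup (Fin n) F) := by
        rw [← h2]
        exact Subgroup.commutator_mem_commutator (Subgroup.mem_top _) (Subgroup.mem_top _)
      exact h3


end Cfsg.Agent.S0264
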