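import Cfsg.Statements.S0270
import Mathlib
import Cfsg.Agent.Lib.Symp4
-- import your own Cfsg.Agent.* helpers here

set_option autoImplicit false
open Cfsg
set_option linter.all false

namespace Cfsg.Agent.S0270

/-- PSp_{2m}(q) is simple for m at least 2 and (m, q) other than (2, 2). -/
theorem result {F : Type*} [Field F] [Fintype F] (m : ℕ) (hm : 2 ≤ m) (h : m = 2 → 3 ≤ Fintype.card F) : IsSimpleGroup (Cfsg.PSp m F) := by
  refine Lib.Symp.isSimpleGroup_PSp (by omega) (Lib.Symp.perfect_finite m ?_)
  rcases Nat.lt_or_ge 2 m with h3 | h3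
  · left; omega
  · right; left
    have h2 : m = 2 := by omega
    exact ⟨h2, h h2⟩


end Cfsg.Agent.S0270
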