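import Cfsg.Statements.S0273
import Mathlib
import Cfsg.Agent.Lib.SL2
-- import your own Cfsg.Agent.* helpers here

set_option autoImplicit false
open Cfsg
open scoped Pointwise
set_option linter.all false

namespace Cfsg.Agent.S0273

/-- In GL_2(q) the centraliser of a non-trivial element of a Sylow p-subgroup (p the characteristic) has order q (q-1): the Sylow subgroup times the scalars. -/
theorem result {F : Type*} [Field F] [Fintype F] {q : ℕ} (hF : Fintype.card F = q) (p : ℕ) [Fact p.Prime] [CharP F p] (P : Sylow p (Matrix.GeneralLinearGroup (Fin 2) F)) (a : Matrix.GeneralLinearGroup (Fin 2) F) (ha : a ∈ P) (ha1 : a ≠ 1) : Nat.card (Subgroup.centralizer ({a} : Set (Matrix.GeneralLinearGroup (Fin 2) F))) = q * (q - 1) := by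
  subst hF
  obtain ⟨g, hg⟩ := Lib.SL2.exists_conj_UG p P
  have ha' : a ∈ MulAut.conj g • Lib.SL2.UG F := by rw [← hg]; exact ha
  rw [Subgroup.mem_pointwise_smul_iff_inv_smul_mem, MulAut.smul_def,
    MulAut.inv_apply, MulAut.conj_symm_apply, Lib.SL2.mem_UG] at ha'
  obtain ⟨b, hb⟩ := ha'
  have hb0 : b ≠ 0 := by
    rintro rfl
    rw [Lib.SL2.t_zero, map_one] at hb
    apply ha1
    have : a = g * (g⁻¹ * a * g) * g⁻¹ := by group
    rw [this, hb]; group
  -- the centraliser as a set of matrices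
  have key : ∀ x : Matrix.GeneralLinearGroup (Fin 2) F,
      g * x * g⁻¹ ∈ Subgroup.centralizer ({a} : Set (Matrix.GeneralLinearGroup (Fin 2) F)) ↔
      (x : Matrix (Fin 2) (Fin 2) F) 1 0 = 0 ∧
        (x : Matrix (Fin 2) (Fin 2) F) 0 0 = (x : Matrix (Fin 2) (Fin 2) F) 1 1 := by
    intro x
    rw [Subgroup.mem_centralizer_singleton_iff]
    have h1 : g * x * g⁻¹ * a = a * (g * x * g⁻¹) ↔
        x * Matrix.SpecialLinearGroup.toGL (Lib.SL2.t b)
          = Matrix.SpecialLinearGroup.toGL (Lib.SL2.t b) * x := by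
      rw [← hb]
      constructor
      · intro h
        have : x * (g⁻¹ * a * g) = g⁻¹ * (g * x * g⁻¹ * a) * g := by group
        rw [this, h]; group
      · intro h
        have : g * x * g⁻¹ * a = g * (x * (g⁻¹ * a * g)) * g⁻¹ := by group
        rw [this, h]; group
    rw [h1]
    constructor
    · intro h
      have h00 := congrArg (fun g : Matrix.GeneralLinearGroup (Fin 2) F =>
        (g : Matrix (Fin 2) (Fin 2) F) 0 0) h
      have h01 := congrArg (fun g : Matrix.GeneralLinearGroup (Fin 2) F =>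
        (g : Matrix (Fin 2) (Fin 2) F) 0 1) h
      simp [Matrix.mul_apply, Fin.sum_univ_two] at h00 h01
      refine ⟨h00.resolve_left hb0, ?_⟩
      have h3 : b * ((x : Matrix (Fin 2) (Fin 2) F) 0 0 - (x : Matrix (Fin 2) (Fin 2) F) 1 1) = 0 := by
        linear_combination h01
      exact sub_eq_zero.mp ((mul_eq_zero.mp h3).resolve_left hb0)
    · rintro ⟨h10, h00⟩
      apply Units.ext
      ext i j
      fin_cases i <;> fin_cases j <;> simp [Matrix.mul_apply, Fin.sum_univ_two, h10, h00]
      ring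
  have hcard : Nat.card (Subgroup.centralizer ({a} : Set (Matrix.GeneralLinearGroup (Fin 2) F)))
      = Nat.card (Fˣ × F) := by
    refine (Nat.card_congr (Equiv.ofBijective
      (fun x : Fˣ × F => (⟨g * Lib.SL2.bgMk x.1 x.1 x.2 * g⁻¹, (key _).mpr (by simp)⟩ :
        Subgroup.centralizer ({a} : Set (Matrix.GeneralLinearGroup (Fin 2) F)))) ⟨?_, ?_⟩)).symm
    · intro x y h
      have h := congrArg Subtype.val h
      have h : g * Lib.SL2.bgMk x.1 x.1 x.2 * g⁻¹ = g * Lib.SL2.bgMk y.1 y.1 y.2 * g⁻¹ := h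
      have h := mul_left_cancel (mul_right_cancel h)
      have h0 := congrArg (fun g : Matrix.GeneralLinearGroup (Fin 2) F =>
        (g : Matrix (Fin 2) (Fin 2) F) 0 0) h
      have h1 := congrArg (fun g : Matrix.GeneralLinearGroup (Fin 2) F =>
        (g : Matrix (Fin 2) (Fin 2) F) 0 1) h
      simp at h0 h1
      ext
      · simpa using h0
      · exact h1
    · intro y
      have hy := (key (g⁻¹ * y * g)).mp (by
        have : g * (g⁻¹ * y * g) * g⁻¹ = y := by group
        rw [this]; exact y.2)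
      have hd := ((g⁻¹ * y * g : Matrix.GeneralLinearGroup (Fin 2) F).det_ne_zero)
      rw [Matrix.det_fin_two, hy.1, mul_zero, sub_zero] at hd
      refine ⟨(Units.mk0 _ (left_ne_zero_of_mul hd),
        ((g⁻¹ * y * g : Matrix.GeneralLinearGroup (Fin 2) F) : Matrix (Fin 2) (Fin 2) F) 0 1), ?_⟩
      apply Subtype.ext
      have h2 : Lib.SL2.bgMk (Units.mk0 _ (left_ne_zero_of_mul hd))
          (Units.mk0 _ (left_ne_zero_of_mul hd))
          (((g⁻¹ * y * g : Matrix.GeneralLinearGroup (Fin 2) F) : Matrix (Fin 2) (Fin 2) F) 0 1)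
          = g⁻¹ * y * g := by
        apply Units.ext
        ext i j
        fin_cases i <;> fin_cases j <;> simp [hy.1, hy.2] <;> first | exact hy.1.symm | exact hy.2.symm | exact hy.2 | rfl
      show g * Lib.SL2.bgMk _ _ _ * g⁻¹ = (y : Matrix.GeneralLinearGroup (Fin 2) F)
      rw [h2]; group
  rw [hcard, Nat.card_prod, Lib.GLSL.card_units_field, Nat.card_eq_fintype_card, mul_comm]


end Cfsg.Agent.S0273
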