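import Cfsg.Statements.S0274
import Cfsg.Agent.Lib.DickD

set_option autoImplicit false
open Cfsg
open Cfsg.Agent.Lib.DickA Cfsg.Agent.Lib.DickB Cfsg.Agent.Lib.DickC Cfsg.Agent.Lib.DickD

namespace Cfsg.Agent.S0274

/-- Dickson's Theorem for SL_2: if p is odd and H is a subgroup of SL_2(q), q a power of p, with more than one Sylow p-subgroup, then H contains a copy of SL_2(p). -/
theorem result {F : Type*} [Field F] [Fintype F] (p : ℕ) [Fact p.Prime] [CharP F p] (hp : p ≠ 2) (H : Subgroup (Matrix.SpecialLinearGroup (Fin 2) F)) (hH : 1 < Nat.card (Sylow p H)) : ∃ K : Subgroup (Matrix.SpecialLinearGroup (Fin 2) F), K ≤ H ∧ Nonempty (K ≃* Matrix.SpecialLinearGroup (Fin 2) (ZMod p)) := by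
  classical
  have h2 := two_ne hp F
  haveI : Finite H := inferInstance
  haveI : Nontrivial (Sylow p H) := (Finite.one_lt_card_iff_nontrivial).1 hH
  obtain ⟨P, Q, hPQ⟩ := exists_pair_ne (Sylow p H)
  -- `u ∈ P \ Q`
  have h3 : ¬ (P : Subgroup H) ≤ Q := fun h => hPQ (Sylow.ext (P.is_maximal' Q.2 h).symm)
  obtain ⟨u, huP, huQ⟩ := SetLike.not_le_iff_exists.1 h3
  have hQ1 : ∃ v ∈ (Q : Subgroup H), v ≠ 1 := by
    by_contra hcon
    push Not at hcon
    have : (Q : Subgroup H) ≤ P := fun x hx => by rw [hcon x hx]; exact P.one_mem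
    exact hPQ (Sylow.ext (Q.is_maximal' P.2 this))
  obtain ⟨v0, hv0, hv01⟩ := hQ1
  -- central element of `Q`
  haveI : Nontrivial Q := ⟨⟨⟨v0, hv0⟩, 1, fun h => hv01 (congrArg Subtype.val h)⟩⟩
  haveI := Q.2.center_nontrivial
  obtain ⟨⟨v, hv⟩, hv1⟩ := exists_ne (1 : Subgroup.center Q)
  have hv2 : (v : H) ≠ 1 := fun h => hv1 (Subtype.ext (Subtype.ext h))
  have hcc : ∀ y : Q, Commute (v : H) y := by
    intro y
    have := (Subgroup.mem_center_iff.1 hv y)
    exact (congrArg Subtype.val this).symm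
  have htr : ∀ (R : Sylow p H) (x : H), x ∈ (R : Subgroup H) → tr (x : S F) = 2 := by
    intro R x hx
    obtain ⟨k, hk⟩ := R.2 ⟨x, hx⟩
    exact trl_pow (congrArg Subtype.val hk)
  have htu := htr P u huP
  have htv := htr Q v v.2
  have hnc : ¬ Commute (u : S F) ((v : H) : S F) := by
    intro hc
    have hns : ¬ Sc ((v : H) : S F) := fun h => hv2 (Subtype.ext (eq_one_of_sc h2 h htv))
    have h4 : Subgroup.zpowers u ≤ Subgroup.normalizer ((Q : Subgroup H) : Set H) := by
      rw [Subgroup.zpowers_le]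
      refine Subgroup.centralizer_le_normalizer _ ?_
      rw [Subgroup.mem_centralizer_iff]
      intro y hy
      have h5 : Commute (y : S F) (u : S F) := comm_trans hns (commute_coe.1 (hcc ⟨y, hy⟩)) hc.symm
      exact (commute_coe.2 h5).eq
    have h5 : IsPGroup p (Subgroup.zpowers u) := P.2.to_le (by rw [Subgroup.zpowers_le]; exact huP)
    have h6 := h5.inf_normalizer_sylow Q
    have h7 : u ∈ Subgroup.zpowers u ⊓ (Q : Subgroup H) := h6.le ⟨Subgroup.mem_zpowers u, h4 (Subgroup.mem_zpowers u)⟩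
    exact huQ h7.2
  obtain ⟨φ, hφ, hr⟩ := dickson_hom hp H u.2 (v : H).2 htu htv hnc
  exact ⟨φ.range, hr, ⟨(MonoidHom.ofInjective hφ).symm⟩⟩

end Cfsg.Agent.S0274
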