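import Cfsg.Statements.S0275
import Mathlib
import Cfsg.Agent.Lib.Qu1
import Cfsg.Agent.S0274
-- import your own Cfsg.Agent.* helpers here

set_option autoImplicit false
open Cfsg
set_option linter.all false

namespace Cfsg.Agent.S0275

/-- If p is odd and H is a subgroup of SL_2(q), q a power of p, with more than one Sylow p-subgroup, then the Sylow 2-subgroups of H are generalised quaternion. -/
theorem result {F : Type*} [Field F] [Fintype F] (p : ℕ) [Fact p.Prime] [CharP F p] (hp : p ≠ 2) (H : Subgroup (Matrix.SpecialLinearGroup (Fin 2) F)) (hH : 1 < Nat.card (Sylow p H)) (S : Sylow 2 H) : ∃ k : ℕ, 1 ≤ k ∧ Nonempty ((S : Subgroup H) ≃* QuaternionGroup (2 ^ k)) := by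
  classical
  obtain ⟨K, hK, ⟨e⟩⟩ := Cfsg.Agent.S0274.result p hp H hH
  have h2 : (2 : F) ≠ 0 := by
    intro h
    have h1 : ((2 : ℕ) : F) = 0 := by exact_mod_cast h
    rw [CharP.cast_eq_zero_iff F p] at h1
    exact hp ((Nat.prime_dvd_prime_iff_eq (Fact.out : p.Prime) Nat.prime_two).mp h1)
  have e' : Matrix.SpecialLinearGroup (Fin 2) (ZMod p) ≃* K.subgroupOf H := e.symm.trans (Subgroup.subgroupOfEquivOfLe hK).symm
  exact Cfsg.Agent.Lib.Qu.quat_of_not_cyclic h2 S.isPGroup' (H.subtype.comp (S : Subgroup H).subtype)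
    (H.subtype_injective.comp (S : Subgroup H).subtype_injective) (Cfsg.Agent.Lib.Qu.not_cyclic_of_embed hp e' S)


end Cfsg.Agent.S0275
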