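import Cfsg.Statements.S0284
import Mathlib
import Cfsg.Agent.Lib.Herm4
-- import your own Cfsg.Agent.* helpers here

set_option autoImplicit false
open Cfsg
set_option linter.all false

namespace Cfsg.Agent.S0284

/-- The standard Hermitian form on F^n, |F| = q^2, has exactly q^(n-1) (q^n - (-1)^n) vectors of norm 1. -/
theorem result {F : Type*} [Field F] [Fintype F] {q : ℕ} (hF : Fintype.card F = q ^ 2) (n : ℕ) : Nat.card {v : Fin n → F // Cfsg.hermForm n F q v v = 1} = (if Even n then q ^ (n - 1) * (q ^ n - 1) else q ^ (n - 1) * (q ^ n + 1)) := by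
  obtain ⟨σ, hσ, hq⟩ := Cfsg.Agent.Lib.Herm.exists_sigma hF
  rw [← Cfsg.Agent.Lib.Herm.card_std_one hF hσ hq n]
  refine Nat.card_congr (Equiv.subtypeEquivRight fun v => ?_)
  show (∑ i, v i * (v i) ^ q) = 1 ↔ _
  have : (∑ i, v i * (v i) ^ q) = ∑ i, v i * σ (v i) := Finset.sum_congr rfl fun i _ => by rw [hq]
  rw [this]


end Cfsg.Agent.S0284
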