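import Cfsg.Statements.S0289
import Mathlib
import Cfsg.Agent.Lib.Orth1
import Cfsg.Agent.Lib.Orth2
import Cfsg.Agent.Lib.Orth3
import Cfsg.Agent.Lib.Orth4
import Cfsg.Agent.Lib.Orth5
import Cfsg.Agent.Lib.Orth6
import Cfsg.Agent.Lib.Orth7
import Cfsg.Agent.Lib.Orth8
import Cfsg.Agent.Lib.Orth9
-- import your own Cfsg.Agent.* helpers here

set_option autoImplicit false
open Cfsg
set_option linter.all false

namespace Cfsg.Agent.S0289

/-- The hyperbolic quadratic form on F^(2m), m at least 1, has q^(2m-1) + q^m - q^(m-1) zeros (that is, (q^m - 1)(q^(m-1) + 1) non-zero isotropic vectors). -/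
theorem result {F : Type*} [Field F] [Fintype F] {q : ℕ} (hF : Fintype.card F = q) (m : ℕ) (hm : 1 ≤ m) : Nat.card {v : Fin m ⊕ Fin m → F // Cfsg.quadFormPlus m F v = 0} = q ^ (2 * m - 1) + q ^ m - q ^ (m - 1) := by
  rw [← Cfsg.Agent.Lib.Orth.coe_qPlus]
  obtain ⟨k, rfl⟩ : ∃ k, m = k + 1 := ⟨m - 1, by omega⟩
  have h0 : Module.finrank F (Cfsg.Agent.Lib.Orth.cpl (Cfsg.Agent.Lib.Orth.qPlus (k + 1) F)
      (Cfsg.Agent.Lib.Orth.ePlus : Fin (k + 1) → _) Cfsg.Agent.Lib.Orth.fPlus) = 0 := by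
    rw [Cfsg.Agent.Lib.Orth.cpl_plus]; exact finrank_bot F _
  rw [Cfsg.Agent.Lib.Orth.HF.card_zero' Cfsg.Agent.Lib.Orth.hfPlus h0 (by
      intro x hx _; rw [Cfsg.Agent.Lib.Orth.cpl_plus] at hx; exact (Submodule.mem_bot F).mp hx),
    Nat.card_eq_fintype_card, hF]
  have hq : 1 ≤ q := by rw [← hF]; exact Fintype.card_pos
  have h1 : 1 ≤ q ^ (k + 1) := Nat.one_le_pow _ _ hq
  have h2 : 2 * (k + 1) - 1 = 2 * k + 1 := by omega
  have h3 : q ^ k ≤ q ^ (2 * k + 1) + q ^ (k + 1) :=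
    (Nat.pow_le_pow_right hq (by omega)).trans (Nat.le_add_right _ _)
  rw [h2, Nat.add_sub_cancel, Nat.add_zero]
  zify [h1, h3]
  ring


end Cfsg.Agent.S0289
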