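import Cfsg.Statements.S0290
import Mathlib
import Cfsg.Agent.Lib.Orth1
import Cfsg.Agent.Lib.Orth2
import Cfsg.Agent.Lib.Orth3
import Cfsg.Agent.Lib.Orth4
import Cfsg.Agent.Lib.Orth5
import Cfsg.Agent.Lib.Orth6
import Cfsg.Agent.Lib.Orth7
import Cfsg.Agent.Lib.Orth8
import Cfsg.Agent.Lib.Orth9
-- import your own Cfsg.Agent.* helpers here

set_option autoImplicit false
open Cfsg
set_option linter.all false

namespace Cfsg.Agent.S0290

/-- The minus-type quadratic form on F^(2m), m at least 1, has q^(2m-1) + q^(m-1) - q^m zeros (that is, (q^m + 1)(q^(m-1) - 1) non-zero isotropic vectors). -/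
theorem result {F : Type*} [Field F] [Fintype F] {q : ℕ} (hF : Fintype.card F = q) (m : ℕ) (hm : 1 ≤ m) (a b : F) (hab : ∀ z₁ z₂ : F, z₁ ^ 2 + a * z₁ * z₂ + b * z₂ ^ 2 = 0 → z₁ = 0 ∧ z₂ = 0) : Nat.card {v : (Fin (m - 1) ⊕ Fin (m - 1)) ⊕ Fin 2 → F // Cfsg.quadFormMinus (m - 1) F a b v = 0} = q ^ (2 * m - 1) + q ^ (m - 1) - q ^ m := by
  rw [← Cfsg.Agent.Lib.Orth.coe_qMinus]
  obtain ⟨k, rfl⟩ : ∃ k, m = k + 1 := ⟨m - 1, by omega⟩
  have h0 := Cfsg.Agent.Lib.Orth.HF.card_zero _ _ (Cfsg.Agent.Lib.Orth.hfMinus (F := F) (m := k)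
    (a := a) (b := b)) Cfsg.Agent.Lib.Orth.finrank_cpl_minus (Cfsg.Agent.Lib.Orth.anis_minus hab)
  rw [Nat.card_eq_fintype_card (α := F), hF] at h0
  have hq : 1 ≤ q := by rw [← hF]; exact Fintype.card_pos
  have h1 : 1 ≤ q ^ k := Nat.one_le_pow _ _ hq
  have h2 : 2 * (k + 1) - 1 = 2 * k + 1 := by omega
  have h3 : q ^ (k + 1) ≤ q ^ (2 * k + 1) + q ^ k :=
    (Nat.pow_le_pow_right hq (by omega)).trans (Nat.le_add_right _ _)
  rw [Nat.add_sub_cancel] at *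
  change Nat.card {v : (Fin k ⊕ Fin k) ⊕ Fin 2 → F // Cfsg.Agent.Lib.Orth.qMinus k F a b v = 0} = _
  rw [h2]
  apply Nat.eq_of_mul_eq_mul_right hq
  rw [h0]
  zify [h1, h3]
  ring


end Cfsg.Agent.S0290
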