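import Cfsg.Statements.S0291
import Mathlib
import Cfsg.Agent.Lib.Orth1
import Cfsg.Agent.Lib.Orth2
import Cfsg.Agent.Lib.Orth3
import Cfsg.Agent.Lib.Orth4
import Cfsg.Agent.Lib.Orth5
import Cfsg.Agent.Lib.Orth6
import Cfsg.Agent.Lib.Orth7
import Cfsg.Agent.Lib.Orth8
import Cfsg.Agent.Lib.Orth9
-- import your own Cfsg.Agent.* helpers here

set_option autoImplicit false
open Cfsg
set_option linter.all false

namespace Cfsg.Agent.S0291

/-- For q odd, the form x_0^2 + sum_{i<m} x_i y_i on F^(2m+1) has exactly q^(2m) zeros. -/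
theorem result {F : Type*} [Field F] [Fintype F] {q : ℕ} (hF : Fintype.card F = q) (hodd : Odd q) (m : ℕ) : Nat.card {v : Unit ⊕ (Fin m ⊕ Fin m) → F // Cfsg.quadFormOdd m F v = 0} = q ^ (2 * m) := by
  rw [← Cfsg.Agent.Lib.Orth.coe_qOdd]
  have h0 := Cfsg.Agent.Lib.Orth.HF.card_zero _ _ (Cfsg.Agent.Lib.Orth.hfOdd (F := F) (m := m))
    Cfsg.Agent.Lib.Orth.finrank_cpl_odd Cfsg.Agent.Lib.Orth.anis_odd
  rw [Nat.card_eq_fintype_card (α := F), hF] at h0
  have hq : 1 ≤ q := by rw [← hF]; exact Fintype.card_pos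
  have h1 : 1 ≤ q ^ m := Nat.one_le_pow _ _ hq
  apply Nat.eq_of_mul_eq_mul_right hq
  rw [h0]
  zify [h1]
  ring


end Cfsg.Agent.S0291
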