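import Cfsg.Statements.S0292
import Mathlib
import Cfsg.Agent.Lib.Orth6
import Cfsg.Agent.Lib.Orth7
import Cfsg.Agent.Lib.Orth8
import Cfsg.Agent.Lib.Orth9
import Cfsg.Agent.Lib.Orth11
import Cfsg.Agent.Lib.Orth12
import Cfsg.Agent.Lib.Orth13
import Cfsg.Agent.Lib.Orth14
-- import your own Cfsg.Agent.* helpers here

set_option autoImplicit false
open Cfsg
set_option linter.all false

namespace Cfsg.Agent.S0292

/-- 2 |PΩ_{2m+1}(q)| = q^(m^2) prod_{i=1}^{m} (q^(2i) - 1), for q odd and m at least 3 (type B_m). -/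
theorem result {F : Type*} [Field F] [Fintype F] {q : ℕ} (hF : Fintype.card F = q) (hodd : Odd q) (m : ℕ) (hm : 3 ≤ m) : 2 * Nat.card (Cfsg.POmega F (Cfsg.quadFormOdd m F)) = q ^ (m ^ 2) * ∏ i ∈ Finset.range m, (q ^ (2 * (i + 1)) - 1) := by
  have h2 : (2 : F) ≠ 0 := Cfsg.Agent.Lib.Orth.two_ne_zero_of_odd (hF ▸ hodd)
  have hfr : Module.finrank F (Unit ⊕ (Fin m ⊕ Fin m) → F) = 2 * m + 1 := by
    rw [Module.finrank_fintype_fun_eq_card]; simp; omega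
  have h := Cfsg.Agent.Lib.Orth.card_POmega (Q := Cfsg.Agent.Lib.Orth.qOdd m F)
    (Cfsg.Agent.Lib.Orth.nd_odd h2) (by omega)
  rw [if_neg h2, if_neg (fun h => Cfsg.Agent.Lib.Orth.negO_odd_notMem
    (Cfsg.Agent.Lib.Orth.nd_odd h2) h2 (by rw [hfr]; exact ⟨m, rfl⟩) h.2),
    Cfsg.Agent.Lib.Orth.card_O_odd h2, Nat.card_eq_fintype_card (α := F), hF,
    Cfsg.Agent.Lib.Orth.coe_qOdd] at h
  apply Nat.eq_of_mul_eq_mul_left (show 0 < 2 by norm_num)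
  rw [← mul_assoc, ← mul_assoc, h]
  ring


end Cfsg.Agent.S0292
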