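import Cfsg.Statements.S0293
import Mathlib
import Cfsg.Agent.Lib.Orth6
import Cfsg.Agent.Lib.Orth7
import Cfsg.Agent.Lib.Orth8
import Cfsg.Agent.Lib.Orth9
import Cfsg.Agent.Lib.Orth11
import Cfsg.Agent.Lib.Orth12
import Cfsg.Agent.Lib.Orth13
import Cfsg.Agent.Lib.Orth14
-- import your own Cfsg.Agent.* helpers here

set_option autoImplicit false
open Cfsg
set_option linter.all false

namespace Cfsg.Agent.S0293

/-- gcd(4, q^m - 1) |PΩ^+_{2m}(q)| = q^(m(m-1)) (q^m - 1) prod_{i=1}^{m-1} (q^(2i) - 1), m at least 4 (type D_m). -/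
theorem result {F : Type*} [Field F] [Fintype F] {q : ℕ} (hF : Fintype.card F = q) (m : ℕ) (hm : 4 ≤ m) : Nat.gcd 4 (q ^ m - 1) * Nat.card (Cfsg.POmega F (Cfsg.quadFormPlus m F)) = q ^ (m * (m - 1)) * (q ^ m - 1) * ∏ i ∈ Finset.range (m - 1), (q ^ (2 * (i + 1)) - 1) := by
  have hfr : Module.finrank F (Fin m ⊕ Fin m → F) = 2 * m := by
    rw [Module.finrank_fintype_fun_eq_card]; simp; omega
  have h := Cfsg.Agent.Lib.Orth.card_POmega (Q := Cfsg.Agent.Lib.Orth.qPlus m F)
    Cfsg.Agent.Lib.Orth.nd_plus (by omega)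
  rw [Cfsg.Agent.Lib.Orth.card_O_plus m (by omega), Nat.card_eq_fintype_card (α := F), hF,
    Cfsg.Agent.Lib.Orth.coe_qPlus] at h
  apply Nat.eq_of_mul_eq_mul_left (show 0 < 2 by norm_num)
  have hq1 : 1 ≤ q ^ m := Nat.one_le_pow _ _ (by rw [← hF]; exact Fintype.card_pos)
  by_cases h2 : (2 : F) = 0
  · rw [if_pos h2, if_neg (fun h => h.1 h2), one_mul] at h
    have heven : Even q := by
      rw [← hF]
      rcases Nat.even_or_odd (Fintype.card F) with h3 | h3
      · exact h3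
      · exact absurd h2 (Cfsg.Agent.Lib.Orth.two_ne_zero_of_odd h3)
    have hg : Nat.gcd 4 (q ^ m - 1) = 1 := by
      have h5 : Odd (q ^ m - 1) := by
        have : Even (q ^ m) := (Nat.even_pow.mpr ⟨heven, by omega⟩)
        rw [Nat.even_iff] at this
        rw [Nat.odd_iff]; omega
      have : Nat.Coprime (2 ^ 2) (q ^ m - 1) :=
        Nat.Coprime.pow_left 2 ((Nat.coprime_two_left).mpr h5)
      exact this
    rw [hg, one_mul, ← h]; ring
  · have hodd : Odd q := by
      rw [← hF]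
      exact Cfsg.Agent.Lib.Orth.odd_card_of_two_ne_zero h2
    have hneg := Cfsg.Agent.Lib.Orth.negO_plus_iff hF hodd m
    have h7 : q ^ m % 4 = 1 ∨ q ^ m % 4 = 3 := by
      have : Odd (q ^ m) := hodd.pow
      rw [Nat.odd_iff] at this
      omega
    rcases h7 with h7 | h7
    · have hg : Nat.gcd 4 (q ^ m - 1) = 4 := by
        apply Nat.gcd_eq_left
        omega
      rw [if_neg h2, if_pos ⟨h2, hneg.mpr h7⟩] at h
      rw [hg]
      have : 2 * (4 * Nat.card (Cfsg.POmega F (Cfsg.quadFormPlus m F)))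
        = 4 * (2 * Nat.card (Cfsg.POmega F (Cfsg.quadFormPlus m F))) := by ring
      rw [this, ← h]; ring
    · have hg : Nat.gcd 4 (q ^ m - 1) = 2 := by
        have e : q ^ m - 1 = 2 * ((q ^ m - 1) / 2) := by omega
        rw [e, show 4 = 2 * 2 by norm_num, Nat.gcd_mul_left]
        have h8 : Nat.gcd 2 ((q ^ m - 1) / 2) = 1 := by
          rw [← Nat.Coprime, Nat.coprime_two_left, Nat.odd_iff]; omega
        rw [h8]
      rw [if_neg h2, if_neg (fun h => by have := hneg.mp h.2; omega), one_mul] at h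
      rw [hg]
      have : 2 * (2 * Nat.card (Cfsg.POmega F (Cfsg.quadFormPlus m F)))
        = 4 * (Nat.card (Cfsg.POmega F (Cfsg.quadFormPlus m F))) := by ring
      rw [this, ← h]; ring


end Cfsg.Agent.S0293
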