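import Cfsg.Statements.S0294
import Mathlib
import Cfsg.Agent.Lib.Orth6
import Cfsg.Agent.Lib.Orth7
import Cfsg.Agent.Lib.Orth8
import Cfsg.Agent.Lib.Orth9
import Cfsg.Agent.Lib.Orth11
import Cfsg.Agent.Lib.Orth12
import Cfsg.Agent.Lib.Orth13
import Cfsg.Agent.Lib.Orth14
-- import your own Cfsg.Agent.* helpers here

set_option autoImplicit false
open Cfsg
set_option linter.all false

namespace Cfsg.Agent.S0294

/-- gcd(4, q^m + 1) |PΩ^-_{2m}(q)| = q^(m(m-1)) (q^m + 1) prod_{i=1}^{m-1} (q^(2i) - 1), m at least 4 (type ²D_m). -/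
theorem result {F : Type*} [Field F] [Fintype F] {q : ℕ} (hF : Fintype.card F = q) (m : ℕ) (hm : 4 ≤ m) (a b : F) (hab : ∀ z₁ z₂ : F, z₁ ^ 2 + a * z₁ * z₂ + b * z₂ ^ 2 = 0 → z₁ = 0 ∧ z₂ = 0) : Nat.gcd 4 (q ^ m + 1) * Nat.card (Cfsg.POmega F (Cfsg.quadFormMinus (m - 1) F a b)) = q ^ (m * (m - 1)) * (q ^ m + 1) * ∏ i ∈ Finset.range (m - 1), (q ^ (2 * (i + 1)) - 1) := by
  obtain ⟨k, rfl⟩ : ∃ k, m = k + 1 := ⟨m - 1, by omega⟩
  rw [Nat.add_sub_cancel] at *
  have hfr : Module.finrank F ((Fin k ⊕ Fin k) ⊕ Fin 2 → F) = 2 * (k + 1) := by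
    rw [Module.finrank_fintype_fun_eq_card]; simp; omega
  have h := Cfsg.Agent.Lib.Orth.card_POmega (Q := Cfsg.Agent.Lib.Orth.qMinus k F a b)
    (Cfsg.Agent.Lib.Orth.nd_minus hab) (by omega)
  rw [Cfsg.Agent.Lib.Orth.card_O_minus hab, Nat.card_eq_fintype_card (α := F), hF,
    Cfsg.Agent.Lib.Orth.coe_qMinus] at h
  apply Nat.eq_of_mul_eq_mul_left (show 0 < 2 by norm_num)
  have hq1 : 1 ≤ q ^ (k + 1) := Nat.one_le_pow _ _ (by rw [← hF]; exact Fintype.card_pos)
  by_cases h2 : (2 : F) = 0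
  · rw [if_pos h2, if_neg (fun h => h.1 h2), one_mul] at h
    have heven : Even q := by
      rw [← hF]
      rcases Nat.even_or_odd (Fintype.card F) with h3 | h3
      · exact h3
      · exact absurd h2 (Cfsg.Agent.Lib.Orth.two_ne_zero_of_odd h3)
    have hg : Nat.gcd 4 (q ^ (k + 1) + 1) = 1 := by
      have h5 : Odd (q ^ (k + 1) + 1) := by
        have : Even (q ^ (k + 1)) := (Nat.even_pow.mpr ⟨heven, by omega⟩)
        rw [Nat.even_iff] at this
        rw [Nat.odd_iff]; omega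
      have : Nat.Coprime (2 ^ 2) (q ^ (k + 1) + 1) :=
        Nat.Coprime.pow_left 2 ((Nat.coprime_two_left).mpr h5)
      exact this
    rw [hg, one_mul, ← h]; ring
  · have hodd : Odd q := by
      rw [← hF]
      exact Cfsg.Agent.Lib.Orth.odd_card_of_two_ne_zero h2
    have hneg := Cfsg.Agent.Lib.Orth.negO_minus_iff hF hodd k hab
    have h7 : q ^ (k + 1) % 4 = 1 ∨ q ^ (k + 1) % 4 = 3 := by
      have : Odd (q ^ (k + 1)) := hodd.pow
      rw [Nat.odd_iff] at this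
      omega
    rcases h7 with h7 | h7
    · have hg : Nat.gcd 4 (q ^ (k + 1) + 1) = 2 := by
        have e : q ^ (k + 1) + 1 = 2 * ((q ^ (k + 1) + 1) / 2) := by omega
        rw [e, show 4 = 2 * 2 by norm_num, Nat.gcd_mul_left]
        have h8 : Nat.gcd 2 ((q ^ (k + 1) + 1) / 2) = 1 := by
          rw [← Nat.Coprime, Nat.coprime_two_left, Nat.odd_iff]; omega
        rw [h8]
      rw [if_neg h2, if_neg (fun h => by have := hneg.mp h.2; omega), one_mul] at h
      rw [hg]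
      have : 2 * (2 * Nat.card (Cfsg.POmega F (Cfsg.quadFormMinus k F a b)))
        = 4 * (Nat.card (Cfsg.POmega F (Cfsg.quadFormMinus k F a b))) := by ring
      rw [this, ← h]; ring
    · have hg : Nat.gcd 4 (q ^ (k + 1) + 1) = 4 := by
        apply Nat.gcd_eq_left
        omega
      rw [if_neg h2, if_pos ⟨h2, hneg.mpr h7⟩] at h
      rw [hg]
      have : 2 * (4 * Nat.card (Cfsg.POmega F (Cfsg.quadFormMinus k F a b)))
        = 4 * (2 * Nat.card (Cfsg.POmega F (Cfsg.quadFormMinus k F a b))) := by ring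
      rw [this, ← h]; ring


end Cfsg.Agent.S0294
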