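import Cfsg.Statements.S0295
import Mathlib
import Cfsg.Agent.Lib.Orth6
import Cfsg.Agent.Lib.Orth9
import Cfsg.Agent.Lib.Orth11
import Cfsg.Agent.Lib.Orth12
import Cfsg.Agent.Lib.Orth13
-- import your own Cfsg.Agent.* helpers here

set_option autoImplicit false
open Cfsg
set_option linter.all false

namespace Cfsg.Agent.S0295

/-- PΩ_{2m+1}(q) is simple for q odd and m at least 3. -/
theorem result {F : Type*} [Field F] [Fintype F] (hodd : Odd (Fintype.card F)) (m : ℕ) (hm : 3 ≤ m) : IsSimpleGroup (Cfsg.POmega F (Cfsg.quadFormOdd m F)) := by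
  have h := Cfsg.Agent.Lib.Orth.POmega_simple (Q := Cfsg.Agent.Lib.Orth.qOdd m F)
    (Cfsg.Agent.Lib.Orth.nd_odd (Cfsg.Agent.Lib.Orth.two_ne_zero_of_odd hodd))
    (by rw [Module.finrank_fintype_fun_eq_card]; simp; omega)
  rw [Cfsg.Agent.Lib.Orth.coe_qOdd] at h
  exact h


end Cfsg.Agent.S0295
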