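import Cfsg.Statements.S0296
import Mathlib
import Cfsg.Agent.Lib.Orth6
import Cfsg.Agent.Lib.Orth9
import Cfsg.Agent.Lib.Orth11
import Cfsg.Agent.Lib.Orth12
-- import your own Cfsg.Agent.* helpers here

set_option autoImplicit false
open Cfsg
set_option linter.all false

namespace Cfsg.Agent.S0296

/-- PΩ^+_{2m}(q) is simple for m at least 4. -/
theorem result {F : Type*} [Field F] [Fintype F] (m : ℕ) (hm : 4 ≤ m) : IsSimpleGroup (Cfsg.POmega F (Cfsg.quadFormPlus m F)) := by
  have h := Cfsg.Agent.Lib.Orth.POmega_simple (Q := Cfsg.Agent.Lib.Orth.qPlus m F)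
    Cfsg.Agent.Lib.Orth.nd_plus
    (by rw [Module.finrank_fintype_fun_eq_card]; simp; omega)
  rw [Cfsg.Agent.Lib.Orth.coe_qPlus] at h
  exact h


end Cfsg.Agent.S0296
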