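import Cfsg.Statements.S0304
import Mathlib
import Cfsg.Agent.Lib.Orth9
import Cfsg.Agent.Lib.Symp2
-- import your own Cfsg.Agent.* helpers here

set_option autoImplicit false
open Cfsg
set_option linter.all false

namespace Cfsg.Agent.S0304

open Cfsg.Agent.Lib.Orth Module QuadraticMap
open Matrix

section S0304pre
variable {F : Type*} [Field F] [Finite F] [CharP F 2] {m : ℕ}

/-- inclusion of the last coordinates -/
def incl (m : ℕ) (F : Type*) [Field F] : (Fin m ⊕ Fin m → F) →ₗ[F] (Unit ⊕ (Fin m ⊕ Fin m) → F) where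
  toFun v := Sum.elim (fun _ => 0) v
  map_add' u v := by funext i; rcases i with i | i <;> simp
  map_smul' c v := by funext i; rcases i with i | i <;> simp

/-- the induced map -/
def Dm (h : ↥(O (qOdd m F))) : (Fin m ⊕ Fin m → F) →ₗ[F] (Fin m ⊕ Fin m → F) :=
  (LinearMap.funLeft F F Sum.inr).comp ((h.1 : (Unit ⊕ (Fin m ⊕ Fin m) → F) →ₗ[F] (Unit ⊕ (Fin m ⊕ Fin m) → F)).comp (incl m F))

theorem Dm_apply (h : ↥(O (qOdd m F))) (v : Fin m ⊕ Fin m → F) (i : Fin m ⊕ Fin m) :
    Dm h v i = h.1 (Sum.elim (fun _ => 0) v) (Sum.inr i) := rfl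

/-- the radical vector -/
def r0 (m : ℕ) (F : Type*) [Field F] : Unit ⊕ (Fin m ⊕ Fin m) → F := Sum.elim (fun _ => 1) 0

theorem polar_r0 (x : Unit ⊕ (Fin m ⊕ Fin m) → F) : polar (qOdd m F) (r0 m F) x = 0 := by
  rw [polar_qOdd]
  simp [r0, CharTwo.two_eq_zero]

theorem fix_r0 (h : ↥(O (qOdd m F))) : h.1 (r0 m F) = r0 m F := by
  have h1 : ∀ y, polar (qOdd m F) (h.1 (r0 m F)) y = 0 := by
    intro y
    have : y = h.1 ((h⁻¹).1 y) := (self_apply_inv h y).symm
    rw [this, polar_map h.2, polar_r0]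
  have h2 : ∀ i, (h.1 (r0 m F)) (Sum.inr i) = 0 := by
    intro i
    rcases i with i | i
    · rw [← polar_fOdd (h.1 (r0 m F)) i]; exact h1 _
    · rw [← polar_eOdd (h.1 (r0 m F)) i]; exact h1 _
  have h3 : qOdd m F (h.1 (r0 m F)) = 1 := by
    rw [h.2, qOdd_apply]
    simp [Cfsg.quadFormOdd, r0]
  rw [qOdd_apply, Cfsg.quadFormOdd] at h3
  simp only [h2, mul_zero, Finset.sum_const_zero, add_zero, zero_mul] at h3
  have h4 : (h.1 (r0 m F)) (Sum.inl ()) = 1 := by
    have h5 : ((h.1 (r0 m F)) (Sum.inl ()) - 1) ^ 2 = 0 := by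
      have : (2 : F) = 0 := CharTwo.two_eq_zero
      linear_combination h3 + (1 - (h.1 (r0 m F)) (Sum.inl ())) * this
    exact sub_eq_zero.mp (pow_eq_zero_iff (two_ne_zero) |>.mp h5)
  funext i
  rcases i with i | i
  · exact h4
  · exact h2 i

theorem decomp (x : Unit ⊕ (Fin m ⊕ Fin m) → F) :
    x = x (Sum.inl ()) • r0 m F + Sum.elim (fun _ => 0) (x ∘ Sum.inr) := by
  funext i
  rcases i with i | i <;> simp [r0]

theorem apply_inr (h : ↥(O (qOdd m F))) (x : Unit ⊕ (Fin m ⊕ Fin m) → F) (i : Fin m ⊕ Fin m) :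
    h.1 x (Sum.inr i) = Dm h (x ∘ Sum.inr) i := by
  conv_lhs => rw [decomp x]
  rw [map_add, map_smul, fix_r0, Dm_apply]
  simp [r0]

theorem Dm_mul (g h : ↥(O (qOdd m F))) : Dm (g * h) = (Dm g).comp (Dm h) := by
  refine LinearMap.ext fun v => funext fun i => ?_
  show Dm (g * h) v i = Dm g (Dm h v) i
  rw [Dm_apply]
  show g.1 (h.1 _) (Sum.inr i) = _
  rw [apply_inr]
  congr 1

theorem polar_elim (u v : Fin m ⊕ Fin m → F) (x y : Unit ⊕ (Fin m ⊕ Fin m) → F) 
    (hx : x ∘ Sum.inr = u) (hy : y ∘ Sum.inr = v) :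
    polar (qOdd m F) x y = Cfsg.sympForm m F u v := by
  rw [polar_qOdd, Cfsg.Agent.Lib.Symp.sympForm_eq, CharTwo.two_eq_zero]
  subst hx; subst hy
  rw [zero_mul, zero_mul, zero_add]
  refine Finset.sum_congr rfl (fun i _ => ?_)
  simp only [Function.comp]
  rw [sub_eq_add_neg, CharTwo.neg_eq]
  ring

theorem Dm_symp (h : ↥(O (qOdd m F))) (u v : Fin m ⊕ Fin m → F) :
    Cfsg.sympForm m F (Dm h u) (Dm h v) = Cfsg.sympForm m F u v := by
  rw [← polar_elim (Dm h u) (Dm h v) (h.1 (Sum.elim (fun _ => 0) u)) (h.1 (Sum.elim (fun _ => 0) v))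
    (by funext i; rfl) (by funext i; rfl), polar_map h.2,
    polar_elim u v _ _ (by funext i; rfl) (by funext i; rfl)]

/-- the homomorphism -/
noncomputable def phi : ↥(O (qOdd m F)) →* ↥(Matrix.symplecticGroup (Fin m) F) where
  toFun h := ⟨LinearMap.toMatrix' (Dm h), by
    rw [Cfsg.Agent.Lib.Symp.mem_iff_preserves]
    intro u v
    rw [← Matrix.toLin'_apply, ← Matrix.toLin'_apply, Matrix.toLin'_toMatrix']
    exact Dm_symp h u v⟩
  map_one' := by
    apply Subtype.ext
    show LinearMap.toMatrix' (Dm 1) = 1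
    have : Dm (1 : ↥(O (qOdd m F))) = LinearMap.id := LinearMap.ext fun v => funext fun i => rfl
    rw [this, LinearMap.toMatrix'_id]
  map_mul' g h := by
    apply Subtype.ext
    show LinearMap.toMatrix' (Dm (g * h)) = LinearMap.toMatrix' (Dm g) * LinearMap.toMatrix' (Dm h)
    rw [Dm_mul, LinearMap.toMatrix'_comp]

theorem Q_elim (x : Unit ⊕ (Fin m ⊕ Fin m) → F) :
    qOdd m F x = x (Sum.inl ()) ^ 2 + qPlus m F (x ∘ Sum.inr) := by
  rw [qOdd_apply, qPlus_apply]
  rfl

theorem phi_injective : Function.Injective (phi : ↥(O (qOdd m F)) →* _) := by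
  rw [injective_iff_map_eq_one]
  intro h hh
  have h1 : Dm h = LinearMap.id := by
    have : LinearMap.toMatrix' (Dm h) = 1 := congrArg Subtype.val hh
    rw [← LinearMap.toMatrix'_id] at this
    exact LinearMap.toMatrix'.injective this
  apply Subtype.ext
  apply LinearEquiv.ext
  intro x
  have h2 : ∀ i, h.1 x (Sum.inr i) = x (Sum.inr i) := by
    intro i
    rw [apply_inr, h1]; rfl
  have h3 : h.1 x (Sum.inl ()) = x (Sum.inl ()) := by
    have h4 := h.2 x
    rw [Q_elim, Q_elim] at h4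
    have h5 : (h.1 x) ∘ Sum.inr = x ∘ Sum.inr := funext h2
    rw [h5] at h4
    have h6 := add_right_cancel h4
    have h7 : (h.1 x (Sum.inl ()) - x (Sum.inl ())) ^ 2 = 0 := by
      have h8 : (2 : F) = 0 := CharTwo.two_eq_zero
      linear_combination h6 + (x (Sum.inl ()) ^ 2 - (h.1 x (Sum.inl ())) * x (Sum.inl ())) * h8
    exact sub_eq_zero.mp (pow_eq_zero_iff (two_ne_zero) |>.mp h7)
  funext i
  rcases i with i | i
  · exact h3
  · exact h2 i

theorem phi_surjective : Function.Surjective (phi : ↥(O (qOdd m F)) →* _) := by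
  classical
  intro A
  have h2 : (2 : F) = 0 := CharTwo.two_eq_zero
  have hA := (Cfsg.Agent.Lib.Symp.mem_iff_preserves A.1).mp A.2
  have hpol : ∀ u v, polar (qPlus m F) u v = Cfsg.sympForm m F u v := by
    intro u v
    rw [polar_qPlus, Cfsg.Agent.Lib.Symp.sympForm_eq]
    refine Finset.sum_congr rfl (fun i _ => ?_)
    rw [sub_eq_add_neg, CharTwo.neg_eq]; ring
  let lam : (Fin m ⊕ Fin m → F) → F := fun v => qPlus m F v + qPlus m F (A.1 *ᵥ v)
  have hlam_add : ∀ u v, lam (u + v) = lam u + lam v := by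
    intro u v
    simp only [lam]
    rw [Matrix.mulVec_add, map_add', map_add', hpol, hpol, hA]
    linear_combination (Cfsg.sympForm m F u v) * h2
  have hlam_smul : ∀ (c : F) v, lam (c • v) = c ^ 2 * lam v := by
    intro c v
    simp only [lam]
    rw [Matrix.mulVec_smul, Cfsg.Agent.Lib.Orth.map_smul', Cfsg.Agent.Lib.Orth.map_smul']
    ring
  have hsq : ∀ a : F, ∃ b : F, b ^ 2 = a := exists_sq_of_two_eq_zero h2
  choose s hs using hsq
  have sinj : ∀ a b : F, a ^ 2 = b ^ 2 → a = b := by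
    intro a b hab
    have : (a - b) ^ 2 = 0 := by linear_combination hab + (b ^ 2 - a * b) * h2
    exact sub_eq_zero.mp (pow_eq_zero_iff (two_ne_zero) |>.mp this)
  let T : (Unit ⊕ (Fin m ⊕ Fin m) → F) →ₗ[F] (Unit ⊕ (Fin m ⊕ Fin m) → F) :=
    { toFun := fun x => Sum.elim (fun _ => x (Sum.inl ()) + s (lam (x ∘ Sum.inr))) (A.1 *ᵥ (x ∘ Sum.inr))
      map_add' := by
        intro x y
        have e1 : (x + y) ∘ Sum.inr = x ∘ Sum.inr + y ∘ Sum.inr := rfl
        have e2 : s (lam (x ∘ Sum.inr + y ∘ Sum.inr)) = s (lam (x ∘ Sum.inr)) + s (lam (y ∘ Sum.inr)) := by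
          apply sinj
          rw [hs, hlam_add]
          have := hs (lam (x ∘ Sum.inr))
          have h' := hs (lam (y ∘ Sum.inr))
          linear_combination -this - h' - (s (lam (x ∘ Sum.inr)) * s (lam (y ∘ Sum.inr))) * h2
        funext i
        rcases i with i | i
        · simp only [Sum.elim_inl, e1, e2, Pi.add_apply]
          ring
        · simp only [Sum.elim_inr, e1, Matrix.mulVec_add, Pi.add_apply]
      map_smul' := by
        intro c x
        have e1 : (c • x) ∘ Sum.inr = c • (x ∘ Sum.inr) := rfl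
        have e2 : s (lam (c • (x ∘ Sum.inr))) = c * s (lam (x ∘ Sum.inr)) := by
          apply sinj
          rw [hs, hlam_smul]
          have := hs (lam (x ∘ Sum.inr))
          linear_combination -c ^ 2 * this
        funext i
        rcases i with i | i
        · simp only [Sum.elim_inl, e1, e2, Pi.smul_apply, smul_eq_mul, RingHom.id_apply]
          ring
        · simp only [Sum.elim_inr, e1, Matrix.mulVec_smul, Pi.smul_apply, RingHom.id_apply] }
  have hTQ : ∀ x, qOdd m F (T x) = qOdd m F x := by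
    intro x
    rw [Q_elim, Q_elim]
    have e1 : (T x) ∘ Sum.inr = A.1 *ᵥ (x ∘ Sum.inr) := rfl
    have e2 : (T x) (Sum.inl ()) = x (Sum.inl ()) + s (lam (x ∘ Sum.inr)) := rfl
    rw [e1, e2]
    have := hs (lam (x ∘ Sum.inr))
    have e3 : lam (x ∘ Sum.inr) = qPlus m F (x ∘ Sum.inr) + qPlus m F (A.1 *ᵥ (x ∘ Sum.inr)) := rfl
    rw [e3] at this
    rw [e3]
    linear_combination this + (x (Sum.inl ()) * s (qPlus m F (x ∘ Sum.inr) + qPlus m F (A.1 *ᵥ (x ∘ Sum.inr))) + qPlus m F (A.1 *ᵥ (x ∘ Sum.inr))) * h2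
  have hAu : ∀ v, A.1 *ᵥ v = 0 → v = 0 := by
    intro v hv
    apply Cfsg.Agent.Lib.Symp.eq_zero_of_forall_sympForm
    intro u
    rw [← hA, hv, ← hpol, polar, add_zero, QuadraticMap.map_zero]
    ring
  have hinj : Function.Injective T := by
    rw [injective_iff_map_eq_zero]
    intro x hx
    have e1 : x ∘ Sum.inr = 0 := hAu _ (by
      have := congrArg (fun y => y ∘ Sum.inr) hx
      exact this)
    have e2 : lam 0 = 0 := by simp [lam]
    have e3 : s 0 = 0 := by
      have := hs 0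
      exact pow_eq_zero_iff (two_ne_zero) |>.mp this
    have e4 : x (Sum.inl ()) = 0 := by
      have h5 : (T x) (Sum.inl ()) = 0 := by rw [hx]; rfl
      have h6 : (T x) (Sum.inl ()) = x (Sum.inl ()) + s (lam (x ∘ Sum.inr)) := rfl
      rw [h6, e1, e2, e3, add_zero] at h5
      exact h5
    funext i
    rcases i with i | i
    · exact e4
    · exact congrFun e1 i
  refine ⟨⟨LinearEquiv.ofInjectiveEndo T hinj, fun x => hTQ x⟩, ?_⟩
  apply Subtype.ext
  show LinearMap.toMatrix' (Dm _) = A.1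
  have : Dm (⟨LinearEquiv.ofInjectiveEndo T hinj, fun x => hTQ x⟩ : ↥(O (qOdd m F))) = Matrix.toLin' A.1 :=
    LinearMap.ext fun v => funext fun i => rfl
  rw [this, LinearMap.toMatrix'_toLin']

end S0304pre

/-- In characteristic 2, O_{2m+1}(q) is isomorphic to Sp_{2m}(q). -/
theorem result {F : Type*} [Field F] [Fintype F] [CharP F 2] (m : ℕ) : Nonempty (Cfsg.isometryGroup F (Cfsg.quadFormOdd m F) ≃* Matrix.symplecticGroup (Fin m) F) := by
  rw [← coe_qOdd]
  exact ⟨(isoO (qOdd m F)).trans (MulEquiv.ofBijective phi ⟨phi_injective, phi_surjective⟩)⟩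


end Cfsg.Agent.S0304
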