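import Cfsg.Statements.S0307
import Mathlib
import Cfsg.Agent.Lib.GLSL
-- import your own Cfsg.Agent.* helpers here

set_option autoImplicit false
open Cfsg
set_option linter.all false

namespace Cfsg.Agent.S0307

/-- PSL_n(q) is normal in PGL_n(q) with cyclic quotient of order gcd(n, q-1): the image of the natural map PSL_n → PGL_n is the kernel of a surjective homomorphism onto the cyclic group of that order. -/
theorem result {F : Type*} [Field F] [Fintype F] {q : ℕ} (hF : Fintype.card F = q) (n : ℕ) (hn : 1 ≤ n) : ∃ g : Matrix.ProjGenLinGroup (Fin n) F →* Multiplicative (ZMod (Nat.gcd n (q - 1))), Function.Surjective g ∧ g.ker = (Matrix.ProjectiveSpecialLinearGroup.toPGL : Matrix.ProjectiveSpecialLinearGroup (Fin n) F →* Matrix.ProjGenLinGroup (Fin n) F).range := by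
  subst hF
  have hne : Nonempty (Fin n) := ⟨⟨0, hn⟩⟩
  let P : Subgroup Fˣ := (powMonoidHom n : Fˣ →* Fˣ).range
  have hcard : Nat.card (Fˣ ⧸ P) = Nat.gcd n (Fintype.card F - 1) := by
    rw [← Subgroup.index_eq_card, IsCyclic.index_powMonoidHom_range,
      Lib.GLSL.card_units_field, Nat.gcd_comm]
  have hcyc : IsCyclic (Fˣ ⧸ P) :=
    isCyclic_of_surjective (QuotientGroup.mk' P) (QuotientGroup.mk'_surjective P)
  let e : Multiplicative (ZMod (Nat.gcd n (Fintype.card F - 1))) ≃* (Fˣ ⧸ P) :=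
    hcard ▸ zmodCyclicMulEquiv hcyc
  let f0 : Matrix.GeneralLinearGroup (Fin n) F →* (Fˣ ⧸ P) :=
    (QuotientGroup.mk' P).comp Matrix.GeneralLinearGroup.det
  have hf0 : f0.comp (Matrix.GeneralLinearGroup.scalar (Fin n)) = 1 := by
    ext u
    simp only [f0, MonoidHom.comp_apply, MonoidHom.one_apply, QuotientGroup.mk'_apply]
    rw [QuotientGroup.eq_one_iff]
    refine ⟨u, ?_⟩
    rw [Matrix.GeneralLinearGroup.det_scalar]
    simp
  let f1 := Matrix.ProjGenLinGroup.lift f0 hf0
  have hf1 : ∀ g, f1 (Matrix.ProjGenLinGroup.mk g) = QuotientGroup.mk (Matrix.GeneralLinearGroup.det g) := by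
    intro g
    simp only [f1, Matrix.ProjGenLinGroup.lift_mk]
    rfl
  refine ⟨e.symm.toMonoidHom.comp f1, ?_, ?_⟩
  · apply e.symm.surjective.comp
    intro x
    obtain ⟨u, rfl⟩ := QuotientGroup.mk_surjective x
    obtain ⟨g, hg⟩ := Matrix.GeneralLinearGroup.det_surjective (n := Fin n) u
    exact ⟨Matrix.ProjGenLinGroup.mk g, by rw [hf1, hg]⟩
  · ext x
    obtain ⟨g, rfl⟩ := Matrix.ProjGenLinGroup.mk_surjective x
    rw [MonoidHom.mem_ker]
    have h1 : (e.symm.toMonoidHom.comp f1) (Matrix.ProjGenLinGroup.mk g) = 1 ↔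
        f1 (Matrix.ProjGenLinGroup.mk g) = 1 := by
      show e.symm (f1 _) = 1 ↔ _
      rw [map_eq_one_iff _ e.symm.injective]
    rw [h1, hf1, QuotientGroup.eq_one_iff]
    constructor
    · rintro ⟨u, hu⟩
      have hdet : Matrix.GeneralLinearGroup.det
          (g * Matrix.GeneralLinearGroup.scalar (Fin n) u⁻¹) = 1 := by
        rw [map_mul, Matrix.GeneralLinearGroup.det_scalar, ← hu]
        simp
      have hmem : g * Matrix.GeneralLinearGroup.scalar (Fin n) u⁻¹ ∈
          (Matrix.SpecialLinearGroup.toGL : Matrix.SpecialLinearGroup (Fin n) F →* _).range := by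
        rw [Lib.GLSL.range_toGL]; exact hdet
      obtain ⟨s, hs⟩ := hmem
      refine ⟨QuotientGroup.mk s, ?_⟩
      rw [Matrix.ProjectiveSpecialLinearGroup.toPGL_mk, hs, map_mul,
        Matrix.ProjGenLinGroup.mk_scalar, mul_one]
    · rintro ⟨y, hy⟩
      obtain ⟨s, rfl⟩ := QuotientGroup.mk_surjective y
      rw [Matrix.ProjectiveSpecialLinearGroup.toPGL_mk, Matrix.ProjGenLinGroup.mk_eq_mk_iff] at hy
      obtain ⟨u, hu⟩ := hy
      have hd : Matrix.GeneralLinearGroup.det (Matrix.SpecialLinearGroup.toGL s) = 1 := by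
        ext; simp
      rw [← hu, map_mul, hd, one_mul, Matrix.GeneralLinearGroup.det_scalar]
      exact ⟨u, by simp⟩

end Cfsg.Agent.S0307
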