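import Cfsg.Statements.S0316
import Cfsg.Agent.Lib.BNPair
-- import your own Cfsg.Agent.* helpers here

set_option autoImplicit false
open Cfsg

namespace Cfsg.Agent.S0316

/-- The map `J ↦ P_J` is a lattice isomorphism from the power set of the set of distinguished generators onto the
subgroups containing `B`. -/
theorem result {G : Type*} [Group G] (P : Cfsg.BNPair G) :
    ∃ e : Set P.S ≃o {M : Subgroup G // P.B ≤ M},
      ∀ J : Set P.S, ((e J : {M : Subgroup G // P.B ≤ M}) : Subgroup G) = P.parabolic (Subtype.val '' J) := by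
  have hsub : ∀ J : Set P.S, Subtype.val '' J ⊆ P.S := by
    rintro J _ ⟨x, -, rfl⟩
    exact x.2
  have hle : ∀ J K : Set P.S, P.parabolic (Subtype.val '' J) ≤ P.parabolic (Subtype.val '' K) ↔ J ≤ K := by
    intro J K
    rw [Cfsg.Agent.Lib.BNPair.parabolic_le_iff (hsub J) (hsub K)]
    exact Set.image_subset_image_iff Subtype.val_injective
  let f : Set P.S → {M : Subgroup G // P.B ≤ M} := fun J =>
    ⟨P.parabolic (Subtype.val '' J), Cfsg.Agent.Lib.BNPair.B_le_parabolic _⟩
  have hinj : Function.Injective f := by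
    intro J K h
    have h' : P.parabolic (Subtype.val '' J) = P.parabolic (Subtype.val '' K) := congrArg Subtype.val h
    exact le_antisymm ((hle J K).1 h'.le) ((hle K J).1 h'.ge)
  have hsurj : Function.Surjective f := by
    rintro ⟨M, hM⟩
    refine ⟨{s : P.S | (s : G) ∈ M}, Subtype.ext ?_⟩
    have e : Subtype.val '' {s : P.S | (s : G) ∈ M} = P.S ∩ (M : Set G) := by
      ext x
      constructor
      · rintro ⟨y, hy, rfl⟩; exact ⟨y.2, hy⟩
      · rintro ⟨h1, h2⟩; exact ⟨⟨x, h1⟩, h2, rfl⟩
    change P.parabolic _ = M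
    rw [e]
    exact (Cfsg.Agent.Lib.BNPair.eq_parabolic M hM).symm
  refine ⟨{ Equiv.ofBijective f ⟨hinj, hsurj⟩ with map_rel_iff' := ?_ }, fun J => rfl⟩
  intro J K
  exact hle J K

end Cfsg.Agent.S0316
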