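import Cfsg.Statements.S0318
import Cfsg.Agent.Lib.BNPair
-- import your own Cfsg.Agent.* helpers here

set_option autoImplicit false
open Cfsg

namespace Cfsg.Agent.S0318

/-- For `n ∈ N`, the subgroup generated by `B` and `n` coincides with the subgroup generated by `B` and the
conjugate `n B n⁻¹`. -/
theorem result {G : Type*} [Group G] (P : Cfsg.BNPair G) {n : G}
    (hn : n ∈ P.N) :
    P.B ⊔ Subgroup.closure {n} = P.B ⊔ P.B.map (MulAut.conj n).toMonoidHom := by
  apply le_antisymm
  · refine sup_le le_sup_left ?_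
    rw [Subgroup.closure_le, Set.singleton_subset_iff]
    apply Cfsg.Agent.Lib.BNPair.mem_of_conj_le' (P := P) _ le_sup_left
    intro b hb
    exact Subgroup.mem_sup_right ⟨b, hb, by simp⟩
  · refine sup_le le_sup_left ?_
    rintro _ ⟨b, hb, rfl⟩
    have hn1 : n ∈ P.B ⊔ Subgroup.closure {n} := Subgroup.mem_sup_right (Subgroup.mem_closure_singleton_self n)
    have hb1 : b ∈ P.B ⊔ Subgroup.closure {n} := Subgroup.mem_sup_left hb
    have := Subgroup.mul_mem _ (Subgroup.mul_mem _ hn1 hb1) (Subgroup.inv_mem _ hn1)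
    simpa using this

end Cfsg.Agent.S0318
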