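import Cfsg.Statements.S0321
import Cfsg.Agent.Lib.BNSimple
-- import your own Cfsg.Agent.* helpers here

set_option autoImplicit false
open Cfsg

namespace Cfsg.Agent.S0321

open Cfsg.Agent.Lib.BNPair

/-- For `n ∈ N` not in `B`, the union `B ∪ B n B` is (the underlying set of) a subgroup exactly when `n` agrees
modulo `B ⊓ N` with one of the distinguished representatives; thus the distinguished involutions are
determined by `B` and `N`. -/
theorem result {G : Type*} [Group G] (P : Cfsg.BNPair G) {n : G}
    (hn : n ∈ P.N) (hnB : n ∉ P.B) :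
    (∃ H : Subgroup G, (H : Set G) = (P.B : Set G) ∪ DoubleCoset.doubleCoset n (P.B : Set G) P.B) ↔ ∃ s ∈ P.S, s⁻¹ * n ∈ P.B := by
  constructor
  · rintro ⟨H, hH⟩
    have hBH : P.B ≤ H := by
      intro b hb
      have : b ∈ (H : Set G) := by rw [hH]; exact Or.inl hb
      exact this
    have hnH : n ∈ H := by
      have : n ∈ (H : Set G) := by rw [hH]; exact Or.inr (self_mem_dc n)
      exact this
    by_cases hne : (P.S ∩ (H : Set G)).Nonempty
    · obtain ⟨s, hs, hsH⟩ := hne
      refine ⟨s, hs, ?_⟩
      rw [hH] at hsH
      rcases hsH with h | h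
      · exact absurd h (s_not_mem P hs)
      · exact (dc_eq_iff (P.subset hs) hn).1 (dc_eq_of_mem h)
    · exfalso
      rw [Set.not_nonempty_iff_eq_empty] at hne
      apply hnB
      have h1 := eq_parabolic H hBH
      rw [hne] at h1
      have h2 : H = P.B := by rw [h1]; simp [Cfsg.BNPair.parabolic]
      rw [← h2]; exact hnH
  · rintro ⟨s, hs, hsn⟩
    refine ⟨P.parabolic {s}, ?_⟩
    have hdc : dc P s = dc P n := (dc_eq_iff (P.subset hs) hn).2 hsn
    ext g
    rw [SetLike.mem_coe, mem_parabolic_iff (Set.singleton_subset_iff.2 hs)]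
    constructor
    · rintro ⟨m, hm, hg⟩
      have hm' : m ∈ (P.B : Set G) ∪ dc P s := by
        rw [Subgroup.mem_closure_singleton] at hm
        obtain ⟨k, rfl⟩ := hm
        rcases Int.even_or_odd k with ⟨j, rfl⟩ | ⟨j, rfl⟩
        · left
          rw [← two_mul, zpow_mul]
          have : s ^ (2 : ℤ) ∈ P.B := by
            have := P.sq_mem s hs
            rwa [← sq, ← zpow_natCast] at this
          exact P.B.zpow_mem this j
        · right
          rw [add_comm, zpow_add, zpow_one, zpow_mul]
          have : s ^ (2 : ℤ) ∈ P.B := by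
            have := P.sq_mem s hs
            rwa [← sq, ← zpow_natCast] at this
          exact mul_right_mem_dc (P.B.zpow_mem this j) (self_mem_dc s)
      rcases hm' with h | h
      · left
        rw [← dc_of_mem h]; exact hg
      · right
        change g ∈ dc P n
        rw [← hdc, ← dc_eq_of_mem h]; exact hg
    · rintro (h | h)
      · exact ⟨1, Subgroup.one_mem _, by change g ∈ dc P 1; rw [dc_one]; exact h⟩
      · exact ⟨s, Subgroup.mem_closure_singleton_self s, by change g ∈ dc P s; rw [hdc]; exact h⟩

end Cfsg.Agent.S0321
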