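import Cfsg.Statements.S0322
import Cfsg.Agent.Lib.BNSimple
-- import your own Cfsg.Agent.* helpers here

set_option autoImplicit false
open Cfsg

namespace Cfsg.Agent.S0322

open Cfsg.Agent.Lib.BNPair

/-- A group with a (B,N)-pair of rank one acts doubly transitively on the left cosets of `B`. -/
theorem result {G : Type*} [Group G] (P : Cfsg.BNPair G) (h : P.rank = 1) : MulAction.IsMultiplyPretransitive G (G ⧸ P.B) 2 := by
  classical
  have hcard : Nat.card P.S = 1 := h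
  obtain ⟨hsub, ⟨s, hs⟩⟩ := (Nat.card_eq_one_iff_unique).1 hcard
  have hS : P.S = {s} := by
    ext t
    constructor
    · intro ht
      have := congrArg Subtype.val (hsub.elim ⟨t, ht⟩ ⟨s, hs⟩)
      exact this
    · rintro rfl; exact hs
  have hbr : ∀ g : G, g ∉ P.B → g ∈ dc P s := by
    intro g hg
    have h1 : g ∈ P.parabolic P.S := by rw [parabolic_S]; trivial
    obtain ⟨m, hm, hgm⟩ := (mem_parabolic_iff subset_rfl g).1 h1
    rw [hS, Subgroup.mem_closure_singleton] at hm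
    obtain ⟨k, rfl⟩ := hm
    have hsq : s ^ (2 : ℤ) ∈ P.B := by
      have := P.sq_mem s hs
      rwa [← sq, ← zpow_natCast] at this
    rcases Int.even_or_odd k with ⟨j, rfl⟩ | ⟨j, rfl⟩
    · exfalso
      apply hg
      rw [← two_mul, zpow_mul] at hgm
      have := dc_of_mem (P := P) (P.B.zpow_mem hsq j)
      have h3 : g ∈ dc P ((s ^ (2 : ℤ)) ^ j) := hgm
      rw [this] at h3
      exact h3
    · rw [add_comm, zpow_add, zpow_one, zpow_mul] at hgm
      have h3 : g ∈ dc P (s * (s ^ (2 : ℤ)) ^ j) := hgm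
      rw [dc_mul_right (P.B.zpow_mem hsq j)] at h3
      exact h3
  have key : ∀ a b : G ⧸ P.B, a ≠ b → ∃ g : G, g • a = (QuotientGroup.mk 1 : G ⧸ P.B) ∧
      g • b = (QuotientGroup.mk s : G ⧸ P.B) := by
    intro a b hab
    obtain ⟨x, rfl⟩ := QuotientGroup.mk_surjective a
    obtain ⟨y, rfl⟩ := QuotientGroup.mk_surjective b
    have hxy : x⁻¹ * y ∉ P.B := fun h => hab (QuotientGroup.eq.2 h)
    obtain ⟨c, hc, c', hc', e⟩ := mem_dc.1 (hbr _ hxy)
    refine ⟨c⁻¹ * x⁻¹, ?_, ?_⟩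
    · rw [MulAction.Quotient.smul_mk, QuotientGroup.eq]
      simpa using hc
    · rw [MulAction.Quotient.smul_mk, QuotientGroup.eq, smul_eq_mul]
      have : (c⁻¹ * x⁻¹ * y)⁻¹ * s = c'⁻¹ := by
        rw [mul_assoc, e]; group
      rw [this]
      exact P.B.inv_mem hc'
  rw [MulAction.is_two_pretransitive_iff]
  intro a b c d hab hcd
  obtain ⟨g, hg1, hg2⟩ := key a b hab
  obtain ⟨g', hg1', hg2'⟩ := key c d hcd
  refine ⟨g'⁻¹ * g, ?_, ?_⟩
  · rw [mul_smul, hg1, ← hg1', inv_smul_smul]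
  · rw [mul_smul, hg2, ← hg2', inv_smul_smul]

end Cfsg.Agent.S0322
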