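import Cfsg.Statements.S0323
-- import your own Cfsg.Agent.* helpers here

set_option autoImplicit false
open scoped Pointwise
open Cfsg

namespace Cfsg.Agent.S0323

/-- A doubly transitive action on a set with at least three points yields a (B,N)-pair of rank one:
`B` is the stabiliser of a point `x`, `N` the setwise stabiliser of a pair `{x, y}`. -/
theorem result {G Ω : Type*} [Group G] [MulAction G Ω]
    (h2 : MulAction.IsMultiplyPretransitive G Ω 2) {x y z : Ω} (hxy : x ≠ y) (hyz : y ≠ z) (hxz : x ≠ z) :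
    ∃ P : Cfsg.BNPair G, P.B = MulAction.stabilizer G x ∧
      P.N = MulAction.stabilizer G ({x, y} : Set Ω) ∧ P.rank = 1 := by
  classical
  rw [MulAction.is_two_pretransitive_iff] at h2
  obtain ⟨s, hs1, hs2⟩ := h2 hxy hxy.symm
  have hmemN : ∀ g : G, g ∈ MulAction.stabilizer G ({x, y} : Set Ω) ↔
      (g • x = x ∧ g • y = y) ∨ (g • x = y ∧ g • y = x) := by
    intro g
    rw [MulAction.mem_stabilizer_iff]
    constructor
    · intro h
      have h1 : g • x ∈ ({x, y} : Set Ω) := by
        rw [← h]; exact Set.smul_mem_smul_set (by simp)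
      have h2' : g • y ∈ ({x, y} : Set Ω) := by
        rw [← h]; exact Set.smul_mem_smul_set (by simp)
      have hne : g • x ≠ g • y := fun h => hxy (smul_left_cancel g h)
      rcases h1 with h1 | h1 <;> rcases h2' with h2' | h2'
      · exact absurd (h1.trans h2'.symm) hne
      · exact Or.inl ⟨h1, h2'⟩
      · exact Or.inr ⟨h1, h2'⟩
      · exact absurd (h1.trans h2'.symm) hne
    · rintro (⟨h1, h2'⟩ | ⟨h1, h2'⟩)
      · rw [Set.smul_set_insert, Set.smul_set_singleton, h1, h2']
      · rw [Set.smul_set_insert, Set.smul_set_singleton, h1, h2', Set.pair_comm]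
  have hsN : s ∈ MulAction.stabilizer G ({x, y} : Set Ω) := (hmemN s).2 (Or.inr ⟨hs1, hs2⟩)
  have hmemB : ∀ g : G, g ∈ MulAction.stabilizer G x ↔ g • x = x := fun g => MulAction.mem_stabilizer_iff
  have hinv : ∀ (g : G) (a b : Ω), g • a = b → g⁻¹ • b = a := by
    intro g a b h; rw [← h, inv_smul_smul]
  refine ⟨{
    B := MulAction.stabilizer G x
    N := MulAction.stabilizer G ({x, y} : Set Ω)
    S := {s}
    sup_eq_top := ?_
    conj_mem := ?_
    subset := ?_
    sq_mem := ?_
    inj := ?_
    closure_sup := ?_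
    mul_mem_union := ?_
    conj_ne := ?_ }, rfl, rfl, ?_⟩
  · rw [eq_top_iff]
    intro g _
    by_cases hg : g • x = x
    · exact Subgroup.mem_sup_left ((hmemB g).2 hg)
    · obtain ⟨b, hb1, hb2⟩ := h2 (Ne.symm hg) hxy
      have h3 : s * b * g ∈ MulAction.stabilizer G x := by
        rw [hmemB, mul_smul, mul_smul, hb2, hs2]
      have h4 : g = b⁻¹ * s⁻¹ * (s * b * g) := by group
      rw [h4]
      refine Subgroup.mul_mem _ (Subgroup.mul_mem _ ?_ ?_) ?_
      · exact Subgroup.mem_sup_left (Subgroup.inv_mem _ ((hmemB b).2 hb1))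
      · exact Subgroup.mem_sup_right (Subgroup.inv_mem _ hsN)
      · exact Subgroup.mem_sup_left h3
  · rintro n hn t ⟨ht1, ht2⟩
    have ht1' := (hmemB t).1 ht1
    have ht3 : t • y = y := by
      rcases (hmemN t).1 ht2 with h | h
      · exact h.2
      · exact absurd (ht1'.symm.trans h.1) hxy
    rw [hmemB, mul_smul, mul_smul]
    rcases (hmemN n).1 hn with h | h
    · rw [hinv n x x h.1, ht1', h.1]
    · rw [hinv n y x h.2, ht3, h.2]
  · exact Set.singleton_subset_iff.2 hsN
  · rintro _ rfl
    rw [hmemB, mul_smul, hs1, hs2]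
  · rintro a ha b hb -
    rw [Set.mem_singleton_iff.1 ha, Set.mem_singleton_iff.1 hb]
  · apply le_antisymm
    · refine sup_le ?_ inf_le_right
      rw [Subgroup.closure_le]
      exact Set.singleton_subset_iff.2 hsN
    · intro n hn
      rcases (hmemN n).1 hn with h | h
      · exact Subgroup.mem_sup_right ⟨(hmemB n).2 h.1, hn⟩
      · have h3 : s * n ∈ MulAction.stabilizer G x := by
          rw [hmemB, mul_smul, h.1, hs2]
        have h4 : n = s⁻¹ * (s * n) := by group
        rw [h4]
        refine Subgroup.mul_mem _ ?_ ?_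
        · exact Subgroup.mem_sup_left (Subgroup.inv_mem _ (Subgroup.mem_closure_singleton_self s))
        · exact Subgroup.mem_sup_right ⟨h3, Subgroup.mul_mem _ hsN hn⟩
  · have key : ∀ n g : G, n • x = y → g • x ≠ x →
        g ∈ DoubleCoset.doubleCoset n (MulAction.stabilizer G x : Set G) (MulAction.stabilizer G x) := by
      intro n g hn hg
      obtain ⟨b, hb1, hb2⟩ := h2 (Ne.symm hg) hxy
      rw [DoubleCoset.mem_doubleCoset]
      refine ⟨b⁻¹, Subgroup.inv_mem _ ((hmemB b).2 hb1), n⁻¹ * b * g, ?_, by group⟩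
      rw [SetLike.mem_coe, hmemB, mul_smul, mul_smul, hb2, hinv n x y hn]
    have key1 : ∀ n g : G, n • x = x → g • x = x →
        g ∈ DoubleCoset.doubleCoset n (MulAction.stabilizer G x : Set G) (MulAction.stabilizer G x) := by
      intro n g hn hg
      rw [DoubleCoset.mem_doubleCoset]
      refine ⟨1, Subgroup.one_mem _, n⁻¹ * g, ?_, by group⟩
      rw [SetLike.mem_coe, hmemB, mul_smul, hg, hinv n x x hn]
    rintro s' hs' n hn b hb
    rw [Set.mem_singleton_iff.1 hs']
    by_cases hg : (s * b * n) • x = x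
    · rcases (hmemN n).1 hn with h | h
      · exact Or.inr (key1 _ _ h.1 hg)
      · refine Or.inl (key1 _ _ ?_ hg)
        rw [mul_smul, h.1, hs2]
    · rcases (hmemN n).1 hn with h | h
      · refine Or.inl (key _ _ ?_ hg)
        rw [mul_smul, h.1, hs1]
      · exact Or.inr (key _ _ h.1 hg)
  · rintro s' hs' heq
    rw [Set.mem_singleton_iff.1 hs'] at heq
    obtain ⟨b, hb1, hb2⟩ := h2 hxy hxz
    have h3 : s * b * s ∈ (MulAction.stabilizer G x : Set G) := by
      rw [← heq]
      exact ⟨b, (hmemB b).2 hb1, rfl⟩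
    rw [SetLike.mem_coe, hmemB, mul_smul, mul_smul, hs1, hb2] at h3
    have h4 : z = y := by
      apply smul_left_cancel s
      rw [h3, hs2]
    exact hyz h4.symm
  · change Nat.card ({s} : Set G) = 1
    simp

end Cfsg.Agent.S0323
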