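import Cfsg.Statements.S0326
import Mathlib

set_option autoImplicit false
open Cfsg

namespace Cfsg.Agent.S0326

/-- The Suzuki–Tits ovoid over a finite field with `q` elements has `q² + 1` points. -/
theorem result {F : Type*} [Field F] [Fintype F] (m : ℕ) :
    Nat.card (Cfsg.suzukiOvoid F m) = Fintype.card F ^ 2 + 1 := by
  classical
  let f : Option (F × F) → suzukiOvoid F m := fun o => match o with
    | none => ⟨Projectivization.mk F ![1, 0, 0, 0] (by simp), _, by simp, rfl, Or.inl rfl⟩
    | some (x, y) => ⟨Projectivization.mk F ![x * y + x ^ (2 ^ (m + 1) + 2) + y ^ (2 ^ (m + 1)), y, x, 1]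
        (fun h => by simpa using congrFun h 3), _, (fun h => by simpa using congrFun h 3), rfl, Or.inr ⟨x, y, rfl⟩⟩
  have hf : Function.Bijective f := by
    constructor
    · rintro (_ | ⟨x, y⟩) (_ | ⟨x', y'⟩) hxy
      · rfl
      · exfalso
        have := congrArg Subtype.val hxy
        simp only [f] at this
        rw [Projectivization.mk_eq_mk_iff'] at this
        obtain ⟨c, hc⟩ := this
        have h3 := congrFun hc 3
        have h0 := congrFun hc 0
        simp at h3
        rw [h3] at h0
        simp at h0
      · exfalso
        have := congrArg Subtype.val hxy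
        simp only [f] at this
        rw [Projectivization.mk_eq_mk_iff'] at this
        obtain ⟨c, hc⟩ := this
        have h3 := congrFun hc 3
        simp at h3
      · have := congrArg Subtype.val hxy
        simp only [f] at this
        rw [Projectivization.mk_eq_mk_iff'] at this
        obtain ⟨c, hc⟩ := this
        have h3 := congrFun hc 3
        have h2 := congrFun hc 2
        have h1 := congrFun hc 1
        simp at h3
        rw [h3] at h1 h2
        simp at h1 h2
        rw [h1, h2]
    · rintro ⟨p, v, hv, rfl, h | ⟨x, y, h⟩⟩
      · subst h; exact ⟨none, rfl⟩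
      · subst h; exact ⟨some (x, y), rfl⟩
  rw [← Nat.card_congr (Equiv.ofBijective f hf)]
  simp [Nat.card_eq_fintype_card, sq]

end Cfsg.Agent.S0326
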