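import Cfsg.Statements.S0327
import Mathlib
import Cfsg.Agent.H8.SuzSylow

set_option autoImplicit false
open Cfsg

namespace Cfsg.Agent.S0327

/-- The Suzuki group (`m ≥ 1`) is a Zassenhaus group on the `q² + 1` points of the Suzuki–Tits ovoid. -/
theorem result {F : Type*} [Field F] [Fintype F] {m : ℕ} (hm : 1 ≤ m)
    (hF : Fintype.card F = 2 ^ (2 * m + 1)) :
    Cfsg.IsZassenhausGroup (Cfsg.Sz F m) (Cfsg.suzukiOvoid F m) := by
  obtain ⟨D⟩ := Cfsg.Agent.H8.Suz.exists_dat hm hF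
  refine ⟨D.faithful, D.two_trans, fun g a b c hab hbc hac ha hb hc => D.three_pts hab hbc hac ha hb hc, ?_, ?_⟩
  · obtain ⟨u, hu⟩ := D.exists_unit
    refine ⟨D.hh u, fun h => hu (D.hh_inj (h.trans D.hh_one.symm)), D.inf, D.pt 0 0, (D.pt_ne_inf 0 0).symm, D.hh_inf u, ?_⟩
    rw [D.hh_pt]; simp
  · intro N hN htr
    have hs := D.simple
    rcases hs.eq_bot_or_eq_top_of_normal N hN with rfl | rfl
    · exfalso
      obtain ⟨n, hn⟩ := htr.exists_smul_eq D.inf (D.pt 0 0)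
      have h1 : n = 1 := Subsingleton.elim _ _
      rw [h1, one_smul] at hn
      exact D.pt_ne_inf 0 0 hn.symm
    · refine ⟨D.inf, fun hbot => ?_⟩
      have h1 : (⟨D.tt 0 1, Subgroup.mem_top _⟩ : (⊤ : Subgroup (Sz F m))) ∈ MulAction.stabilizer (⊤ : Subgroup (Sz F m)) D.inf := D.tt_inf 0 1
      rw [hbot, Subgroup.mem_bot] at h1
      have h2 : D.tt 0 1 = 1 := congrArg Subtype.val h1
      rw [← D.tt_zero] at h2
      simpa using (D.tt_inj h2).2

end Cfsg.Agent.S0327
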