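import Cfsg.Statements.S0328
import Mathlib
import Cfsg.Agent.H8.SuzSylow

set_option autoImplicit false
open Cfsg

namespace Cfsg.Agent.S0328

/-- The stabiliser in the Suzuki group of the two ovoid points spanned by `(1,0,0,0)` and `(0,0,0,1)` is
isomorphic to the multiplicative group of the field (cyclic of order `q - 1`). -/
theorem result {F : Type*} [Field F] [Fintype F] {m : ℕ} (hm : 1 ≤ m)
    (hF : Fintype.card F = 2 ^ (2 * m + 1)) :
    Nonempty (↥(MulAction.stabilizer (Cfsg.Sz F m) (Cfsg.suzukiPointInfinity F) ⊓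
        MulAction.stabilizer (Cfsg.Sz F m) (Cfsg.suzukiPointZero F)) ≃* Fˣ) := by
  obtain ⟨D⟩ := Cfsg.Agent.H8.Suz.exists_dat hm hF
  have hmem : ∀ u : Fˣ, D.hh u ∈ MulAction.stabilizer (Sz F m) (suzukiPointInfinity F) ⊓
      MulAction.stabilizer (Sz F m) (suzukiPointZero F) := by
    intro u
    constructor
    · exact congrArg Subtype.val (D.hh_inf u)
    · show D.hh u • suzukiPointZero F = suzukiPointZero F
      rw [Cfsg.Agent.H8.Suz.pzero_eq D.θ]
      have := congrArg Subtype.val (D.hh_pt u 0 0)
      simp only [mul_zero] at this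
      exact this
  let f : Fˣ →* ↥(MulAction.stabilizer (Sz F m) (suzukiPointInfinity F) ⊓
      MulAction.stabilizer (Sz F m) (suzukiPointZero F)) :=
    { toFun := fun u => ⟨D.hh u, hmem u⟩
      map_one' := Subtype.ext D.hh_one
      map_mul' := fun u v => Subtype.ext (D.hh_mul u v).symm }
  have hf : Function.Bijective f := by
    constructor
    · intro u v h; exact D.hh_inj (congrArg Subtype.val h)
    · rintro ⟨g, h1, h2⟩
      obtain ⟨u, hu⟩ := D.exists_hh (g := g) (Subtype.ext h1) (Subtype.ext (by
        have h3 : g • suzukiPointZero F = suzukiPointZero F := h2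
        rw [Cfsg.Agent.H8.Suz.pzero_eq D.θ] at h3
        exact h3))
      exact ⟨u, Subtype.ext hu.symm⟩
  exact ⟨(MulEquiv.ofBijective f hf).symm⟩

end Cfsg.Agent.S0328
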