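import Cfsg.Statements.S0330
import Mathlib
import Cfsg.Agent.H8.SuzSylow

set_option autoImplicit false
open Cfsg

namespace Cfsg.Agent.S0330

/-- A Sylow 2-subgroup `P` of the Suzuki group (field with `q = 2^(2m+1)` elements, `m ≥ 1`) has order `q²` and
exponent `4`; its centre coincides with its commutator subgroup and has order `q`. -/
theorem result {F : Type*} [Field F] [Fintype F] {m : ℕ} (hm : 1 ≤ m)
    (hF : Fintype.card F = 2 ^ (2 * m + 1)) (P : Sylow 2 (Cfsg.Sz F m)) :
    Nat.card P = (2 ^ (2 * m + 1)) ^ 2 ∧ Monoid.exponent P = 4 ∧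
      Subgroup.center P = commutator P ∧ Nat.card (Subgroup.center P) = 2 ^ (2 * m + 1) := by
  obtain ⟨D⟩ := Cfsg.Agent.H8.Suz.exists_dat hm hF
  obtain ⟨e⟩ := D.sylow_equiv P
  have hcc : Subgroup.center D.U = commutator D.U := by rw [D.center_U, D.commutator_U]
  have hcen : (Subgroup.center P).map e.toMonoidHom = Subgroup.center D.U := by
    ext x
    constructor
    · rintro ⟨y, hy, rfl⟩
      rw [SetLike.mem_coe, Subgroup.mem_center_iff] at hy
      rw [Subgroup.mem_center_iff]
      intro g
      obtain ⟨k, rfl⟩ := e.surjective g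
      show e k * e y = e y * e k
      rw [← map_mul, ← map_mul, hy]
    · intro hx
      rw [Subgroup.mem_center_iff] at hx
      refine ⟨e.symm x, ?_, by simp⟩
      rw [SetLike.mem_coe, Subgroup.mem_center_iff]
      intro g
      apply e.injective
      rw [map_mul, map_mul, e.apply_symm_apply, hx]
  refine ⟨?_, ?_, ?_, ?_⟩
  · rw [Nat.card_congr e.toEquiv, D.card_U]
  · rw [Monoid.exponent_eq_of_mulEquiv e, D.exponent_U]
  · apply Subgroup.map_injective (f := e.toMonoidHom) e.injective
    show (Subgroup.center P).map e.toMonoidHom = (commutator P).map e.toMonoidHom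
    rw [hcen, hcc, commutator_def, commutator_def, Subgroup.map_commutator]
    congr 1 <;> exact (Subgroup.map_top_of_surjective _ e.surjective).symm
  · have h1 : Nat.card (Subgroup.center P) = Nat.card (Subgroup.center D.U) := by
      rw [← hcen]
      exact Nat.card_congr ((Subgroup.center P).equivMapOfInjective _ e.injective).toEquiv
    rw [h1, D.center_U, Nat.card_congr (Subgroup.subgroupOfEquivOfLe D.ZU_le).toEquiv, D.card_ZU]

end Cfsg.Agent.S0330
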