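import Cfsg.Statements.S0335
import Mathlib
import Cfsg.Agent.H8.SuzGroup

set_option autoImplicit false
open Cfsg

namespace Cfsg.Agent.S0335

theorem aux_li {F : Type*} [Field F] (z y x : F) (h : ¬ (x = 0 ∧ y = 0)) :
    LinearIndependent F (![![1,0,0,0], ![0,0,0,1], ![z,y,x,1]] : Fin 3 → Fin 4 → F) := by
  rw [Fintype.linearIndependent_iff]
  intro g hg
  have h0 := congrFun hg 0
  have h1 := congrFun hg 1
  have h2 := congrFun hg 2
  have h3 := congrFun hg 3
  simp [Fin.sum_univ_succ] at h0 h1 h2 h3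
  have g2 : g 2 = 0 := by
    by_contra hne
    have := h1.resolve_left hne
    have := h2.resolve_left hne
    exact h ⟨by assumption, by assumption⟩
  rw [g2] at h0 h3
  simp at h0 h3
  intro i
  fin_cases i
  · exact h0
  · exact h3
  · exact g2

/-- The Suzuki–Tits point set is an ovoid: any three distinct points of it are projectively independent
(no line of projective 3-space meets it in more than two points). -/
theorem result {F : Type*} [Field F] [Fintype F] {m : ℕ} (hm : 1 ≤ m)
    (hF : Fintype.card F = 2 ^ (2 * m + 1)) (p : Fin 3 ↪ Cfsg.suzukiOvoid F m) :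
    Projectivization.Independent (fun i => (p i : Projectivization F (Fin 4 → F))) := by
  obtain ⟨D⟩ := Cfsg.Agent.H8.Suz.exists_dat hm hF
  have := D.char
  have hne01 : p 0 ≠ p 1 := fun h => by simpa using p.injective h
  have hne02 : p 2 ≠ p 0 := fun h => by simpa using p.injective h
  have hne12 : p 2 ≠ p 1 := fun h => by simpa using p.injective h
  have ht := D.two_trans
  rw [MulAction.is_two_pretransitive_iff] at ht
  obtain ⟨g, hg0, hg1⟩ := ht (D.pt_ne_inf 0 0).symm hne01
  have h2 : g⁻¹ • p 2 ≠ D.inf := by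
    intro h; apply hne02; rw [← hg0, ← h, smul_inv_smul]
  obtain ⟨x, y, hxy⟩ : ∃ x y, g⁻¹ • p 2 = D.pt x y := (D.cases_pt _).resolve_left h2
  have hxy0 : ¬ (x = 0 ∧ y = 0) := by
    rintro ⟨rfl, rfl⟩
    apply hne12; rw [← hg1, ← hxy, smul_inv_smul]
  have e2 : p 2 = g • D.pt x y := by rw [← hxy, smul_inv_smul]
  have li := aux_li (Cfsg.Agent.H8.Suz.z D.θ x y) y x hxy0
  have li2 := li.map' (Matrix.toLin' g.1.1) (by
    rw [LinearMap.ker_eq_bot']
    intro v hv
    have h1 : Matrix.mulVec (g.1⁻¹).1 (Matrix.mulVec g.1.1 v) = v := by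
      rw [Matrix.mulVec_mulVec, ← Matrix.SpecialLinearGroup.coe_mul, inv_mul_cancel,
        Matrix.SpecialLinearGroup.coe_one, Matrix.one_mulVec]
    rw [Matrix.toLin'_apply] at hv
    rw [← h1, hv, Matrix.mulVec_zero])
  have hnz := fun i => li2.ne_zero i
  have key := Projectivization.Independent.mk _ hnz li2
  convert key using 1
  ext i : 1
  fin_cases i
  · show (p 0).1 = _
    rw [← hg0]
    rfl
  · show (p 1).1 = _
    rw [← hg1]
    refine Cfsg.Agent.H8.Suz.smul_mk g.1 _ _ _ _ ⟨1, ?_⟩
    simp [Cfsg.Agent.H8.Suz.z]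
  · show (p 2).1 = _
    rw [e2]
    rfl

end Cfsg.Agent.S0335
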