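import Cfsg.Statements.S0338
import Cfsg.Agent.Lib.ZassNorm

set_option autoImplicit false
open Cfsg

namespace Cfsg.Agent.S0338

open Cfsg.Agent.Lib.ZassNorm Cfsg.Agent.Lib.ZassChar Cfsg.Agent.Lib.Zass

/-- A Zassenhaus group of odd degree is a simple group. -/
theorem result {G Ω : Type*} [Group G] [MulAction G Ω] [Fintype Ω]
    (hZ : Cfsg.IsZassenhausGroup G Ω) (hodd : Odd (Fintype.card Ω)) : IsSimpleGroup G := by
  classical
  haveI := hZ.1
  haveI : Finite G := by
    have h : Function.Injective (fun g : G => (MulAction.toPermHom G Ω g)) := MulAction.toPerm_injective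
    exact Finite.of_injective _ h
  obtain ⟨g, hg1, a, b, hab, -, -⟩ := hZ.2.2.2.1
  haveI : Nontrivial G := ⟨g, 1, hg1⟩
  refine ⟨fun N hN => ?_⟩
  by_cases hN1 : N = ⊥
  · exact Or.inl hN1
  · exact Or.inr (odd_degree_top hZ hab hodd N hN1)
end Cfsg.Agent.S0338
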