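import Cfsg.Statements.S0339
import Cfsg.Agent.Lib.ZassNorm

set_option autoImplicit false
open Cfsg

namespace Cfsg.Agent.S0339

open Cfsg.Agent.Lib.ZassNorm Cfsg.Agent.Lib.ZassChar Cfsg.Agent.Lib.Zass

/-- A non-trivial normal subgroup of a Zassenhaus group is itself a Zassenhaus group on the same set. -/
theorem result {G Ω : Type*} [Group G] [MulAction G Ω] [Finite Ω]
    (hZ : Cfsg.IsZassenhausGroup G Ω) (N : Subgroup G) [N.Normal] (hN : N ≠ ⊥) :
    Cfsg.IsZassenhausGroup N Ω := by
  classical
  haveI := hZ.1
  haveI : Finite G := by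
    have h : Function.Injective (fun g : G => (MulAction.toPermHom G Ω g)) := MulAction.toPerm_injective
    exact Finite.of_injective _ h
  haveI := Fintype.ofFinite Ω
  exact normal_zass hZ N hN
end Cfsg.Agent.S0339
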