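import Cfsg.Statements.S0347
import Cfsg.Agent.Lib.ZassSuzC

set_option autoImplicit false
open Cfsg

namespace Cfsg.Agent.S0347

/-- If in a finite simple Zassenhaus group the stabiliser of a point `x` has a normal `2`-subgroup `U` which is
non-abelian and acts regularly on the points other than `x`, then the group is simple of Suzuki order (order-level
predicate `IsSuzuki`). -/
theorem result {G Ω : Type*} [Group G] [Finite G] [MulAction G Ω] [Finite Ω]
    (hZ : Cfsg.IsZassenhausGroup G Ω) [IsSimpleGroup G]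
    (x : Ω) (U : Subgroup G) (hUle : U ≤ MulAction.stabilizer G x) (hUn : (U.subgroupOf (MulAction.stabilizer G x)).Normal)
    (hU2 : IsPGroup 2 U) (hUna : ∃ u v : U, u * v ≠ v * u)
    (hreg : ∀ y z : Ω, y ≠ x → z ≠ x → ∃! u : U, (u : G) • y = z) :
    Cfsg.IsSuzuki G := by
  haveI := Fintype.ofFinite Ω
  haveI : Nontrivial Ω := by
    obtain ⟨-, -, -, ⟨g, -, a, b, hab, -, -⟩, -⟩ := id hZ
    exact ⟨⟨a, b, hab⟩⟩
  obtain ⟨y, hy⟩ := exists_ne x
  obtain ⟨h1, h2⟩ := Cfsg.Agent.Lib.ZassAb.of_regular hy.symm U hUle hreg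
  have hodd : Odd (Nat.card (MulAction.stabilizer G x ⊓ MulAction.stabilizer G y : Subgroup G)) := by
    by_contra h
    rw [Nat.not_odd_iff_even] at h
    obtain ⟨u, v, huv⟩ := hUna
    exact huv (Subtype.ext (Cfsg.Agent.Lib.ZassEven.H_comm hZ hy.symm U hUle h1 h2 h u.2 v.2))
  exact Cfsg.Agent.Lib.ZassSuzC.suzuki hZ hy.symm U hUle h1 h2 hodd hU2 hUna
end Cfsg.Agent.S0347
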