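import Cfsg.Statements.S0351
import Cfsg.Agent.Lib.Steiner

set_option autoImplicit false
open Cfsg

namespace Cfsg.Agent.S0351

/-- Derived design: removing a point p from the blocks through p of an S(t+1, k+1, v) yields an S(t, k, v-1) on the points other than p. -/
theorem result {α : Type*} [Fintype α] [DecidableEq α] {t k : ℕ} {B : Set (Finset α)} (hB : Cfsg.IsSteinerSystem (t + 1) (k + 1) B) (p : α) : Cfsg.IsSteinerSystem t k {b' : Finset {a : α // a ≠ p} | ∃ b ∈ B, p ∈ b ∧ b' = Finset.subtype (fun a => a ≠ p) b} := by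
  refine ⟨?_, ?_⟩
  · rintro b' ⟨b, hb, hp, rfl⟩
    have h1 : (Finset.subtype (fun a => a ≠ p) b).card = (b.filter (fun a => a ≠ p)).card := by
      rw [Finset.card_subtype]
    rw [h1, Finset.filter_ne', Finset.card_erase_of_mem hp, hB.1 b hb]
    rfl
  · intro s hs
    have hs1 : (insert p (s.map (Function.Embedding.subtype _))).card = t + 1 := by
      rw [Finset.card_insert_of_notMem, Finset.card_map, hs]
      simp
    obtain ⟨b, ⟨hb1, hb2⟩, hb3⟩ := hB.2 _ hs1
    have hpb : p ∈ b := hb2 (Finset.mem_insert_self _ _)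
    refine ⟨Finset.subtype (fun a => a ≠ p) b, ⟨⟨b, hb1, hpb, rfl⟩, ?_⟩, ?_⟩
    · intro x hx
      rw [Finset.mem_subtype]
      apply hb2
      apply Finset.mem_insert_of_mem
      rw [Finset.mem_map]
      exact ⟨x, hx, rfl⟩
    · rintro c ⟨⟨b', hb', hp', rfl⟩, hc⟩
      have : b' = b := by
        apply hb3
        refine ⟨hb', ?_⟩
        intro x hx
        rw [Finset.mem_insert, Finset.mem_map] at hx
        rcases hx with rfl | ⟨y, hy, rfl⟩
        · exact hp'
        · have := hc hy
          rw [Finset.mem_subtype] at this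
          exact this
      rw [this]

end Cfsg.Agent.S0351
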