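import Cfsg.Statements.S0355
import Cfsg.Agent.Lib.SteinerPar

set_option autoImplicit false
open Cfsg

namespace Cfsg.Agent.S0355

/-- In a Steiner system S(4, 7, 23), two distinct blocks intersect in 1 or 3 points. -/
theorem result {α : Type*} [Fintype α] [DecidableEq α] (hα : Fintype.card α = 23) {B : Set (Finset α)} (hB : Cfsg.IsSteinerSystem 4 7 B) {b c : Finset α} (hb : b ∈ B) (hc : c ∈ B) (hbc : b ≠ c) : (b ∩ c).card = 1 ∨ (b ∩ c).card = 3 := by
  obtain ⟨h0, _, h2, _⟩ := Lib.Steiner.par_4_7_23 hα hB hc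
  have h0' := Lib.Steiner.nn_zero_iff h0 hb
  have h2' := Lib.Steiner.nn_zero_iff h2 hb
  have h4 : (b ∩ c).card < 4 := by
    by_contra h
    exact hbc (Lib.Steiner.block_eq hB hb hc (by omega))
  omega

end Cfsg.Agent.S0355
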