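import Cfsg.Statements.S0362
import Cfsg.Agent.Lib.Golay.Octads

set_option autoImplicit false
open Cfsg

namespace Cfsg.Agent.S0362

/-- The length-24 code is self-orthogonal: the dot product over ZMod 2 of any two of its words vanishes (with dimension 12 this makes it self-dual). -/
theorem result (v w : Cfsg.GolayPt → ZMod 2) (hv : v ∈ Cfsg.golayCode) (hw : w ∈ Cfsg.golayCode) : ∑ i, v i * w i = 0 := by
  have h0 : ∀ x : ZMod 2, x = 0 ∨ x = 1 := by decide
  have h1 : ∑ i, v i * w i = (((Cfsg.support₂ v) ∩ (Cfsg.support₂ w)).card : ZMod 2) := by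
    rw [Finset.card_eq_sum_ones, Nat.cast_sum]
    rw [← Finset.sum_subset (Finset.subset_univ (Cfsg.support₂ v ∩ Cfsg.support₂ w))]
    · refine Finset.sum_congr rfl fun i hi => ?_
      rw [Finset.mem_inter, Cfsg.support₂, Cfsg.support₂, Finset.mem_filter, Finset.mem_filter] at hi
      rcases h0 (v i) with h | h
      · exact absurd h hi.1.2
      · rcases h0 (w i) with h' | h'
        · exact absurd h' hi.2.2
        · rw [h, h']; simp
    · intro i _ hi
      rw [Finset.mem_inter, Cfsg.support₂, Cfsg.support₂, Finset.mem_filter, Finset.mem_filter] at hi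
      rcases h0 (v i) with h | h
      · rw [h, zero_mul]
      · rcases h0 (w i) with h' | h'
        · rw [h', mul_zero]
        · exfalso; apply hi; rw [h, h']; simp
  have hv' : Lib.Golay.IsWord (Cfsg.support₂ v) := (Lib.Golay.mem_golayCode_iff v).1 hv
  have hw' : Lib.Golay.IsWord (Cfsg.support₂ w) := (Lib.Golay.mem_golayCode_iff w).1 hw
  have h2 := Lib.Golay.card_symmDiff (Cfsg.support₂ v) (Cfsg.support₂ w)
  have h3 := (hv'.symmDiff hw').card
  have h4 := hv'.card
  have h5 := hw'.card
  rw [h1, ZMod.natCast_eq_zero_iff]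
  omega

end Cfsg.Agent.S0362
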