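import Cfsg.Statements.S0371
import Cfsg.Agent.Lib.Golay.Slp

set_option autoImplicit false
open Cfsg

namespace Cfsg.Agent.S0371

theorem mulLeft_mul (u v : (ZMod 23)ˣ) : Equiv.optionCongr (Units.mulLeft (u * v)) =
    Equiv.optionCongr (Units.mulLeft u) * Equiv.optionCongr (Units.mulLeft v) := by
  ext p : 1
  cases p with
  | none => rfl
  | some x => simp [Equiv.Perm.mul_apply, mul_assoc]

theorem mulLeft_one : Equiv.optionCongr (Units.mulLeft (1 : (ZMod 23)ˣ)) = (1 : Equiv.Perm (Option (ZMod 23))) := by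
  ext p : 1
  cases p with
  | none => rfl
  | some x => simp

theorem mem_pow (n : ℕ) : Equiv.optionCongr (Units.mulLeft ((Units.mk (2 : ZMod 23) 12 (by decide) (by decide)) ^ n)) ∈ Cfsg.M24 := by
  induction n with
  | zero => rw [pow_zero, mulLeft_one]; exact Cfsg.M24.one_mem
  | succ n ih =>
    rw [pow_succ, mulLeft_mul]
    refine Cfsg.M24.mul_mem ih ?_
    rw [Lib.Golay.U_eq _ rfl]
    exact Lib.Golay.pm_mem_M24 Lib.Golay.cU_pres

/-- Multiplication by a nonzero square residue modulo 23, fixing the extra point, lies in the group of the length-24 code. -/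
theorem result (u : (ZMod 23)ˣ) (hu : IsSquare u) : Equiv.optionCongr (Units.mulLeft u) ∈ Cfsg.M24 := by
  have h : ∀ u : ZMod 23, u ≠ 0 → ∃ n < 11, u * u = 2 ^ n := by decide +kernel
  obtain ⟨v, rfl⟩ := hu
  have hv : (v : ZMod 23) ≠ 0 := by
    intro h0
    have h1 := v.mul_inv
    rw [h0, zero_mul] at h1
    exact absurd h1 (by decide)
  obtain ⟨n, _, hn⟩ := h v hv
  have h1 : v * v = (Units.mk (2 : ZMod 23) 12 (by decide) (by decide)) ^ n := by
    ext
    rw [Units.val_mul, hn, Units.val_pow_eq_pow_val]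
  rw [h1]
  exact mem_pow n

end Cfsg.Agent.S0371
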