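import Cfsg.Statements.S0375
import Cfsg.Agent.Lib.GolU.Ext

set_option autoImplicit false
open Cfsg

namespace Cfsg.Agent.S0375

/-- A doubly even self-dual binary code of length 24 with no words of weight 4 is equivalent to the length-24 code built from the squares modulo 23. -/
theorem result (C : Submodule (ZMod 2) (Fin 24 → ZMod 2)) (hdim : Module.finrank (ZMod 2) C = 12) (horth : ∀ v ∈ C, ∀ w ∈ C, ∑ i, v i * w i = 0) (h4 : ∀ w ∈ C, 4 ∣ hammingNorm w) (hno4 : ∀ w ∈ C, hammingNorm w ≠ 4) : ∃ e : Fin 24 ≃ Cfsg.GolayPt, ∀ w : Cfsg.GolayPt → ZMod 2, w ∈ Cfsg.golayCode ↔ (fun i => w (e i)) ∈ C := by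
  have h := Cfsg.Agent.Lib.GolU.fam_GF (by simp) hdim (by
    intro w hw h0
    obtain ⟨k, hk⟩ := h4 w hw
    have h1 := hno4 w hw
    have h2 : hammingNorm w ≠ 0 := fun hh => h0 (hammingNorm_eq_zero.1 hh)
    omega)
  obtain ⟨f, hf⟩ := h.unique Cfsg.Agent.Lib.GolU.golGF
  refine ⟨f, fun w => ?_⟩
  rw [← Cfsg.Agent.Lib.GolU.supp_mem_fam (C := C), hf]
  have : (Cfsg.support₂ (fun i => w (f i))).map f.toEmbedding = Cfsg.support₂ w := by
    ext x
    rw [Finset.mem_map_equiv, Cfsg.Agent.Lib.GolU.mem_supp, Cfsg.Agent.Lib.GolU.mem_supp, Equiv.apply_symm_apply]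
  rw [this, Cfsg.Agent.Lib.GolU.golFam, Cfsg.Agent.Lib.GolU.supp_mem_fam]

end Cfsg.Agent.S0375
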