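import Cfsg.Statements.S0381
import Cfsg.Agent.Lib.Golay.Misc

set_option autoImplicit false
open Cfsg

namespace Cfsg.Agent.S0381

/-- The pointwise stabiliser of an octad in the group of the length-24 code has order 16 and every element of it squares to the identity. -/
theorem result (o : Finset Cfsg.GolayPt) (ho : o ∈ Cfsg.octads) : Nat.card ↥(Cfsg.M24 ⊓ fixingSubgroup (Equiv.Perm Cfsg.GolayPt) (o : Set Cfsg.GolayPt)) = 16 ∧ ∀ g ∈ Cfsg.M24 ⊓ fixingSubgroup (Equiv.Perm Cfsg.GolayPt) (o : Set Cfsg.GolayPt), g * g = 1 := by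
  obtain ⟨h1, h2⟩ := Lib.Golay.fixOct_general ho
  have hmem : ∀ g : Equiv.Perm Cfsg.GolayPt, g ∈ Cfsg.M24 ⊓ fixingSubgroup (Equiv.Perm Cfsg.GolayPt) (o : Set Cfsg.GolayPt)
      ↔ (g ∈ Cfsg.M24 ∧ ∀ p ∈ o, g p = p) := by
    intro g
    rw [Subgroup.mem_inf, mem_fixingSubgroup_iff]
    rfl
  constructor
  · rw [← h1, ← Nat.card_coe_set_eq]
    exact Nat.card_congr (Equiv.subtypeEquivRight hmem)
  · intro g hg
    exact h2 g ((hmem g).1 hg).1 ((hmem g).1 hg).2

end Cfsg.Agent.S0381
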