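import Cfsg.Statements.S0384
import Cfsg.Agent.Lib.Golay.Dodec

set_option autoImplicit false
open scoped Pointwise
open Cfsg

namespace Cfsg.Agent.S0384

/-- A dodecad stabiliser is sharply 5-transitive on the dodecad. -/
theorem result (d : Finset Cfsg.GolayPt) (hd : d ∈ Cfsg.dodecads) (x y : Fin 5 ↪ Cfsg.GolayPt) (hx : ∀ i, x i ∈ d) (hy : ∀ i, y i ∈ d) : ∃! g : MulAction.stabilizer Cfsg.M24 d, ∀ i, ((g : Cfsg.M24) : Equiv.Perm Cfsg.GolayPt) (x i) = y i := by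
  obtain ⟨g, h1, h2⟩ := Lib.Golay.dodecad_sharp hd
    (⟨fun i => ⟨x i, hx i⟩, fun i j h => x.injective (congrArg Subtype.val h)⟩ : Fin 5 ↪ d)
    (⟨fun i => ⟨y i, hy i⟩, fun i j h => y.injective (congrArg Subtype.val h)⟩ : Fin 5 ↪ d)
  refine ⟨⟨⟨g, g.2.1⟩, g.2.2⟩, h1, ?_⟩
  intro k hk
  have := h2 ⟨(k : Cfsg.M24), (k : Cfsg.M24).2, k.2⟩ hk
  have h3 : ((k : Cfsg.M24) : Equiv.Perm Cfsg.GolayPt) = (g : Equiv.Perm Cfsg.GolayPt) := congrArg Subtype.val this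
  exact Subtype.ext (Subtype.ext h3)

end Cfsg.Agent.S0384
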