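import Cfsg.Statements.S0385
import Cfsg.Agent.Lib.Golay.Misc

set_option autoImplicit false
open Cfsg

namespace Cfsg.Agent.S0385

/-- The 6-point intersections of octads with a fixed dodecad form a Steiner system S(5, 6, 12) on the dodecad. -/
theorem result (d : Finset Cfsg.GolayPt) (hd : d ∈ Cfsg.dodecads) : Cfsg.IsSteinerSystem 5 6 {h : Finset {p : Cfsg.GolayPt // p ∈ d} | ∃ o ∈ Cfsg.octads, (o ∩ d).card = 6 ∧ h = Finset.subtype (fun p => p ∈ d) o} := by
  refine ⟨?_, ?_⟩
  · rintro h ⟨o, ho, h6, rfl⟩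
    rw [Finset.card_subtype, ← h6]
    congr 1
  · intro s hs
    have hs5 : (s.map (Function.Embedding.subtype (fun p => p ∈ d))).card = 5 := by rw [Finset.card_map, hs]
    obtain ⟨o, ⟨ho1, ho2⟩, ho3⟩ := Lib.Golay.steiner.2 _ hs5
    have hin : ∀ o' : Finset Cfsg.GolayPt, s.map (Function.Embedding.subtype (fun p => p ∈ d)) ⊆ o' ↔
        s ⊆ Finset.subtype (fun p => p ∈ d) o' := by
      intro o'
      constructor
      · intro h x hx
        rw [Finset.mem_subtype]
        exact h (Finset.mem_map.2 ⟨x, hx, rfl⟩)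
      · intro h x hx
        obtain ⟨y, hy, rfl⟩ := Finset.mem_map.1 hx
        have := h hy
        rw [Finset.mem_subtype] at this
        exact this
    have h6 : (o ∩ d).card = 6 := by
      have h1 := Lib.Golay.octad_dodecad_inter ho1 hd
      have h2 : 5 ≤ (o ∩ d).card := by
        rw [← hs5]
        apply Finset.card_le_card
        intro x hx
        rw [Finset.mem_inter]
        refine ⟨ho2 hx, ?_⟩
        obtain ⟨y, hy, rfl⟩ := Finset.mem_map.1 hx
        exact y.2
      omega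
    refine ⟨Finset.subtype (fun p => p ∈ d) o, ⟨⟨o, ho1, h6, rfl⟩, (hin o).1 ho2⟩, ?_⟩
    rintro h ⟨⟨o', ho', _, rfl⟩, hso⟩
    rw [ho3 o' ⟨ho', (hin o').2 hso⟩]

end Cfsg.Agent.S0385
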