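import Cfsg.Statements.S0389
import Cfsg.Agent.Lib.Golay.Misc

set_option autoImplicit false
open scoped Pointwise
open Cfsg

namespace Cfsg.Agent.S0389

/-- The stabiliser of a dodecad and a point on it is 3-transitive on the complementary dodecad. -/
theorem result (d : Finset Cfsg.GolayPt) (hd : d ∈ Cfsg.dodecads) (p : Cfsg.GolayPt) (hp : p ∈ d) (x y : Fin 3 ↪ Cfsg.GolayPt) (hx : ∀ i, x i ∉ d) (hy : ∀ i, y i ∉ d) : ∃ g ∈ MulAction.stabilizer Cfsg.M24 d ⊓ MulAction.stabilizer Cfsg.M24 p, ∀ i, (g : Equiv.Perm Cfsg.GolayPt) (x i) = y i := by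
  obtain ⟨g, hg, h1, h2, h3⟩ := Lib.Golay.m11_threeTrans hd hp
    (x := fun i => if h : i < 3 then x ⟨i, h⟩ else none) (y := fun i => if h : i < 3 then y ⟨i, h⟩ else none)
    (by
      intro i hi j hj e
      have hj' : j < 3 := by omega
      simp only [hi, hj', dif_pos] at e
      have := x.injective e
      simp only [Fin.mk.injEq] at this
      omega)
    (by intro i hi; simp only [hi, dif_pos]; exact hx _)
    (by
      intro i hi j hj e
      have hj' : j < 3 := by omega
      simp only [hi, hj', dif_pos] at e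
      have := y.injective e
      simp only [Fin.mk.injEq] at this
      omega)
    (by intro i hi; simp only [hi, dif_pos]; exact hy _)
  refine ⟨⟨g, hg⟩, ⟨h1, h2⟩, ?_⟩
  intro i
  have := h3 i i.2
  simp only [i.2, dif_pos, Fin.eta] at this
  exact this

end Cfsg.Agent.S0389
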