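import Cfsg.Statements.S0394
import Cfsg.Agent.Lib.Golay.LeechCount3

set_option autoImplicit false
open Cfsg

namespace Cfsg.Agent.S0394

/-- Exactly 196560 lattice vectors have sum of squares 32. -/
theorem result : {x : Cfsg.GolayPt → ℤ | x ∈ Cfsg.leechLattice ∧ Cfsg.sqNorm x = 32}.ncard = 196560 := by
  open Cfsg.Agent.Lib.Golay in
  rw [← count_box 5 (2 ^ 64) 32 196560 (by decide) (by decide +kernel) (by decide +kernel)]
  congr 1
  ext x
  exact ⟨fun h => ⟨h.1, bd h.2 (by norm_num), h.2⟩, fun h => ⟨h.1, h.2.2⟩⟩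

end Cfsg.Agent.S0394
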