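import Cfsg.Statements.S0401
import Cfsg.Agent.Lib.Golay.Leech48

set_option autoImplicit false
open Cfsg

namespace Cfsg.Agent.S0401

/-- Automorphisms of the lattice act transitively on vectors of sum of squares 48. -/
theorem result (v w : Cfsg.leechLattice) (hv : Cfsg.sqNorm (v : Cfsg.GolayPt → ℤ) = 48) (hw : Cfsg.sqNorm (w : Cfsg.GolayPt → ℤ) = 48) : ∃ g : Cfsg.Co0, g • v = w := by
  open Cfsg.Agent.Lib.Golay in
  obtain ⟨a, ha, h1, h2⟩ := dec48 v.2 hv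
  obtain ⟨b, hb, h3, h4⟩ := dec48 w.2 hw
  have h := (T48 ha v.2 h1 hv h2).trans (T48 hb w.2 h3 hw h4).symm
  obtain ⟨g, -, hg⟩ := Eqv.two (v := ⟨a, ha⟩) (w := v) (v' := ⟨b, hb⟩) (w' := w) h
  exact ⟨g, hg⟩

end Cfsg.Agent.S0401
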