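import Cfsg.Statements.S0404
import Cfsg.Agent.Lib.Golay.LeechMcLs

set_option autoImplicit false
open Cfsg

namespace Cfsg.Agent.S0404

/-- Joint stabiliser of two minimal vectors with coordinate dot product −8 is simple of order 898128000. -/
theorem result (v w : Cfsg.leechLattice) (hv : Cfsg.sqNorm (v : Cfsg.GolayPt → ℤ) = 32) (hw : Cfsg.sqNorm (w : Cfsg.GolayPt → ℤ) = 32) (hvw : Cfsg.dotInt (v : Cfsg.GolayPt → ℤ) (w : Cfsg.GolayPt → ℤ) = -8) : Cfsg.IsMcL ↥(MulAction.stabilizer Cfsg.Co0 v ⊓ MulAction.stabilizer Cfsg.Co0 w) := by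
  open Cfsg.Agent.Lib.Golay in
  refine ⟨?_, card_mcl v w hv hw hvw⟩
  -- move the pair to the standard one: v goes to the odd vector, w to (4, 4)
  have h0 : dotInt (rO pa) x0 = -8 := by decide +kernel
  have hn0 : sqNorm (rO pa) = 32 := by decide +kernel
  obtain ⟨g, g1, g2⟩ := Eqv.two (v := v) (w := w) (v' := ⟨rO pa, rO_mem pa⟩) (w' := ⟨x0, x0_mem⟩)
    ((T8 v.2 w.2 hv hw hvw).trans (T8 (rO_mem pa) x0_mem hn0 norm_x0 h0).symm)
  obtain ⟨e⟩ := inf_equiv g1 g2
  have heq : (MulAction.stabilizer Co0 (⟨rO pa, rO_mem pa⟩ : leechLattice) ⊓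
      MulAction.stabilizer Co0 (⟨x0, x0_mem⟩ : leechLattice) : Subgroup Co0) =
      MulAction.stabilizer Co0 (⟨x0, x0_mem⟩ : leechLattice) ⊓ MulAction.stabilizer Co0 (⟨r5 pb, r5_mem pb⟩ : leechLattice) := by
    have hrx : r5 pb = x0 + rO pa := by decide +kernel
    have hr : rO pa = r5 pb - x0 := by decide +kernel
    ext k
    constructor
    · rintro ⟨k2, k1⟩
      refine ⟨k1, ?_⟩
      have k1' : app k x0 = x0 := smul_eq_iff_app.1 k1
      have k2' : app k (rO pa) = rO pa := smul_eq_iff_app.1 k2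
      apply smul_eq_iff_app.2
      show app k (r5 pb) = r5 pb
      rw [hrx, app_add k x0_mem (rO_mem pa), k1', k2']
    · rintro ⟨k1, k2⟩
      refine ⟨?_, k1⟩
      have k1' : app k x0 = x0 := smul_eq_iff_app.1 k1
      have k2' : app k (r5 pb) = r5 pb := smul_eq_iff_app.1 k2
      apply smul_eq_iff_app.2
      show app k (rO pa) = rO pa
      rw [hr, app_sub k (r5_mem pb) x0_mem, k1', k2']
  rw [heq] at e
  haveI := isSimple_mcl_std
  exact e.isSimpleGroup

end Cfsg.Agent.S0404
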