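import Cfsg.Statements.S0405
import Cfsg.Agent.Lib.Golay.LeechMcLs

set_option autoImplicit false
open Cfsg

namespace Cfsg.Agent.S0405

/-- Joint stabiliser of two vectors of sum of squares 48 with coordinate dot product −32 is simple of order 44352000. -/
theorem result (v w : Cfsg.leechLattice) (hv : Cfsg.sqNorm (v : Cfsg.GolayPt → ℤ) = 48) (hw : Cfsg.sqNorm (w : Cfsg.GolayPt → ℤ) = 48) (hvw : Cfsg.dotInt (v : Cfsg.GolayPt → ℤ) (w : Cfsg.GolayPt → ℤ) = -32) : Cfsg.IsHS ↥(MulAction.stabilizer Cfsg.Co0 v ⊓ MulAction.stabilizer Cfsg.Co0 w) := by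
  open Cfsg.Agent.Lib.Golay in
  obtain ⟨h1, h2, h3⟩ := hs_third hv hw hvw
  set x : leechLattice := -(v + w) with hx
  have hxv : dotInt (v : Vec) (x : Vec) = -16 := by rw [dotInt_comm]; exact h2
  have heq : (MulAction.stabilizer Co0 v ⊓ MulAction.stabilizer Co0 w : Subgroup Co0) =
      MulAction.stabilizer Co0 v ⊓ MulAction.stabilizer Co0 x := by
    ext k
    constructor
    · rintro ⟨k1, k2⟩
      refine ⟨k1, ?_⟩
      have k1' : app k v = v := smul_eq_iff_app.1 k1
      have k2' : app k w = w := smul_eq_iff_app.1 k2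
      apply smul_eq_iff_app.2
      show app k (-((v : Vec) + w)) = -((v : Vec) + w)
      rw [app_neg k (add_mem v.2 w.2), app_add k v.2 w.2, k1', k2']
    · rintro ⟨k1, k2⟩
      refine ⟨k1, ?_⟩
      have k1' : app k v = v := smul_eq_iff_app.1 k1
      have k2' : app k x = x := smul_eq_iff_app.1 k2
      apply smul_eq_iff_app.2
      have e : (w : Vec) = -((x : Vec) + v) := by
        have : (x : Vec) = -((v : Vec) + w) := rfl
        rw [this]; abel
      rw [e, app_neg k (add_mem x.2 v.2), app_add k x.2 v.2, k1', k2']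
  rw [heq]
  refine ⟨?_, card_hs v x hv h1 hxv⟩
  obtain ⟨g, g1, g2⟩ := Eqv.two (v := x) (w := v) (v' := ⟨v0, v0_mem⟩) (w' := ⟨r5 pb, r5_mem pb⟩) (TH x.2 v.2 h1 hv h2)
  obtain ⟨e⟩ := inf_equiv g2 g1
  haveI := isSimple_hs_std
  exact e.isSimpleGroup

end Cfsg.Agent.S0405
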