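import Cfsg.Statements.S0418
import Cfsg.Agent.Lib.Jordan.Simple

set_option autoImplicit false
open Cfsg

namespace Cfsg.Agent.S0418

/-- A sharply 4-transitive group of degree 11 is simple of order 7920. -/
theorem result {α : Type*} [Fintype α] [DecidableEq α] (hα : Fintype.card α = 11) (G : Subgroup (Equiv.Perm α)) [MulAction.IsMultiplyPretransitive G α 4] (hsharp : ∀ x : Fin 4 ↪ α, MulAction.stabilizer G x = ⊥) : Cfsg.IsM11 G := by
  exact Cfsg.Agent.Lib.Jordan.simple11 (Cfsg.Agent.Lib.Jordan.shL_of_pre hsharp) hα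

end Cfsg.Agent.S0418
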