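import Cfsg.Statements.S0425
import Cfsg.Agent.Lib.SmallSt.Mathieu

set_option autoImplicit false
open Cfsg

namespace Cfsg.Agent.S0425

/-- Aut of an S(5, 6, 12) is simple of order 95040 and sharply 5-transitive on points. -/
theorem result {α : Type*} [Fintype α] [DecidableEq α] (hα : Fintype.card α = 12) {B : Set (Finset α)} (hB : Cfsg.IsSteinerSystem 5 6 B) : Cfsg.IsM12 (Cfsg.setSystemAut B) ∧ MulAction.IsMultiplyPretransitive (Cfsg.setSystemAut B) α 5 ∧ ∀ x : Fin 5 ↪ α, MulAction.stabilizer (Cfsg.setSystemAut B) x = ⊥ := by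
  exact ⟨Cfsg.Agent.Lib.SmallSt.isM12_of hα hB, Cfsg.Agent.Lib.SmallSt.pretrans Cfsg.Agent.Lib.SmallSt.cert12 hα hB,
  Cfsg.Agent.Lib.SmallSt.stab_bot Cfsg.Agent.Lib.SmallSt.cert12 hα hB⟩

end Cfsg.Agent.S0425
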