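import Cfsg.Statements.S0433
import Cfsg.Agent.Lib.Golay.Leech

set_option autoImplicit false
open Cfsg

namespace Cfsg.Agent.S0433

/-- Sign changes on the support of a codeword preserve the lattice. -/
theorem result (c : Finset Cfsg.GolayPt) (hc : c ∈ Cfsg.supports (Cfsg.golayCode : Set (Cfsg.GolayPt → ZMod 2))) (x : Cfsg.GolayPt → ℤ) (hx : x ∈ Cfsg.leechLattice) : (fun i => if i ∈ c then -x i else x i) ∈ Cfsg.leechLattice := by
  obtain ⟨m, h⟩ := Lib.Golay.mem_leech.1 hx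
  exact Lib.Golay.mem_leech.2 ⟨m, h.sgn (Lib.Golay.isWord_iff.2 hc)⟩

end Cfsg.Agent.S0433
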