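import Cfsg.Statements.S0439
import Cfsg.Agent.Lib.ThreeT.Basic

set_option autoImplicit false
open Cfsg

namespace Cfsg.Agent.S0439

/-- In the symmetric group of degree n ≥ 2, the set of transpositions is a conjugacy class of 3-transpositions which generates the group. -/
theorem result (n : ℕ) (hn : 2 ≤ n) : Cfsg.IsThreeTranspositionClass {σ : Equiv.Perm (Fin n) | σ.IsSwap} := by
  classical
  refine ⟨⟨?_, ?_⟩, ?_, Equiv.Perm.closure_isSwap⟩
  · rintro σ ⟨x, y, hxy, rfl⟩
    exact Equiv.Perm.IsSwap.orderOf ⟨x, y, hxy, rfl⟩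
  · rintro σ ⟨a, b, hab, rfl⟩ τ ⟨c, d, hcd, rfl⟩
    have three : ∀ {x y z : Fin n}, x ≠ y → x ≠ z → y ≠ z →
        (Equiv.swap x y * Equiv.swap x z) ^ 3 = 1 := by
      intro x y z h1 h2 h3
      have := (Equiv.Perm.isThreeCycle_swap_mul_swap_same h1 h2 h3).orderOf
      rw [← this]; exact pow_orderOf_eq_one _
    by_cases hac : a = c
    · subst hac
      by_cases hbd : b = d
      · subst hbd; left; simp
      · right; exact three hab hcd hbd
    by_cases had : a = d
    · subst had
      by_cases hbc : b = c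
      · subst hbc; left; rw [Equiv.swap_comm b a]; simp
      · right; rw [Equiv.swap_comm c a]; exact three hab (Ne.symm hcd) hbc
    by_cases hbc : b = c
    · subst hbc
      right; rw [Equiv.swap_comm a b]; exact three hab.symm hcd had
    by_cases hbd : b = d
    · subst hbd
      right; rw [Equiv.swap_comm a b, Equiv.swap_comm c b]; exact three hab.symm (Ne.symm hcd) hac
    left
    have hdis : Equiv.Perm.Disjoint (Equiv.swap a b) (Equiv.swap c d) := by
      intro x
      by_cases h1 : x = a
      · right; subst h1; exact Equiv.swap_apply_of_ne_of_ne hac had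
      by_cases h2 : x = b
      · right; subst h2; exact Equiv.swap_apply_of_ne_of_ne hbc hbd
      left; exact Equiv.swap_apply_of_ne_of_ne h1 h2
    rw [hdis.commute.mul_pow]
    simp [sq]
  · have h0 : (⟨0, by omega⟩ : Fin n) ≠ ⟨1, by omega⟩ := by simp
    refine ⟨Equiv.swap ⟨0, by omega⟩ ⟨1, by omega⟩, ⟨_, _, h0, rfl⟩, ?_⟩
    ext σ
    constructor
    · rintro ⟨x, y, hxy, rfl⟩
      exact Equiv.Perm.isConj_swap h0 hxy
    · intro h
      have h' : IsConj (Equiv.swap (⟨0, by omega⟩ : Fin n) ⟨1, by omega⟩) σ := h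
      rw [isConj_iff] at h'
      obtain ⟨c, rfl⟩ := h'
      refine ⟨c ⟨0, by omega⟩, c ⟨1, by omega⟩, fun h => h0 (c.injective h), ?_⟩
      rw [Equiv.swap_apply_apply]

end Cfsg.Agent.S0439
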