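import Cfsg.Statements.S0442
import Cfsg.Agent.Lib.ThreeT.Basic

set_option autoImplicit false
open Cfsg

namespace Cfsg.Agent.S0442

/-- A standard trick for producing elements of an involution centraliser: for an involution a and an element g, let b be the conjugate g⁻¹ * a * g. If a * b has odd order 2m + 1 then g * (a * b) ^ m commutes with a; if a * b has even order 2m then (a * b) ^ m and (a * (g * a * g⁻¹)) ^ m commute with a. -/
theorem result {G : Type*} [Group G] (a g : G) (ha : orderOf a = 2) : (∀ m : ℕ, orderOf (a * (g⁻¹ * a * g)) = 2 * m + 1 → Commute (g * (a * (g⁻¹ * a * g)) ^ m) a) ∧ (∀ m : ℕ, orderOf (a * (g⁻¹ * a * g)) = 2 * m → Commute ((a * (g⁻¹ * a * g)) ^ m) a ∧ Commute ((a * (g * a * g⁻¹)) ^ m) a) := by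
  have ha1 : a * a = 1 := by
    have := pow_orderOf_eq_one a
    rwa [ha, sq] at this
  have hai : a⁻¹ = a := inv_eq_of_mul_eq_one_right ha1
  set b := g⁻¹ * a * g with hb
  have hb1 : b * b = 1 := by
    calc b * b = g⁻¹ * (a * a) * g := by rw [hb]; group
      _ = 1 := by rw [ha1]; group
  have hbi : b⁻¹ = b := inv_eq_of_mul_eq_one_right hb1
  have hinv : ∀ w : G, a * w * a = w⁻¹ → ∀ k : ℕ, a * w ^ k * a = (w ^ k)⁻¹ := by
    intro w hw k
    have h1 : a * w ^ k * a = (a * w * a) ^ k := by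
      have := conj_pow (a := a) (b := w) (i := k)
      rw [hai] at this
      exact this.symm
    rw [h1, hw, inv_pow]
  have hw : a * (a * b) * a = (a * b)⁻¹ := by
    rw [mul_inv_rev, hai, hbi, ← mul_assoc a a b, ha1, one_mul]
  constructor
  · intro m hm
    -- g w^m a = a g w^m
    have h1 := hinv _ hw m
    have h2 : (a * b) ^ (2 * m + 1) = 1 := by rw [← hm]; exact pow_orderOf_eq_one _
    set w := a * b with hwdef
    have h3 : w ^ m * a = a * (w ^ m)⁻¹ := by
      calc w ^ m * a = (a * a) * w ^ m * a := by rw [ha1, one_mul]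
        _ = a * (a * w ^ m * a) := by group
        _ = a * (w ^ m)⁻¹ := by rw [h1]
    have h4 : a * (w ^ m)⁻¹ = (w ^ m) * a := h3.symm
    -- goal
    have h5 : w ^ m * a * (w ^ m)⁻¹ = w ^ (2 * m) * a := by
      calc w ^ m * a * (w ^ m)⁻¹ = w ^ m * (a * (w ^ m)⁻¹) := by group
        _ = w ^ m * (w ^ m * a) := by rw [h4]
        _ = w ^ (2 * m) * a := by rw [two_mul, pow_add]; group
    have h6 : w ^ (2 * m) = b * a := by
      rw [pow_succ] at h2
      rw [eq_inv_of_mul_eq_one_left h2, hwdef, mul_inv_rev, hai, hbi]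
    have h7 : g * w ^ m * a * (g * w ^ m)⁻¹ = a := by
      calc g * w ^ m * a * (g * w ^ m)⁻¹ = g * (w ^ m * a * (w ^ m)⁻¹) * g⁻¹ := by group
        _ = g * (b * (a * a)) * g⁻¹ := by rw [h5, h6]; group
        _ = a := by rw [ha1, hb]; group
    change g * w ^ m * a = a * (g * w ^ m)
    calc g * w ^ m * a = (g * w ^ m * a * (g * w ^ m)⁻¹) * (g * w ^ m) := by group
      _ = a * (g * w ^ m) := by rw [h7]
  · intro m hm
    have h2 : (a * b) ^ (2 * m) = 1 := by rw [← hm]; exact pow_orderOf_eq_one _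
    have comm : ∀ w : G, a * w * a = w⁻¹ → w ^ (2 * m) = 1 → Commute (w ^ m) a := by
      intro w hw h2
      have h1 := hinv w hw m
      have h3 : (w ^ m)⁻¹ = w ^ m := by
        apply inv_eq_of_mul_eq_one_right
        rw [← pow_add, ← two_mul]; exact h2
      rw [h3] at h1
      change w ^ m * a = a * w ^ m
      calc w ^ m * a = (a * a) * w ^ m * a := by rw [ha1, one_mul]
        _ = a * (a * w ^ m * a) := by group
        _ = a * w ^ m := by rw [h1]
    refine ⟨comm _ hw h2, comm _ ?_ ?_⟩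
    · have : (g * a * g⁻¹)⁻¹ = g * a * g⁻¹ := by
        rw [mul_inv_rev, mul_inv_rev, hai]; group
      rw [mul_inv_rev, hai, this, ← mul_assoc a a, ha1, one_mul]
    · have h5 : a * (g * a * g⁻¹) = g * (a * b)⁻¹ * g⁻¹ := by
        rw [mul_inv_rev, hai, hbi, hb]; group
      rw [h5, conj_pow, inv_pow, h2]; group

end Cfsg.Agent.S0442
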