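import Cfsg.Statements.S0443

set_option autoImplicit false
open Cfsg

namespace Cfsg.Agent.S0443

/-- Two definitions of a 2-central involution agree: an element t of order 2 of a finite group lies in the centre of some Sylow 2-subgroup if and only if its centraliser contains some Sylow 2-subgroup. -/
theorem result {G : Type*} [Group G] [Finite G] (t : G) (ht : orderOf t = 2) : Cfsg.IsTwoCentralInvolution t ↔ ∃ P : Sylow 2 G, (P : Subgroup G) ≤ Subgroup.centralizer ({t} : Set G) := by
  have key : ∀ P : Sylow 2 G, (P : Subgroup G) ≤ Subgroup.centralizer ({t} : Set G) → t ∈ P := by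
    intro P hP
    have h1 : IsPGroup 2 (Subgroup.zpowers t) := by
      apply IsPGroup.of_card (n := 1)
      rw [Nat.card_zpowers, ht, pow_one]
    have hn : (Subgroup.zpowers t) ≤ Subgroup.normalizer ((P : Subgroup G) : Set G) := by
      rw [Subgroup.zpowers_le, Subgroup.mem_normalizer_iff]
      have hcomm : ∀ x ∈ (P : Subgroup G), t * x * t⁻¹ = x := by
        intro x hx
        have := Subgroup.mem_centralizer_singleton_iff.1 (hP hx)
        rw [← this]; group
      intro x
      constructor
      · intro hx; rw [hcomm x hx]; exact hx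
      · intro hx
        have h3 := hcomm _ hx
        have h4 : t * x * t⁻¹ = x := by
          have := congrArg (fun y => t⁻¹ * y * t) h3
          simpa [mul_assoc] using this
        rw [← h4]; exact hx
    have h2 : IsPGroup 2 ((P : Subgroup G) ⊔ Subgroup.zpowers t : Subgroup G) :=
      P.2.to_sup_of_normal_left' h1 hn
    have h3 : (P : Subgroup G) ⊔ Subgroup.zpowers t = P := P.3 h2 le_sup_left
    have h4 : Subgroup.zpowers t ≤ (P : Subgroup G) := by rw [← h3]; exact le_sup_right
    exact h4 (Subgroup.mem_zpowers t)
  constructor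
  · rintro ⟨_, P, _, hP⟩
    refine ⟨P, fun x hx => ?_⟩
    rw [Subgroup.mem_centralizer_singleton_iff]
    exact hP x hx
  · rintro ⟨P, hP⟩
    exact ⟨ht, P, key P hP, fun x hx => Subgroup.mem_centralizer_singleton_iff.1 (hP hx)⟩

end Cfsg.Agent.S0443
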