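import Cfsg.Statements.S0446

set_option autoImplicit false
open Cfsg

namespace Cfsg.Agent.S0446

/-- Every finite group of even order contains a 2-central involution, i.e. an element of order 2 in the centre of some Sylow 2-subgroup. -/
theorem result {G : Type*} [Group G] [Finite G] (h : Even (Nat.card G)) : ∃ t : G, Cfsg.IsTwoCentralInvolution t := by
  have h2 : 2 ∣ Nat.card G := h.two_dvd
  obtain ⟨P⟩ : Nonempty (Sylow 2 G) := inferInstance
  have hne : Nontrivial (P : Subgroup G) := by
    haveI : Fact (Nat.Prime 2) := ⟨Nat.prime_two⟩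
    rw [Subgroup.nontrivial_iff_ne_bot]
    exact P.ne_bot_of_dvd_card h2
  haveI : Fact (Nat.Prime 2) := ⟨Nat.prime_two⟩
  have hc : Nontrivial (Subgroup.center (P : Subgroup G)) := P.2.center_nontrivial
  have h3 : 2 ∣ Nat.card (Subgroup.center (P : Subgroup G)) := by
    have hp : IsPGroup 2 (Subgroup.center (P : Subgroup G)) := P.2.to_subgroup _
    obtain ⟨n, hn⟩ := hp.exists_card_eq
    have : 1 < Nat.card (Subgroup.center (P : Subgroup G)) := Finite.one_lt_card
    rw [hn] at this ⊢
    exact dvd_pow_self 2 (by rintro rfl; simp at this)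
  obtain ⟨t, ht⟩ := exists_prime_orderOf_dvd_card' 2 h3
  refine ⟨((t : (P : Subgroup G)) : G), ?_, P, ?_, ?_⟩
  · rw [Subgroup.orderOf_coe, Subgroup.orderOf_coe]; exact ht
  · exact (t : (P : Subgroup G)).2
  · intro x hx
    have := Subgroup.mem_center_iff.1 t.2 ⟨x, hx⟩
    exact congrArg Subtype.val this

end Cfsg.Agent.S0446
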