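import Cfsg.Statements.S0481

set_option autoImplicit false
open Cfsg

namespace Cfsg.Agent.S0481

/-- Large extraspecial subgroups: let z be an involution of a finite group G whose centraliser C contains a normal 2-subgroup Q with centre of order 2 and all squares central, such that every element of G centralising Q lies in Q. Then C contains a Sylow 2-subgroup of G, and any involution of G whose centraliser contains a Sylow 2-subgroup of G is conjugate to z. -/
theorem result {G : Type*} [Group G] [Finite G] (z : G) (hz : orderOf z = 2) (Q : Subgroup G) (hQC : Q ≤ Subgroup.centralizer ({z} : Set G)) (hQn : ∀ g ∈ Subgroup.centralizer ({z} : Set G), ∀ q ∈ Q, g * q * g⁻¹ ∈ Q) (hQ2 : IsPGroup 2 Q) (hZ : Nat.card (Subgroup.center Q) = 2) (hsq : ∀ x : Q, x ^ 2 ∈ Subgroup.center Q) (hlarge : Subgroup.centralizer (Q : Set G) ≤ Q) : (∃ P : Sylow 2 G, (P : Subgroup G) ≤ Subgroup.centralizer ({z} : Set G)) ∧ ∀ u : G, orderOf u = 2 → (∃ P : Sylow 2 G, (P : Subgroup G) ≤ Subgroup.centralizer ({u} : Set G)) → IsConj z u := by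
  haveI : Fact (Nat.Prime 2) := ⟨Nat.prime_two⟩
  have hz1 : z ≠ 1 := by rintro rfl; simp at hz
  -- the centralizer of Q is generated by z
  have hzC : z ∈ Subgroup.centralizer (Q : Set G) := by
    rw [Subgroup.mem_centralizer_iff]
    intro q hq
    have := Subgroup.mem_centralizer_singleton_iff.1 (hQC hq)
    exact this
  have hzQ : z ∈ Q := hlarge hzC
  have key : ∀ u : G, u ∈ Subgroup.centralizer (Q : Set G) → u ≠ 1 → u = z := by
    intro u hu hu1
    have huQ : u ∈ Q := hlarge hu
    have mem : ∀ v : G, ∀ hv : v ∈ Q, v ∈ Subgroup.centralizer (Q : Set G) →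
        (⟨v, hv⟩ : Q) ∈ Subgroup.center Q := by
      intro v hv hvC
      rw [Subgroup.mem_center_iff]
      intro g
      exact Subtype.ext (Subgroup.mem_centralizer_iff.1 hvC g g.2)
    let u' : Subgroup.center Q := ⟨⟨u, huQ⟩, mem u huQ hu⟩
    let z' : Subgroup.center Q := ⟨⟨z, hzQ⟩, mem z hzQ hzC⟩
    have hu' : u' ≠ 1 := fun h => hu1 (congrArg (fun x : Subgroup.center Q => ((x : Q) : G)) h)
    have hz' : z' ≠ 1 := fun h => hz1 (congrArg (fun x : Subgroup.center Q => ((x : Q) : G)) h)
    by_contra hne
    have hne' : u' ≠ z' := fun h => hne (congrArg (fun x : Subgroup.center Q => ((x : Q) : G)) h)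
    classical
    haveI : Fintype (Subgroup.center Q) := Fintype.ofFinite _
    have : ({1, u', z'} : Finset (Subgroup.center Q)).card ≤ Fintype.card (Subgroup.center Q) :=
      Finset.card_le_univ _
    rw [← Nat.card_eq_fintype_card, hZ, Finset.card_eq_three.2 ⟨1, u', z', hu'.symm, hz'.symm, hne', rfl⟩] at this
    omega
  obtain ⟨S, hS⟩ := hQ2.exists_le_sylow
  -- the center of a Sylow containing Q
  have hSne : Nontrivial (S : Subgroup G) := by
    rw [Subgroup.nontrivial_iff_exists_ne_one]
    exact ⟨z, hS hzQ, hz1⟩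
  have hc : Nontrivial (Subgroup.center (S : Subgroup G)) := S.2.center_nontrivial
  obtain ⟨c, hc1⟩ := exists_ne (1 : Subgroup.center (S : Subgroup G))
  have hcz : ((c : (S : Subgroup G)) : G) = z := by
    apply key
    · rw [Subgroup.mem_centralizer_iff]
      intro q hq
      exact congrArg Subtype.val (Subgroup.mem_center_iff.1 c.2 ⟨q, hS hq⟩)
    · intro h
      exact hc1 (Subtype.ext (Subtype.ext h))
  refine ⟨⟨S, ?_⟩, ?_⟩
  · intro x hx
    rw [Subgroup.mem_centralizer_singleton_iff, ← hcz]
    exact congrArg Subtype.val (Subgroup.mem_center_iff.1 c.2 ⟨x, hx⟩)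
  · rintro u hu ⟨P, hP⟩
    obtain ⟨g, hg⟩ := MulAction.exists_smul_eq G P S
    have h1 : g * u * g⁻¹ = z := by
      apply key
      · rw [Subgroup.mem_centralizer_iff]
        intro q hq
        have hqS : q ∈ (S : Subgroup G) := hS hq
        rw [← hg, Sylow.coe_subgroup_smul, Subgroup.mem_pointwise_smul_iff_inv_smul_mem] at hqS
        have h2 := Subgroup.mem_centralizer_singleton_iff.1 (hP hqS)
        have h3 : (MulAut.conj g)⁻¹ • q = g⁻¹ * q * g := by
          rw [← map_inv, MulAut.smul_def, MulAut.conj_apply, inv_inv]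
        rw [h3] at h2
        calc q * (g * u * g⁻¹) = g * (g⁻¹ * q * g * u) * g⁻¹ := by group
          _ = g * (u * (g⁻¹ * q * g)) * g⁻¹ := by rw [h2]
          _ = g * u * g⁻¹ * q := by group
      · intro h
        have : u = 1 := by
          have := congrArg (fun y => g⁻¹ * y * g) h
          simpa [mul_assoc] using this
        rw [this] at hu; simp at hu
    rw [isConj_comm, isConj_iff]
    exact ⟨g, h1⟩

end Cfsg.Agent.S0481
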