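import Cfsg.Statements.S0499
import Mathlib
import Cfsg.Agent.Lib.PNilp

set_option autoImplicit false
open Cfsg

namespace Cfsg.Agent.S0499

open Subgroup in
theorem key {G : Type*} [Group G] [Finite G] (h16 : ¬ 16 ∣ Nat.card G) {Q : Subgroup G} (hQ : IsPGroup 2 Q) {g : G}
    (hg : g ∈ Subgroup.normalizer (Q : Set G)) (hgo : (orderOf g).Coprime 2) (hgc : g ∉ centralizer (Q : Set G)) :
    12 ∣ Nat.card G ∨ 56 ∣ Nat.card G := by
  classical
  set φ : MulAut Q := Q.normalizerMonoidHom ⟨g, hg⟩ with hφ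
  have hφ1 : φ ≠ 1 := by
    intro h1
    have h2 : (⟨g, hg⟩ : normalizer (Q : Set G)) ∈ Q.normalizerMonoidHom.ker := h1
    rw [Subgroup.normalizerMonoidHom_ker] at h2
    exact hgc h2
  have hφo : orderOf φ ∣ orderOf g := by
    have h1 := orderOf_map_dvd Q.normalizerMonoidHom ⟨g, hg⟩
    rwa [Subgroup.orderOf_mk] at h1
  have hφ0 : 0 < orderOf φ := orderOf_pos φ
  set r := (orderOf φ).minFac with hr
  have hrp : r.Prime := Nat.minFac_prime (by rw [Ne, orderOf_eq_one_iff]; exact hφ1)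
  have hrd : r ∣ orderOf φ := Nat.minFac_dvd _
  set ψ := φ ^ (orderOf φ / r) with hψ
  have hψo : orderOf ψ = r := orderOf_pow_orderOf_div hφ0.ne' hrd
  have hr2 : r ≠ 2 := by
    intro h2
    have h3 : 2 ∣ orderOf g := h2 ▸ hrd.trans hφo
    have := Nat.dvd_gcd h3 (dvd_refl 2)
    rw [hgo] at this
    omega
  haveI : Fact r.Prime := ⟨hrp⟩
  have hpg : IsPGroup r (zpowers ψ) := IsPGroup.of_card (n := 1) (by rw [Nat.card_zpowers, hψo, pow_one])
  have hmod := hpg.card_modEq_card_fixedPoints Q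
  set F : Subgroup Q := ψ.toMonoidHom.eqLocus (MonoidHom.id Q) with hF
  have hFmem : ∀ q : Q, q ∈ F ↔ ψ q = q := fun q => Iff.rfl
  have hset : MulAction.fixedPoints (zpowers ψ) Q = (F : Set Q) := by
    ext q
    constructor
    · intro h
      exact h ⟨ψ, mem_zpowers ψ⟩
    · rintro h ⟨x, hx⟩
      have h1 : ψ ∈ MulAction.stabilizer (MulAut Q) q := h
      exact (Subgroup.zpowers_le.2 h1) hx
  rw [hset] at hmod
  have hFtop : F ≠ ⊤ := by
    intro h
    have : ψ = 1 := by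
      ext q
      exact congrArg Subtype.val ((hFmem q).1 (h ▸ Subgroup.mem_top q))
    rw [this, orderOf_one] at hψo
    exact hrp.one_lt.ne hψo
  obtain ⟨a, ha⟩ := IsPGroup.iff_card.1 hQ
  have hFd : Nat.card F ∣ 2 ^ a := ha ▸ Subgroup.card_subgroup_dvd_card F
  obtain ⟨b, hb, hFb⟩ := (Nat.dvd_prime_pow Nat.prime_two).1 hFd
  have hbne : b ≠ a := by
    rintro rfl
    exact hFtop ((Subgroup.card_eq_iff_eq_top F).1 (by rw [hFb, ha]))
  have haG : 2 ^ a ∣ Nat.card G := ha ▸ Subgroup.card_subgroup_dvd_card Q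
  have ha3 : a ≤ 3 := by
    by_contra h
    exact h16 ((Nat.pow_dvd_pow 2 (show 4 ≤ a by omega)).trans haG)
  have hcF : Nat.card (F : Set Q) = 2 ^ b := hFb
  rw [hcF, ha] at hmod
  have hdvd : r ∣ 2 ^ a - 2 ^ b := (Nat.modEq_iff_dvd' (Nat.pow_le_pow_right (by norm_num) hb)).1 hmod.symm
  have hrG : r ∣ Nat.card G := (hrd.trans hφo).trans (orderOf_dvd_natCard g)
  have hp2 : ∀ k, r ∣ 2 ^ k → False := fun k hk => hr2 ((Nat.prime_dvd_prime_iff_eq hrp Nat.prime_two).1 (hrp.dvd_of_dvd_pow hk))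
  have h12 : r = 3 → 4 ∣ Nat.card G → 12 ∣ Nat.card G := fun h h4 =>
    Nat.Coprime.mul_dvd_of_dvd_of_dvd (by norm_num : Nat.Coprime 3 4) (h ▸ hrG) h4
  have h3 : r ∣ 3 → r = 3 := fun h => (Nat.prime_dvd_prime_iff_eq hrp Nat.prime_three).1 h
  have h7 : r ∣ 7 → r = 7 := fun h => (Nat.prime_dvd_prime_iff_eq hrp (by norm_num)).1 h
  interval_cases a <;> interval_cases b <;> first
    | exact absurd rfl hbne
    | (exfalso; exact hp2 0 (by norm_num at hdvd ⊢; exact hdvd))
    | (exfalso; exact hp2 1 (by norm_num at hdvd ⊢; exact hdvd))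
    | (exfalso; exact hp2 2 (by norm_num at hdvd ⊢; exact hdvd))
    | (left; exact h12 (h3 (by norm_num at hdvd ⊢; exact hdvd)) (by norm_num at haG; exact haG))
    | (right; exact Nat.Coprime.mul_dvd_of_dvd_of_dvd (by norm_num : Nat.Coprime 7 8)
        ((h7 (by norm_num at hdvd ⊢; exact hdvd)) ▸ hrG) (by norm_num at haG; exact haG))
    | (left; exact h12 (h3 (by
          norm_num at hdvd
          have : r ∣ 2 * 3 := by norm_num; exact hdvd
          rcases hrp.dvd_mul.1 this with h | h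
          · exact absurd ((Nat.prime_dvd_prime_iff_eq hrp Nat.prime_two).1 h) hr2
          · exact h)) ((by norm_num : 4 ∣ 2 ^ 3).trans haG))

/-- A non-abelian finite simple group of even order has order divisible by 12, 16 or 56. -/
theorem result {G : Type*} [Group G] [Finite G] [IsSimpleGroup G]
    (hG : ¬ IsMulCommutative G) (h2 : Even (Nat.card G)) :
    12 ∣ Nat.card G ∨ 16 ∣ Nat.card G ∨ 56 ∣ Nat.card G := by
  by_cases h16 : 16 ∣ Nat.card G
  · exact Or.inr (Or.inl h16)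
  have hnp : ¬ Cfsg.Agent.Lib.PNilp.PNil 2 G := by
    rintro ⟨N, hN, hc, k, hi⟩
    rcases hN.eq_bot_or_eq_top with rfl | rfl
    · rw [Subgroup.index_bot] at hi
      have hpG : IsPGroup 2 G := IsPGroup.of_card hi
      apply hG
      haveI := hpG.isNilpotent
      haveI : Nontrivial G := IsSimpleGroup.toNontrivial
      have hcen : Subgroup.center G ≠ ⊥ := hpG.bot_lt_center.ne'
      have hct : Subgroup.center G = ⊤ := (inferInstance : (Subgroup.center G).Normal).eq_bot_or_eq_top.resolve_left hcen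
      exact ⟨⟨fun x y => ((Subgroup.mem_center_iff.1 (hct ▸ Subgroup.mem_top x)) y).symm⟩⟩
    · rw [Subgroup.card_top] at hc
      have := Nat.dvd_gcd (even_iff_two_dvd.1 h2) (dvd_refl 2)
      rw [hc] at this
      omega
  have hF : ¬ Cfsg.Agent.Lib.PNilp.FrobCond 2 G := fun h => hnp (Cfsg.Agent.Lib.PNilp.pNil_of_frobCond h)
  unfold Cfsg.Agent.Lib.PNilp.FrobCond at hF
  push Not at hF
  obtain ⟨Q, hQ, g, hg, hgo, hgc⟩ := hF
  rcases key h16 hQ hg hgo hgc with h | h
  · exact Or.inl h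
  · exact Or.inr (Or.inr h)

end Cfsg.Agent.S0499
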