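import Cfsg.Statements.S0505
import Cfsg.Agent.Lib.H3Loc
import Cfsg.Agent.Lib.Nilp

set_option autoImplicit false
open Cfsg

namespace Cfsg.Agent.S0505

open Cfsg.Agent.Lib

/-- Let G be a finite group of even order in which the centralizer of every involution is solvable and has trivial
core (no nontrivial normal subgroup of odd order). Then G is of characteristic 2 type. -/
theorem result {G : Type*} [Group G] [Finite G]
    (h2 : Even (Nat.card G))
    (hs : ∀ t : G, orderOf t = 2 → Group.IsSolvable (Subgroup.centralizer ({t} : Set G)))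
    (hc : ∀ t : G, orderOf t = 2 → Cfsg.oddCore (Subgroup.centralizer ({t} : Set G)) = ⊥) :
    Cfsg.IsCharacteristicTwoType G := by
  haveI h22 : Fact (Nat.Prime 2) := ⟨Nat.prime_two⟩
  refine ⟨h2, ?_⟩
  have key : ∀ t : G, orderOf t = 2 →
      Cfsg.generalizedFittingSubgroup ↥(Subgroup.centralizer ({t} : Set G)) =
        Cfsg.pCore 2 ↥(Subgroup.centralizer ({t} : Set G)) := by
    intro t ht
    haveI := hs t ht
    rw [H3Loc.gf_eq_pCore_iff]
    have h1 := Nilp.centralizer_fitting_le (G := ↥(Subgroup.centralizer ({t} : Set G)))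
    rw [H3Loc.fitting_eq_pCore (p := 2) (hc t ht)] at h1
    exact h1
  intro T hT hT1
  exact H3Loc.gf_eq_pCore_iff.mp (H3Loc.s1292 key T hT hT1)

end Cfsg.Agent.S0505
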