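import Cfsg.Statements.S0540
import Cfsg.Agent.Lib.Subnorm

set_option autoImplicit false
open Pointwise
open Cfsg

namespace Cfsg.Agent.S0540

open Subgroup Cfsg.Agent.Lib Cfsg.Agent.Lib.Subnorm

/-- A uniqueness lemma of zipper type. Let A be a subgroup of a finite group G and U a nonempty family of subgroups. For V in U write S(V) for the set of conjugates of A that lie in V and are subnormal in V. Assume: A belongs to S(V) for every V in U; a member of some S(W) that lies in V belongs to S(V); and for all V, W in U the normalizer of the join of S(V) ∩ S(W) lies in some member of U. Then U has a greatest element. -/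
theorem result {G : Type*} [Group G] [Finite G] (A : Subgroup G) (U : Set (Subgroup G)) (hU : U.Nonempty) (S : Subgroup G → Set (Subgroup G)) (hS : ∀ V B : Subgroup G, B ∈ S V ↔ (∃ g : G, B = MulAut.conj g • A) ∧ B ≤ V ∧ (B.subgroupOf V).IsSubnormal) (h1 : ∀ V ∈ U, A ∈ S V) (h2 : ∀ V ∈ U, ∀ W ∈ U, ∀ B ∈ S W, B ≤ V → B ∈ S V) (h3 : ∀ V ∈ U, ∀ W ∈ U, ∃ X ∈ U, Subgroup.normalizer ((sSup (S V ∩ S W) : Subgroup G) : Set G) ≤ X) : ∃ M ∈ U, ∀ V ∈ U, V ≤ M := by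
  classical
  by_contra hcon
  push Not at hcon
  -- maximal elements of U
  have hmaxex : ∀ V ∈ U, ∃ M ∈ U, V ≤ M ∧ ∀ W ∈ U, M ≤ W → W = M := by
    intro V hV
    obtain ⟨M, ⟨hM, hVM⟩, hmax⟩ := Set.exists_max_image {W : Subgroup G | W ∈ U ∧ V ≤ W}
      (fun W => Nat.card W) (Set.toFinite _) ⟨V, hV, le_rfl⟩
    refine ⟨M, hM, hVM, fun W hW hMW => ?_⟩
    exact (eq_of_le_of_card_ge hMW (hmax W ⟨hW, hVM.trans hMW⟩)).symm
  -- pairs of distinct maximal elements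
  obtain ⟨V₀, hV₀⟩ := hU
  obtain ⟨M₀, hM₀, -, hM₀m⟩ := hmaxex V₀ hV₀
  obtain ⟨W₀, hW₀, hW₀n⟩ := hcon M₀ hM₀
  obtain ⟨N₀, hN₀, hWN₀, hN₀m⟩ := hmaxex W₀ hW₀
  have hne₀ : M₀ ≠ N₀ := fun h => hW₀n (h ▸ hWN₀)
  let 𝒬 : Set (Subgroup G × Subgroup G) := {q | q.1 ∈ U ∧ q.2 ∈ U ∧ (∀ W ∈ U, q.1 ≤ W → W = q.1) ∧
    (∀ W ∈ U, q.2 ≤ W → W = q.2) ∧ q.1 ≠ q.2}
  obtain ⟨⟨V₁, V₂⟩, ⟨hV₁, hV₂, hm₁, hm₂, hne⟩, hmax⟩ := Set.exists_max_image 𝒬
    (fun q => (S q.1 ∩ S q.2).ncard) (Set.toFinite _) ⟨(M₀, N₀), hM₀, hN₀, hM₀m, hN₀m, hne₀⟩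
  simp only at hV₁ hV₂ hm₁ hm₂ hne
  obtain ⟨X, hX, hNX⟩ := h3 V₁ hV₁ V₂ hV₂
  obtain ⟨V₃, hV₃, hXV₃, hm₃⟩ := hmaxex X hX
  have hNV₃ := hNX.trans hXV₃
  obtain ⟨Sg, hSg⟩ : ∃ Sg, Sg = S V₁ ∩ S V₂ := ⟨_, rfl⟩
  rw [← hSg] at hNV₃
  -- key step
  have key : ∀ V ∈ U, (∀ W ∈ U, V ≤ W → W = V) → Sg ⊆ S V → V ≠ V₃ → False := by
    intro V hV hVm hsub hVne
    have hsub3 : ∀ B ∈ S V, B ≤ Subgroup.normalizer ((sSup Sg : Subgroup G) : Set G) → B ∈ S V₃ :=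
      fun B hB hBn => h2 V₃ hV₃ V hV B hB (hBn.trans hNV₃)
    have hSg3 : Sg ⊆ S V₃ := fun B hB =>
      hsub3 B (hsub hB) ((le_sSup hB).trans le_normalizer)
    -- V-invariance of S V
    have hinv : ∀ B ∈ S V, ∀ g ∈ V, MulAut.conj g • B ∈ S V := by
      intro B hB g hg
      rw [hS] at hB ⊢
      obtain ⟨⟨k, rfl⟩, hBV, hBs⟩ := hB
      refine ⟨⟨g * k, by rw [map_mul, mul_smul]⟩, ?_, ?_⟩
      · intro x hx
        have h4 := hBV (SchurZas.mem_conj_smul_iff.mp hx)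
        have := mul_mem (mul_mem hg h4) (inv_mem hg)
        have e : g * (g⁻¹ * x * g) * g⁻¹ = x := by group
        rwa [e] at this
      · apply conj_subgroupOf
        have e : MulAut.conj g⁻¹ • V = V := Coprime.conj_smul_eq_of_mem_normalizer
          (inv_mem (le_normalizer hg))
        rw [e]; exact hBs
    rcases eq_or_ssubset_of_subset hsub with heq | hss
    · -- V normalizes
      apply hVne
      have h4 : V ≤ Subgroup.normalizer ((sSup Sg : Subgroup G) : Set G) := by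
        apply le_normalizer_sSup
        intro B hB x hx
        rw [heq] at hB ⊢
        exact hinv B hB x hx
      exact (hVm V₃ hV₃ (h4.trans hNV₃)).symm
    · obtain ⟨Y, hY, hYn, hYN⟩ := exists_member_normalizes_rel V (S V) Sg
        (fun B hB => ((hS V B).mp hB).2.1) (fun B hB => ((hS V B).mp hB).2.2) hinv hss
      have hY3 := hsub3 Y hY hYN
      have h5 := hmax (V, V₃) ⟨hV, hV₃, hVm, hm₃, hVne⟩
      simp only at h5
      rw [← hSg] at h5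
      have h6 : Sg ⊂ S V ∩ S V₃ := by
        refine ⟨fun B hB => ⟨hsub hB, hSg3 hB⟩, fun h => hYn (h ⟨hY, hY3⟩)⟩
      have := Set.ncard_lt_ncard h6 (Set.toFinite _)
      omega
  by_cases h : V₁ = V₃
  · exact key V₂ hV₂ hm₂ (hSg ▸ Set.inter_subset_right) (fun h' => hne (h.trans h'.symm))
  · exact key V₁ hV₁ hm₁ (hSg ▸ Set.inter_subset_left) h

end Cfsg.Agent.S0540
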