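import Cfsg.Statements.S0541
import Cfsg.Agent.Lib.Subnorm

set_option autoImplicit false
open Pointwise
open Cfsg

namespace Cfsg.Agent.S0541

open Subgroup Cfsg.Agent.Lib Cfsg.Agent.Lib.Subnorm
open scoped Pointwise

/-- Let Z and Y be subgroups of a finite group G and p a prime. Suppose that for every g in G the subgroup generated by the conjugates of g Z g⁻¹ under Y is a p-group. Then there is a Sylow p-subgroup P of G such that Y normalizes the subgroup generated by all conjugates of Z contained in P. -/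
theorem result {G : Type*} [Group G] [Finite G] (p : ℕ) [Fact p.Prime] (Z Y : Subgroup G) (h : ∀ g : G, IsPGroup p ↥(⨆ y ∈ Y, MulAut.conj (y * g) • Z)) : ∃ P : Sylow p G, Y ≤ Subgroup.normalizer ((⨆ g ∈ {g : G | MulAut.conj g • Z ≤ (P : Subgroup G)}, MulAut.conj g • Z : Subgroup G) : Set G) := by
  classical
  -- conjugates of Z
  let Ω : Set (Subgroup G) := {W | ∃ g : G, W = MulAut.conj g • Z}
  have hΩ : ∀ W ∈ Ω, ∀ x : G, MulAut.conj x • W ∈ Ω := by
    rintro W ⟨g, rfl⟩ x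
    exact ⟨x * g, by rw [map_mul, mul_smul]⟩
  -- for W in Ω, the join over Y of the conjugates is a p-group
  have hW : ∀ W ∈ Ω, IsPGroup p ↥(⨆ y ∈ Y, MulAut.conj y • W : Subgroup G) := by
    rintro W ⟨g, rfl⟩
    have h0 := h g
    have e : (⨆ y ∈ Y, MulAut.conj y • MulAut.conj g • Z : Subgroup G) =
        ⨆ y ∈ Y, MulAut.conj (y * g) • Z := by
      refine iSup_congr fun y => iSup_congr fun _ => ?_
      rw [map_mul, mul_smul]
    rw [e]; exact h0
  let 𝒟 : Set (Set (Subgroup G)) := {Δ | Δ ⊆ Ω ∧ (∀ W ∈ Δ, ∀ y ∈ Y, MulAut.conj y • W ∈ Δ) ∧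
    IsPGroup p (sSup Δ : Subgroup G)}
  obtain ⟨Δ, ⟨hΔΩ, hΔY, hΔp⟩, hmax⟩ := Set.exists_max_image 𝒟 (fun Δ => Δ.ncard) (Set.toFinite _)
    ⟨∅, Set.empty_subset _, fun W hW => absurd hW (Set.notMem_empty _), by
      rw [sSup_empty]; exact IsPGroup.of_bot⟩
  obtain ⟨P, hP⟩ := hΔp.exists_le_sylow
  refine ⟨P, ?_⟩
  have hYQ : Y ≤ Subgroup.normalizer ((sSup Δ : Subgroup G) : Set G) :=
    le_normalizer_sSup hΔY
  -- the family of members of Ω in P
  let S : Set (Subgroup G) := {W | W ∈ Ω ∧ W ≤ (P : Subgroup G)}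
  have hΔS : Δ ⊆ S := fun W hW => ⟨hΔΩ hW, (le_sSup hW).trans hP⟩
  have hS : Δ = S := by
    by_contra hne
    have hss : Δ ⊂ S := lt_of_le_of_ne hΔS hne
    obtain ⟨X, hX, hXΔ, hXN⟩ := exists_member_normalizes_rel (P : Subgroup G) S Δ
      (fun U hU => hU.2) (fun U hU => isSubnormal_of_nilpotent P.isPGroup'.isNilpotent _)
      (fun U hU g hg => ⟨hΩ U hU.1 g, by
        intro x hx
        have h4 := hU.2 (SchurZas.mem_conj_smul_iff.mp hx)
        have := mul_mem (mul_mem hg h4) (inv_mem hg)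
        have e : g * (g⁻¹ * x * g) * g⁻¹ = x := by group
        rwa [e] at this⟩) hss
    -- the enlarged family
    let Δ' : Set (Subgroup G) := Δ ∪ {W | ∃ y ∈ Y, W = MulAut.conj y • X}
    have h1 : sSup {W | ∃ y ∈ Y, W = MulAut.conj y • X} = (⨆ y ∈ Y, MulAut.conj y • X : Subgroup G) := by
      apply le_antisymm
      · apply sSup_le
        rintro _ ⟨y, hy, rfl⟩
        exact le_iSup₂_of_le y hy le_rfl
      · apply iSup₂_le
        intro y hy
        exact le_sSup ⟨y, hy, rfl⟩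
    have h2 : IsPGroup p (sSup Δ' : Subgroup G) := by
      rw [sSup_union, h1]
      refine hΔp.to_sup_of_normal_left' (hW X hX.1) ?_
      apply iSup₂_le
      intro y hy x hx
      rw [SchurZas.mem_conj_smul_iff] at hx
      have h3 := mul_mem (mul_mem (hYQ hy) (hXN hx)) (inv_mem (hYQ hy))
      have e : y * (y⁻¹ * x * y) * y⁻¹ = x := by group
      rwa [e] at h3
    have h3 := hmax Δ' ⟨?_, ?_, h2⟩
    · change Δ'.ncard ≤ Δ.ncard at h3
      have h4 : Δ ⊂ Δ' := ⟨Set.subset_union_left, fun h => hXΔ (h (Or.inr ⟨1, one_mem _, by simp⟩))⟩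
      have := Set.ncard_lt_ncard h4 (Set.toFinite _)
      omega
    · rintro W (hW | ⟨y, hy, rfl⟩)
      · exact hΔΩ hW
      · exact hΩ X hX.1 y
    · rintro W (hW | ⟨y, hy, rfl⟩) z hz
      · exact Or.inl (hΔY W hW z hz)
      · exact Or.inr ⟨z * y, mul_mem hz hy, by rw [map_mul, mul_smul]⟩
  have h5 : (⨆ g ∈ {g : G | MulAut.conj g • Z ≤ (P : Subgroup G)}, MulAut.conj g • Z : Subgroup G) = sSup Δ := by
    rw [hS]
    apply le_antisymm
    · apply iSup₂_le
      intro g hg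
      exact le_sSup ⟨⟨g, rfl⟩, hg⟩
    · apply sSup_le
      rintro _ ⟨⟨g, rfl⟩, hg⟩
      exact le_iSup₂_of_le (f := fun (g : G) (_ : g ∈ {g : G | MulAut.conj g • Z ≤ (P : Subgroup G)}) => MulAut.conj g • Z) g hg le_rfl
  rw [h5]
  exact hYQ

end Cfsg.Agent.S0541
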