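import Cfsg.Statements.S0542
import Cfsg.Agent.Lib.Subnorm

set_option autoImplicit false
open Cfsg

namespace Cfsg.Agent.S0542

open Subgroup Cfsg.Agent.Lib Cfsg.Agent.Lib.Subnorm

/-- A Sylow p-subgroup of a finite group meets every subnormal subgroup H in a Sylow p-subgroup of H. -/
theorem result {G : Type*} [Group G] [Finite G] (p : ℕ) [Fact p.Prime] (H : Subgroup G) (hH : H.IsSubnormal) (S : Sylow p G) : ∃ Q : Sylow p H, (Q : Subgroup H) = (S : Subgroup G).subgroupOf H := by
  have hp : p.Prime := Fact.out
  have key : ¬ p ∣ (S : Subgroup G).relIndex H := by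
    induction hH with
    | top => rw [relIndex_top_right]; exact S.not_dvd_index
    | step H K hHK _ hn ih =>
      intro hd
      apply ih
      have h1 : (S : Subgroup G).relIndex H = ((S : Subgroup G) ⊓ K).relIndex H := by
        rw [← inf_relIndex_right (S : Subgroup G) H, ← inf_relIndex_right ((S : Subgroup G) ⊓ K) H,
          inf_assoc, inf_eq_right.mpr hHK]
      have hKn := (normal_subgroupOf_iff_le_normalizer hHK).mp hn
      have h2 : ((S : Subgroup G) ⊓ K) ≤ Subgroup.normalizer (H : Set G) := inf_le_right.trans hKn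
      have h3 := CoprimeB.relIndex_sup_of_normalizes h2
      rw [h1, ← h3] at hd
      have h4 := relIndex_mul_relIndex ((S : Subgroup G) ⊓ K) (H ⊔ ((S : Subgroup G) ⊓ K)) K le_sup_right
        (sup_le hHK inf_le_right)
      rw [← inf_relIndex_right (S : Subgroup G) K, ← h4]
      exact hd.mul_right _
  have h1 : IsPGroup p ((S : Subgroup G).subgroupOf H) := S.isPGroup'.comap_subtype
  exact ⟨h1.toSylow key, rfl⟩

end Cfsg.Agent.S0542
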