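import Cfsg.Statements.S0547
import Cfsg.Agent.Lib.NilpB

set_option autoImplicit false
open Cfsg

namespace Cfsg.Agent.S0547

open Subgroup Cfsg.Agent.Lib Cfsg.Agent.Lib.Basic

theorem core_stab {G : Type*} [Group G] {Ω : Type*} [MulAction G Ω] [FaithfulSMul G Ω]
    [MulAction.IsPretransitive G Ω] (ω : Ω) : (MulAction.stabilizer G ω).normalCore = ⊥ := by
  rw [eq_bot_iff]
  intro g hg
  rw [mem_bot]
  apply FaithfulSMul.eq_of_smul_eq_smul (α := Ω)
  intro x
  obtain ⟨h, rfl⟩ := MulAction.exists_smul_eq G ω x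
  have h1 : h⁻¹ * g * h ∈ MulAction.stabilizer G ω := by
    have := (MulAction.stabilizer G ω).normalCore_le ((normalCore_normal _).conj_mem g hg h⁻¹)
    rwa [inv_inv] at this
  rw [MulAction.mem_stabilizer_iff] at h1
  rw [one_smul, ← mul_smul]
  calc (g * h) • ω = (h * (h⁻¹ * g * h)) • ω := by congr 1; group
    _ = h • ω := by rw [mul_smul, h1]

theorem aux {G : Type*} [Group G] [Finite G] (hs : Group.IsSolvable G) {Ω : Type*} [MulAction G Ω]
    [FaithfulSMul G Ω] (hprim : MulAction.IsPreprimitive G Ω) (M : Subgroup G) [M.Normal] (hM : M ≠ ⊥)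
    (hmin : ∀ K : Subgroup G, K.Normal → K ≤ M → K = ⊥ ∨ K = M) (ω : Ω) :
    IsCoatom (MulAction.stabilizer G ω) ∧ (MulAction.stabilizer G ω).normalCore = ⊥ ∧
    IsMulCommutative M ∧ Subgroup.IsComplement' M (MulAction.stabilizer G ω) ∧
    ∃ p : ℕ, p.Prime ∧ ∀ x ∈ M, x ^ p = 1 := by
  have htr : MulAction.IsPretransitive G Ω := hprim.toIsPretransitive
  have hnt : Nontrivial Ω := by
    by_contra h
    rw [not_nontrivial_iff_subsingleton] at h
    apply hM
    rw [eq_bot_iff]
    intro x _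
    rw [mem_bot]
    exact FaithfulSMul.eq_of_smul_eq_smul (α := Ω) fun y => Subsingleton.elim _ _
  have hco : IsCoatom (MulAction.stabilizer G ω) := MulAction.IsPreprimitive.isCoatom_stabilizer_of_isPreprimitive G ω
  have hcore := core_stab (G := G) ω
  have hMs : Group.IsSolvable M := inferInstance
  obtain ⟨hab, hp⟩ := Nilp.minimal_normal_solvable_elementary hMs hM hmin
  exact ⟨hco, hcore, hab, NilpB.complement_of_corefree hco hcore M hM hab, hp⟩

/-- Let a finite solvable group G act faithfully and primitively on a set, and let M be a minimal normal subgroup of G. Then M is transitive with trivial point stabilizers, and the number of points equals the order of M, which is a prime power p ^ d with d ≥ 1. -/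
theorem result {G : Type*} [Group G] [Finite G] [Group.IsSolvable G] {Ω : Type*} [Nonempty Ω] [MulAction G Ω] [FaithfulSMul G Ω] (hprim : MulAction.IsPreprimitive G Ω) (M : Subgroup G) [M.Normal] (hM : M ≠ ⊥) (hmin : ∀ K : Subgroup G, K.Normal → K ≤ M → K = ⊥ ∨ K = M) : MulAction.IsPretransitive M Ω ∧ (∀ ω : Ω, MulAction.stabilizer M ω = ⊥) ∧ ∃ p d : ℕ, p.Prime ∧ 0 < d ∧ Nat.card Ω = p ^ d ∧ Nat.card M = p ^ d := by
  obtain ⟨ω₀⟩ := (inferInstance : Nonempty Ω)
  obtain ⟨hco, hcore, hab, hc, p, hp, hpe⟩ := aux inferInstance hprim M hM hmin ω₀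
  have htr : MulAction.IsPretransitive G Ω := hprim.toIsPretransitive
  have h1 : MulAction.IsPretransitive M Ω := by
    have key : ∀ x : Ω, ∃ m : M, m • ω₀ = x := by
      intro x
      obtain ⟨g, rfl⟩ := MulAction.exists_smul_eq G ω₀ x
      have hg : g ∈ M ⊔ MulAction.stabilizer G ω₀ := by rw [hc.sup_eq_top]; trivial
      rw [Subgroup.mem_sup_of_normal_left] at hg
      obtain ⟨m, hm, h, hh, rfl⟩ := hg
      refine ⟨⟨m, hm⟩, ?_⟩
      rw [MulAction.mem_stabilizer_iff] at hh
      rw [mul_smul, hh]; rfl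
    refine ⟨fun x y => ?_⟩
    obtain ⟨m, rfl⟩ := key x
    obtain ⟨n, rfl⟩ := key y
    exact ⟨n * m⁻¹, by rw [mul_smul, inv_smul_smul]⟩
  refine ⟨h1, ?_, ?_⟩
  · intro ω
    obtain ⟨-, -, -, hc', -⟩ := aux inferInstance hprim M hM hmin ω
    rw [eq_bot_iff]
    intro m hm
    have h2 : (m : G) ∈ M ⊓ MulAction.stabilizer G ω := ⟨m.2, hm⟩
    rw [hc'.disjoint.eq_bot, Subgroup.mem_bot] at h2
    exact Subtype.ext h2
  · haveI := Fact.mk hp
    obtain ⟨d, hd⟩ := (Cfsg.Agent.Lib.Nilp.isPGroup_of_pow_eq_one hpe).exists_card_eq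
    refine ⟨p, d, hp, ?_, ?_, hd⟩
    · rcases Nat.eq_zero_or_pos d with h0 | h0
      · exfalso
        rw [h0, pow_zero, Subgroup.card_eq_one] at hd
        exact hM hd
      · exact h0
    · have h2 : Nat.card Ω = (MulAction.stabilizer G ω₀).index := by
        rw [MulAction.index_stabilizer, MulAction.orbit_eq_univ, Set.ncard_univ]
      rw [h2, hc.index_eq_card, hd]

end Cfsg.Agent.S0547
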