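import Cfsg.Statements.S0548
import Cfsg.Agent.Lib.NilpB
import Cfsg.Agent.S0547

set_option autoImplicit false
open Cfsg

namespace Cfsg.Agent.S0548

/-- Let a finite solvable group G act faithfully and primitively on a set, let M be a minimal normal subgroup and H the stabilizer of a point. Then H is a complement to M, no non-identity element of H centralizes M, and the only subgroups of M normalized by H are the trivial subgroup and M. -/
theorem result {G : Type*} [Group G] [Finite G] [Group.IsSolvable G] {Ω : Type*} [MulAction G Ω] [FaithfulSMul G Ω] (hprim : MulAction.IsPreprimitive G Ω) (M : Subgroup G) [M.Normal] (hM : M ≠ ⊥) (hmin : ∀ K : Subgroup G, K.Normal → K ≤ M → K = ⊥ ∨ K = M) (ω : Ω) : Subgroup.IsComplement' M (MulAction.stabilizer G ω) ∧ MulAction.stabilizer G ω ⊓ Subgroup.centralizer (M : Set G) = ⊥ ∧ ∀ K : Subgroup G, K ≤ M → MulAction.stabilizer G ω ≤ Subgroup.normalizer (K : Set G) → K = ⊥ ∨ K = M := by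
  obtain ⟨hco, hcore, hab, hc, -⟩ := Cfsg.Agent.S0547.aux inferInstance hprim M hM hmin ω
  refine ⟨hc, ?_, ?_⟩
  · rw [inf_comm]
    exact Cfsg.Agent.Lib.NilpB.centralizer_inf_of_corefree hco hcore M hM
  · intro K hKM hK
    apply hmin K _ hKM
    apply Subgroup.normalizer_eq_top_iff.mp
    rw [eq_top_iff, ← hc.sup_eq_top]
    refine sup_le ?_ hK
    refine le_trans ?_ (Subgroup.centralizer_le_normalizer _)
    intro x hx
    rw [Subgroup.mem_centralizer_iff]
    intro y hy
    exact Cfsg.Agent.Lib.Nilp.isMulCommutative_iff_forall.mp hab y (hKM hy) x hx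

end Cfsg.Agent.S0548
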