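import Cfsg.Statements.S0550
import Cfsg.Agent.Lib.NilpB

set_option autoImplicit false
open Cfsg

namespace Cfsg.Agent.S0550

open Subgroup Cfsg.Agent.Lib Cfsg.Agent.Lib.Basic

theorem equiv_of_complement {G : Type*} [Group G] [Finite G] {B K₁ K₂ L : Subgroup G} [hB : B.Normal]
    (h1 : B ⊓ K₁ = ⊥) (h1' : B ⊔ K₁ = L) (h2 : B ⊓ K₂ = ⊥) (h2' : B ⊔ K₂ = L) : Nonempty (K₁ ≃* K₂) := by
  have hn : L ≤ normalizer (B : Set G) := by rw [normalizer_eq_top_iff.mpr hB]; exact le_top
  have hBn : (B.subgroupOf L).Normal := hB.subgroupOf L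
  have c1 := SchurZas.isComplement'_subgroupOf_of hn h1 h1'
  have c2 := SchurZas.isComplement'_subgroupOf_of hn h2 h2'
  have k1 : K₁ ≤ L := h1' ▸ le_sup_right
  have k2 : K₂ ≤ L := h2' ▸ le_sup_right
  exact ⟨(subgroupOfEquivOfLe k1).symm.trans ((SchurZas.complementEquivQuotient c1).trans
    ((SchurZas.complementEquivQuotient c2).symm.trans (subgroupOfEquivOfLe k2)))⟩

theorem le_cent {G : Type*} [Group G] {A B : Subgroup G} [A.Normal] [B.Normal] (h : A ⊓ B = ⊥) :
    A ≤ centralizer (B : Set G) := by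
  have h1 : ⁅A, B⁆ ≤ A ⊓ B := commutator_le_inf A B
  rw [h, le_bot_iff] at h1
  rw [← commutator_eq_bot_iff_le_centralizer]; exact h1

/-- Let U be a maximal subgroup with trivial normal core in a finite group G, and A ≠ B two minimal normal subgroups. Then A is the centralizer of B and B that of A, U complements each of them, A and B are non-abelian, and A, B and (A ⊔ B) ∩ U are pairwise isomorphic. -/
theorem result {G : Type*} [Group G] [Finite G] (U : Subgroup G) (hU : IsCoatom U) (hcore : U.normalCore = ⊥) (A B : Subgroup G) [A.Normal] [B.Normal] (hA : A ≠ ⊥) (hB : B ≠ ⊥) (hAmin : ∀ K : Subgroup G, K.Normal → K ≤ A → K = ⊥ ∨ K = A) (hBmin : ∀ K : Subgroup G, K.Normal → K ≤ B → K = ⊥ ∨ K = B) (hAB : A ≠ B) : Subgroup.centralizer (B : Set G) = A ∧ Subgroup.centralizer (A : Set G) = B ∧ Subgroup.IsComplement' A U ∧ Subgroup.IsComplement' B U ∧ ¬ IsMulCommutative A ∧ Nonempty (A ≃* B) ∧ Nonempty (A ≃* ↥((A ⊔ B) ⊓ U)) := by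
  have hinf : A ⊓ B = ⊥ := by
    rcases hAmin (A ⊓ B) inferInstance inf_le_left with h | h
    · exact h
    · exfalso
      have h1 : A ≤ B := inf_eq_left.mp h
      rcases hBmin A inferInstance h1 with h2 | h2
      · exact hA h2
      · exact hAB h2
  have hAC := le_cent hinf
  have hBC := le_cent ((inf_comm B A).trans hinf)
  have e1 : A = Subgroup.centralizer (B : Set G) := Cfsg.Agent.Lib.NilpB.eq_centralizer_of_corefree hU hcore B hB A hA hAC
  have e2 : B = Subgroup.centralizer (A : Set G) := Cfsg.Agent.Lib.NilpB.eq_centralizer_of_corefree hU hcore A hA B hB hBC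
  have i1 : A ⊓ U = ⊥ := by
    have := Cfsg.Agent.Lib.NilpB.centralizer_inf_of_corefree hU hcore B hB
    rwa [← e1] at this
  have i2 : B ⊓ U = ⊥ := by
    have := Cfsg.Agent.Lib.NilpB.centralizer_inf_of_corefree hU hcore A hA
    rwa [← e2] at this
  have s1 := Cfsg.Agent.Lib.NilpB.sup_eq_top_of_corefree hU hcore A hA
  have s2 := Cfsg.Agent.Lib.NilpB.sup_eq_top_of_corefree hU hcore B hB
  have c1 : Subgroup.IsComplement' A U := Cfsg.Agent.Lib.SchurZas.isComplement'_of_inf_sup i1 s1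
  have c2 : Subgroup.IsComplement' B U := Cfsg.Agent.Lib.SchurZas.isComplement'_of_inf_sup i2 s2
  have hd1 : A ⊔ ((A ⊔ B) ⊓ U) = A ⊔ B := by
    apply le_antisymm (sup_le le_sup_left inf_le_left)
    intro x hx
    have hx' : x ∈ A ⊔ U := by rw [s1]; trivial
    rw [Subgroup.mem_sup_of_normal_left] at hx'
    obtain ⟨a, ha, u, hu, rfl⟩ := hx'
    have h1 : u ∈ A ⊔ B := by
      have := mul_mem (inv_mem (Subgroup.mem_sup_left (T := B) ha)) hx
      rwa [inv_mul_cancel_left] at this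
    exact mul_mem (Subgroup.mem_sup_left ha) (Subgroup.mem_sup_right ⟨h1, hu⟩)
  have hd2 : B ⊔ ((A ⊔ B) ⊓ U) = A ⊔ B := by
    apply le_antisymm (sup_le le_sup_right inf_le_left)
    intro x hx
    have hx' : x ∈ B ⊔ U := by rw [s2]; trivial
    rw [Subgroup.mem_sup_of_normal_left] at hx'
    obtain ⟨a, ha, u, hu, rfl⟩ := hx'
    have h1 : u ∈ A ⊔ B := by
      have := mul_mem (inv_mem (Subgroup.mem_sup_right (S := A) ha)) hx
      rwa [inv_mul_cancel_left] at this
    exact mul_mem (Subgroup.mem_sup_left ha) (Subgroup.mem_sup_right ⟨h1, hu⟩)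
  have j1 : A ⊓ ((A ⊔ B) ⊓ U) = ⊥ := by
    rw [eq_bot_iff, ← i1]; exact inf_le_inf_left _ inf_le_right
  have j2 : B ⊓ ((A ⊔ B) ⊓ U) = ⊥ := by
    rw [eq_bot_iff, ← i2]; exact inf_le_inf_left _ inf_le_right
  obtain ⟨f⟩ := equiv_of_complement j1 hd1 ((inf_comm A B).trans (by rw [inf_comm]; exact hinf)) rfl
  obtain ⟨g⟩ := equiv_of_complement j2 hd2 ((inf_comm B A).trans hinf) (sup_comm B A)
  refine ⟨e1.symm, e2.symm, c1, c2, ?_, ⟨g.symm.trans f⟩, ⟨g.symm⟩⟩
  intro hAc
  have h1 : A ≤ Subgroup.centralizer (A : Set G) := Subgroup.le_centralizer_iff_isMulCommutative.mpr hAc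
  rw [← e2] at h1
  exact hA (by rw [← hinf]; exact (inf_eq_left.mpr h1).symm)

end Cfsg.Agent.S0550
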