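import Cfsg.Statements.S0552
import Cfsg.Agent.Lib.NilpB

set_option autoImplicit false
open Cfsg

namespace Cfsg.Agent.S0552

open Subgroup Cfsg.Agent.Lib.Basic Cfsg.Agent.Lib.Cores

/-- Let σ be an automorphism of a finite solvable group G fixing every element of the Fitting subgroup. If σ is not the identity then the order of σ and the order of G have a common prime factor. -/
theorem result {G : Type*} [Group G] [Finite G] [Group.IsSolvable G] (σ : G ≃* G) (hσ : ∀ x ∈ Cfsg.fittingSubgroup G, σ x = x) (hne : σ ≠ MulEquiv.refl G) : ¬ (orderOf σ).Coprime (Nat.card G) := by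
  intro hcop
  apply hne
  ext g
  change σ g = g
  have hFn := fitting_normal (G := G)
  set c := g⁻¹ * σ g with hc
  have hcF : c ∈ Cfsg.fittingSubgroup G := by
    apply Cfsg.Agent.Lib.Nilp.centralizer_fitting_le
    rw [mem_centralizer_iff]
    intro f hf
    have h1 : σ (g * f * g⁻¹) = g * f * g⁻¹ := hσ _ (hFn.conj_mem f hf g)
    rw [map_mul, map_mul, map_inv, hσ f hf] at h1
    -- σ g * f * (σ g)⁻¹ = g * f * g⁻¹
    have h2 : f = c * f * c⁻¹ := by
      rw [hc, mul_inv_rev, inv_inv]
      calc f = g⁻¹ * (g * f * g⁻¹) * g := by group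
        _ = g⁻¹ * (σ g * f * (σ g)⁻¹) * g := by rw [h1]
        _ = _ := by group
    exact eq_mul_inv_iff_mul_eq.mp h2
  have hpow : ∀ k : ℕ, (σ ^ k) g = g * c ^ k := by
    intro k
    induction k with
    | zero => simp
    | succ k ih =>
      rw [pow_succ', MulAut.mul_apply, ih, map_mul, map_pow, hσ c hcF]
      have : σ g = g * c := by rw [hc]; group
      rw [this, mul_assoc, ← pow_succ']
  have h3 := hpow (orderOf σ)
  rw [pow_orderOf_eq_one, MulAut.one_apply] at h3
  have h4 : c ^ orderOf σ = 1 := by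
    have : g * 1 = g * c ^ orderOf σ := by rw [mul_one]; exact h3
    exact (mul_left_cancel this).symm
  have h5 : orderOf c ∣ 1 := hcop ▸ Nat.dvd_gcd (orderOf_dvd_of_pow_eq_one h4)
    (orderOf_dvd_natCard c)
  have h6 : c = 1 := orderOf_eq_one_iff.mp (Nat.dvd_one.mp h5)
  rw [hc] at h6
  exact (inv_mul_eq_one.mp h6).symm

end Cfsg.Agent.S0552
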