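import Cfsg.Statements.S0554
import Cfsg.Agent.Lib.SolvMisc

set_option autoImplicit false
open Cfsg

namespace Cfsg.Agent.S0554

open Subgroup Cfsg.Agent.Lib Cfsg.Agent.Lib.Basic

universe u

theorem absorb {G : Type*} [Group G] {N : Subgroup G} (hN : N.Normal) : ∀ (t : ℕ) (s : Fin t → G)
    (i : Fin t) (n : G), n ∈ N → ∃ n' ∈ N, (List.ofFn (Function.update s i (s i * n'))).prod =
      (List.ofFn s).prod * n := by
  intro t
  induction t with
  | zero => intro s i; exact i.elim0
  | succ t ih =>
    intro s i n hn
    refine Fin.cases ?_ (fun j => ?_) i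
    · refine ⟨(List.ofFn (fun j : Fin t => s j.succ)).prod * n * ((List.ofFn (fun j : Fin t => s j.succ)).prod)⁻¹,
        hN.conj_mem n hn _, ?_⟩
      rw [List.ofFn_succ, List.ofFn_succ, List.prod_cons, List.prod_cons]
      have h1 : (fun j : Fin t => Function.update s 0 (s 0 * ((List.ofFn (fun j : Fin t => s j.succ)).prod *
          n * ((List.ofFn (fun j : Fin t => s j.succ)).prod)⁻¹)) j.succ) = fun j : Fin t => s j.succ := by
        funext j
        rw [Function.update_of_ne (Fin.succ_ne_zero j)]
      rw [h1, Function.update_self]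
      group
    · obtain ⟨n', hn', h⟩ := ih (fun j : Fin t => s j.succ) j n hn
      refine ⟨n', hn', ?_⟩
      rw [List.ofFn_succ, List.ofFn_succ, List.prod_cons, List.prod_cons]
      have h1 : (fun k : Fin t => Function.update s j.succ (s j.succ * n') k.succ) =
          Function.update (fun j : Fin t => s j.succ) j (s j.succ * n') := by
        funext k
        by_cases hk : k = j
        · subst hk; rw [Function.update_self, Function.update_self]
        · rw [Function.update_of_ne hk, Function.update_of_ne (fun h => hk (Fin.succ_injective _ h))]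
      rw [h1, h, Function.update_of_ne (Fin.succ_ne_zero j).symm, mul_assoc]

theorem aux (n : ℕ) : ∀ (G : Type u) [Group G] [Finite G], Nat.card G ≤ n → Group.IsSolvable G →
    ∀ (t : ℕ) (p : Fin t → ℕ), (∀ i, (p i).Prime) →
    (∀ q : ℕ, q.Prime → q ∣ Nat.card G → ∃ i, p i = q) → ∀ (S : (i : Fin t) → Sylow (p i) G) (g : G),
    ∃ s : (i : Fin t) → G, (∀ i, s i ∈ (S i : Subgroup G)) ∧ g = (List.ofFn s).prod := by
  induction n with
  | zero => intro G _ _ h; have := Nat.card_pos (α := G); omega
  | succ n ih =>
    intro G _ _ hn hs t p hp hall S g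
    by_cases hnt : Nontrivial G
    · obtain ⟨N, hNn, hN0, hmin⟩ := exists_minimal_normal' (G := G)
      obtain ⟨hab, q, hq, hpow⟩ := Nilp.minimal_normal_solvable_elementary (G := G) (N := N) inferInstance
        hN0 hmin
      haveI := Fact.mk hq
      have hNp : IsPGroup q N := Nilp.isPGroup_of_pow_eq_one hpow
      obtain ⟨k, hk⟩ := IsPGroup.iff_card.mp hNp
      have hk0 : k ≠ 0 := by
        rintro rfl
        rw [pow_zero] at hk
        exact hN0 (card_eq_one.mp hk)
      obtain ⟨i₀, hi₀⟩ := hall q hq ((dvd_pow_self q hk0).trans (hk ▸ N.card_subgroup_dvd_card))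
      subst hi₀
      have hNS : N ≤ S i₀ := (Cores.le_pCore hNn hNp).trans (Cores.pCore_le_sylow (S i₀))
      have hlt := card_quotient_lt hN0
      haveI hpf : ∀ i, Fact (p i).Prime := fun i => ⟨hp i⟩
      obtain ⟨sb, hsb, hgb⟩ := ih (G ⧸ N) (by omega) inferInstance t p hp
        (fun r hr hrd => hall r hr (hrd.trans (card_quotient_dvd_card N)))
        (fun i => (S i).mapSurjective (QuotientGroup.mk'_surjective N)) (QuotientGroup.mk' N g)
      have hsb' : ∀ i, ∃ s ∈ (S i : Subgroup G), QuotientGroup.mk' N s = sb i := by
        intro i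
        have := hsb i
        rw [Sylow.coe_mapSurjective] at this
        obtain ⟨s, hs, hs'⟩ := this
        exact ⟨s, hs, hs'⟩
      choose s hsS hsm using hsb'
      have h1 : QuotientGroup.mk' N (List.ofFn s).prod = QuotientGroup.mk' N g := by
        rw [hgb, map_list_prod, List.map_ofFn]
        congr 2
        funext i
        exact hsm i
      have h2 : ((List.ofFn s).prod)⁻¹ * g ∈ N := QuotientGroup.eq.mp h1
      obtain ⟨n', hn', h3⟩ := absorb hNn t s i₀ _ h2
      refine ⟨Function.update s i₀ (s i₀ * n'), ?_, ?_⟩
      · intro i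
        by_cases hi : i = i₀
        · subst hi
          rw [Function.update_self]
          exact mul_mem (hsS i) (hNS hn')
        · rw [Function.update_of_ne hi]; exact hsS i
      · rw [h3]; group
    · rw [not_nontrivial_iff_subsingleton] at hnt
      exact ⟨fun _ => 1, fun i => one_mem _, Subsingleton.elim _ _⟩

/-- Let G be a finite solvable group and let S assign to each of t distinct primes, including every prime divisor of the order of G, a Sylow subgroup of G. Then every element of G is a product s_0 s_1 ⋯ s_(t-1) with s_i in S i, the factors taken in the given order. -/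
theorem result {G : Type*} [Group G] [Finite G] [Group.IsSolvable G] (t : ℕ) (p : Fin t → ℕ) (hp : ∀ i, (p i).Prime) (hinj : Function.Injective p) (hall : ∀ q : ℕ, q.Prime → q ∣ Nat.card G → ∃ i, p i = q) (S : (i : Fin t) → Sylow (p i) G) : ∀ g : G, ∃ s : (i : Fin t) → G, (∀ i, s i ∈ (S i : Subgroup G)) ∧ g = (List.ofFn s).prod := by
  exact aux (Nat.card G) G le_rfl inferInstance t p hp hall S

end Cfsg.Agent.S0554
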