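import Cfsg.Statements.S0555
import Cfsg.Agent.Lib.SuperB

set_option autoImplicit false
open Cfsg

namespace Cfsg.Agent.S0555

open Subgroup Cfsg.Agent.Lib

/-- the case where the last term is trivial -/
theorem aux {G : Type*} [Group G] {K N : Subgroup G} [hKn : K.Normal] [hNn : N.Normal] (hNK : N = ⁅K, K⁆)
    (hKc : K ≤ _root_.commutator G) (hN : IsCyclic N) (hKN : IsCyclic (K ⧸ N.subgroupOf K)) :
    N = ⊥ := by
  have h1 := SuperB.commutator_le_centralizer_of_cyclic (N := N) hN
  have hNleK : N ≤ K := by rw [hNK]; exact commutator_le_left K K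
  have hcomm : ∀ a b : K, a * b = b * a := by
    apply commutative_of_cyclic_center_quotient (QuotientGroup.mk' (N.subgroupOf K))
    rw [QuotientGroup.ker_mk']
    intro x hx
    rw [mem_center_iff]
    intro y
    exact Subtype.ext (mem_centralizer_iff.mp (h1 (hKc y.2)) _ (mem_subgroupOf.mp hx)).symm
  rw [hNK, commutator_eq_bot_iff_le_centralizer]
  intro x hx
  rw [mem_centralizer_iff]
  intro y hy
  exact congrArg Subtype.val (hcomm ⟨y, hy⟩ ⟨x, hx⟩)

/-- Let i ≥ 1. If in the derived series of a group the quotient of the i-th term by the (i+1)-st and the quotient of the (i+1)-st by the (i+2)-nd are both cyclic, then the (i+1)-st and (i+2)-nd terms coincide. -/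
theorem result {G : Type*} [Group G] (i : ℕ) (hi : 1 ≤ i) (h₁ : IsCyclic (↥(derivedSeries G i) ⧸ (derivedSeries G (i + 1)).subgroupOf (derivedSeries G i))) (h₂ : IsCyclic (↥(derivedSeries G (i + 1)) ⧸ (derivedSeries G (i + 2)).subgroupOf (derivedSeries G (i + 1)))) : derivedSeries G (i + 1) = derivedSeries G (i + 2) := by
  have hle : derivedSeries G (i + 1) ≤ derivedSeries G i := derivedSeries_antitone G (Nat.le_succ i)
  have hle2 : derivedSeries G (i + 2) ≤ derivedSeries G (i + 1) := derivedSeries_antitone G (Nat.le_succ (i + 1))
  have h01 : derivedSeries G i ≤ _root_.commutator G := by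
    rw [← derivedSeries_one]; exact derivedSeries_antitone G hi
  have hD : (derivedSeries G (i + 2)).Normal := derivedSeries_normal G (i + 2)
  have hsurj := QuotientGroup.mk'_surjective (derivedSeries G (i + 2))
  have hK : ((derivedSeries G i).map (QuotientGroup.mk' (derivedSeries G (i + 2)))).Normal :=
    (derivedSeries_normal G i).map _ hsurj
  have hN : ((derivedSeries G (i + 1)).map (QuotientGroup.mk' (derivedSeries G (i + 2)))).Normal :=
    (derivedSeries_normal G (i + 1)).map _ hsurj
  have h := aux (K := (derivedSeries G i).map (QuotientGroup.mk' (derivedSeries G (i + 2))))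
    (N := (derivedSeries G (i + 1)).map (QuotientGroup.mk' (derivedSeries G (i + 2)))) (by
      rw [← Subgroup.map_commutator]; rfl) (by
      refine (Subgroup.map_mono h01).trans ?_
      rw [_root_.commutator_def, Subgroup.map_commutator, _root_.commutator_def]
      exact Subgroup.commutator_mono le_top le_top) (by
      -- `D_{i+1}/D_{i+2}` is cyclic
      let f : ↥(derivedSeries G (i + 1)) ⧸ (derivedSeries G (i + 2)).subgroupOf (derivedSeries G (i + 1)) →*
        (derivedSeries G (i + 1)).map (QuotientGroup.mk' (derivedSeries G (i + 2))) :=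
        QuotientGroup.lift _ ((QuotientGroup.mk' (derivedSeries G (i + 2))).subgroupMap (derivedSeries G (i + 1)))
          (by
            intro x hx
            exact Subtype.ext ((QuotientGroup.eq_one_iff (x : G)).mpr (Subgroup.mem_subgroupOf.mp hx)))
      exact isCyclic_of_surjective f (QuotientGroup.lift_surjective_of_surjective _ _
        (MonoidHom.subgroupMap_surjective _ _) _)) (by
      let f : ↥(derivedSeries G i) →*
          ((derivedSeries G i).map (QuotientGroup.mk' (derivedSeries G (i + 2)))) ⧸
          ((derivedSeries G (i + 1)).map (QuotientGroup.mk' (derivedSeries G (i + 2)))).subgroupOf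
            ((derivedSeries G i).map (QuotientGroup.mk' (derivedSeries G (i + 2)))) :=
        (QuotientGroup.mk' _).comp ((QuotientGroup.mk' (derivedSeries G (i + 2))).subgroupMap (derivedSeries G i))
      have hf : Function.Surjective f :=
        (QuotientGroup.mk'_surjective _).comp (MonoidHom.subgroupMap_surjective _ _)
      let g := QuotientGroup.lift ((derivedSeries G (i + 1)).subgroupOf (derivedSeries G i)) f (by
        intro x hx
        apply (QuotientGroup.eq_one_iff _).mpr
        rw [Subgroup.mem_subgroupOf]
        exact ⟨(x : G), Subgroup.mem_subgroupOf.mp hx, rfl⟩)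
      exact isCyclic_of_surjective g (QuotientGroup.lift_surjective_of_surjective _ _ hf _))
  rw [Subgroup.map_eq_bot_iff, QuotientGroup.ker_mk'] at h
  exact le_antisymm h hle2

end Cfsg.Agent.S0555
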