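import Cfsg.Statements.S0558
import Cfsg.Agent.Lib.Wiel

set_option autoImplicit false
open Cfsg

namespace Cfsg.Agent.S0558

open Subgroup Cfsg.Agent.Lib Cfsg.Agent.Lib.PNilp
open scoped Pointwise

/-- Let H be a subgroup of a finite group G that is not a Sylow subgroup of G for any prime, and suppose that for every prime p dividing the order of H and every Sylow p-subgroup P of H the normalizer of P in G is exactly H. Then some normal subgroup of G is a complement to H. -/
theorem result {G : Type*} [Group G] [Finite G] (H : Subgroup G) (hnot : ∀ p : ℕ, p.Prime → ∀ P : Sylow p G, (P : Subgroup G) ≠ H) (hnorm : ∀ p : ℕ, p.Prime → p ∣ Nat.card H → ∀ P : Sylow p H, Subgroup.normalizer (((P : Subgroup H).map H.subtype : Subgroup G) : Set G) = H) : ∃ N : Subgroup G, N.Normal ∧ Subgroup.IsComplement' N H := by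
  -- H is nilpotent
  have hnil : Group.IsNilpotent H := by
    refine (Group.isNilpotent_of_finite_tfae.out 0 3).mpr ?_
    intro p hp P
    haveI := hp
    by_cases hd : p ∣ Nat.card H
    · have h1 := hnorm p hp.out hd P
      have h2 : H ≤ Subgroup.normalizer (((P : Subgroup H).map H.subtype : Subgroup G) : Set G) :=
        h1.ge
      refine ⟨fun x hx g => ?_⟩
      have h3 := (Subgroup.mem_normalizer_iff.mp (h2 g.2) (x : G)).mp ⟨x, hx, rfl⟩
      obtain ⟨y, hy, hyx⟩ := h3
      have : y = g * x * g⁻¹ := Subtype.ext hyx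
      exact this ▸ hy
    · have : (P : Subgroup H) = ⊥ := by
        rw [← Subgroup.card_eq_one]
        obtain ⟨k, hk⟩ := P.isPGroup'.exists_card_eq
        change Nat.card (P : Subgroup H) = p ^ k at hk
        rcases Nat.eq_zero_or_pos k with h | h
        · rw [hk, h, pow_zero]
        · exact absurd ((dvd_pow_self p h.ne').trans
            (hk ▸ card_subgroup_dvd_card (P : Subgroup H))) hd
      rw [this]; infer_instance
  -- Sylow subgroups of H are Sylow in G
  have hsyl : ∀ p : ℕ, p.Prime → p ∣ Nat.card H → ∀ P : Sylow p H, ∃ R : Sylow p G,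
      (R : Subgroup G) = (P : Subgroup H).map H.subtype := by
    intro p hp hd P
    haveI : Fact p.Prime := ⟨hp⟩
    obtain ⟨R, hR⟩ := (P.isPGroup'.map H.subtype).exists_le_sylow
    refine ⟨R, ?_⟩
    by_contra hne
    have hlt : (P : Subgroup H).map H.subtype < (R : Subgroup G) := lt_of_le_of_ne hR (Ne.symm hne)
    have h1 := lt_inf_normalizer (R.isPGroup'.isNilpotent) hlt
    rw [hnorm p hp hd P] at h1
    have h2 : IsPGroup p ((R : Subgroup G).subgroupOf H) := R.isPGroup'.comap_subtype
    have h3 : (P : Subgroup H) ≤ (R : Subgroup G).subgroupOf H := by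
      intro x hx
      exact hR ⟨x, hx, rfl⟩
    have h4 := P.is_maximal' h2 h3
    have h5 : (P : Subgroup H).map H.subtype = (R : Subgroup G) ⊓ H := by
      rw [← h4, subgroupOf_map_subtype]
    exact h1.ne h5
  -- p-nilpotency
  have hpn : ∀ p : ℕ, p.Prime → p ∣ Nat.card H → PNil p G := by
    intro p hp hd
    haveI : Fact p.Prime := ⟨hp⟩
    obtain ⟨P⟩ := (inferInstance : Nonempty (Sylow p H))
    obtain ⟨R, hR⟩ := hsyl p hp hd P
    -- another prime
    obtain ⟨q, hq, hqd, hqp⟩ : ∃ q : ℕ, q.Prime ∧ q ∣ Nat.card H ∧ q ≠ p := by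
      by_contra hcon
      push Not at hcon
      have h1 : IsPGroup p H := by
        rw [IsPGroup.iff_card]
        exact ⟨_, Nat.eq_prime_pow_of_unique_prime_dvd Nat.card_pos.ne' (fun {d} h2 h3 => hcon d h2 h3)⟩
      have h2 : (P : Subgroup H) = ⊤ :=
        (P.is_maximal' (h1.to_subgroup ⊤) le_top).symm
      apply hnot p hp R
      rw [hR, h2, ← MonoidHom.range_eq_map, range_subtype]
    haveI : Fact q.Prime := ⟨hq⟩
    obtain ⟨Q⟩ := (inferInstance : Nonempty (Sylow q H))
    obtain ⟨S, hS⟩ := hsyl q hq hqd Q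
    have hcent : ∀ x ∈ (R : Subgroup G), (S : Subgroup G) ≤ Subgroup.centralizer {x} := by
      intro x hx
      rw [hR] at hx
      rw [hS]
      have hxo : (orderOf x).Coprime q := by
        obtain ⟨x', hx', rfl⟩ := hx
        obtain ⟨k, hk⟩ := P.isPGroup'.exists_card_eq
        have h1 := orderOf_dvd_natCard (⟨x', hx'⟩ : (P : Subgroup H))
        rw [← orderOf_coe] at h1
        change orderOf x' ∣ Nat.card P at h1
        rw [hk] at h1
        have h2 : orderOf (H.subtype x') = orderOf x' := orderOf_coe x'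
        rw [h2]
        exact Nat.Coprime.coprime_dvd_left h1
          (Nat.Coprime.pow_left k ((Nat.coprime_primes hp hq).mpr (Ne.symm hqp)))
      exact Wiel.sylow_centralizes_of_nilpotent hnil Q (map_subtype_le _ hx) hxo
    obtain ⟨N, hNn, hNc⟩ := Wiel.exists_complement_of_control (H := (R : Subgroup G))
      R.isPGroup'.isNilpotent R.card_coprime_index (by
      intro x hx g hg
      set y := g * x * g⁻¹ with hy
      have h1 : (S : Subgroup G) ≤ Subgroup.centralizer {y} := hcent y hg
      have h2 : ((g • S : Sylow q G) : Subgroup G) ≤ Subgroup.centralizer {y} := by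
        intro z hz
        have hz' : g⁻¹ * z * g ∈ (S : Subgroup G) := SchurZas.mem_conj_smul_iff.mp hz
        have h3 := mem_centralizer_singleton_iff.mp (hcent x hx hz')
        rw [mem_centralizer_singleton_iff, hy]
        calc z * (g * x * g⁻¹) = g * ((g⁻¹ * z * g) * x) * g⁻¹ := by group
          _ = g * (x * (g⁻¹ * z * g)) * g⁻¹ := by rw [h3]
          _ = _ := by group
      obtain ⟨c, hc, hcS⟩ := Resid.exists_mem_smul_eq (g • S) S h2 h1
      rw [← mul_smul] at hcS
      have h3 : c * g ∈ H := by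
        rw [← hnorm q hq hqd Q, ← hS]
        exact Coprime.mem_normalizer_of_conj_smul_eq
          (congrArg (fun R : Sylow q G => (R : Subgroup G)) hcS)
      have h4 : c * y = y * c := mem_centralizer_singleton_iff.mp hc
      have h5 : y = (c * g) * x * (c * g)⁻¹ := by
        calc y = (y * c) * c⁻¹ := by group
          _ = (c * y) * c⁻¹ := by rw [h4]
          _ = _ := by rw [hy]; group
      -- inside H
      have hxH : x ∈ H := by rw [hR] at hx; exact map_subtype_le _ hx
      have hxP : (⟨x, hxH⟩ : H) ∈ (P : Subgroup H) := by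
        rw [hR] at hx
        obtain ⟨x', hx', hxx⟩ := hx
        have : x' = ⟨x, hxH⟩ := Subtype.ext hxx
        exact this ▸ hx'
      have hyP : (⟨c * g, h3⟩ : H) * ⟨x, hxH⟩ * (⟨c * g, h3⟩ : H)⁻¹ ∈ (P : Subgroup H) := by
        rw [hR] at hg
        obtain ⟨y', hy', hyy⟩ := hg
        have : y' = (⟨c * g, h3⟩ : H) * ⟨x, hxH⟩ * (⟨c * g, h3⟩ : H)⁻¹ :=
          Subtype.ext (hyy.trans h5)
        exact this ▸ hy'
      obtain ⟨M, hMn, hMc, hMi⟩ := pNil_of_isNilpotent (p := p) hnil
      obtain ⟨u, hu, hux⟩ := Wiel.control_of_exists_complement (isComplement'_of_pNil hMc hMi P)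
        hxP _ hyP
      refine ⟨u, ?_, ?_⟩
      · rw [hR]; exact ⟨u, hu, rfl⟩
      · rw [h5]; exact congrArg Subtype.val hux)
    exact pNil_of_isComplement' hNn hNc
  -- the complement
  obtain ⟨N, hN⟩ : ∃ N : Subgroup G, N = ⨅ p : {p : ℕ // p.Prime ∧ p ∣ Nat.card H}, Cfsg.pPrimeCore p.1 G :=
    ⟨_, rfl⟩
  have hNn : N.Normal := by
    rw [hN]
    refine normal_iInf_normal fun p => Cores.pPrimeCore_normal _
  refine ⟨N, hNn, SchurZas.isComplement'_of_inf_sup ?_ ?_⟩
  · rw [← Subgroup.card_eq_one]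
    by_contra hne
    obtain ⟨p, hp, hpd⟩ := Nat.exists_prime_and_dvd hne
    have h1 : p ∣ Nat.card H := hpd.trans (card_dvd_of_le inf_le_right)
    have h2 : N ≤ Cfsg.pPrimeCore p G := by
      rw [hN]
      exact iInf_le _ (⟨p, hp, h1⟩ : {p : ℕ // p.Prime ∧ p ∣ Nat.card H})
    haveI : Fact p.Prime := ⟨hp⟩
    exact Cores.pPrimeCore_not_dvd (G := G) p
      (hpd.trans (card_dvd_of_le (inf_le_left.trans h2)))
  · apply Cores.eq_top_of_sylow_le
    intro r hr
    haveI : Fact r.Prime := ⟨hr⟩
    by_cases hrd : r ∣ Nat.card H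
    · obtain ⟨P⟩ := (inferInstance : Nonempty (Sylow r H))
      obtain ⟨R, hR⟩ := hsyl r hr hrd P
      exact ⟨R, by rw [hR]; exact (map_subtype_le _).trans le_sup_right⟩
    · obtain ⟨R⟩ := (inferInstance : Nonempty (Sylow r G))
      refine ⟨R, le_trans ?_ le_sup_left⟩
      rw [hN, le_iInf_iff]
      rintro ⟨p, hp, hpd⟩ x hx
      haveI : Fact p.Prime := ⟨hp⟩
      have hrp : r ≠ p := by rintro rfl; exact hrd hpd
      have h1 := pNil_iff_core.mp (hpn p hp hpd)
      refine (mem_iff_coprime (Cores.pPrimeCore_normal p) (Cores.pPrimeCore_coprime p) h1 x).mpr ?_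
      obtain ⟨k, hk⟩ := R.isPGroup'.exists_card_eq
      have h2 := orderOf_dvd_natCard (⟨x, hx⟩ : (R : Subgroup G))
      rw [← orderOf_coe] at h2
      change orderOf x ∣ Nat.card R at h2
      rw [hk] at h2
      exact Nat.Coprime.coprime_dvd_left h2
        (Nat.Coprime.pow_left k ((Nat.coprime_primes hr hp).mpr hrp))

end Cfsg.Agent.S0558
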