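import Cfsg.Statements.S0559
import Cfsg.Agent.Lib.NilpB

set_option autoImplicit false
open Pointwise
open Cfsg

namespace Cfsg.Agent.S0559

open Subgroup
open scoped Pointwise

theorem sim {G : Type*} [Group G] {H K : Subgroup G}
    (hHK : ∀ g : G, ∃ h ∈ H, ∃ k ∈ K, g = h * k) (x y : G) :
    ∃ g : G, ∃ h ∈ H, ∃ k ∈ K, g = x * h ∧ g = y * k := by
  obtain ⟨h, hh, k, hk, e⟩ := hHK (x⁻¹ * y)
  refine ⟨x * h, h, hh, k⁻¹, inv_mem hk, rfl, ?_⟩
  have h1 : y = x * (h * k) := by rw [← e]; group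
  rw [h1]; group

theorem conj_of_mem {G : Type*} [Group G] {H : Subgroup G} {x h : G} (hh : h ∈ H) :
    MulAut.conj (x * h) • H = MulAut.conj x • H := by
  rw [map_mul, mul_smul]
  congr 1
  exact conj_smul_eq_self_of_mem hh

/-- Let G = HK be a finite group (every element a product of an element of H and an element of K), and let A and B be conjugates of H and K. Then every element is a product of an element of A and one of B, and there is g with A = gHg⁻¹ and B = gKg⁻¹ simultaneously. -/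
theorem result {G : Type*} [Group G] [Finite G] (H K A B : Subgroup G) (hHK : ∀ g : G, ∃ h ∈ H, ∃ k ∈ K, g = h * k) (hA : ∃ x : G, A = MulAut.conj x • H) (hB : ∃ y : G, B = MulAut.conj y • K) : (∀ g : G, ∃ a ∈ A, ∃ b ∈ B, g = a * b) ∧ ∃ g : G, A = MulAut.conj g • H ∧ B = MulAut.conj g • K := by
  obtain ⟨x, rfl⟩ := hA
  obtain ⟨y, rfl⟩ := hB
  obtain ⟨g, h, hh, k, hk, e1, e2⟩ := sim hHK x y
  have f1 : MulAut.conj x • H = MulAut.conj g • H := by rw [e1, conj_of_mem hh]
  have f2 : MulAut.conj y • K = MulAut.conj g • K := by rw [e2, conj_of_mem hk]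
  refine ⟨?_, g, f1, f2⟩
  intro z
  obtain ⟨a, ha, b, hb, e⟩ := hHK (g⁻¹ * z * g)
  refine ⟨g * a * g⁻¹, ?_, g * b * g⁻¹, ?_, ?_⟩
  · rw [f1]; exact Subgroup.smul_mem_pointwise_smul a (MulAut.conj g) H ha
  · rw [f2]; exact Subgroup.smul_mem_pointwise_smul b (MulAut.conj g) K hb
  · have h1 : z = g * (a * b) * g⁻¹ := by rw [← e]; group
    rw [h1]; group

end Cfsg.Agent.S0559
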