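import Cfsg.Statements.S0562
import Cfsg.Agent.Lib.NilpB

set_option autoImplicit false
open Cfsg

namespace Cfsg.Agent.S0562

/-- Let the finite group G be the product HK of subgroups, A normal in H, B normal in K, and L the normalizer of the subgroup generated by A and B. Then every element of L is a product of an element of L ∩ H and an element of L ∩ K. -/
theorem result {G : Type*} [Group G] [Finite G] (H K A B : Subgroup G) (hHK : ∀ g : G, ∃ h ∈ H, ∃ k ∈ K, g = h * k) (hA : A ≤ H) (hAn : (A.subgroupOf H).Normal) (hB : B ≤ K) (hBn : (B.subgroupOf K).Normal) : ∀ g ∈ Subgroup.normalizer ((A ⊔ B : Subgroup G) : Set G), ∃ h ∈ Subgroup.normalizer ((A ⊔ B : Subgroup G) : Set G) ⊓ H, ∃ k ∈ Subgroup.normalizer ((A ⊔ B : Subgroup G) : Set G) ⊓ K, g = h * k := by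
  intro g hg
  obtain ⟨h, hh, k, hk, rfl⟩ := hHK g
  have hAn' := Subgroup.normal_subgroupOf_iff_le_normalizer hA |>.mp hAn
  have hBn' := Subgroup.normal_subgroupOf_iff_le_normalizer hB |>.mp hBn
  have h1 : h ∈ Subgroup.normalizer ((A ⊔ B : Subgroup G) : Set G) := by
    apply Subgroup.mem_normalizer_fintype
    intro n hn
    have key : A ⊔ B ≤ (A ⊔ B).comap (MulAut.conj h).toMonoidHom := by
      apply sup_le
      · intro a ha
        change h * a * h⁻¹ ∈ A ⊔ B
        exact Subgroup.mem_sup_left ((Subgroup.mem_normalizer_iff.mp (hAn' hh) a).mp ha)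
      · intro b hb
        change h * b * h⁻¹ ∈ A ⊔ B
        have h2 : k⁻¹ * b * k ∈ B := by
          have := (Subgroup.mem_normalizer_iff.mp (hBn' (inv_mem hk)) b).mp hb
          rwa [inv_inv] at this
        have h3 := (Subgroup.mem_normalizer_iff.mp hg _).mp (Subgroup.mem_sup_right (S := A) h2)
        have e : h * k * (k⁻¹ * b * k) * (h * k)⁻¹ = h * b * h⁻¹ := by group
        rwa [e] at h3
    exact key hn
  refine ⟨h, ⟨h1, hh⟩, k, ⟨?_, hk⟩, rfl⟩
  have := mul_mem (inv_mem h1) hg
  rwa [inv_mul_cancel_left] at this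

end Cfsg.Agent.S0562
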