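import Cfsg.Statements.S0567
import Cfsg.Agent.Lib.Subnorm

set_option autoImplicit false
open Cfsg

namespace Cfsg.Agent.S0567

open Subgroup Cfsg.Agent.Lib Cfsg.Agent.Lib.Subnorm
open scoped Pointwise

/-- A subgroup H of a group G is subnormal exactly when, for some m, the subgroup obtained from G by taking the commutator with H m times in succession is contained in H. -/
theorem result {G : Type*} [Group G] (H : Subgroup G) : H.IsSubnormal ↔ ∃ m : ℕ, (fun K : Subgroup G => ⁅K, H⁆)^[m] ⊤ ≤ H := by
  constructor
  · intro h
    obtain ⟨n, f, hmono, hnorm, h0, hn⟩ := IsSubnormal.isSubnormal_iff.mp h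
    refine ⟨n, ?_⟩
    have key : ∀ i j, i + j = n → (fun K : Subgroup G => ⁅K, H⁆)^[i] ⊤ ≤ f j := by
      intro i
      induction i with
      | zero =>
        intro j hj
        have : j = n := by omega
        rw [this, hn]; exact le_top
      | succ i ih =>
        intro j hj
        rw [Function.iterate_succ_apply']
        have h1 := ih (j + 1) (by omega)
        have h2 : f (j + 1) ≤ Subgroup.normalizer (f j : Set G) :=
          (normal_subgroupOf_iff_le_normalizer (hmono (Nat.le_succ j))).mp (hnorm j)
        have h3 : H ≤ f j := h0 ▸ hmono (Nat.zero_le j)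
        refine (commutator_mono h1 h3).trans ?_
        rw [commutator_comm]
        exact Coprime.commutator_le_of_normalizes h2
    have := key n 0 (by omega)
    rwa [h0] at this
  · rintro ⟨m, hm⟩
    have key : ∀ i, ((fun K : Subgroup G => ⁅K, H⁆)^[i] ⊤ ⊔ H).IsSubnormal := by
      intro i
      induction i with
      | zero =>
        show ((⊤ : Subgroup G) ⊔ H).IsSubnormal
        rw [top_sup_eq]; exact IsSubnormal.top
      | succ i ih =>
        rw [Function.iterate_succ_apply']
        obtain ⟨K, hK⟩ : ∃ K, K = (fun K : Subgroup G => ⁅K, H⁆)^[i] ⊤ := ⟨_, rfl⟩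
        rw [← hK] at ih ⊢
        show (⁅K, H⁆ ⊔ H).IsSubnormal
        have hHK : H ≤ Subgroup.normalizer (K : Set G) := by
          rw [hK]
          cases i with
          | zero =>
            show H ≤ Subgroup.normalizer ((⊤ : Subgroup G) : Set G)
            rw [normalizer_eq_top]; exact le_top
          | succ i =>
            rw [Function.iterate_succ_apply']
            exact Coprime.le_normalizer_commutator_right _ _
        have hle : ⁅K, H⁆ ≤ K := Coprime.commutator_le_of_normalizes hHK
        refine isSubnormal_of_normalizes (sup_le_sup_right hle H) ?_ ih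
        apply sup_le
        · -- K normalizes [K,H] H
          intro k hk
          have h1 := Coprime.le_normalizer_commutator_left H K hk
          rw [mem_normalizer_iff_smul] at h1
          have key : ∀ k ∈ K, MulAut.conj k • (⁅K, H⁆ ⊔ H) ≤ ⁅K, H⁆ ⊔ H := by
            intro k hk
            have h1 := Coprime.le_normalizer_commutator_left H K hk
            rw [mem_normalizer_iff_smul] at h1
            rw [Subgroup.smul_sup, h1]
            apply sup_le le_sup_left
            intro x hx
            rw [SchurZas.mem_conj_smul_iff] at hx
            have e : x = (k * (k⁻¹ * x * k) * k⁻¹ * (k⁻¹ * x * k)⁻¹) * (k⁻¹ * x * k) := by group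
            rw [e]
            exact mul_mem (mem_sup_left (commutator_mem_commutator hk hx)) (mem_sup_right hx)
          rw [mem_normalizer_iff_smul]
          apply le_antisymm (key k hk)
          have h2 := key k⁻¹ (inv_mem hk)
          rw [map_inv, ← Subgroup.subset_pointwise_smul_iff] at h2
          exact h2
        · exact le_sup_right.trans le_normalizer
    have h1 := key m
    rwa [sup_eq_right.mpr hm] at h1

end Cfsg.Agent.S0567
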