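import Cfsg.Statements.S0575
import Cfsg.Agent.Lib.Nilp

set_option autoImplicit false
open Cfsg

namespace Cfsg.Agent.S0575

/-- If H is a normal subgroup of a finite group G, then the Frattini subgroup of H, viewed in G, lies in the Frattini subgroup of G. -/
theorem result {G : Type*} [Group G] [Finite G] (H : Subgroup G) [H.Normal] : (frattini ↥H).map H.subtype ≤ frattini G := by
  -- if Φ(H) ≰ M for a maximal M of G, then G = Φ(H) M and H = Φ(H)(H ∩ M)
  have hn : ((frattini ↥H).map H.subtype).Normal := inferInstance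
  set D : Subgroup G := (frattini ↥H).map H.subtype with hD
  rw [frattini, Order.radical]
  refine le_iInf₂ fun M hM => ?_
  by_contra hne
  have h1 : D ⊔ M = ⊤ := by
    rcases lt_or_eq_of_le (le_sup_right : M ≤ D ⊔ M) with h | h
    · exact hM.2 _ h
    · exact absurd (h ▸ le_sup_left) hne
  have hDH : D ≤ H := Subgroup.map_subtype_le _
  have h2 : D ⊔ (M ⊓ H) = H := by
    rw [Cfsg.Agent.Lib.Basic.sup_inf_assoc_of_le' hDH (by rw [Subgroup.normalizer_eq_top]; exact le_top),
      h1, top_inf_eq]
  have h3 : M.subgroupOf H ⊔ frattini ↥H = ⊤ := by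
    apply Subgroup.map_injective H.subtype_injective
    rw [Subgroup.map_sup, Subgroup.subgroupOf_map_subtype, ← hD, sup_comm, h2,
      ← MonoidHom.range_eq_map, Subgroup.range_subtype]
  have h4 := frattini_nongenerating h3
  have h5 : H ≤ M := Subgroup.subgroupOf_eq_top.mp h4
  exact hne (hDH.trans h5)

end Cfsg.Agent.S0575
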