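import Cfsg.Statements.S0576
import Cfsg.Agent.Lib.SolvMisc

set_option autoImplicit false
open Cfsg

namespace Cfsg.Agent.S0576

open Subgroup

/-- Let H be a normal subgroup of a finite group G with H contained in the Frattini subgroup of G. Then the group of inner automorphisms of H is contained in the Frattini subgroup of the automorphism group of H. -/
theorem result {G : Type*} [Group G] [Finite G] (H : Subgroup G) [H.Normal] (hH : H ≤ frattini G) : (MulAut.conj : ↥H →* MulAut ↥H).range ≤ frattini (MulAut ↥H) := by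
  have hInn : (MulAut.conj : ↥H →* MulAut ↥H).range ≤ (MulAut.conjNormal : G →* MulAut H).range := by
    rintro _ ⟨x, rfl⟩
    exact ⟨(x : G), by ext y; simp⟩
  rw [frattini, Order.radical, le_iInf_iff]
  intro K
  rw [le_iInf_iff]
  intro hK
  by_contra hcon
  have hInnN : ((MulAut.conj : ↥H →* MulAut ↥H).range).Normal := by
    refine ⟨?_⟩
    rintro _ ⟨x, rfl⟩ φ
    refine ⟨φ x, ?_⟩
    ext y
    simp
  have hsup : (MulAut.conj : ↥H →* MulAut ↥H).range ⊔ K = ⊤ := by
    rcases hK.le_iff.mp (le_sup_right : K ≤ (MulAut.conj : ↥H →* MulAut ↥H).range ⊔ K) with h | h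
    · exact h
    · exact absurd (h ▸ le_sup_left) hcon
  have hG : H ⊔ K.comap (MulAut.conjNormal : G →* MulAut H) = ⊤ := by
    rw [eq_top_iff]
    intro g _
    have h1 : (MulAut.conjNormal g : MulAut H) ∈ (MulAut.conj : ↥H →* MulAut ↥H).range ⊔ K := by
      rw [hsup]; trivial
    rw [mem_sup_of_normal_left] at h1
    obtain ⟨_, ⟨x, rfl⟩, k, hk, e⟩ := h1
    have h2 : (x : G)⁻¹ * g ∈ K.comap (MulAut.conjNormal : G →* MulAut H) := by
      rw [mem_comap, map_mul, map_inv]
      have h3 : (MulAut.conjNormal (x : G) : MulAut H) = MulAut.conj x := by ext y; simp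
      rw [h3, ← e, inv_mul_cancel_left]; exact hk
    have h4 : g = (x : G) * ((x : G)⁻¹ * g) := by group
    rw [h4]
    exact mul_mem (mem_sup_left x.2) (mem_sup_right h2)
  have hG' : K.comap (MulAut.conjNormal : G →* MulAut H) ⊔ frattini G = ⊤ := by
    rw [eq_top_iff, ← hG]
    exact sup_le (hH.trans le_sup_right) le_sup_left
  have h5 := frattini_nongenerating hG'
  apply hcon
  intro y hy
  obtain ⟨g, rfl⟩ := hInn hy
  have : g ∈ K.comap (MulAut.conjNormal : G →* MulAut H) := by rw [h5]; trivial
  exact this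

end Cfsg.Agent.S0576
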