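import Cfsg.Statements.S0578
import Cfsg.Agent.Lib.Wiel

set_option autoImplicit false
open Cfsg

namespace Cfsg.Agent.S0578

open Subgroup Cfsg.Agent.Lib Cfsg.Agent.Lib.PNilp in
theorem aux (n : ℕ) : ∀ (G : Type _) [Group G] [Finite G], Nat.card G ≤ n →
    (∀ A : Subgroup G, IsMulCommutative A →
      Subgroup.normalizer (A : Set G) = Subgroup.centralizer (A : Set G)) → IsMulCommutative G := by
  induction n with
  | zero =>
    intro G _ _ h
    exact absurd h (by have : 0 < Nat.card G := Nat.card_pos; omega)
  | succ n ih =>
    intro G _ _ hcard h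
    -- proper subgroups are abelian
    have hprop : ∀ H : Subgroup G, H ≠ ⊤ → IsMulCommutative H := by
      intro H hH
      apply ih H (by have := Basic.card_lt_of_ne_top hH; omega)
      intro A hA
      have hA' : IsMulCommutative (A.map H.subtype) := by
        rw [Nilp.isMulCommutative_iff_forall] at hA ⊢
        rintro _ ⟨a, ha, rfl⟩ _ ⟨b, hb, rfl⟩
        rw [← map_mul, hA a ha b hb, map_mul]
      have h1 := h _ hA'
      apply le_antisymm _ (centralizer_le_normalizer _)
      intro x hx
      have h2 : (x : G) ∈ Subgroup.normalizer ((A.map H.subtype : Subgroup G) : Set G) := by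
        have := le_normalizer_map (f := H.subtype) (H := A) (mem_map_of_mem H.subtype hx)
        exact this
      rw [h1] at h2
      rw [mem_centralizer_iff] at h2 ⊢
      intro y hy
      exact Subtype.ext (h2 y ⟨y, hy, rfl⟩)
    by_cases hall : ∃ p : ℕ, p.Prime ∧ IsPGroup p G
    · obtain ⟨p, hp, hpG⟩ := hall
      haveI : Fact p.Prime := ⟨hp⟩
      rcases subsingleton_or_nontrivial G with hs | hnt
      · exact ⟨⟨fun a b => Subsingleton.elim _ _⟩⟩
      obtain ⟨M, hM, -⟩ := Basic.exists_le_coatom (H := (⊥ : Subgroup G)) bot_ne_top
      haveI := hpG.isNilpotent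
      have hMn : M.Normal := Nilp.coatom_normal_of_nilpotent hM
      have hMi := Nilp.index_eq_prime_of_coatom hpG hM
      have h1 := h M (hprop M hM.1)
      rw [normalizer_eq_top_iff.mpr hMn] at h1
      have h2 : M ≤ Subgroup.center G := by
        rwa [eq_comm, centralizer_eq_top_iff_subset] at h1
      haveI : IsCyclic (G ⧸ M) := isCyclic_of_prime_card (p := p) (by rw [← index_eq_card, hMi])
      exact MonoidHom.isMulCommutative_of_isCyclic_of_ker_le_center (QuotientGroup.mk' M)
        (by rw [QuotientGroup.ker_mk']; exact h2)
    · push Not at hall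
      have hsylab : ∀ p : ℕ, p.Prime → ∀ P : Sylow p G, IsMulCommutative (P : Subgroup G) := by
        intro p hp P
        apply hprop
        intro htop
        apply hall p hp
        have := P.isPGroup'
        rw [htop] at this
        exact this.of_equiv topEquiv
      have hnil : Group.IsNilpotent G := by
        apply isNilpotent_of_forall_pNil
        intro p hp
        haveI : Fact p.Prime := ⟨hp⟩
        obtain ⟨P⟩ := (inferInstance : Nonempty (Sylow p G))
        exact Wiel.pNil_of_normalizer_le_centralizer P (h _ (hsylab p hp P)).le
      haveI := hnil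
      -- Sylow subgroups are normal, abelian, hence central
      have hcen : Subgroup.center G = ⊤ := by
        apply Cores.eq_top_of_sylow_le
        intro p hp
        haveI : Fact p.Prime := ⟨hp⟩
        obtain ⟨P⟩ := (inferInstance : Nonempty (Sylow p G))
        refine ⟨P, ?_⟩
        have h2 := (Group.isNilpotent_of_finite_tfae (G := G)).out 0 3
        have h3 : (P : Subgroup G).Normal := h2.mp hnil p ‹_› P
        have h1 := h _ (hsylab p hp P)
        have h4 : Subgroup.normalizer ((P : Subgroup G) : Set G) = ⊤ := normalizer_eq_top_iff.mpr h3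
        rw [h4, eq_comm] at h1
        exact centralizer_eq_top_iff_subset.mp h1
      refine ⟨⟨fun a b => ?_⟩⟩
      have : b ∈ Subgroup.center G := by rw [hcen]; trivial
      exact (mem_center_iff.mp this a)

/-- If in a finite group the normalizer of each abelian subgroup coincides with its centralizer, then the group is abelian. -/
theorem result {G : Type*} [Group G] [Finite G] (h : ∀ A : Subgroup G, IsMulCommutative A → Subgroup.normalizer (A : Set G) = Subgroup.centralizer (A : Set G)) : IsMulCommutative G := by
  exact aux _ G le_rfl h

end Cfsg.Agent.S0578
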