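import Cfsg.Statements.S0583
import Cfsg.Agent.Lib.NilpB

set_option autoImplicit false
open Cfsg

namespace Cfsg.Agent.S0583

open Subgroup Cfsg.Agent.Lib.Basic Cfsg.Agent.Lib.Cores

/-- In a finite group the Fitting subgroup is contained in the centralizer of each minimal normal subgroup. -/
theorem result {G : Type*} [Group G] [Finite G] (M : Subgroup G) [M.Normal] (hM : M ≠ ⊥) (hmin : ∀ K : Subgroup G, K.Normal → K ≤ M → K = ⊥ ∨ K = M) : Cfsg.fittingSubgroup G ≤ Subgroup.centralizer (M : Set G) := by
  have hFn := fitting_normal (G := G)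
  rcases hmin (M ⊓ Cfsg.fittingSubgroup G) inferInstance inf_le_left with h | h
  · rw [← commutator_eq_bot_iff_le_centralizer, eq_bot_iff, ← h]
    exact (commutator_le_inf _ _).trans (by rw [inf_comm])
  · have hMF : M ≤ Cfsg.fittingSubgroup G := inf_eq_left.mp h
    have hnil := fitting_nilpotent (G := G)
    have h1 : (M.subgroupOf (Cfsg.fittingSubgroup G)) ≠ ⊥ := by
      intro h0
      apply hM
      rw [← map_subgroupOf_eq_of_le hMF, h0, Subgroup.map_bot]
    have h2 := Cfsg.Agent.Lib.Nilp.normal_inf_center_ne_bot (M.subgroupOf (Cfsg.fittingSubgroup G)) h1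
    set Z := (center (Cfsg.fittingSubgroup G)).map (Cfsg.fittingSubgroup G).subtype with hZ
    have hZn : Z.Normal := by rw [hZ]; infer_instance
    rcases hmin (M ⊓ Z) inferInstance inf_le_left with h3 | h3
    · exfalso
      apply h2
      rw [eq_bot_iff]
      intro x hx
      have hx1 := (mem_inf.mp hx).1
      have hx2 := (mem_inf.mp hx).2
      have : (x : G) ∈ M ⊓ Z := mem_inf.mpr ⟨mem_subgroupOf.mp hx1, ⟨x, hx2, rfl⟩⟩
      rw [h3, mem_bot] at this
      rw [mem_bot]
      exact Subtype.ext this
    · have hMZ : M ≤ Z := inf_eq_left.mp h3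
      intro f hf
      rw [mem_centralizer_iff]
      intro m hm
      obtain ⟨z, hz, rfl⟩ := hMZ hm
      have := mem_center_iff.mp hz ⟨f, hf⟩
      exact (congrArg Subtype.val this).symm

end Cfsg.Agent.S0583
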