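import Cfsg.Statements.S0585
import Cfsg.Agent.Lib.NilpB

set_option autoImplicit false
open Cfsg

namespace Cfsg.Agent.S0585

open Subgroup Cfsg.Agent.Lib.Basic Cfsg.Agent.Lib.SchurZas

/-- If the Frattini subgroup of a finite group G is trivial, then every abelian normal subgroup of G has a complement in G. -/
theorem result {G : Type*} [Group G] [Finite G] (hΦ : frattini G = ⊥) (A : Subgroup G) [A.Normal] [IsMulCommutative A] : ∃ H : Subgroup G, Subgroup.IsComplement' A H := by
  obtain ⟨H, hH⟩ := (Set.toFinite {H : Subgroup G | A ⊔ H = ⊤}).exists_minimal ⟨⊤, by simp⟩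
  have hsup : A ⊔ H = ⊤ := hH.prop
  refine ⟨H, isComplement'_of_inf_sup ?_ hsup⟩
  have hn1 : A ≤ normalizer ((A ⊓ H : Subgroup G) : Set G) := by
    have h1 : A ≤ centralizer ((A ⊓ H : Subgroup G) : Set G) :=
      (le_centralizer_iff_isMulCommutative.mpr inferInstance).trans (centralizer_le inf_le_left)
    exact h1.trans (centralizer_le_normalizer _)
  have hn2 : H ≤ normalizer ((A ⊓ H : Subgroup G) : Set G) :=
    le_normalizer_inf (by rw [normalizer_eq_top]; exact le_top) le_normalizer
  have hn : (A ⊓ H).Normal := by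
    rw [← normalizer_eq_top_iff, eq_top_iff, ← hsup]
    exact sup_le hn1 hn2
  rw [eq_bot_iff, ← hΦ, frattini, Order.radical]
  refine le_iInf₂ fun M hM => ?_
  by_contra hD
  have h1 : (A ⊓ H) ⊔ M = ⊤ := by
    rcases hM.le_iff.mp (le_sup_right : M ≤ (A ⊓ H) ⊔ M) with h3 | h3
    · exact h3
    · exact absurd (h3 ▸ le_sup_left) hD
  have h2 : (A ⊓ H) ⊔ (M ⊓ H) = H := by
    rw [sup_inf_assoc_of_le' inf_le_right (by rw [normalizer_eq_top]; exact le_top), h1, top_inf_eq]
  have h3 : A ⊔ (M ⊓ H) = ⊤ := by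
    rw [eq_top_iff, ← hsup]
    refine sup_le le_sup_left ?_
    conv_lhs => rw [← h2]
    exact sup_le (inf_le_left.trans le_sup_left) le_sup_right
  have h4 := hH.le_of_le h3 inf_le_right
  exact hD (inf_le_right.trans (h4.trans inf_le_left))

end Cfsg.Agent.S0585
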