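import Cfsg.Statements.S0586
import Cfsg.Agent.Lib.NilpB
import Cfsg.Agent.S0585
import Cfsg.Agent.S0575

set_option autoImplicit false
open Cfsg

namespace Cfsg.Agent.S0586

open Subgroup Cfsg.Agent.Lib.Basic Cfsg.Agent.Lib.SchurZas Cfsg.Agent.Lib.Cores Cfsg.Agent.Lib.Nilp

/-- If the Frattini subgroup of a finite group G is trivial, then the Fitting subgroup of G equals the join of all abelian minimal normal subgroups of G. -/
theorem result {G : Type*} [Group G] [Finite G] (hΦ : frattini G = ⊥) : Cfsg.fittingSubgroup G = sSup {N : Subgroup G | N.Normal ∧ N ≠ ⊥ ∧ IsMulCommutative N ∧ ∀ K : Subgroup G, K.Normal → K ≤ N → K = ⊥ ∨ K = N} := by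
  set S := sSup {N : Subgroup G | N.Normal ∧ N ≠ ⊥ ∧ IsMulCommutative N ∧
    ∀ K : Subgroup G, K.Normal → K ≤ N → K = ⊥ ∨ K = N} with hS
  have hFn := fitting_normal (G := G)
  have hnil := fitting_nilpotent (G := G)
  have hSF : S ≤ Cfsg.fittingSubgroup G := by
    apply sSup_le
    rintro N ⟨hN, -, hab, -⟩
    let _ : CommGroup N := { mul_comm := hab.is_comm.comm }
    exact le_fitting hN CommGroup.isNilpotent
  have hSn : S.Normal := by
    apply sSup_normal
    rintro N ⟨hN, -⟩
    exact hN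
  have hFab : IsMulCommutative (Cfsg.fittingSubgroup G) := by
    rw [isMulCommutative_iff_commutator_eq_bot, ← map_subtype_commutator, eq_bot_iff, ← hΦ]
    refine le_trans (Subgroup.map_mono Cfsg.Agent.Lib.NilpB.commutator_le_frattini_of_nilpotent) ?_
    exact Cfsg.Agent.S0575.result (Cfsg.fittingSubgroup G)
  have hSab : IsMulCommutative S := isMulCommutative_of_le hSF hFab
  obtain ⟨H, hH⟩ := Cfsg.Agent.S0585.result hΦ S
  have hn1 : S ≤ normalizer ((Cfsg.fittingSubgroup G ⊓ H : Subgroup G) : Set G) := by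
    have h1 : S ≤ centralizer ((Cfsg.fittingSubgroup G ⊓ H : Subgroup G) : Set G) :=
      hSF.trans ((le_centralizer_iff_isMulCommutative.mpr hFab).trans (centralizer_le inf_le_left))
    exact h1.trans (centralizer_le_normalizer _)
  have hn2 : H ≤ normalizer ((Cfsg.fittingSubgroup G ⊓ H : Subgroup G) : Set G) :=
    le_normalizer_inf (by rw [normalizer_eq_top]; exact le_top) le_normalizer
  have hn : (Cfsg.fittingSubgroup G ⊓ H).Normal := by
    rw [← normalizer_eq_top_iff, eq_top_iff, ← hH.sup_eq_top]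
    exact sup_le hn1 hn2
  have h0 : Cfsg.fittingSubgroup G ⊓ H = ⊥ := by
    by_contra hne
    obtain ⟨M, hMn, hM0, hMle, hmin⟩ := exists_minimal_normal (Cfsg.fittingSubgroup G ⊓ H) hne
    have h1 : M ≤ S := le_sSup ⟨hMn, hM0, isMulCommutative_of_le (hMle.trans inf_le_left) hFab, hmin⟩
    apply hM0
    rw [eq_bot_iff, ← disjoint_iff.mp hH.disjoint]
    exact le_inf h1 (hMle.trans inf_le_right)
  apply le_antisymm _ hSF
  have h2 : S ⊔ (H ⊓ Cfsg.fittingSubgroup G) = Cfsg.fittingSubgroup G := by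
    rw [sup_inf_assoc_of_le' hSF (by rw [normalizer_eq_top]; exact le_top), hH.sup_eq_top, top_inf_eq]
  rw [inf_comm, h0, sup_bot_eq] at h2
  exact h2.symm.le

end Cfsg.Agent.S0586
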