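import Cfsg.Statements.S0587
import Cfsg.Agent.Lib.SolvMisc

set_option autoImplicit false
open Cfsg

namespace Cfsg.Agent.S0587

open Subgroup Cfsg.Agent.Lib Cfsg.Agent.Lib.Basic

/-- Let G be a finite group whose largest normal p-subgroup L is nontrivial, and M a maximal subgroup of G with trivial normal core. Then L is elementary abelian, M is a complement to L, L is a minimal normal subgroup of G, the centralizer of L is L, and for every prime q such that the largest normal q-subgroup of M is nontrivial, the order of L is congruent to 1 modulo q and q ≠ p. -/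
theorem result {G : Type*} [Group G] [Finite G] (p : ℕ) [Fact p.Prime] (hL : Cfsg.pCore p G ≠ ⊥) (M : Subgroup G) (hM : IsCoatom M) (hcore : M.normalCore = ⊥) : Cfsg.IsElementaryAbelian p (Cfsg.pCore p G) ∧ Subgroup.IsComplement' (Cfsg.pCore p G) M ∧ (∀ K : Subgroup G, K.Normal → K ≤ Cfsg.pCore p G → K = ⊥ ∨ K = Cfsg.pCore p G) ∧ Subgroup.centralizer ((Cfsg.pCore p G : Subgroup G) : Set G) = Cfsg.pCore p G ∧ ∀ (q : ℕ) [Fact q.Prime], Cfsg.pCore q ↥M ≠ ⊥ → Nat.card (Cfsg.pCore p G) % q = 1 % q ∧ q ≠ p := by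
  have hLn : (Cfsg.pCore p G).Normal := Cores.pCore_normal p
  have hLp : IsPGroup p (Cfsg.pCore p G) := Cores.pCore_isPGroup p
  obtain ⟨N, hNn, hN0, hNL, hmin⟩ := exists_minimal_normal (Cfsg.pCore p G) hL
  have hNs : Group.IsSolvable N := CoprimeB.isSolvable_of_isPGroup (hLp.to_le hNL)
  obtain ⟨hab, r, hr, hpow⟩ := Nilp.minimal_normal_solvable_elementary (G := G) (N := N) hNs hN0 hmin
  have hCN : N = centralizer (N : Set G) := NilpB.eq_centralizer_of_corefree hM hcore N hN0 N hN0
    (le_centralizer_iff_isMulCommutative.mpr hab)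
  have h1 := SolvMisc.le_centralizer_of_minimal hLp hN0 hNL hmin
  have hLN : Cfsg.pCore p G = N := by
    apply le_antisymm _ hNL
    rw [le_centralizer_iff, ← hCN] at h1
    exact h1
  have hMc : IsComplement' N M := NilpB.complement_of_corefree hM hcore N hN0 hab
  haveI := Fact.mk hr
  have hrp : r = p := by
    obtain ⟨i, hi⟩ := IsPGroup.iff_card.mp (Nilp.isPGroup_of_pow_eq_one hpow)
    obtain ⟨j, hj⟩ := IsPGroup.iff_card.mp (hLp.to_le hNL)
    have hi0 : i ≠ 0 := by
      rintro rfl
      rw [pow_zero] at hi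
      exact hN0 (card_eq_one.mp hi)
    have : r ∣ p ^ j := by rw [← hj, hi]; exact dvd_pow_self r hi0
    exact (Nat.prime_dvd_prime_iff_eq hr Fact.out).mp (hr.dvd_of_dvd_pow this)
  subst hrp
  rw [hLN]
  refine ⟨⟨hab, hpow⟩, hMc, hmin, hCN.symm, ?_⟩
  intro q hq hQ
  have hQn : (Cfsg.pCore q ↥M).Normal := Cores.pCore_normal q
  have hQp : IsPGroup q (Cfsg.pCore q ↥M) := Cores.pCore_isPGroup q
  obtain ⟨Q, hQdef⟩ : ∃ Q, Q = (Cfsg.pCore q ↥M).map M.subtype := ⟨_, rfl⟩
  have hQM : Q ≤ M := by rw [hQdef]; exact map_subtype_le _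
  have hQp' : IsPGroup q Q := by rw [hQdef]; exact hQp.map _
  have hMQ : M ≤ normalizer (Q : Set G) := by
    rw [hQdef]; exact SchurZas.le_normalizer_map_subtype _
  have hQ0 : Q ≠ ⊥ := by
    rw [hQdef, Ne, Subgroup.map_eq_bot_iff_of_injective _ (subtype_injective _)]; exact hQ
  have hinf : N ⊓ M = ⊥ := hMc.disjoint.eq_bot
  -- the fixed points are trivial
  have hfix : N ⊓ centralizer (Q : Set G) = ⊥ := by
    have hn : (N ⊓ centralizer (Q : Set G)).Normal := by
      apply normalizer_eq_top_iff.mp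
      rw [eq_top_iff, ← hMc.sup_eq_top]
      apply sup_le
      · refine le_trans ?_ (centralizer_le_normalizer _)
        intro x hx
        rw [mem_centralizer_iff]
        rintro y ⟨hy, -⟩
        exact Nilp.isMulCommutative_iff_forall.mp hab y hy x hx
      · intro m hm
        apply mem_normalizer_fintype
        rintro y ⟨hy1, hy2⟩
        refine mem_inf.mpr ⟨hNn.conj_mem y hy1 m, ?_⟩
        rw [mem_centralizer_iff]
        intro u hu
        have h3 : m⁻¹ * u * m ∈ Q := by
          have := (mem_normalizer_iff.mp (hMQ (inv_mem hm)) u).mp hu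
          rwa [inv_inv] at this
        have h4 := mem_centralizer_iff.mp hy2 _ h3
        calc u * (m * y * m⁻¹) = m * ((m⁻¹ * u * m) * y) * m⁻¹ := by group
          _ = _ := by rw [h4]; group
    rcases hmin _ hn inf_le_left with h3 | h3
    · exact h3
    · exfalso
      have h4 : N ≤ centralizer (Q : Set G) := inf_eq_left.mp h3
      rw [le_centralizer_iff, ← hCN] at h4
      apply hQ0
      rw [eq_bot_iff, ← hinf]
      exact le_inf h4 hQM
  have hmod : Nat.card N ≡ 1 [MOD q] := by
    have hQN : Q ≤ normalizer (N : Set G) := by rw [normalizer_eq_top_iff.mpr hNn]; exact le_top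
    have h3 := SolvMisc.card_modEq_inf_centralizer hQN hQp'
    rw [hfix, card_bot] at h3
    exact h3
  refine ⟨hmod, ?_⟩
  rintro rfl
  obtain ⟨i, hi⟩ := IsPGroup.iff_card.mp (Nilp.isPGroup_of_pow_eq_one hpow)
  have hi0 : i ≠ 0 := by
    rintro rfl
    rw [pow_zero] at hi
    exact hN0 (card_eq_one.mp hi)
  rw [hi] at hmod
  have h5 : q ∣ 1 := by
    have h6 : q ∣ q ^ i := dvd_pow_self q hi0
    have h7 := hmod
    rw [Nat.ModEq, Nat.mod_eq_zero_of_dvd h6] at h7
    exact Nat.dvd_of_mod_eq_zero h7.symm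
  exact hr.one_lt.ne' (Nat.dvd_one.mp h5)

end Cfsg.Agent.S0587
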