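import Cfsg.Statements.S0588
import Cfsg.Agent.Lib.SolvMisc

set_option autoImplicit false
open Cfsg

namespace Cfsg.Agent.S0588

open Subgroup

/-- If a subgroup H of a finite group G contains the centralizer of every non-identity element of H, then the order of H is coprime to its index. -/
theorem result {G : Type*} [Group G] [Finite G] (H : Subgroup G) (h : ∀ x ∈ H, x ≠ 1 → Subgroup.centralizer ({x} : Set G) ≤ H) : (Nat.card H).Coprime H.index := by
  by_contra hcon
  obtain ⟨p, hp, hpd, hpi⟩ := Nat.Prime.not_coprime_iff_dvd.mp hcon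
  haveI := Fact.mk hp
  obtain ⟨P⟩ : Nonempty (Sylow p H) := inferInstance
  have hP' : IsPGroup p ((P : Subgroup H).map H.subtype) := P.isPGroup'.map _
  obtain ⟨S, hS⟩ := hP'.exists_le_sylow
  have hP0 : (P : Subgroup H) ≠ ⊥ := P.ne_bot_of_dvd_card hpd
  obtain ⟨x, hx1⟩ := Subgroup.ne_bot_iff_exists_ne_one.mp hP0
  have hxS : ((x : H) : G) ∈ (S : Subgroup G) := hS ⟨x, x.2, rfl⟩
  have hSnt : Nontrivial (S : Subgroup G) := ⟨⟨_, hxS⟩, 1, fun h => hx1 (by
    have := congrArg Subtype.val h
    exact Subtype.ext (Subtype.ext this))⟩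
  have hZ : Nontrivial (center (S : Subgroup G)) := S.isPGroup'.center_nontrivial
  obtain ⟨z, hz⟩ := exists_ne (1 : center (S : Subgroup G))
  have hzH : ((z : (S : Subgroup G)) : G) ∈ H := by
    apply h _ ((x : H)).2 (fun h => hx1 (Subtype.ext (Subtype.ext h)))
    rw [mem_centralizer_singleton_iff]
    have := mem_center_iff.mp z.2 ⟨_, hxS⟩
    exact (congrArg Subtype.val this).symm
  have hSH : (S : Subgroup G) ≤ H := by
    intro s hs
    apply h _ hzH (fun h => hz (Subtype.ext (Subtype.ext h)))
    rw [mem_centralizer_singleton_iff]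
    have := mem_center_iff.mp z.2 ⟨s, hs⟩
    exact congrArg Subtype.val this
  apply S.not_dvd_index
  rw [← relIndex_mul_index hSH]
  exact hpi.mul_left _

end Cfsg.Agent.S0588
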