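import Cfsg.Statements.S0589
import Cfsg.Agent.Lib.Frob

set_option autoImplicit false
open Pointwise
open Cfsg

namespace Cfsg.Agent.S0589

open Subgroup Cfsg.Agent.Lib.Frob Cfsg.Agent.Lib.SchurZas

/-- Let H be a Frobenius complement in a finite group G and L a subgroup of G whose order divides the order of H. Then L is contained in some conjugate of H. -/
theorem result {G : Type*} [Group G] [Finite G] (H : Subgroup G) (hH : Cfsg.IsFrobeniusComplement H) (L : Subgroup G) (hL : Nat.card L ∣ Nat.card H) : ∃ x : G, L ≤ MulAut.conj x • H := by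
  have hTI : TI H := hH.2.2
  by_cases hL0 : L = ⊥
  · exact ⟨1, by rw [hL0]; exact bot_le⟩
  -- every nonidentity element of L lies in a conjugate of H
  have key : ∀ x ∈ L, x ≠ 1 → ∃ g : G, x ∈ MulAut.conj g • H := by
    intro x hx hx1
    have hox : orderOf x ≠ 1 := fun h => hx1 (orderOf_eq_one_iff.mp h)
    obtain ⟨p, hp, hd⟩ := Nat.exists_prime_and_dvd hox
    have : Fact p.Prime := ⟨hp⟩
    obtain ⟨m, hm⟩ := hd
    have hox0 : 0 < orderOf x := orderOf_pos x
    have hm0 : m ≠ 0 := by rintro rfl; omega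
    have hy : orderOf (x ^ m) = p := by
      rw [orderOf_pow_of_dvd hm0 (hm ▸ dvd_mul_left m p), hm]
      exact Nat.mul_div_cancel _ (Nat.pos_of_ne_zero hm0)
    have hpL : p ∣ Nat.card L := by
      have h1 : orderOf x ∣ Nat.card L := by
        have := orderOf_dvd_natCard (⟨x, hx⟩ : L)
        rwa [← orderOf_coe] at this
      exact (Dvd.intro m hm.symm).trans h1
    have hpH : p ∣ Nat.card H := hpL.trans hL
    have hcop := card_coprime_index hTI
    have hpi : ¬ p ∣ H.index := fun h => hp.one_lt.ne' (Nat.dvd_one.mp (hcop ▸ Nat.dvd_gcd hpH h))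
    obtain ⟨P⟩ := (inferInstance : Nonempty (Sylow p H))
    have hPi : ¬ p ∣ ((P : Subgroup H).map H.subtype).index := by
      rw [index_map_subtype]
      intro h
      rcases hp.dvd_mul.mp h with h | h
      · exact P.not_dvd_index h
      · exact hpi h
    let P' : Sylow p G := IsPGroup.toSylow (P.isPGroup'.map H.subtype) hPi
    have hz : IsPGroup p (zpowers (x ^ m)) := by
      apply IsPGroup.of_card (n := 1)
      rw [Nat.card_zpowers, hy, pow_one]
    obtain ⟨Q, hQ⟩ := hz.exists_le_sylow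
    obtain ⟨g, hg⟩ := MulAction.exists_smul_eq G P' Q
    have h2 : (Q : Subgroup G) ≤ MulAut.conj g • H := by
      rw [← hg]
      change MulAut.conj g • ((P : Subgroup H).map H.subtype) ≤ _
      exact pointwise_smul_le_pointwise_smul_iff.mpr (map_subtype_le _)
    refine ⟨g, hTI.mem_of_commute (x := x ^ m) ?_ (h2 (hQ (mem_zpowers _))) ?_⟩
    · intro h
      rw [h, orderOf_one] at hy
      exact hp.one_lt.ne hy
    · rw [← pow_succ, ← pow_succ']
  obtain ⟨x, hx1⟩ := Subgroup.ne_bot_iff_exists_ne_one.mp hL0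
  have hx1' : (x : G) ≠ 1 := fun h => hx1 (Subtype.ext h)
  obtain ⟨g, hg⟩ := key x x.2 hx1'
  refine ⟨g, ?_⟩
  have hne : L ⊓ MulAut.conj g • H ≠ ⊥ := by
    intro h
    have : (x : G) ∈ L ⊓ MulAut.conj g • H := mem_inf.mpr ⟨x.2, hg⟩
    rw [h, mem_bot] at this
    exact hx1' this
  have htop : (MulAut.conj g • H).subgroupOf L = ⊤ := by
    apply (hTI.subgroupOf g L).eq_top_of_cover
    intro y hy1
    have hy1' : (y : G) ≠ 1 := fun h => hy1 (Subtype.ext h)
    obtain ⟨g', hg'⟩ := key y y.2 hy1'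
    have hne' : L ⊓ MulAut.conj g' • H ≠ ⊥ := by
      intro h
      have : (y : G) ∈ L ⊓ MulAut.conj g' • H := mem_inf.mpr ⟨y.2, hg'⟩
      rw [h, mem_bot] at this
      exact hy1' this
    obtain ⟨l, hl, hlg⟩ := hTI.conj_of_inf_ne_bot hne hne'
    refine ⟨(⟨l, hl⟩ : L)⁻¹, ?_⟩
    rw [mem_conj_smul_iff, mem_subgroupOf, hlg, mem_conj_smul_iff]
    rw [mem_conj_smul_iff] at hg'
    push_cast
    have e : (l * g')⁻¹ * (((l⁻¹)⁻¹ : G) * (y : G) * l⁻¹) * (l * g') = g'⁻¹ * y * g' := by group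
    rw [e]; exact hg'
  exact subgroupOf_eq_top.mp htop

end Cfsg.Agent.S0589
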