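import Cfsg.Statements.S0592
import Cfsg.Agent.Lib.QPairE

set_option autoImplicit false
open Cfsg

namespace Cfsg.Agent.S0592

open Cfsg.Agent.Lib

/-- Two quadratically acting generators of a linear group that is not a p-group, with the p'-part of the order of their product dividing q - 1, give a homomorphism onto a subgroup of SL(2, q) that is not a p-group. -/
theorem result {K : Type*} [Field K] [Fintype K] {p : ℕ} [Fact p.Prime] [CharP K p] {W : Type*} [AddCommGroup W] [Module K W] [FiniteDimensional K W] [Finite W] [Nontrivial W] (H : Subgroup (W ≃ₗ[K] W)) (a b : W ≃ₗ[K] W) (hH : H = Subgroup.closure {a, b}) (ha : ∀ w : W, a (a w - w) = a w - w) (hb : ∀ w : W, b (b w - w) = b w - w) (hnp : ¬ IsPGroup p H) (hk : ∃ e k : ℕ, orderOf (a * b) = p ^ e * k ∧ k ∣ Fintype.card K - 1) : ∃ φ : H →* Matrix.SpecialLinearGroup (Fin 2) K, ¬ IsPGroup p φ.range := by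
  classical
  obtain ⟨e, k, hek, hk⟩ := hk
  have haH : a ∈ H := by rw [hH]; exact Subgroup.subset_closure (by simp)
  have hbH : b ∈ H := by rw [hH]; exact Subgroup.subset_closure (by simp)
  set x : H := ⟨a, haH⟩ with hx
  set y : H := ⟨b, hbH⟩ with hy
  have hgen : Subgroup.closure {x, y} = ⊤ := by
    rw [eq_top_iff]
    intro z _
    have h1 : (Subgroup.closure {x, y}).map H.subtype = H := by
      rw [MonoidHom.map_closure, Set.image_pair]
      exact hH.symm
    have h2 : (z : W ≃ₗ[K] W) ∈ (Subgroup.closure {x, y}).map H.subtype := by rw [h1]; exact z.2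
    obtain ⟨w, hw, hw'⟩ := h2
    have : w = z := Subtype.ext hw'
    rw [← this]; exact hw
  let ρ : H →* Module.End K W :=
    { toFun := fun g => ((g : W ≃ₗ[K] W) : W →ₗ[K] W)
      map_one' := rfl
      map_mul' := fun _ _ => rfl }
  have hρ : ∀ (g : H) (w : W), ρ g w = (g : W ≃ₗ[K] W) w := fun g w => rfl
  have hρinj : ∀ g : H, ρ g = 1 → g = 1 := by
    intro g hg
    refine Subtype.ext (LinearEquiv.ext fun w => ?_)
    exact LinearMap.congr_fun hg w
  refine QPairA.comp_ind (K := K) (p := p) (x := x) (y := y) (m := p ^ e * k) ?_ _ W rfl ρ ?_ ?_ ?_ ?_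
  · intro W' _ _ _ ρ' hx' hy' hm' hirr' hnp'
    exact QPairE.exists_hom ρ' hgen hx' hy' hm' hk hirr' hnp'
  · ext w
    change a (a w - w) - (a w - w) = 0
    rw [ha, sub_self]
  · ext w
    change b (b w - w) - (b w - w) = 0
    rw [hb, sub_self]
  · have h1 : (x * y) ^ (p ^ e * k) = 1 := by
      refine Subtype.ext ?_
      change (a * b) ^ (p ^ e * k) = 1
      rw [← hek]; exact pow_orderOf_eq_one _
    rw [h1, map_one]
  · by_contra hcon
    push Not at hcon
    refine hnp ?_
    intro g
    obtain ⟨n, hn⟩ := hcon g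
    exact ⟨n, hρinj _ hn⟩

end Cfsg.Agent.S0592
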