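import Cfsg.Statements.S0593
import Cfsg.Agent.Lib.QPairD

set_option autoImplicit false
open Cfsg

namespace Cfsg.Agent.S0593

open Cfsg.Agent.Lib

/-- For odd p, a faithful group on an elementary abelian p-group generated by two quadratically acting elements is a p-group or has non-abelian Sylow 2-subgroups. -/
theorem result {G : Type*} [Group G] [Finite G] {p : ℕ} [Fact p.Prime] (hp : p ≠ 2) (V H : Subgroup G) (hV : Cfsg.IsElementaryAbelian p V) (hHV : H ≤ Subgroup.normalizer (V : Set G)) (hf : H ⊓ Subgroup.centralizer (V : Set G) = ⊥) (a b : G) (hab : H = Subgroup.closure {a, b}) (ha : ⁅⁅V, Subgroup.zpowers a⁆, Subgroup.zpowers a⁆ = ⊥) (hb : ⁅⁅V, Subgroup.zpowers b⁆, Subgroup.zpowers b⁆ = ⊥) (hnp : ¬ IsPGroup p H) (T : Sylow 2 H) : ¬ IsMulCommutative T := by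
  have haH : a ∈ H := by rw [hab]; exact Subgroup.subset_closure (by simp)
  have hbH : b ∈ H := by rw [hab]; exact Subgroup.subset_closure (by simp)
  obtain ⟨K, f, hK, hf'⟩ := QPairB.pair_section hp hV (hHV haH) (hHV hbH) ha hb (by
    by_contra hcon
    push Not at hcon
    refine hnp ?_
    rintro ⟨g, hg⟩
    obtain ⟨n, hn⟩ := hcon g (by rw [← hab]; exact hg)
    refine ⟨n, Subtype.ext ?_⟩
    have h3 : g ^ p ^ n ∈ H ⊓ Subgroup.centralizer (V : Set G) := Subgroup.mem_inf.2 ⟨H.pow_mem hg _, hn⟩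
    rw [hf] at h3
    exact Subgroup.mem_bot.1 h3)
  rw [← hab] at hK
  exact QPairC.sylow_nonabelian hp f hf' hK T

end Cfsg.Agent.S0593
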