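import Cfsg.Statements.S0594
import Cfsg.Agent.Lib.QPairD

set_option autoImplicit false
open Cfsg

namespace Cfsg.Agent.S0594

open Cfsg.Agent.Lib
open scoped commutatorElement

/-- For odd p, two quadratic generators of a faithful group that is not a p-group, one of which acts nontrivially on a normal subgroup of order prime to p, force p = 3 and a section isomorphic to SL(2,3). -/
theorem result {G : Type*} [Group G] [Finite G] {p : ℕ} [Fact p.Prime] (hp : p ≠ 2) (V H : Subgroup G) (hV : Cfsg.IsElementaryAbelian p V) (hHV : H ≤ Subgroup.normalizer (V : Set G)) (hf : H ⊓ Subgroup.centralizer (V : Set G) = ⊥) (a b : G) (hab : H = Subgroup.closure {a, b}) (ha : ⁅⁅V, Subgroup.zpowers a⁆, Subgroup.zpowers a⁆ = ⊥) (hb : ⁅⁅V, Subgroup.zpowers b⁆, Subgroup.zpowers b⁆ = ⊥) (hnp : ¬ IsPGroup p H) (Q : Subgroup G) (hQH : Q ≤ H) (hQn : H ≤ Subgroup.normalizer (Q : Set G)) (hQ : (Nat.card Q).Coprime p) (hQa : ⁅Q, Subgroup.zpowers a⁆ ≠ ⊥) : p = 3 ∧ ∃ (K L : Subgroup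 G) (hL : (L.subgroupOf K).Normal), K ≤ H ∧ Nonempty ((K ⧸ L.subgroupOf K) ≃* Matrix.SpecialLinearGroup (Fin 2) (ZMod 3)) := by
  have hpp : p.Prime := Fact.out
  have haH : a ∈ H := by rw [hab]; exact Subgroup.subset_closure (by simp)
  have hap : a ^ p ∈ Subgroup.centralizer (V : Set G) := by
    rw [Subgroup.mem_centralizer_iff]
    intro v hv
    have h3 : ⁅v, a⁆ ∈ ⁅V, Subgroup.zpowers a⁆ := Subgroup.commutator_mem_commutator hv (Subgroup.mem_zpowers a)
    have h4 : ⁅⁅v, a⁆, a⁆ ∈ (⊥ : Subgroup G) := by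
      rw [← ha]; exact Subgroup.commutator_mem_commutator h3 (Subgroup.mem_zpowers a)
    rw [Subgroup.mem_bot, commutatorElement_eq_one_iff_mul_comm] at h4
    have h5 : ⁅v, a⁆ ∈ V := by
      have : a * v⁻¹ * a⁻¹ ∈ V := (Subgroup.mem_normalizer_iff.1 (hHV haH) v⁻¹).1 (V.inv_mem hv)
      have e : ⁅v, a⁆ = v * (a * v⁻¹ * a⁻¹) := by rw [_root_.commutatorElement_def]; group
      rw [e]; exact V.mul_mem hv this
    have key : ∀ n : ℕ, v * a ^ n = ⁅v, a⁆ ^ n * a ^ n * v := by
      intro n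
      induction n with
      | zero => simp
      | succ n ih =>
        have h6 : v * a = ⁅v, a⁆ * a * v := by rw [_root_.commutatorElement_def]; group
        have h7 : Commute ⁅v, a⁆ (a ^ n) := (show Commute ⁅v, a⁆ a from h4).pow_right n
        calc v * a ^ (n + 1) = (v * a ^ n) * a := by rw [pow_succ]; group
          _ = ⁅v, a⁆ ^ n * a ^ n * (v * a) := by rw [ih]; group
          _ = ⁅v, a⁆ ^ n * (a ^ n * ⁅v, a⁆) * a * v := by rw [h6]; group
          _ = ⁅v, a⁆ ^ n * (⁅v, a⁆ * a ^ n) * a * v := by rw [h7.eq]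
          _ = ⁅v, a⁆ ^ (n + 1) * a ^ (n + 1) * v := by rw [pow_succ, pow_succ]; group
    have h8 := key p
    rw [hV.2 _ h5, one_mul] at h8
    exact h8
  have hap1 : a ^ p = 1 := by
    have h3 : a ^ p ∈ H ⊓ Subgroup.centralizer (V : Set G) := Subgroup.mem_inf.2 ⟨H.pow_mem haH _, hap⟩
    rw [hf] at h3
    exact Subgroup.mem_bot.1 h3
  set Y := Q ⊔ Subgroup.zpowers a with hY
  have hYH : Y ≤ H := sup_le hQH (Subgroup.zpowers_le.2 haH)
  have haY : a ∈ Y := Subgroup.mem_sup_right (Subgroup.mem_zpowers a)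
  have hfY : Y ⊓ Subgroup.centralizer (V : Set G) = ⊥ := by
    rw [eq_bot_iff, ← hf]
    exact inf_le_inf_right _ hYH
  have hYQ : Y ≤ Subgroup.normalizer (Q : Set G) := hYH.trans hQn
  haveI hQYn : (Q.subgroupOf Y).Normal := Subgroup.normal_subgroupOf_iff_le_normalizer le_sup_left |>.2 hYQ
  have hQYc : (Nat.card (Q.subgroupOf Y)).Coprime p := by
    rw [Nat.card_congr (Subgroup.subgroupOfEquivOfLe (le_sup_left : Q ≤ Y)).toEquiv]; exact hQ
  have hidx : ∃ m : ℕ, (Q.subgroupOf Y).index = p ^ m := by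
    have h1 : (Q.subgroupOf Y).index ∣ Nat.card (Subgroup.zpowers (⟨a, haY⟩ : Y)) := by
      have h2 : Q.subgroupOf Y ⊔ Subgroup.zpowers (⟨a, haY⟩ : Y) = ⊤ := by
        refine Subgroup.map_injective Y.subtype_injective ?_
        rw [Subgroup.map_sup, Subgroup.map_subgroupOf_eq_of_le (le_sup_left : Q ≤ Y), MonoidHom.map_zpowers, ← MonoidHom.range_eq_map, Subgroup.range_subtype]
        rfl
      rw [← Subgroup.relIndex_top_right, ← h2, Subgroup.relIndex_sup_left]
      exact Subgroup.relIndex_dvd_card _ _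
    rw [Nat.card_zpowers] at h1
    have h2 : (Q.subgroupOf Y).index ∣ p ^ 1 := h1.trans (by rw [pow_one]; exact orderOf_dvd_of_pow_eq_one (Subtype.ext hap1))
    obtain ⟨m, -, hm⟩ := (Nat.dvd_prime_pow hpp).1 h2
    exact ⟨m, hm⟩
  have hYsol : Cfsg.IsPSolvable p Y := QPairC.pSolvable_of (Q.subgroupOf Y) hQYc hidx
  have hna : a ∉ (Cfsg.pCore p Y).map Y.subtype := by
    intro hmem
    refine hQa ?_
    rw [eq_bot_iff]
    have hPp : IsPGroup p ((Cfsg.pCore p Y).map Y.subtype) := (Cores.pCore_isPGroup p).map _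
    have h1 : ⁅Q, Subgroup.zpowers a⁆ ≤ Q ⊓ (Cfsg.pCore p Y).map Y.subtype := by
      refine le_inf ?_ ?_
      · exact Subgroup.le_normalizer_iff_commutator_le_left.1 ((Subgroup.zpowers_le.2 haY).trans hYQ)
      · have h2 : Q ≤ Subgroup.normalizer (((Cfsg.pCore p Y).map Y.subtype : Subgroup G) : Set G) := by
          intro q hq
          have hqY : q ∈ Y := Subgroup.mem_sup_left hq
          rw [Subgroup.mem_normalizer_iff]
          intro z
          constructor
          · rintro ⟨w, hw, rfl⟩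
            exact ⟨⟨q, hqY⟩ * w * ⟨q, hqY⟩⁻¹, (inferInstance : (Cfsg.pCore p Y).Normal).conj_mem w hw _, rfl⟩
          · rintro ⟨w, hw, hw'⟩
            refine ⟨⟨q, hqY⟩⁻¹ * w * ⟨q, hqY⟩, ?_, ?_⟩
            · have := (inferInstance : (Cfsg.pCore p Y).Normal).conj_mem w hw ⟨q, hqY⟩⁻¹
              rwa [inv_inv] at this
            · change q⁻¹ * (w : G) * q = z
              have hw'' : (w : G) = q * z * q⁻¹ := hw'
              rw [hw'']; group
        exact (Subgroup.commutator_mono le_rfl (Subgroup.zpowers_le.2 hmem)).trans (Subgroup.le_normalizer_iff_commutator_le_right.1 h2)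
    refine h1.trans ?_
    obtain ⟨k, hk⟩ := IsPGroup.iff_card.1 hPp
    rw [Subgroup.inf_eq_bot_of_coprime]
    rw [hk]
    exact Nat.Coprime.pow_right _ hQ
  obtain ⟨K, f, hK, hf'⟩ := QPairB.single_section hp hV (hYH.trans hHV) hfY haY ha hna
  have h3 := QPairC.three_of_pSolvable hp hK f hf' hYsol
  subst h3
  exact ⟨rfl, QPairB.section_of (hK.trans hYH) f hf'⟩

end Cfsg.Agent.S0594
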