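import Cfsg.Statements.S0615
import Cfsg.Agent.Lib.FFG

set_option autoImplicit false
open Cfsg

namespace Cfsg.Agent.S0615

open Cfsg.Agent.Lib Cfsg.Agent.Lib.FFG

/-- Two subnormal subgroups acting irreducibly on their incomparable commutator modules, in a faithful group with trivial largest normal p-subgroup, generate their direct product, and the commutator module splits accordingly. -/
theorem result {G : Type*} [Group G] [Finite G] {p : ℕ} [Fact p.Prime] (V E E₁ E₂ : Subgroup G) (hV : Cfsg.IsElementaryAbelian p V) (hEV : E ≤ Subgroup.normalizer (V : Set G)) (hf : E ⊓ Subgroup.centralizer (V : Set G) = ⊥) (hgen : E = E₁ ⊔ E₂) (hs₁ : (E₁.subgroupOf E).IsSubnormal) (hs₂ : (E₂.subgroupOf E).IsSubnormal) (hOp : Cfsg.pCore p ↥E = ⊥) (hirr₁ : (∀ U : Subgroup G, U ≤ ⁅V, E₁⁆ → E₁ ≤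 Subgroup.normalizer (U : Set G) → U = ⊥ ∨ U = ⁅V, E₁⁆)) (hirr₂ : (∀ U : Subgroup G, U ≤ ⁅V, E₂⁆ → E₂ ≤ Subgroup.normalizer (U : Set G) → U = ⊥ ∨ U = ⁅V, E₂⁆)) (h12 : ¬ ⁅V, E₁⁆ ≤ ⁅V, E₂⁆) (h21 : ¬ ⁅V, E₂⁆ ≤ ⁅V, E₁⁆) (hc₁ : 2 < Nat.card E₁) (hc₂ : 2 < Nat.card E₂) : ⁅E₁, E₂⁆ = ⊥ ∧ E₁ ⊓ E₂ = ⊥ ∧ ⁅V, E₁⁆ ⊓ ⁅V, E₂⁆ = ⊥ ∧ ⁅V, E⁆ = ⁅V, E₁⁆ ⊔ ⁅V, E₂⁆ := by
  subst hgen
  have hle1 : E₁ ≤ E₁ ⊔ E₂ := le_sup_left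
  have hle2 : E₂ ≤ E₁ ⊔ E₂ := le_sup_right
  have h1 : Irr p V E₁ := ⟨hV, hle1.trans hEV, le_bot_iff.mp (hf ▸ inf_le_inf_right _ hle1),
    pCore_bot_of_subnormal hle1 hs₁ hOp, hirr₁, hc₁⟩
  have h2 : Irr p V E₂ := ⟨hV, hle2.trans hEV, le_bot_iff.mp (hf ▸ inf_le_inf_right _ hle2),
    pCore_bot_of_subnormal hle2 hs₂ hOp, hirr₂, hc₂⟩
  obtain ⟨a1, a2, a3⟩ := main _ E₁ E₂ le_rfl h1 h2 hs₁ hs₂ h12 h21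
  obtain ⟨b1, b2, b3⟩ := conseq (p := p) h1.hEV h2.hEV hf a1 a2 a3
  exact ⟨b1, b2, a1, b3⟩

end Cfsg.Agent.S0615
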