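import Cfsg.Statements.S0616
import Cfsg.Agent.Lib.FFJ

set_option autoImplicit false
open Cfsg

namespace Cfsg.Agent.S0616

open Cfsg.Agent.Lib Cfsg.Agent.Lib.FFB Cfsg.Agent.Lib.FFI Cfsg.Agent.Lib.FFJ

/-- Each minimal nontrivially-acting best offender spans, with its commutator on the p'-core, a direct factor E of H isomorphic to SL(2, p) with a 2-dimensional commutator module complementing C_V(E). -/
theorem result {G : Type*} [Group G] [Finite G] {p : ℕ} [Fact p.Prime] (V H : Subgroup G) (hV : Cfsg.IsElementaryAbelian p V) (hHV : H ≤ Subgroup.normalizer (V : Set G)) (hf : H ⊓ Subgroup.centralizer (V : Set G) = ⊥) (hS1 : Subgroup.centralizer (Cfsg.pPrimeCore p ↥H : Set ↥H) ≤ Cfsg.pPrimeCore p ↥H) (hS3 : H = ⨆ A : {A : Subgroup G // A ≤ H ∧ Cfsg.IsBestOffenderOn p V A}, (A : Subgroup G)) (hH1 : H ≠ ⊥) (A : Subgroup G)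 (hAH : A ≤ H) (hA : Cfsg.IsBestOffenderOn p V A) (hAV : ⁅V, A⁆ ≠ ⊥) (hmin : ∀ B : Subgroup G, B ≤ A → Cfsg.IsBestOffenderOn p V B → ⁅V, B⁆ ≠ ⊥ → B = A) : (p = 2 ∨ p = 3) ∧ Nonempty (↥(⁅((Cfsg.pPrimeCore p ↥H).map H.subtype), A⁆ ⊔ A) ≃* Matrix.SpecialLinearGroup (Fin 2) (ZMod p)) ∧ Nat.card ↥(⁅V, ⁅((Cfsg.pPrimeCore p ↥H).map H.subtype), A⁆ ⊔ A⁆) = p ^ 2 ∧ ⁅V, ⁅((Cfsg.pPrimeCore p ↥H).map H.subtype), A⁆ ⊔ A⁆ ⊓ (V ⊓ Subgroup.centralizer ((⁅((Cfsg.pPrimeCore p ↥H).map H.subtype), A⁆ ⊔ A : Subgroup G) : Set G)) = ⊥ ∧ ⁅V, ⁅((Cfsg.pPrimeCore p ↥H).map H.subtype), A⁆ ⊔ A⁆ ⊔ (V ⊓ Subgroup.centralizer ((⁅((Cfsg.pPrimeCore p ↥H).map H.subtype), A⁆ ⊔ A : Subgroup G) : Set G)) = V ∧ ⁅⁅((Cfsg.pPrimeCore p ↥H).map H.subtype), A⁆ ⊔ A, H ⊓ Subgroup.centralizer ((⁅V, ⁅((Cfsg.pPrimeCore p ↥H).map H.subtype), A⁆ ⊔ A⁆ : Subgroup G) : Set G)⁆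 = ⊥ ∧ (⁅((Cfsg.pPrimeCore p ↥H).map H.subtype), A⁆ ⊔ A) ⊓ (H ⊓ Subgroup.centralizer ((⁅V, ⁅((Cfsg.pPrimeCore p ↥H).map H.subtype), A⁆ ⊔ A⁆ : Subgroup G) : Set G)) = ⊥ ∧ (⁅((Cfsg.pPrimeCore p ↥H).map H.subtype), A⁆ ⊔ A) ⊔ (H ⊓ Subgroup.centralizer ((⁅V, ⁅((Cfsg.pPrimeCore p ↥H).map H.subtype), A⁆ ⊔ A⁆ : Subgroup G) : Set G)) = H ∧ ⁅V, H ⊓ Subgroup.centralizer ((⁅V, ⁅((Cfsg.pPrimeCore p ↥H).map H.subtype), A⁆ ⊔ A⁆ : Subgroup G) : Set G)⁆ ≤ V ⊓ Subgroup.centralizer ((⁅((Cfsg.pPrimeCore p ↥H).map H.subtype), A⁆ ⊔ A : Subgroup G) : Set G) := by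
  have h : FF p V H := ⟨hV, hHV, hf, hS1⟩
  have hm : MinOff p V A := ⟨hA, hAV, hmin⟩
  obtain ⟨hp23, hd⟩ := h.dat hAH hm
  obtain ⟨c1, c2, c3, c4⟩ := h.compl hS3 hAH hm
  have hDV := hd.irr.hEV
  have hcop : (Nat.card (DD p H A)).Coprime (Nat.card V) := by
    obtain ⟨n, hn⟩ := FFA.card_dvd_of_ea h.hV
    rw [hn]
    exact Nat.Coprime.pow_right _ (Nat.Coprime.coprime_dvd_left (Subgroup.card_dvd_of_le (DD_le hAH)) KK_coprime)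
  have e1 := CoprimeB.abelian_inf_eq_bot h.hV.1 hDV hcop
  have e2 := CoprimeB.abelian_sup_eq h.hV.1 hDV hcop
  rw [hd.dW] at e1 e2
  have hDE : DD p H A ≤ EE p H A := le_sup_left
  have e3 : V ⊓ Subgroup.centralizer (EE p H A : Set G) = V ⊓ Subgroup.centralizer (DD p H A : Set G) :=
    le_antisymm (inf_le_inf_left _ (Subgroup.centralizer_le hDE)) (le_inf inf_le_left hd.cent)
  refine ⟨hp23, h.sl hAH hm, hd.card, ?_, ?_, ?_, ?_, ?_, ?_⟩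
  · change ⁅V, EE p H A⁆ ⊓ (V ⊓ Subgroup.centralizer (EE p H A : Set G)) = ⊥
    rw [e3, inf_comm]; exact e1
  · change ⁅V, EE p H A⁆ ⊔ (V ⊓ Subgroup.centralizer (EE p H A : Set G)) = V
    rw [e3, sup_comm]; exact e2
  · change ⁅EE p H A, H ⊓ Subgroup.centralizer ((⁅V, EE p H A⁆ : Subgroup G) : Set G)⁆ = ⊥
    rw [c1]; exact c2
  · change EE p H A ⊓ (H ⊓ Subgroup.centralizer ((⁅V, EE p H A⁆ : Subgroup G) : Set G)) = ⊥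
    rw [eq_bot_iff, ← hd.faith]
    exact le_inf inf_le_left (inf_le_right.trans inf_le_right)
  · change EE p H A ⊔ (H ⊓ Subgroup.centralizer ((⁅V, EE p H A⁆ : Subgroup G) : Set G)) = H
    rw [c1]; exact c3
  · change ⁅V, H ⊓ Subgroup.centralizer ((⁅V, EE p H A⁆ : Subgroup G) : Set G)⁆ ≤ V ⊓ Subgroup.centralizer (EE p H A : Set G)
    rw [c1]
    refine le_inf (Coprime.commutator_le_of_normalizes ?_) c4
    rw [← c1]; exact inf_le_left.trans h.hHV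

end Cfsg.Agent.S0616
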