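import Cfsg.Statements.S0618
import Cfsg.Agent.Lib.FFL

set_option autoImplicit false
open Cfsg

namespace Cfsg.Agent.S0618

open Cfsg.Agent.Lib

/-- A p-separable group with trivial p'-core in which the Thompson factorization fails has p = 2 or 3, and J(G) induces on the normal closure of Ω₁(Z(S)) a group containing a normal SL(2, p). -/
theorem result {G : Type*} [Group G] [Finite G] {p : ℕ} [Fact p.Prime] (hsep : Cfsg.IsPSolvable p G) (hO : Cfsg.pPrimeCore p G = ⊥) (hnf : ¬ Cfsg.IsThompsonFactorizable p G) : (p = 2 ∨ p = 3) ∧ ∃ E : Subgroup G, Subgroup.centralizer ((⨆ S : Sylow p G, Cfsg.omegaOne p ((S : Subgroup G) ⊓ Subgroup.centralizer ((S : Subgroup G) : Set G))) : Set G) ≤ E ∧ E ≤ Cfsg.thompsonSubgroup p G ⊔ Subgroup.centralizer ((⨆ S : Sylow p G, Cfsg.omegaOne p ((S : Subgroup G) ⊓ Subgroup.centralizer ((S : Subgroup G) : Set G))) : Set G) ∧ Cfsg.thompsonSubgroup p G ⊔ Subgroup.centralizer ((⨆ S : Sylow p G, Cfsg.omegaOne p ((S : Subgroup G) ⊓ Subgroup.centralizer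 ((S : Subgroup G) : Set G))) : Set G) ≤ Subgroup.normalizer (E : Set G) ∧ ∃ hn : ((Subgroup.centralizer ((⨆ S : Sylow p G, Cfsg.omegaOne p ((S : Subgroup G) ⊓ Subgroup.centralizer ((S : Subgroup G) : Set G))) : Set G)).subgroupOf E).Normal, Nonempty ((↥E ⧸ (Subgroup.centralizer ((⨆ S : Sylow p G, Cfsg.omegaOne p ((S : Subgroup G) ⊓ Subgroup.centralizer ((S : Subgroup G) : Set G))) : Set G)).subgroupOf E) ≃* Matrix.SpecialLinearGroup (Fin 2) (ZMod p)) := by
  have e : Subgroup.centralizer ((⨆ S : Sylow p G, ((Cfsg.omegaOne p ((S : Subgroup G) ⊓ Subgroup.centralizer ((S : Subgroup G) : Set G)) : Subgroup G) : Set G)) : Set G) = Subgroup.centralizer (QuadD.ozc p G : Set G) := by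
    apply le_antisymm
    · intro x hx
      have h1 : QuadD.ozc p G ≤ Subgroup.centralizer ({x} : Set G) := by
        refine iSup_le fun S y hy => ?_
        exact Subgroup.mem_centralizer_singleton_iff.mpr (Subgroup.mem_centralizer_iff.mp hx y (Set.mem_iUnion.mpr ⟨S, hy⟩))
      exact Subgroup.mem_centralizer_iff.mpr fun y hy => Subgroup.mem_centralizer_singleton_iff.mp (h1 hy)
    · refine Subgroup.centralizer_le ?_
      intro x hx
      obtain ⟨S, hS⟩ := Set.mem_iUnion.mp hx
      exact (le_iSup (fun S : Sylow p G => QuadD.oz p (S : Subgroup G)) S) hS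
  have h := FFL.exists_sl_of hsep hO hnf
  rw [← e] at h
  exact h

end Cfsg.Agent.S0618
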