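import Cfsg.Statements.S0620
import Cfsg.Agent.Lib.FFP

set_option autoImplicit false
open Cfsg

namespace Cfsg.Agent.S0620

open Cfsg.Agent.Lib Cfsg.Agent.Lib.CoprimeB

/-- Under coprime action of an elementary abelian q-group X on a p-separable group K with trivial p'-core, K is generated by the normalizer of J(S), the centralizer of Ω₁(Z(S)) and the fixed points of X. -/
theorem result {G : Type*} [Group G] [Finite G] {p : ℕ} [Fact p.Prime] {q : ℕ} [Fact q.Prime] (K X : Subgroup G) (hXK : X ≤ Subgroup.normalizer (K : Set G)) (hX : Cfsg.IsElementaryAbelian q X) (hq : ¬ q ∣ Nat.card K) (hsep : Cfsg.IsPSolvable p ↥K) (hO : Cfsg.pPrimeCore p ↥K = ⊥) (S : Sylow p ↥K) : (Subgroup.normalizer (Cfsg.thompsonSubgroupOf p (S : Subgroup ↥K) : Set ↥K) ⊔ Subgroup.centralizer (Cfsg.omegaOne p ((S : Subgroup ↥K) ⊓ Subgroup.centralizer ((S : Subgroup ↥K) : Set ↥K)) : Set ↥K) ⊔ (Subgroup.centralizer (X : Set G)).subgroupOf K) = ⊤ := by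
  let α := act hXK
  have hXp : IsPGroup q X := QuadC.isPGroup_of_ea hX
  obtain ⟨n, hn⟩ := (IsPGroup.iff_card).mp hXp
  have hc : (Nat.card X).Coprime (Nat.card K) := by
    rw [hn]
    exact Nat.Coprime.pow_left _ ((Nat.Prime.coprime_iff_not_dvd Fact.out).mpr hq)
  have hs : Group.IsSolvable X := isSolvable_of_isPGroup hXp
  have h := FFP.gen p α hsep hO hc hs S
  have e : (Subgroup.centralizer (X : Set G)).subgroupOf K = FFO.Fix α := by
    ext k
    rw [Subgroup.mem_subgroupOf, Subgroup.mem_centralizer_iff, FFO.mem_Fix]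
    constructor
    · intro h1 x
      apply Subtype.ext
      rw [act_apply, h1 x x.2]; group
    · intro h1 x hx
      have h2 := congrArg Subtype.val (h1 ⟨x, hx⟩)
      rw [act_apply] at h2
      rw [← mul_inv_eq_iff_eq_mul]; exact h2
  rw [e]
  exact h

end Cfsg.Agent.S0620
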