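import Cfsg.Statements.S0621
import Cfsg.Agent.Lib.FFP

set_option autoImplicit false
open Cfsg

namespace Cfsg.Agent.S0621

open Cfsg.Agent.Lib Cfsg.Agent.Lib.CoprimeB

/-- Let K be p-separable with O_p'(K) = 1, normalized by an elementary abelian q-group X for a prime q not dividing the order of K. If the Thompson factorization fails in K, then p is 2 or 3 and the fixed points of X contain a plane W of order p² and a subgroup inducing SL(2, p) on it. -/
theorem result {G : Type*} [Group G] [Finite G] {p : ℕ} [Fact p.Prime] {q : ℕ} [Fact q.Prime] (K X : Subgroup G) (hXK : X ≤ Subgroup.normalizer (K : Set G)) (hX : Cfsg.IsElementaryAbelian q X) (hq : ¬ q ∣ Nat.card K) (hsep : Cfsg.IsPSolvable p ↥K) (hO : Cfsg.pPrimeCore p ↥K = ⊥) (hnf : ¬ Cfsg.IsThompsonFactorizable p ↥K) : (p = 2 ∨ p = 3) ∧ ∃ W D : Subgroup G, W ≤ K ⊓ Subgroup.centralizer (X : Set G) ∧ D ≤ K ⊓ Subgroup.centralizer (X : Set G) ∧ Cfsg.IsElementaryAbelian p W ∧ Nat.card W = p ^ 2 ∧ D ≤ Subgroup.normalizer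 (W : Set G) ∧ ∃ hn : ((Subgroup.centralizer (W : Set G)).subgroupOf D).Normal, Nonempty ((↥D ⧸ (Subgroup.centralizer (W : Set G)).subgroupOf D) ≃* Matrix.SpecialLinearGroup (Fin 2) (ZMod p)) := by
  let α := act hXK
  have hXp : IsPGroup q X := QuadC.isPGroup_of_ea hX
  obtain ⟨n, hn⟩ := (IsPGroup.iff_card).mp hXp
  have hc : (Nat.card X).Coprime (Nat.card K) := by
    rw [hn]
    exact Nat.Coprime.pow_left _ ((Nat.Prime.coprime_iff_not_dvd Fact.out).mpr hq)
  have hs : Group.IsSolvable X := isSolvable_of_isPGroup hXp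
  obtain ⟨h1, W, D, hW, hD, hWe, hWc, hDW, π, hπ, hk⟩ := FFP.plane p α hsep hO hc hs hnf
  have e : ∀ k ∈ FFO.Fix α, (k : G) ∈ Subgroup.centralizer (X : Set G) := by
    intro k h1
    refine Subgroup.mem_centralizer_iff.mpr fun x hx => ?_
    have h2 := congrArg Subtype.val (h1 ⟨x, hx⟩)
    rw [act_apply] at h2
    rw [← mul_inv_eq_iff_eq_mul]; exact h2
  have hle : ∀ Y : Subgroup K, Y ≤ FFO.Fix α → Y.map K.subtype ≤ K ⊓ Subgroup.centralizer (X : Set G) := by
    rintro Y hY _ ⟨y, hy, rfl⟩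
    exact ⟨y.2, e y (hY hy)⟩
  have hDn : D.map K.subtype ≤ Subgroup.normalizer ((W.map K.subtype : Subgroup G) : Set G) := by
    rintro _ ⟨d, hd, rfl⟩
    exact Subgroup.le_normalizer_map K.subtype ⟨d, hDW hd, rfl⟩
  refine ⟨h1, W.map K.subtype, D.map K.subtype, hle W hW, hle D hD, ThompsonJ.ea_map hWe _, ?_, hDn, ?_⟩
  · rw [ThompsonJ.card_map_inj _ K.subtype_injective]; exact hWc
  · have hn : ((Subgroup.centralizer ((W.map K.subtype : Subgroup G) : Set G)).subgroupOf (D.map K.subtype)).Normal :=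
      Subgroup.normal_subgroupOf_of_le_normalizer (hDn.trans QuadA.normalizer_centralizer_le)
    refine ⟨hn, ?_⟩
    let ε : D ≃* (D.map K.subtype : Subgroup G) := Subgroup.equivMapOfInjective _ _ K.subtype_injective
    let π' : (D.map K.subtype : Subgroup G) →* Matrix.SpecialLinearGroup (Fin 2) (ZMod p) := π.comp ε.symm.toMonoidHom
    have hs' : Function.Surjective π' := hπ.comp ε.symm.surjective
    have hk' : (Subgroup.centralizer ((W.map K.subtype : Subgroup G) : Set G)).subgroupOf (D.map K.subtype) = π'.ker := by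
      ext y
      obtain ⟨d, rfl⟩ := ε.surjective y
      have h2 : ε d ∈ π'.ker ↔ d ∈ π.ker := by
        rw [MonoidHom.mem_ker, MonoidHom.mem_ker]
        change π (ε.symm (ε d)) = 1 ↔ _
        rw [MulEquiv.symm_apply_apply]
      rw [h2, hk, Subgroup.mem_subgroupOf, Subgroup.mem_subgroupOf, Subgroup.mem_centralizer_iff, Subgroup.mem_centralizer_iff]
      constructor
      · intro h3 w hw
        exact Subtype.ext (h3 w ⟨w, hw, rfl⟩)
      · rintro h3 _ ⟨w, hw, rfl⟩
        exact congrArg Subtype.val (h3 w hw)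
    exact ⟨(QuotientGroup.quotientMulEquivOfEq hk').trans (QuotientGroup.quotientKerEquivOfSurjective π' hs')⟩

end Cfsg.Agent.S0621
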