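import Cfsg.Statements.S0627
import Cfsg.Agent.Lib.QPairD
import Cfsg.Agent.Lib.HallHigman

set_option autoImplicit false
open Cfsg

namespace Cfsg.Agent.S0627

open Cfsg.Agent.Lib

/-- In a p-separable group with p at least 5, the normalizer of W(S) supplements the largest normal subgroup of order prime to p. -/
theorem result {G : Type*} [Group G] [Finite G] {p : ℕ} [Fact p.Prime] (hp : 5 ≤ p) (hsep : Cfsg.IsPSolvable p G) (S : Sylow p G) : Cfsg.pPrimeCore p G ⊔ Subgroup.normalizer (((Cfsg.stableNormalClosure p ↥(S : Subgroup G)).map (S : Subgroup G).subtype) : Set G) = ⊤ := by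
  classical
  have hpp : p.Prime := Fact.out
  set O := Cfsg.pPrimeCore p G with hO
  set π := QuotientGroup.mk' O with hπ
  have hπs : Function.Surjective π := QuotientGroup.mk'_surjective O
  have hOc : (Nat.card O).Coprime p := Cores.pPrimeCore_coprime p
  set T : Sylow p (G ⧸ O) := Sylow.mapSurjective hπs S with hT
  have hTe : (T : Subgroup (G ⧸ O)) = (S : Subgroup G).map π := Sylow.coe_mapSurjective hπs S
  have hsq : Cfsg.IsPSolvable p (G ⧸ O) := PSol.quotient hsep O
  have h0 : Cfsg.pPrimeCore p (G ⧸ O) = ⊥ := Cores.pPrimeCore_quotient_pPrimeCore p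
  have hn := StabClB.Wc_normal (QPairD.actionPStable_of (by omega) (QPairD.not_involves_of_pSolvable hp hsq))
    (HallHigman.centralizer_pCore_le p hsq h0) T
  set W := StabClB.Wc p (S : Subgroup G) with hW
  change O ⊔ Subgroup.normalizer (W : Set G) = ⊤
  have hWS : W ≤ (S : Subgroup G) := StabClB.Wc_le p _
  have hWp : IsPGroup p W := S.isPGroup'.to_le hWS
  have hSO : (S : Subgroup G) ⊓ O = ⊥ := by
    obtain ⟨k, hk⟩ := IsPGroup.iff_card.1 S.isPGroup'
    rw [Subgroup.inf_eq_bot_of_coprime]
    rw [hk]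
    exact Nat.Coprime.pow_left _ hOc.symm
  have hWm : StabClB.Wc p (T : Subgroup (G ⧸ O)) = W.map π := by
    -- isomorphism `S ≃ T`
    let g : (S : Subgroup G) →* (T : Subgroup (G ⧸ O)) := (π.comp (S : Subgroup G).subtype).codRestrict _ (fun x => by
      rw [hTe]; exact ⟨x, x.2, rfl⟩)
    have hgi : Function.Injective g := by
      rw [injective_iff_map_eq_one]
      intro x hx
      have h1 : π (x : G) = 1 := congrArg Subtype.val hx
      have h2 : (x : G) ∈ O := (QuotientGroup.eq_one_iff _).1 h1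
      have h3 : (x : G) ∈ (S : Subgroup G) ⊓ O := Subgroup.mem_inf.2 ⟨x.2, h2⟩
      rw [hSO] at h3
      exact Subtype.ext (Subgroup.mem_bot.1 h3)
    have hgs : Function.Surjective g := by
      rintro ⟨y, hy⟩
      have hy' := hy
      rw [hTe] at hy'
      obtain ⟨x, hx, hxy⟩ := hy'
      exact ⟨⟨x, hx⟩, Subtype.ext hxy⟩
    have h1 := StabCl.map_equiv p (MulEquiv.ofBijective g ⟨hgi, hgs⟩)
    unfold StabClB.Wc at hW ⊢
    rw [← h1, hW, Subgroup.map_map, Subgroup.map_map]
    rfl
  rw [hWm] at hn
  set M := (W.map π).comap π with hM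
  haveI hMn : M.Normal := inferInstance
  have hMe : M = W ⊔ O := by rw [hM, Subgroup.comap_map_eq, QuotientGroup.ker_mk']
  have hWM : W ≤ M := by rw [hMe]; exact le_sup_left
  have hOM : O ≤ M := by rw [hMe]; exact le_sup_right
  -- `W` is Sylow in `M`
  have hidx : ¬ p ∣ (W.subgroupOf M).index := by
    intro hd
    haveI : (O.subgroupOf M).Normal := inferInstance
    have h1 : W.subgroupOf M ⊔ O.subgroupOf M = ⊤ := by
      refine Subgroup.map_injective M.subtype_injective ?_
      rw [Subgroup.map_sup, Subgroup.map_subgroupOf_eq_of_le hWM, Subgroup.map_subgroupOf_eq_of_le hOM, ← MonoidHom.range_eq_map, Subgroup.range_subtype, hMe]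
    have h2 : Nat.card M ∣ Nat.card W * Nat.card O := by
      have h3 := Subgroup.card_mul_index (O.subgroupOf M)
      have h4 : (O.subgroupOf M).index ∣ Nat.card W := by
        rw [← Subgroup.relIndex_top_right, ← h1, Subgroup.relIndex_sup_right]
        exact (Subgroup.relIndex_dvd_card _ _).trans (by rw [Nat.card_congr (Subgroup.subgroupOfEquivOfLe hWM).toEquiv])
      rw [← h3, Nat.card_congr (Subgroup.subgroupOfEquivOfLe hOM).toEquiv, mul_comm]
      exact Nat.mul_dvd_mul_right h4 _
    have h3 := Subgroup.card_mul_index (W.subgroupOf M)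
    rw [Nat.card_congr (Subgroup.subgroupOfEquivOfLe hWM).toEquiv] at h3
    rw [← h3] at h2
    have h4 : (W.subgroupOf M).index ∣ Nat.card O := Nat.dvd_of_mul_dvd_mul_left Nat.card_pos h2
    have h5 := hd.trans h4
    have h6 : p ∣ Nat.gcd (Nat.card O) p := Nat.dvd_gcd h5 (dvd_refl p)
    rw [hOc, Nat.dvd_one] at h6
    exact hpp.one_lt.ne' h6
  have hWMp : IsPGroup p (W.subgroupOf M) := hWp.comap_subtype
  let P : Sylow p M := hWMp.toSylow hidx
  have h1 := Sylow.normalizer_sup_eq_top P
  have h2 : (P : Subgroup M).map M.subtype = W := Subgroup.map_subgroupOf_eq_of_le hWM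
  rw [h2] at h1
  rw [eq_top_iff, ← h1]
  refine sup_le le_sup_right ?_
  rw [hMe]
  exact sup_le (Subgroup.le_normalizer.trans le_sup_right) le_sup_left

end Cfsg.Agent.S0627
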