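import Cfsg.Statements.S0637
import Cfsg.Agent.Lib.RankTwoB

set_option autoImplicit false
open Cfsg

namespace Cfsg.Agent.S0637

/-- For p greater than 3, the bound p² on the order of the subgroup generated by the elements of order dividing p passes from a p-group to all its quotients. -/
theorem result {R : Type*} [Group R] [Finite R] {p : ℕ} [Fact p.Prime] (hp : 3 < p) (hR : IsPGroup p R) (hO : Nat.card ↥(Cfsg.omegaOne p (⊤ : Subgroup R)) ≤ p ^ 2) (T : Subgroup R) [T.Normal] : Nat.card ↥(Cfsg.omegaOne p (⊤ : Subgroup (R ⧸ T))) ≤ p ^ 2 := by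
  exact Lib.RankTwoB.om_iff.mp (Lib.RankTwoB.om_of_surjective hp _ R (R ⧸ T) le_rfl hR
    (Lib.RankTwoB.om_iff.mpr hO) (QuotientGroup.mk' T) (QuotientGroup.mk'_surjective T))

end Cfsg.Agent.S0637
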