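import Cfsg.Statements.S0641
import Cfsg.Agent.Lib.QuadD

set_option autoImplicit false
open Cfsg

namespace Cfsg.Agent.S0641

open Cfsg.Agent.Lib Subgroup

/-- Regularity of a p-group passes to quotient groups. -/
theorem result {G : Type*} [Group G] {p : ℕ} [Fact p.Prime] (hG : Cfsg.IsRegularPGroup p G) (N : Subgroup G) [N.Normal] : Cfsg.IsRegularPGroup p (G ⧸ N) := by
  refine ⟨hG.1.to_quotient N, fun a' b' n => ?_⟩
  obtain ⟨a, rfl⟩ := QuotientGroup.mk'_surjective N a'
  obtain ⟨b, rfl⟩ := QuotientGroup.mk'_surjective N b'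
  obtain ⟨c, hc, he⟩ := hG.2 a b n
  refine ⟨QuotientGroup.mk' N c, ?_, by rw [← map_mul, ← map_pow, he, map_mul, map_mul, map_pow, map_pow]⟩
  have h1 : (Subgroup.closure {a, b}).map (QuotientGroup.mk' N) = Subgroup.closure {QuotientGroup.mk' N a, QuotientGroup.mk' N b} := by
    rw [MonoidHom.map_closure, Set.image_pair]
  rw [← h1, ← map_commutator]
  have h2 : (Cfsg.powerClosure p n ⁅Subgroup.closure {a, b}, Subgroup.closure {a, b}⁆).map (QuotientGroup.mk' N) ≤
      Cfsg.powerClosure p n ((⁅Subgroup.closure {a, b}, Subgroup.closure {a, b}⁆).map (QuotientGroup.mk' N)) := by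
    unfold Cfsg.powerClosure
    rw [MonoidHom.map_closure, Subgroup.closure_le]
    rintro _ ⟨y, ⟨x, hx, rfl⟩, rfl⟩
    exact Subgroup.subset_closure ⟨QuotientGroup.mk' N x, mem_map_of_mem _ hx, by rw [map_pow]⟩
  exact h2 (mem_map_of_mem _ hc)

end Cfsg.Agent.S0641
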