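import Cfsg.Statements.S0642
import Cfsg.Agent.Lib.RegP

set_option autoImplicit false
open Cfsg

namespace Cfsg.Agent.S0642

open Cfsg.Agent.Lib Subgroup
open scoped commutatorElement

/-- Among finite 2-groups the regular ones are exactly the abelian ones. -/
theorem result {G : Type*} [Group G] [Finite G] (hG : IsPGroup 2 G) : Cfsg.IsRegularPGroup 2 G ↔ ∀ a b : G, a * b = b * a := by
  constructor
  · intro h a b
    set H := Subgroup.closure ({a, b} : Set G) with hH
    have haH : a ∈ H := Subgroup.subset_closure (by simp)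
    have hbH : b ∈ H := Subgroup.subset_closure (by simp)
    obtain ⟨c, hc, he⟩ := h.2 a b 1
    rw [← hH] at hc
    have hcD : c ∈ ⁅H, H⁆ := by
      refine (Subgroup.closure_le _).mpr ?_ hc
      rintro _ ⟨x, hx, rfl⟩
      exact pow_mem hx _
    have hcH : c ∈ H := commutator_le_self H hcD
    have hgen : Subgroup.closure ({⟨a, haH⟩, ⟨b, hbH⟩} : Set H) = ⊤ := by
      apply map_injective H.subtype_injective
      rw [MonoidHom.map_closure, Set.image_pair, ← MonoidHom.range_eq_map, H.range_subtype]
      rfl
    have hc' : (⟨c, hcH⟩ : H) ∈ Cfsg.powerClosure 2 1 (commutator H) := by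
      have h1 : (Cfsg.powerClosure 2 1 (commutator H)).map H.subtype = Cfsg.powerClosure 2 1 ⁅H, H⁆ := by
        unfold Cfsg.powerClosure
        rw [MonoidHom.map_closure]
        congr 1
        have h2 : (commutator H).map H.subtype = ⁅H, H⁆ := by
          rw [commutator_def, map_commutator, ← MonoidHom.range_eq_map, H.range_subtype]
        ext y
        constructor
        · rintro ⟨_, ⟨x, hx, rfl⟩, rfl⟩
          exact ⟨x, by rw [← h2]; exact mem_map_of_mem H.subtype hx, rfl⟩
        · rintro ⟨x, hx, rfl⟩
          rw [← h2] at hx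
          obtain ⟨x', hx', rfl⟩ := hx
          exact ⟨x' ^ 2 ^ 1, ⟨x', hx', rfl⟩, rfl⟩
      rw [← h1] at hc
      obtain ⟨c', hc', hce⟩ := hc
      have : (⟨c, hcH⟩ : H) = c' := Subtype.ext hce.symm
      rw [this]; exact hc'
    have hHp : IsPGroup 2 H := hG.to_subgroup H
    have h3 := RegP.two_abelian hHp hgen hc' (Subtype.ext (by simpa using he))
    have h1 : ⁅(⟨a, haH⟩ : H), ⟨b, hbH⟩⁆ ∈ commutator H := by
      rw [commutator_def]; exact commutator_mem_commutator (mem_top _) (mem_top _)
    rw [h3, mem_bot, commutatorElement_eq_one_iff_mul_comm] at h1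
    exact congrArg Subtype.val h1
  · intro h
    refine ⟨hG, fun a b n => ⟨1, one_mem _, ?_⟩⟩
    rw [mul_one]
    exact (show Commute a b from h a b).mul_pow _

end Cfsg.Agent.S0642
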