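import Cfsg.Statements.S0644
import Cfsg.Agent.Lib.RegP

set_option autoImplicit false
open Cfsg

namespace Cfsg.Agent.S0644

open Cfsg.Agent.Lib Subgroup
open scoped commutatorElement

/-- In a regular p-group the p^n-th powers of the elements of any subgroup H form a subgroup, whose derived subgroup is contained in the subgroup generated by the p^n-th powers of elements of the derived subgroup of H. -/
theorem result {G : Type*} [Group G] [Finite G] {p : ℕ} [Fact p.Prime] (hG : Cfsg.IsRegularPGroup p G) (H : Subgroup G) (n : ℕ) : {y : G | ∃ x ∈ H, y = x ^ (p ^ n)} = (Cfsg.powerClosure p n H : Set G) ∧ ⁅Cfsg.powerClosure p n H, Cfsg.powerClosure p n H⁆ ≤ Cfsg.powerClosure p n ⁅H, H⁆ := by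
  have h1 := RegP.closed_pow hG.1 (RegP.reg1_of hG) n H
  constructor
  · ext y
    constructor
    · intro hy
      exact Subgroup.subset_closure hy
    · intro hy
      exact h1.mem hy
  · rw [Subgroup.commutator_le]
    intro u hu w hw
    obtain ⟨z, hz, rfl⟩ := h1.mem hu
    obtain ⟨v, hv, rfl⟩ := h1.mem hw
    exact RegP.comm_power (fun a b => hG.2 a b n) hz (pow_mem hv _)

end Cfsg.Agent.S0644
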