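import Cfsg.Statements.S0657
import Cfsg.Agent.Lib.QPairD
import Cfsg.Agent.Lib.QdD

set_option autoImplicit false
open Cfsg

namespace Cfsg.Agent.S0657

open Cfsg.Agent.Lib Cfsg.Agent.Lib.Involve

/-- For odd p, a group that fails to be p-stable modulo its largest normal subgroup of order prime to p, and whose upper p-series does not stop there, has a section isomorphic to SL(2, p). -/
theorem result {G : Type*} [Group G] [Finite G] {p : ℕ} [Fact p.Prime] (hp : p ≠ 2) (hO : Cfsg.pPrimeCore p G < Cfsg.pPrimePCore p G) (hns : ¬ Cfsg.IsPStable p (G ⧸ Cfsg.pPrimeCore p G)) : ∃ (K L : Subgroup G) (hL : (L.subgroupOf K).Normal), K ≤ ⊤ ∧ Nonempty ((K ⧸ L.subgroupOf K) ≃* Matrix.SpecialLinearGroup (Fin 2) (ZMod p)) := by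
  classical
  have hpp : p.Prime := Fact.out
  set O := Cfsg.pPrimeCore p G with hOdef
  have h0 : Cfsg.pPrimeCore p (G ⧸ O) = ⊥ := Cores.pPrimeCore_quotient_pPrimeCore p
  -- not stable in the normalizer form
  have hns' : ¬ Cfsg.IsNormalizerPStable p (G ⧸ O) := by
    intro hst
    refine hns ⟨hpp.odd_of_ne_two hp, ?_, ?_⟩
    · intro hbot
      refine hO.ne ?_
      change O = (Cfsg.pCore p (G ⧸ O)).comap (QuotientGroup.mk' O)
      rw [hbot, MonoidHom.comap_bot, QuotientGroup.ker_mk']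
    · intro A P hA hP hAP _ _ hq
      rintro _ ⟨⟨a, ha'⟩, ha, rfl⟩
      have haA : a ∈ A := ha
      refine hst P hP a ha' ?_
      rw [eq_bot_iff, ← hq]
      exact Subgroup.commutator_mono (Subgroup.commutator_mono le_rfl (Subgroup.zpowers_le.2 haA)) (Subgroup.zpowers_le.2 haA)
  have h1 := QdC.involves_of_not_stable hp hns'
  have h2 : Involves (DickB.S (ZMod p)) (Cfsg.qd p) := by
    refine involves_of_surj (QdD.lin (p := p)) (fun g => ⟨⟨QdA.aff g 0 0, QdD.aff_mem g 0 0⟩, QdD.lin_aff g 0 0⟩)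
  obtain ⟨K, f, hf⟩ := involves_iff.1 (involves_trans h2 (involves_trans h1 (involves_quot O)))
  exact QPairB.section_of le_top f hf

end Cfsg.Agent.S0657
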