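import Cfsg.Statements.S0660
import Cfsg.Agent.Lib.CoprimeB

set_option autoImplicit false
open Cfsg

namespace Cfsg.Agent.S0660

open Subgroup Cfsg.Agent.Lib.Basic Cfsg.Agent.Lib.CoprimeB Cfsg.Agent.Lib.Coprime

/-- Under a coprime action on an abelian group, an invariant subgroup that is complemented admits an invariant complement. -/
theorem result {G : Type*} [Group G] [Finite G] (V A U : Subgroup G) (hVab : IsMulCommutative V) (hAV : A ≤ Subgroup.normalizer (V : Set G)) (hcop : (Nat.card A).Coprime (Nat.card V)) (hUV : U ≤ V) (hAU : A ≤ Subgroup.normalizer (U : Set G)) (W : Subgroup G) (hWV : W ≤ V) (hUW : U ⊓ W = ⊥) (hUWV : U ⊔ W = V) : ∃ W' : Subgroup G, W' ≤ V ∧ A ≤ Subgroup.normalizer (W' : Set G) ∧ U ⊓ W' = ⊥ ∧ U ⊔ W' = V := by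
  let _ : CommGroup V := { mul_comm := hVab.is_comm.comm }
  let φ : A →* MulAut V := act hAV
  set U' : Subgroup V := U.subgroupOf V with hU'
  set W₀ : Subgroup V := W.subgroupOf V with hW₀
  have hc : IsComplement' U' W₀ := by
    apply Cfsg.Agent.Lib.SchurZas.isComplement'_of_inf_sup
    · rw [hU', hW₀, subgroupOf, subgroupOf, ← comap_inf, hUW]
      exact bot_subgroupOf V
    · rw [hU', hW₀, ← subgroupOf_sup hUV hWV, hUWV, subgroupOf_self]
  -- projection
  have hdec : ∀ v : V, ∃ u : V, u ∈ U' ∧ v * u⁻¹ ∈ W₀ := by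
    intro v
    obtain ⟨⟨u, w⟩, huw⟩ := hc.2 v
    have huw' : (u : V) * (w : V) = v := huw
    refine ⟨u, u.2, ?_⟩
    rw [← huw', mul_comm (u : V), mul_inv_cancel_right]
    exact w.2
  have huniq : ∀ u : V, u ∈ U' → u ∈ W₀ → u = 1 := fun u h1 h2 =>
    disjoint_def.mp hc.disjoint h1 h2
  choose pr hpr1 hpr2 using hdec
  have hprm : ∀ x y : V, pr (x * y) = pr x * pr y := by
    intro x y
    rw [← mul_inv_eq_one]
    apply huniq
    · exact U'.mul_mem (hpr1 _) (U'.inv_mem (U'.mul_mem (hpr1 x) (hpr1 y)))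
    · have h1 := W₀.mul_mem (W₀.mul_mem (hpr2 x) (hpr2 y)) (W₀.inv_mem (hpr2 (x * y)))
      have e : x * (pr x)⁻¹ * (y * (pr y)⁻¹) * (x * y * (pr (x * y))⁻¹)⁻¹
          = pr (x * y) * (pr x * pr y)⁻¹ := by
        rw [mul_inv_rev (x * y), mul_inv_rev x y, inv_inv, mul_inv (pr x) (pr y)]
        have e1 : x * (pr x)⁻¹ * (y * (pr y)⁻¹) = (x * y) * ((pr x)⁻¹ * (pr y)⁻¹) := by
          simp only [mul_assoc, mul_left_comm, mul_comm]
        rw [e1]
        calc (x * y) * ((pr x)⁻¹ * (pr y)⁻¹) * (pr (x * y) * (y⁻¹ * x⁻¹))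
            = (x * y) * (y⁻¹ * x⁻¹) * (pr (x * y) * ((pr x)⁻¹ * (pr y)⁻¹)) := by
              simp only [mul_assoc, mul_left_comm, mul_comm]
          _ = _ := by group
      rwa [e] at h1
  have hprU : ∀ u : V, u ∈ U' → pr u = u := by
    intro u hu
    rw [← mul_inv_eq_one]
    apply huniq
    · exact U'.mul_mem (hpr1 u) (U'.inv_mem hu)
    · have := W₀.inv_mem (hpr2 u)
      rwa [mul_inv_rev, inv_inv] at this
  have hUinv : ∀ (a : A) (u : V), u ∈ U' → φ a u ∈ U' := by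
    intro a u hu
    rw [hU', mem_subgroupOf]
    change (a : G) * (u : G) * (a : G)⁻¹ ∈ U
    exact (mem_normalizer_iff.mp (hAU a.2) _).mp (mem_subgroupOf.mp hu)
  classical
  have := Fintype.ofFinite A
  let N : V →* V :=
    { toFun := fun v => ∏ a : A, φ a (pr (φ a⁻¹ v))
      map_one' := by
        have : pr 1 = 1 := hprU 1 U'.one_mem
        simp [this]
      map_mul' := fun x y => by simp [hprm, Finset.prod_mul_distrib] }
  have hNU : ∀ v, N v ∈ U' := fun v => Subgroup.prod_mem _ fun a _ => hUinv a _ (hpr1 _)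
  have hNu : ∀ u ∈ U', N u = u ^ Nat.card A := by
    intro u hu
    change ∏ a : A, φ a (pr (φ a⁻¹ u)) = _
    have : ∀ a : A, φ a (pr (φ a⁻¹ u)) = u := by
      intro a
      rw [hprU _ (hUinv a⁻¹ u hu), ← MulAut.mul_apply, ← map_mul, mul_inv_cancel, map_one]
      rfl
    rw [Finset.prod_congr rfl fun a _ => this a, Finset.prod_const, Finset.card_univ,
      Nat.card_eq_fintype_card]
  have hNφ : ∀ (b : A) (v : V), N (φ b v) = φ b (N v) := by
    intro b v
    change ∏ a : A, φ a (pr (φ a⁻¹ (φ b v))) = φ b (∏ a : A, φ a (pr (φ a⁻¹ v)))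
    rw [map_prod]
    apply Fintype.prod_equiv (Equiv.mulLeft b⁻¹)
    intro a
    simp only [Equiv.coe_mulLeft, mul_inv_rev, inv_inv, map_mul, MulAut.mul_apply, map_inv]
    simp
  have hcopU : ∀ x : V, x ^ Nat.card A = 1 → x = 1 := by
    intro x hx
    have h5 : orderOf x ∣ 1 := hcop ▸ Nat.dvd_gcd (orderOf_dvd_of_pow_eq_one hx)
      (orderOf_dvd_natCard x)
    exact orderOf_eq_one_iff.mp (Nat.dvd_one.mp h5)
  refine ⟨N.ker.map V.subtype, map_subtype_le _, ?_, ?_, ?_⟩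
  · intro a ha
    have hstep : ∀ a ∈ A, ∀ x ∈ N.ker.map V.subtype, a * x * a⁻¹ ∈ N.ker.map V.subtype := by
      rintro a ha _ ⟨x, hx, rfl⟩
      refine ⟨φ ⟨a, ha⟩ x, ?_, rfl⟩
      rw [SetLike.mem_coe, MonoidHom.mem_ker] at hx ⊢
      rw [hNφ, hx, map_one]
    rw [mem_normalizer_iff]
    intro x
    constructor
    · exact hstep a ha x
    · intro hx
      have := hstep a⁻¹ (A.inv_mem ha) _ hx
      have e : a⁻¹ * (a * x * a⁻¹) * a⁻¹⁻¹ = x := by group
      rwa [e] at this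
  · rw [eq_bot_iff]
    intro x hx
    obtain ⟨hxU, ⟨y, hy, rfl⟩⟩ := mem_inf.mp hx
    have hyU : y ∈ U' := mem_subgroupOf.mpr hxU
    have h1 := hNu y hyU
    rw [SetLike.mem_coe, MonoidHom.mem_ker] at hy
    rw [hy] at h1
    rw [mem_bot, hcopU y h1.symm, map_one]
  · apply le_antisymm (sup_le hUV (map_subtype_le _))
    intro x hx
    set v : V := ⟨x, hx⟩ with hv
    obtain ⟨m, hm⟩ := exists_pow_eq_self_of_coprime (x := N v) (n := Nat.card A)
      (Nat.Coprime.coprime_dvd_right (orderOf_dvd_natCard _) hcop)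
    have h1 : N ((N v) ^ m) = N v := by
      rw [hNu _ (U'.pow_mem (hNU v) m), ← pow_mul, mul_comm, pow_mul]
      exact hm
    have e : x = ((N v ^ m : V) : G) * ((v * (N v ^ m)⁻¹ : V) : G) := by
      rw [← Subgroup.coe_mul, mul_comm v, mul_inv_cancel_left]
    rw [e]
    refine mul_mem (mem_sup_left ?_) (mem_sup_right ?_)
    · exact mem_subgroupOf.mp (U'.pow_mem (hNU v) m)
    · refine ⟨v * (N v ^ m)⁻¹, ?_, rfl⟩
      rw [SetLike.mem_coe, MonoidHom.mem_ker, map_mul, map_inv, h1, mul_inv_cancel]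

end Cfsg.Agent.S0660
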