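import Cfsg.Statements.S0668
import Mathlib

set_option autoImplicit false
open Cfsg

namespace Cfsg.Agent.S0668

open Cfsg

/-- The equivariant linear maps between the permutation modules of two finite `G`-sets form a space whose dimension is the number of `G`-orbits on the product of the two sets. -/
theorem result {G : Type*} [Group G] {K : Type*} [Field K] {Ω₁ Ω₂ : Type*} [Fintype Ω₁] [Fintype Ω₂] [MulAction G Ω₁] [MulAction G Ω₂] : Module.finrank K ((Cfsg.permRep K G Ω₁).linHom (Cfsg.permRep K G Ω₂)).invariants = Nat.card (MulAction.orbitRel.Quotient G (Ω₁ × Ω₂)) := by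
  classical
  -- kernel functions
  let Q := MulAction.orbitRel.Quotient G (Ω₁ × Ω₂)
  have hinv : ∀ (T : (Ω₁ → K) →ₗ[K] (Ω₂ → K)),
      T ∈ ((Cfsg.permRep K G Ω₁).linHom (Cfsg.permRep K G Ω₂)).invariants ↔
      ∀ (g : G) (x : Ω₁) (y : Ω₂), T (Pi.single (g • x) 1) (g • y) = T (Pi.single x 1) y := by
    intro T
    rw [Representation.mem_invariants]
    have hsingle : ∀ (g : G) (x : Ω₁), (Cfsg.permRep K G Ω₁ g) (Pi.single x (1 : K)) = Pi.single (g • x) 1 := by
      intro g x
      funext z
      change (Pi.single x (1 : K) : Ω₁ → K) (g⁻¹ • z) = _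
      by_cases hz : z = g • x
      · subst hz
        rw [inv_smul_smul, Pi.single_eq_same, Pi.single_eq_same]
      · rw [Pi.single_eq_of_ne hz, Pi.single_eq_of_ne]
        intro h
        apply hz
        rw [← h, smul_inv_smul]
    constructor
    · intro h g x y
      have h1 := congrArg (fun S : (Ω₁ → K) →ₗ[K] (Ω₂ → K) => S (Pi.single (g • x) 1) (g • y)) (h g)
      rw [Representation.linHom_apply] at h1
      simp only [LinearMap.comp_apply] at h1
      rw [hsingle, inv_smul_smul] at h1
      have h2 : (Cfsg.permRep K G Ω₂ g) (T (Pi.single x 1)) (g • y) = T (Pi.single x 1) y := by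
        change T (Pi.single x 1) (g⁻¹ • g • y) = _
        rw [inv_smul_smul]
      rw [h2] at h1
      exact h1.symm
    · intro h g
      apply LinearMap.pi_ext'
      intro x
      apply LinearMap.ext_ring
      funext y
      rw [Representation.linHom_apply]
      simp only [LinearMap.comp_apply, LinearMap.single_apply]
      rw [hsingle]
      change T (Pi.single (g⁻¹ • x) 1) (g⁻¹ • y) = _
      exact h g⁻¹ x y
  -- linear equivalence with functions on the orbits
  let e : ((Cfsg.permRep K G Ω₁).linHom (Cfsg.permRep K G Ω₂)).invariants ≃ₗ[K] (Q → K) :=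
    { toFun := fun T q => Quotient.liftOn' q (fun z => T.1 (Pi.single z.1 1) z.2) (by
        rintro ⟨x, y⟩ ⟨x', y'⟩ hxy
        rw [MulAction.orbitRel_apply] at hxy
        obtain ⟨g, hg⟩ := hxy
        have h1 : g • x' = x := congrArg Prod.fst hg
        have h2 : g • y' = y := congrArg Prod.snd hg
        have h3 := (hinv T.1).1 T.2 g x' y'
        rw [h1, h2] at h3
        exact h3)
      map_add' := fun S T => by
        funext q
        induction q using Quotient.inductionOn' with | h z => rfl
      map_smul' := fun c T => by
        funext q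
        induction q using Quotient.inductionOn' with | h z => rfl
      invFun := fun F => ⟨Matrix.toLin' (Matrix.of fun (y : Ω₂) (x : Ω₁) => F (Quotient.mk'' (x, y))), by
        rw [hinv]
        intro g x y
        rw [Matrix.toLin'_apply, Matrix.toLin'_apply, Matrix.mulVec_single_one, Matrix.mulVec_single_one]
        change F (Quotient.mk'' (g • x, g • y)) = F (Quotient.mk'' (x, y))
        congr 1
        apply Quotient.sound'
        rw [MulAction.orbitRel_apply]
        exact ⟨g, rfl⟩⟩
      left_inv := fun T => by
        apply Subtype.ext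
        apply LinearMap.pi_ext'
        intro x
        apply LinearMap.ext_ring
        funext y
        simp only [LinearMap.comp_apply, LinearMap.single_apply]
        rw [Matrix.toLin'_apply, Matrix.mulVec_single_one]
        rfl
      right_inv := fun F => by
        funext q
        induction q using Quotient.inductionOn' with | h z => ?_
        obtain ⟨x, y⟩ := z
        change Matrix.toLin' (Matrix.of fun (y : Ω₂) (x : Ω₁) => F (Quotient.mk'' (x, y))) (Pi.single x 1) y = F (Quotient.mk'' (x, y))
        rw [Matrix.toLin'_apply, Matrix.mulVec_single_one]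
        rfl }
  haveI : Finite Q := Quotient.finite _
  haveI := Fintype.ofFinite Q
  rw [LinearEquiv.finrank_eq e, Module.finrank_fintype_fun_eq_card, Nat.card_eq_fintype_card]

end Cfsg.Agent.S0668
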