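import Cfsg.Statements.S0669
import Mathlib

set_option autoImplicit false
open Cfsg

namespace Cfsg.Agent.S0669

/-- The rank of a transitive action: orbits on ordered pairs correspond to orbits of a point stabiliser. -/
theorem result {G : Type*} [Group G] {Ω : Type*} [Finite Ω] [MulAction G Ω] [MulAction.IsPretransitive G Ω] (a : Ω) : Nat.card (MulAction.orbitRel.Quotient G (Ω × Ω)) = Nat.card (MulAction.orbitRel.Quotient (MulAction.stabilizer G a) Ω) := by
  classical
  let f : MulAction.orbitRel.Quotient (MulAction.stabilizer G a) Ω → MulAction.orbitRel.Quotient G (Ω × Ω) :=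
    Quotient.map' (fun x => (a, x)) (by
      intro x y hxy
      rw [MulAction.orbitRel_apply] at hxy ⊢
      obtain ⟨g, hg⟩ := hxy
      refine ⟨(g : G), ?_⟩
      change ((g : G) • a, (g : G) • y) = (a, x)
      rw [show (g : G) • a = a from g.2]
      exact Prod.ext rfl hg)
  symm
  refine Nat.card_congr (Equiv.ofBijective f ⟨?_, ?_⟩)
  · intro q r h
    induction q using Quotient.inductionOn' with | h x => ?_
    induction r using Quotient.inductionOn' with | h y => ?_
    apply Quotient.sound'
    have h1 : (MulAction.orbitRel G (Ω × Ω)) (a, x) (a, y) := Quotient.exact' h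
    rw [MulAction.orbitRel_apply] at h1 ⊢
    obtain ⟨g, hg⟩ := h1
    have h2 : g • a = a := congrArg Prod.fst hg
    have h3 : g • y = x := congrArg Prod.snd hg
    exact ⟨⟨g, h2⟩, h3⟩
  · intro q
    induction q using Quotient.inductionOn' with | h z => ?_
    obtain ⟨x, y⟩ := z
    obtain ⟨g, hg⟩ := MulAction.exists_smul_eq G a x
    refine ⟨Quotient.mk'' (g⁻¹ • y), ?_⟩
    apply Quotient.sound'
    rw [MulAction.orbitRel_apply]
    refine ⟨g⁻¹, ?_⟩
    change (g⁻¹ • x, g⁻¹ • y) = (a, g⁻¹ • y)
    rw [← hg, inv_smul_smul]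

end Cfsg.Agent.S0669
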