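import Cfsg.Statements.S0670
import Mathlib
import Cfsg.Agent.Lib.PermTwo

set_option autoImplicit false
open Cfsg

namespace Cfsg.Agent.S0670

open Cfsg.Agent.Lib.PermTwo

/-- In characteristic `p`, the permutation module of a transitive action of degree `p ^ f` has the line of constant functions as its only irreducible submodule: every non-zero subrepresentation contains it. -/
theorem result {G : Type*} [Group G] [Finite G] {K : Type*} [Field K] {p f : ℕ} [Fact p.Prime] [CharP K p] {Ω : Type*} [Fintype Ω] [MulAction G Ω] [MulAction.IsPretransitive G Ω] (hf : 1 ≤ f) (hcard : Fintype.card Ω = p ^ f) (W : Subrepresentation (Cfsg.permRep K G Ω)) (hW : W.toSubmodule ≠ ⊥) : (Cfsg.permConstants K G Ω).toSubmodule ≤ W.toSubmodule := by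
  obtain ⟨P⟩ := (inferInstance : Nonempty (Sylow p G))
  have hΩ : Nat.card Ω = p ^ f := by rw [Nat.card_eq_fintype_card, hcard]
  haveI := sylow_transitive hΩ P
  have h1 := exists_fixed (P := (P : Subgroup G)) P.2 ((Cfsg.permRep K G Ω).comp (P : Subgroup G).subtype) W.toSubmodule
    (fun g v hv => W.apply_mem_toSubmodule g.1 hv) hW
  obtain ⟨v, hv, hv0, hfix⟩ := h1
  -- `v` is constant
  have hconst : ∀ x y : Ω, v x = v y := by
    intro x y
    obtain ⟨g, hg⟩ := MulAction.exists_smul_eq (P : Subgroup G) x y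
    have h2 : v ((g : G)⁻¹ • y) = v y := congrFun (hfix g) y
    rw [← h2, ← hg]
    congr 1
    exact (inv_smul_smul (g : G) x).symm
  obtain ⟨x, hx⟩ : ∃ x, v x ≠ 0 := by
    by_contra hcon
    push Not at hcon
    exact hv0 (funext hcon)
  change Submodule.span K {fun _ => 1} ≤ _
  rw [Submodule.span_singleton_le_iff_mem]
  have h3 : (fun _ => (1 : K)) = (v x)⁻¹ • v := by
    funext y
    rw [Pi.smul_apply, smul_eq_mul, hconst y x, inv_mul_cancel₀ hx]
  rw [h3]
  exact W.toSubmodule.smul_mem _ hv

end Cfsg.Agent.S0670
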