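import Cfsg.Statements.S0681
import Mathlib

set_option autoImplicit false
open Cfsg

namespace Cfsg.Agent.S0681

/-- The affine maps `x ↦ x * a + b`, `a ≠ 0`, of a near-field form a sharply doubly transitive permutation group. -/
theorem result {F : Type*} [Cfsg.NearField F] : ∃ H : Subgroup (Equiv.Perm F), (∀ σ : Equiv.Perm F, σ ∈ H ↔ ∃ a b : F, a ≠ 0 ∧ ∀ x : F, σ x = x * a + b) ∧ MulAction.IsMultiplyPretransitive H F 2 ∧ ∀ x : Fin 2 ↪ F, MulAction.stabilizer H x = ⊥ := by
  have hneg : ∀ a b : F, (-a) * b = -(a * b) := by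
    intro a b
    have h1 : (-a + a) * b = -a * b + a * b := NearField.right_distrib _ _ _
    have h0 : (0 : F) * b = 0 := by
      have := NearField.right_distrib (0 : F) 0 b
      rw [add_zero] at this
      exact left_eq_add.1 this
    rw [neg_add_cancel, h0] at h1
    exact eq_neg_of_add_eq_zero_left h1.symm
  have h0 : ∀ b : F, (0 : F) * b = 0 := by
    intro b
    have := NearField.right_distrib (0 : F) 0 b
    rw [add_zero] at this
    exact left_eq_add.1 this
  have hsub : ∀ a b c : F, (a - b) * c = a * c - b * c := by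
    intro a b c
    rw [sub_eq_add_neg, NearField.right_distrib, hneg, ← sub_eq_add_neg]
  have hne : ∀ a b : F, a ≠ 0 → b ≠ 0 → a * b ≠ 0 := by
    intro a b ha hb hab
    obtain ⟨c, hc, hc'⟩ := NearField.exists_inv b hb
    apply ha
    calc a = a * (b * c) := by rw [hc, mul_one]
      _ = a * b * c := by rw [mul_assoc]
      _ = 0 := by rw [hab, h0]
  let S : Set (Equiv.Perm F) := {σ | ∃ a b : F, a ≠ 0 ∧ ∀ x : F, σ x = x * a + b}
  let H : Subgroup (Equiv.Perm F) :=
    { carrier := S
      one_mem' := ⟨1, 0, NearField.zero_ne_one.symm, fun x => by simp⟩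
      mul_mem' := by
        rintro σ τ ⟨a, b, ha, hσ⟩ ⟨c, d, hc, hτ⟩
        refine ⟨c * a, d * a + b, hne _ _ hc ha, fun x => ?_⟩
        rw [Equiv.Perm.mul_apply, hτ, hσ, NearField.right_distrib, mul_assoc, add_assoc]
      inv_mem' := by
        rintro σ ⟨a, b, ha, hσ⟩
        obtain ⟨c, hc, hc'⟩ := NearField.exists_inv a ha
        have hc0 : c ≠ 0 := by
          rintro rfl
          rw [NearField.mul_zero] at hc
          exact NearField.zero_ne_one hc
        refine ⟨c, -(b * c), hc0, fun x => ?_⟩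
        rw [Equiv.Perm.inv_eq_iff_eq, hσ, NearField.right_distrib, hneg, mul_assoc, mul_assoc, hc',
          mul_one, mul_one, neg_add_cancel_right] }
  have hmem : ∀ σ : Equiv.Perm F, σ ∈ H ↔ ∃ a b : F, a ≠ 0 ∧ ∀ x : F, σ x = x * a + b := fun σ => Iff.rfl
  -- construct elements
  have hcons : ∀ a b : F, a ≠ 0 → ∃ σ ∈ H, ∀ x, σ x = x * a + b := by
    intro a b ha
    obtain ⟨c, hc, hc'⟩ := NearField.exists_inv a ha
    refine ⟨⟨fun x => x * a + b, fun x => (x - b) * c, fun x => ?_, fun x => ?_⟩, ?_, fun x => rfl⟩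
    · simp only [add_sub_cancel_right, mul_assoc, hc, mul_one]
    · simp only [mul_assoc, hc', mul_one, sub_add_cancel]
    · exact ⟨a, b, ha, fun x => rfl⟩
  have huniq : ∀ σ ∈ H, ∀ x y : F, x ≠ y → σ x = x → σ y = y → σ = 1 := by
    rintro σ ⟨a, b, ha, hσ⟩ x y hxy hx hy
    have h1 : (x - y) * a = x - y := by
      rw [hsub]
      have e1 : x * a = x - b := by rw [eq_sub_iff_add_eq, ← hσ, hx]
      have e2 : y * a = y - b := by rw [eq_sub_iff_add_eq, ← hσ, hy]
      rw [e1, e2, sub_sub_sub_cancel_right]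
    obtain ⟨c, hc, hc'⟩ := NearField.exists_inv (x - y) (sub_ne_zero.2 hxy)
    have ha1 : a = 1 := by
      calc a = c * (x - y) * a := by rw [hc', one_mul]
        _ = c * ((x - y) * a) := by rw [mul_assoc]
        _ = 1 := by rw [h1, hc']
    have hb : b = 0 := by
      have := hσ x
      rw [hx, ha1, mul_one] at this
      exact (left_eq_add.1 this)
    ext z
    rw [hσ, ha1, hb, mul_one, add_zero]; rfl
  refine ⟨H, hmem, ?_, ?_⟩
  · rw [MulAction.is_two_pretransitive_iff]
    intro a b c d hab hcd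
    obtain ⟨e, he, he'⟩ := NearField.exists_inv (a - b) (sub_ne_zero.2 hab)
    have he0 : e ≠ 0 := by
      rintro rfl
      rw [NearField.mul_zero] at he
      exact NearField.zero_ne_one he
    obtain ⟨σ, hσ, hσ'⟩ := hcons (e * (c - d)) (-(a * (e * (c - d))) + c) (hne _ _ he0 (sub_ne_zero.2 hcd))
    have key : (a - b) * (e * (c - d)) = c - d := by rw [← mul_assoc, he, one_mul]
    rw [hsub] at key
    refine ⟨⟨σ, hσ⟩, ?_, ?_⟩
    · change σ a = c
      rw [hσ', add_neg_cancel_left]
    · change σ b = d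
      rw [hσ', ← add_assoc]
      have : b * (e * (c - d)) + -(a * (e * (c - d))) = d - c := by
        rw [← sub_eq_add_neg, ← neg_sub, key, neg_sub]
      rw [this, sub_add_cancel]
  · intro x
    rw [eq_bot_iff]
    intro σ hσ
    rw [Subgroup.mem_bot]
    apply Subtype.ext
    have h1 : σ • x = x := hσ
    refine huniq σ.1 σ.2 (x 0) (x 1) ?_ ?_ ?_
    · intro h; exact absurd (x.injective h) (by decide)
    · have := congrArg (fun y : Fin 2 ↪ F => y 0) h1
      exact this
    · have := congrArg (fun y : Fin 2 ↪ F => y 1) h1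
      exact this

end Cfsg.Agent.S0681
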