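import Cfsg.Statements.S0682
import Mathlib

set_option autoImplicit false
open Cfsg

namespace Cfsg.Agent.S0682

open Cfsg

/-- A finite near-field has prime-power order; its additive group is commutative of prime exponent. -/
theorem result {F : Type*} [Cfsg.NearField F] [Finite F] : ∃ p j : ℕ, p.Prime ∧ 1 ≤ j ∧ Nat.card F = p ^ j ∧ (∀ x y : F, x + y = y + x) ∧ ∀ x : F, p • x = 0 := by
  classical
  have h01 : (0 : F) ≠ 1 := NearField.zero_ne_one
  -- right multiplication by `c` is an additive endomorphism
  let R : F → (F →+ F) := fun c =>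
    { toFun := fun x => x * c
      map_zero' := by
        have h1 : ((0 : F) + 0) * c = 0 * c + 0 * c := NearField.right_distrib 0 0 c
        rw [add_zero] at h1
        have h2 : (0 : F) * c + 0 = 0 * c + 0 * c := by rw [add_zero]; exact h1
        exact (add_left_cancel h2).symm
      map_add' := fun x y => NearField.right_distrib x y c }
  have htrans : ∀ x y : F, x ≠ 0 → y ≠ 0 → ∃ c : F, x * c = y := by
    intro x y hx hy
    obtain ⟨z, hz1, _⟩ := NearField.exists_inv x hx
    exact ⟨z * y, by rw [← mul_assoc, hz1, one_mul]⟩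
  haveI : Nontrivial F := ⟨⟨0, 1, h01⟩⟩
  have hcard : Nat.card F ≠ 1 := (Finite.one_lt_card (α := F)).ne'
  obtain ⟨p, hp, hpd⟩ := Nat.exists_prime_and_dvd hcard
  haveI : Fact p.Prime := ⟨hp⟩
  obtain ⟨x, hx⟩ := exists_prime_addOrderOf_dvd_card' (G := F) p hpd
  have hx0 : x ≠ 0 := by
    rintro rfl
    rw [addOrderOf_zero] at hx
    exact hp.one_lt.ne hx
  have hexp : ∀ y : F, p • y = 0 := by
    intro y
    by_cases hy : y = 0
    · rw [hy, smul_zero]
    obtain ⟨c, hc⟩ := htrans x y hx0 hy
    have h1 : R c (p • x) = p • R c x := map_nsmul (R c) p x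
    have h2 : p • x = 0 := by rw [← hx]; exact addOrderOf_nsmul_eq_zero x
    rw [h2, map_zero] at h1
    rw [← hc]; exact h1.symm
  have hP : IsPGroup p (Multiplicative F) := by
    intro y
    exact ⟨1, by rw [pow_one]; exact hexp _⟩
  obtain ⟨j, hj⟩ := IsPGroup.iff_card.1 hP
  have hj' : Nat.card F = p ^ j := hj
  refine ⟨p, j, hp, ?_, hj', ?_, hexp⟩
  · rcases Nat.eq_zero_or_pos j with h | h
    · rw [h, pow_zero] at hj'
      exact absurd hj' hcard
    · exact h
  · -- the centre is nontrivial and invariant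
    haveI : Nontrivial (Multiplicative F) := inferInstanceAs (Nontrivial F)
    have hc := hP.bot_lt_center
    obtain ⟨⟨z, hz⟩, hz1⟩ := Subgroup.ne_bot_iff_exists_ne_one.1 hc.ne'
    have hz0 : Multiplicative.toAdd z ≠ 0 := by
      intro h
      apply hz1
      exact Subtype.ext h
    have hzc : ∀ y : F, y + Multiplicative.toAdd z = Multiplicative.toAdd z + y := fun y =>
      (Subgroup.mem_center_iff.1 hz) (Multiplicative.ofAdd y)
    intro u v
    by_cases hv : v = 0
    · rw [hv, add_zero, zero_add]
    obtain ⟨c, hc⟩ := htrans _ v hz0 hv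
    obtain ⟨d, hd1, hd2⟩ : ∃ d : F, c * d = 1 ∧ d * c = 1 := by
      apply NearField.exists_inv
      rintro rfl
      rw [NearField.mul_zero] at hc
      exact hv hc.symm
    have h1 : (u * d) * c = u := by rw [mul_assoc, hd2, mul_one]
    rw [← hc]
    have h2 := congrArg (fun w => w * c) (hzc (u * d))
    simp only [NearField.right_distrib] at h2
    rw [h1] at h2
    exact h2

end Cfsg.Agent.S0682
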