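import Cfsg.Statements.S0700
import Mathlib
import Cfsg.Agent.Lib.H3BurnB

set_option autoImplicit false
open Cfsg

namespace Cfsg.Agent.S0700

/-- Burnside's Theorem on doubly transitive groups: a minimal normal subgroup of a finite doubly transitive permutation group is elementary abelian and regular, or simple and primitive. -/
theorem result {α : Type*} [Fintype α] [DecidableEq α] (G : Subgroup (Equiv.Perm α)) (hG : MulAction.IsMultiplyPretransitive G α 2) (N : Subgroup G) [N.Normal] (hN : N ≠ ⊥) (hmin : ∀ M : Subgroup G, M.Normal → M ≤ N → M = ⊥ ∨ M = N) : (IsMulCommutative N ∧ (∃ p : ℕ, p.Prime ∧ ∀ n ∈ N, n ^ p = 1) ∧ ∀ a : α, MulAction.stabilizer N a = ⊥) ∨ (IsSimpleGroup N ∧ MulAction.IsPreprimitive N α) := by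
  have h2 : ∀ a b c d : α, a ≠ b → c ≠ d → ∃ g : G, g • a = c ∧ g • b = d := by
    intro a b c d hab hcd
    exact MulAction.is_two_pretransitive_iff.1 hG hab hcd
  haveI : FaithfulSMul G α := ⟨by
    intro g h H
    apply Subtype.ext
    ext x
    exact H x⟩
  by_cases hreg : ∀ a : α, MulAction.stabilizer N a = ⊥
  · left
    have h3 := Cfsg.Agent.Lib.H3Burn.regular_case h2 N hN hmin (by
      intro n hn x hx
      have h4 : (⟨n, hn⟩ : N) ∈ MulAction.stabilizer N x := hx
      rw [hreg x, Subgroup.mem_bot] at h4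
      exact congrArg Subtype.val h4)
    exact ⟨h3.1, h3.2, hreg⟩
  · right
    push Not at hreg
    obtain ⟨a, ha⟩ := hreg
    have hp := Cfsg.Agent.Lib.H3Burn.prim_case h2 N hN hmin ha
    exact ⟨Cfsg.Agent.Lib.H3Burn.simple_case h2 N hN hmin ha hp, hp⟩

end Cfsg.Agent.S0700
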