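import Cfsg.Statements.S0701
import Mathlib
import Cfsg.Agent.Lib.PermTwo

set_option autoImplicit false
open Cfsg

namespace Cfsg.Agent.S0701

open Cfsg.Agent.Lib.PermTwo

/-- The centraliser in the full symmetric group of a transitive permutation group `G` is semiregular, and it is transitive if and only if `G` is regular. -/
theorem result {α : Type*} (G : Subgroup (Equiv.Perm α)) [MulAction.IsPretransitive G α] : (∀ c ∈ Subgroup.centralizer (G : Set (Equiv.Perm α)), ∀ a : α, c a = a → c = 1) ∧ (MulAction.IsPretransitive (Subgroup.centralizer (G : Set (Equiv.Perm α))) α ↔ ∀ a : α, MulAction.stabilizer G a = ⊥) := by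
  refine ⟨fun c hc a ha => eq_one_of_commute hc ha, ?_, ?_⟩
  · intro htr a
    rw [eq_bot_iff]
    intro g hg
    rw [Subgroup.mem_bot]
    apply Subtype.ext
    change (g : Equiv.Perm α) = 1
    ext x
    obtain ⟨c, rfl⟩ := MulAction.exists_smul_eq (Subgroup.centralizer (G : Set (Equiv.Perm α))) a x
    have h1 := (Subgroup.mem_centralizer_iff.1 c.2) g g.2
    have h2 : (g : Equiv.Perm α) ((c : Equiv.Perm α) a) = (c : Equiv.Perm α) ((g : Equiv.Perm α) a) :=
      congrArg (fun f : Equiv.Perm α => f a) h1
    change (g : Equiv.Perm α) ((c : Equiv.Perm α) a) = (c : Equiv.Perm α) a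
    rw [h2]
    have h3 : (g : Equiv.Perm α) a = a := hg
    rw [h3]
  · intro hreg
    refine ⟨fun a b => ?_⟩
    have huniq : ∀ (z : α) (g h : G), (g : Equiv.Perm α) z = (h : Equiv.Perm α) z → g = h := by
      intro z g h hgh
      have h1 : h⁻¹ * g ∈ MulAction.stabilizer G z := by
        rw [MulAction.mem_stabilizer_iff, mul_smul, inv_smul_eq_iff]
        exact hgh
      rw [hreg z, Subgroup.mem_bot, inv_mul_eq_one] at h1
      exact h1.symm
    have htr : ∀ z x : α, ∃ g : G, (g : Equiv.Perm α) z = x := fun z x => MulAction.exists_smul_eq G z x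
    choose f hf using htr
    -- f z x : element moving z to x
    have hcomp : ∀ (z x : α) (h : G), f z ((h : Equiv.Perm α) x) = h * f z x := by
      intro z x h
      apply huniq z
      rw [hf]
      change _ = (h : Equiv.Perm α) ((f z x : Equiv.Perm α) z)
      rw [hf]
    let c : Equiv.Perm α :=
      { toFun := fun x => (f a x : Equiv.Perm α) b
        invFun := fun x => (f b x : Equiv.Perm α) a
        left_inv := fun x => by
          change (f b ((f a x : Equiv.Perm α) b) : Equiv.Perm α) a = x
          have h1 : f b ((f a x : Equiv.Perm α) b) = f a x := huniq b _ _ (hf _ _)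
          rw [h1, hf]
        right_inv := fun x => by
          change (f a ((f b x : Equiv.Perm α) a) : Equiv.Perm α) b = x
          have h1 : f a ((f b x : Equiv.Perm α) a) = f b x := huniq a _ _ (hf _ _)
          rw [h1, hf] }
    have hc : c ∈ Subgroup.centralizer (G : Set (Equiv.Perm α)) := by
      rw [Subgroup.mem_centralizer_iff]
      intro g hg
      ext x
      change g ((f a x : Equiv.Perm α) b) = (f a (g x) : Equiv.Perm α) b
      have := hcomp a x ⟨g, hg⟩
      rw [show f a (g x) = (⟨g, hg⟩ : G) * f a x from this]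
      rfl
    refine ⟨⟨c, hc⟩, ?_⟩
    change (f a a : Equiv.Perm α) b = b
    have h1 : f a a = 1 := huniq a _ _ (hf a a)
    rw [h1]; rfl

end Cfsg.Agent.S0701
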