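import Cfsg.Statements.S0702
import Mathlib
import Cfsg.Agent.Lib.PermTwo

set_option autoImplicit false
open Cfsg

namespace Cfsg.Agent.S0702

open Cfsg.Agent.Lib.PermTwo

/-- For a transitive permutation group `G` on a finite set, the centraliser of `G` in the symmetric group is isomorphic to `N_G(G_ω)/G_ω`, and its orbit of `ω` is the set of fixed points of `G_ω`. -/
theorem result {α : Type*} [Finite α] (G : Subgroup (Equiv.Perm α)) [MulAction.IsPretransitive G α] (a : α) : Nonempty (Subgroup.centralizer (G : Set (Equiv.Perm α)) ≃* Subgroup.normalizer ((MulAction.stabilizer G a : Subgroup G) : Set G) ⧸ (MulAction.stabilizer G a).subgroupOf (Subgroup.normalizer ((MulAction.stabilizer G a : Subgroup G) : Set G))) ∧ MulAction.orbit (Subgroup.centralizer (G : Set (Equiv.Perm α))) a = MulAction.fixedPoints (MulAction.stabilizer G a) α := by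
  classical
  set S : Subgroup G := MulAction.stabilizer G a with hS
  set N : Subgroup G := Subgroup.normalizer (S : Set G) with hN
  set C := Subgroup.centralizer (G : Set (Equiv.Perm α)) with hC
  have htr : ∀ x : α, ∃ g : G, (g : Equiv.Perm α) a = x := fun x => MulAction.exists_smul_eq G a x
  choose f hf using htr
  have hmemS : ∀ g : G, g ∈ S ↔ (g : Equiv.Perm α) a = a := fun g => Iff.rfl
  -- well-definedness
  have hwd : ∀ (n : G), n ∈ N → ∀ g h : G, (g : Equiv.Perm α) a = (h : Equiv.Perm α) a →
      ((g * n⁻¹ : G) : Equiv.Perm α) a = ((h * n⁻¹ : G) : Equiv.Perm α) a := by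
    intro n hn g h hgh
    have h1 : h⁻¹ * g ∈ S := by
      rw [hmemS]
      change (h : Equiv.Perm α)⁻¹ ((g : Equiv.Perm α) a) = a
      rw [hgh]; exact Equiv.symm_apply_apply _ _
    have h2 : n * (h⁻¹ * g) * n⁻¹ ∈ S := (Subgroup.mem_normalizer_iff.1 hn _).1 h1
    rw [hmemS] at h2
    have h3 : (g * n⁻¹ : G) = (h * n⁻¹) * (n * (h⁻¹ * g) * n⁻¹) := by group
    rw [h3]
    change ((h * n⁻¹ : G) : Equiv.Perm α) (((n * (h⁻¹ * g) * n⁻¹ : G) : Equiv.Perm α) a) = _
    rw [h2]
  let c : N → Equiv.Perm α := fun n =>
    { toFun := fun x => ((f x * (n : G)⁻¹ : G) : Equiv.Perm α) a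
      invFun := fun x => ((f x * (n : G) : G) : Equiv.Perm α) a
      left_inv := fun x => by
        have h1 := hwd (n : G)⁻¹ (N.inv_mem n.2) (f (((f x * (n : G)⁻¹ : G) : Equiv.Perm α) a)) (f x * (n : G)⁻¹) (hf _)
        rw [inv_inv] at h1
        change ((f _ * (n : G) : G) : Equiv.Perm α) a = x
        rw [h1]
        have h2 : f x * (n : G)⁻¹ * (n : G) = f x := by group
        rw [h2, hf]
      right_inv := fun x => by
        have h1 := hwd (n : G) n.2 (f (((f x * (n : G) : G) : Equiv.Perm α) a)) (f x * (n : G)) (hf _)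
        change ((f _ * (n : G)⁻¹ : G) : Equiv.Perm α) a = x
        rw [h1]
        have h2 : f x * (n : G) * (n : G)⁻¹ = f x := by group
        rw [h2, hf] }
  have hc : ∀ (n : N) (g : G), c n ((g : Equiv.Perm α) a) = ((g * (n : G)⁻¹ : G) : Equiv.Perm α) a := by
    intro n g
    exact hwd n n.2 _ _ (hf _)
  have hcC : ∀ n : N, c n ∈ C := by
    intro n
    rw [hC, Subgroup.mem_centralizer_iff]
    intro g hg
    ext x
    obtain ⟨k, rfl⟩ := MulAction.exists_smul_eq G a x
    change g (c n ((k : Equiv.Perm α) a)) = c n (g ((k : Equiv.Perm α) a))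
    rw [hc]
    have h1 : g ((k : Equiv.Perm α) a) = (((⟨g, hg⟩ * k : G)) : Equiv.Perm α) a := rfl
    rw [h1, hc, mul_assoc]
    rfl
  let φ : N →* C :=
    { toFun := fun n => ⟨c n, hcC n⟩
      map_one' := by
        apply Subtype.ext
        apply eq_one_of_commute (hcC 1) (a := a)
        have h1 := hc 1 1
        change c 1 a = a
        have h2 : ((1 : G) : Equiv.Perm α) a = a := rfl
        rw [h2] at h1
        rw [h1]
        rfl
      map_mul' := fun n m => by
        apply Subtype.ext
        apply eq_of_commute (G := G) (hcC (n * m)) (mul_mem (hcC n) (hcC m)) (a := a)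
        have h1 := hc (n * m) 1
        have h2 : ((1 : G) : Equiv.Perm α) a = a := rfl
        rw [h2] at h1
        have h3 := hc m 1
        rw [h2] at h3
        change c (n * m) a = c n (c m a)
        have e : ((1 : G) * ((n * m : N) : G)⁻¹ : G) = ((1 : G) * (m : G)⁻¹) * (n : G)⁻¹ := by
          rw [Subgroup.coe_mul]; group
        rw [h1, h3, hc, e] }
  have hcn_a : ∀ n : N, c n a = (((n : G)⁻¹ : G) : Equiv.Perm α) a := by
    intro n
    have h1 := hc n 1
    have h2 : ((1 : G) : Equiv.Perm α) a = a := rfl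
    rw [h2, one_mul] at h1
    exact h1
  -- points fixed by the stabilizer
  have hfix : ∀ b : α, b ∈ MulAction.fixedPoints S α → ∃ n : N, c n a = b := by
    intro b hb
    have h1 : (f b)⁻¹ ∈ N := by
      rw [hN]
      have hsub : ∀ s ∈ S, (f b)⁻¹ * s * f b ∈ S := by
        intro s hs
        rw [hmemS]
        change (f b : Equiv.Perm α)⁻¹ ((s : Equiv.Perm α) ((f b : Equiv.Perm α) a)) = a
        rw [hf]
        have h2 : (s : Equiv.Perm α) b = b := hb ⟨s, hs⟩
        rw [h2]
        exact (Equiv.symm_apply_eq _).2 (hf b).symm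
      have hmap : S.map (MulAut.conj (f b)⁻¹).toMonoidHom = S := by
        apply Subgroup.eq_of_le_of_card_ge
        · rintro _ ⟨s, hs, rfl⟩
          have := hsub s hs
          simpa using this
        · exact (Nat.card_congr (S.equivMapOfInjective _ (MulAut.conj (f b)⁻¹).injective).toEquiv).le
      rw [Subgroup.mem_normalizer_iff]
      intro s
      constructor
      · intro hs
        have := hsub s hs
        simpa using this
      · intro hs
        rw [← hmap] at hs
        obtain ⟨t, ht, hts⟩ := hs
        have h3 : t = s := by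
          have : (MulAut.conj (f b)⁻¹) t = (MulAut.conj (f b)⁻¹) s := hts
          exact (MulAut.conj (f b)⁻¹).injective this
        rw [← h3]; exact ht
    refine ⟨⟨(f b)⁻¹, h1⟩, ?_⟩
    rw [hcn_a]
    simp only [inv_inv]
    exact hf b
  have hCfix : ∀ d ∈ C, d a ∈ MulAction.fixedPoints S α := by
    intro d hd s
    have h1 := (Subgroup.mem_centralizer_iff.1 hd) (s : G) (s : G).2
    have h2 : ((s : G) : Equiv.Perm α) (d a) = d (((s : G) : Equiv.Perm α) a) :=
      congrArg (fun g : Equiv.Perm α => g a) h1
    change ((s : G) : Equiv.Perm α) (d a) = d a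
    rw [h2]
    have h3 : ((s : G) : Equiv.Perm α) a = a := s.2
    rw [h3]
  have hφs : Function.Surjective φ := by
    rintro ⟨d, hd⟩
    obtain ⟨n, hn⟩ := hfix (d a) (hCfix d hd)
    exact ⟨n, Subtype.ext (eq_of_commute (G := G) (hcC n) hd hn)⟩
  have hker : φ.ker = S.subgroupOf N := by
    ext n
    rw [MonoidHom.mem_ker, Subgroup.mem_subgroupOf]
    constructor
    · intro h
      have h1 : c n = 1 := congrArg Subtype.val h
      have h2 := hcn_a n
      rw [h1] at h2
      rw [← inv_mem_iff, hmemS]
      exact h2.symm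
    · intro h
      apply Subtype.ext
      apply eq_one_of_commute (hcC n) (a := a)
      rw [hcn_a]
      exact S.inv_mem h
  constructor
  · haveI : (S.subgroupOf N).Normal := by rw [← hker]; infer_instance
    exact ⟨((QuotientGroup.quotientMulEquivOfEq hker.symm).trans
      (QuotientGroup.quotientKerEquivOfSurjective φ hφs)).symm⟩
  · ext b
    constructor
    · rintro ⟨d, rfl⟩
      exact hCfix d d.2
    · intro hb
      obtain ⟨n, hn⟩ := hfix b hb
      exact ⟨⟨c n, hcC n⟩, hn⟩

end Cfsg.Agent.S0702
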