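import Cfsg.Statements.S0703
import Mathlib
import Cfsg.Agent.Lib.PermTwo

set_option autoImplicit false
open Cfsg

namespace Cfsg.Agent.S0703

open Cfsg.Agent.Lib.PermTwo

/-- An abelian transitive minimal normal subgroup `M` of a permutation group on a finite set is self-centralising in the symmetric group, regular, elementary abelian, and is the unique minimal normal subgroup. -/
theorem result {α : Type*} [Finite α] (G : Subgroup (Equiv.Perm α)) (M : Subgroup G) [M.Normal] (hM : M ≠ ⊥) (hmin : ∀ L : Subgroup G, L.Normal → L ≤ M → L = ⊥ ∨ L = M) (hab : IsMulCommutative M) (htrans : MulAction.IsPretransitive M α) : Subgroup.centralizer ((M.map G.subtype : Subgroup (Equiv.Perm α)) : Set (Equiv.Perm α)) = M.map G.subtype ∧ (∀ a : α, MulAction.stabilizer M a = ⊥) ∧ (∃ p : ℕ, p.Prime ∧ ∀ m ∈ M, m ^ p = 1) ∧ ∀ L : Subgroup G, L.Normal → L ≠ ⊥ → (∀ L' : Subgroup G, L'.Normal → L' ≤ L → L' = ⊥ ∨ L' = L) → L = M := by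
  set M' : Subgroup (Equiv.Perm α) := M.map G.subtype with hM'
  haveI hT : MulAction.IsPretransitive M' α := ⟨fun a b => by
    obtain ⟨m, hm⟩ := MulAction.exists_smul_eq M a b
    exact ⟨⟨_, m, m.2, rfl⟩, hm⟩⟩
  have hMc : M' ≤ Subgroup.centralizer (M' : Set (Equiv.Perm α)) := by
    rintro _ ⟨m, hm, rfl⟩
    rw [Subgroup.mem_centralizer_iff]
    rintro _ ⟨m', hm', rfl⟩
    have h1 : (⟨m', hm'⟩ : M) * ⟨m, hm⟩ = ⟨m, hm⟩ * ⟨m', hm'⟩ := mul_comm' _ _
    have h2 : m' * m = m * m' := congrArg (fun z : M => (z : G)) h1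
    exact congrArg (fun z : G => (z : Equiv.Perm α)) h2
  have hCM : Subgroup.centralizer (M' : Set (Equiv.Perm α)) = M' := by
    apply le_antisymm _ hMc
    intro c hc
    by_cases hα : Nonempty α
    · obtain ⟨a⟩ := hα
      obtain ⟨m, hm⟩ := MulAction.exists_smul_eq M' a (c a)
      have h1 : c = (m : Equiv.Perm α) := eq_of_commute (G := M') hc (hMc m.2) (a := a) hm.symm
      rw [h1]; exact m.2
    · haveI := not_nonempty_iff.1 hα
      have : c = 1 := Subsingleton.elim _ _
      rw [this]; exact one_mem _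
  have hreg : ∀ a : α, MulAction.stabilizer M a = ⊥ := by
    intro a
    rw [eq_bot_iff]
    intro m hm
    rw [Subgroup.mem_bot]
    apply Subtype.ext
    apply Subtype.ext
    exact eq_one_of_commute (G := M') (hMc ⟨m, m.2, rfl⟩) (a := a) hm
  refine ⟨hCM, hreg, ?_, ?_⟩
  · have hne : Nat.card M ≠ 1 := by
      intro h
      exact hM ((Subgroup.card_eq_one).1 h)
    obtain ⟨p, hp, hpM⟩ := Nat.exists_prime_and_dvd hne
    haveI : Fact p.Prime := ⟨hp⟩
    refine ⟨p, hp, ?_⟩
    let L : Subgroup G :=
      { carrier := {m | m ∈ M ∧ m ^ p = 1}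
        mul_mem' := by
          rintro x y ⟨hx, hx'⟩ ⟨hy, hy'⟩
          refine ⟨M.mul_mem hx hy, ?_⟩
          have h1 : (⟨x, hx⟩ : M) * ⟨y, hy⟩ = ⟨y, hy⟩ * ⟨x, hx⟩ := mul_comm' _ _
          have h2 : Commute x y := congrArg (fun z : M => (z : G)) h1
          rw [h2.mul_pow, hx', hy', one_mul]
        one_mem' := ⟨M.one_mem, one_pow _⟩
        inv_mem' := by
          rintro x ⟨hx, hx'⟩
          exact ⟨M.inv_mem hx, by rw [inv_pow, hx', inv_one]⟩ }
    have hLn : L.Normal := ⟨fun x hx g => ⟨(inferInstance : M.Normal).conj_mem x hx.1 g, by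
      rw [conj_pow, hx.2]; simp⟩⟩
    have hLM : L = M := by
      rcases hmin L hLn (fun x hx => hx.1) with h | h
      · exfalso
        obtain ⟨x, hx⟩ := exists_prime_orderOf_dvd_card' (G := M) p hpM
        have h1 : (x : G) ∈ L := ⟨x.2, by
          have := pow_orderOf_eq_one x
          rw [hx] at this
          exact congrArg (fun z : M => (z : G)) this⟩
        rw [h, Subgroup.mem_bot] at h1
        have h2 : x = 1 := Subtype.ext h1
        rw [h2, orderOf_one] at hx
        exact hp.one_lt.ne hx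
      · exact h
    intro m hm
    rw [← hLM] at hm
    exact hm.2
  · intro L hL hLb hLmin
    have hMn : M.Normal := inferInstance
    rcases hmin (L ⊓ M) inferInstance inf_le_right with h | h
    · exfalso
      apply hLb
      have hcomm : ∀ x ∈ L, ∀ y ∈ M, x * y = y * x := fun x hx y hy =>
        Subgroup.commute_of_normal_of_disjoint L M hL hMn (disjoint_iff.2 h) x y hx hy
      have hLM : L ≤ M := by
        intro x hx
        have h1 : (x : Equiv.Perm α) ∈ Subgroup.centralizer (M' : Set (Equiv.Perm α)) := by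
          rw [Subgroup.mem_centralizer_iff]
          rintro _ ⟨m, hm, rfl⟩
          exact congrArg (fun z : G => (z : Equiv.Perm α)) (hcomm x hx m hm).symm
        rw [hCM] at h1
        obtain ⟨m, hm, hmx⟩ := h1
        have : m = x := Subtype.ext hmx
        rw [← this]; exact hm
      rw [← h]
      exact (inf_eq_left.2 hLM).symm
    · have hML : M ≤ L := by rw [← h]; exact inf_le_left
      rcases hLmin M hMn hML with h1 | h1
      · exact absurd h1 hM
      · exact h1.symm

end Cfsg.Agent.S0703
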