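import Cfsg.Statements.S0704
import Mathlib
import Cfsg.Agent.Lib.PermTwo

set_option autoImplicit false
open Cfsg

namespace Cfsg.Agent.S0704

open Cfsg.Agent.Lib.PermTwo

theorem map_trans {α : Type*} {G : Subgroup (Equiv.Perm α)} {M : Subgroup G}
    (hMt : MulAction.IsPretransitive M α) : MulAction.IsPretransitive (M.map G.subtype : Subgroup (Equiv.Perm α)) α :=
  ⟨fun a b => by
    obtain ⟨m, hm⟩ := MulAction.exists_smul_eq M a b
    exact ⟨⟨_, m, m.2, rfl⟩, hm⟩⟩

theorem cent_eq {α : Type*} {G : Subgroup (Equiv.Perm α)} {M N : Subgroup G}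
    (hMt : MulAction.IsPretransitive M α) (hNt : MulAction.IsPretransitive N α)
    (hcomm : ∀ x ∈ M, ∀ y ∈ N, x * y = y * x) :
    Subgroup.centralizer ((M.map G.subtype : Subgroup (Equiv.Perm α)) : Set (Equiv.Perm α)) = N.map G.subtype := by
  haveI := map_trans hMt
  have h0 : N.map G.subtype ≤ Subgroup.centralizer ((M.map G.subtype : Subgroup (Equiv.Perm α)) : Set (Equiv.Perm α)) := by
    rintro _ ⟨n, hn, rfl⟩
    rw [Subgroup.mem_centralizer_iff]
    rintro _ ⟨m, hm, rfl⟩
    exact congrArg (fun z : G => (z : Equiv.Perm α)) (hcomm m hm n hn)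
  apply le_antisymm _ h0
  intro c hc
  by_cases hα : Nonempty α
  · obtain ⟨a⟩ := hα
    obtain ⟨n, hn⟩ := MulAction.exists_smul_eq N a (c a)
    have h1 : c = ((n : G) : Equiv.Perm α) := eq_of_commute (G := M.map G.subtype) hc (h0 ⟨n, n.2, rfl⟩) (a := a) hn.symm
    rw [h1]; exact ⟨n, n.2, rfl⟩
  · haveI := not_nonempty_iff.1 hα
    have : c = 1 := Subsingleton.elim _ _
    rw [this]; exact one_mem _

theorem stab_eq {α : Type*} {G : Subgroup (Equiv.Perm α)} {M N : Subgroup G}
    (hMt : MulAction.IsPretransitive M α)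
    (hcomm : ∀ x ∈ M, ∀ y ∈ N, x * y = y * x) (a : α) : MulAction.stabilizer N a = ⊥ := by
  haveI := map_trans hMt
  rw [eq_bot_iff]
  intro n hn
  rw [Subgroup.mem_bot]
  apply Subtype.ext
  apply Subtype.ext
  refine eq_one_of_commute (G := M.map G.subtype) (a := a) ?_ hn
  rw [Subgroup.mem_centralizer_iff]
  rintro _ ⟨m, hm, rfl⟩
  exact congrArg (fun z : G => (z : Equiv.Perm α)) (hcomm m hm n n.2)

/-- Two distinct transitive minimal normal subgroups `M`, `N` of a permutation group are regular, non-abelian, isomorphic, each other's centraliser in the symmetric group, and the only minimal normal subgroups. -/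
theorem result {α : Type*} (G : Subgroup (Equiv.Perm α)) (M N : Subgroup G) [M.Normal] [N.Normal] (hM : M ≠ ⊥) (hN : N ≠ ⊥) (hMmin : ∀ L : Subgroup G, L.Normal → L ≤ M → L = ⊥ ∨ L = M) (hNmin : ∀ L : Subgroup G, L.Normal → L ≤ N → L = ⊥ ∨ L = N) (hMN : M ≠ N) (hMt : MulAction.IsPretransitive M α) (hNt : MulAction.IsPretransitive N α) : (∀ a : α, MulAction.stabilizer M a = ⊥) ∧ (∀ a : α, MulAction.stabilizer N a = ⊥) ∧ ¬ IsMulCommutative M ∧ Nonempty (M ≃* N) ∧ Subgroup.centralizer ((M.map G.subtype : Subgroup (Equiv.Perm α)) : Set (Equiv.Perm α)) = N.map G.subtype ∧ Subgroup.centralizer ((N.map G.subtype : Subgroup (Equiv.Perm α)) : Set (Equiv.Perm α)) = M.map G.subtype ∧ ∀ L : Subgroup G, L.Normal → L ≠ ⊥ → (∀ L' : Subgroup G, L'.Normal → L' ≤ L → L' = ⊥ ∨ L' = L) → L = M ∨ L = N := by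
  have hMn : M.Normal := inferInstance
  have hNn : N.Normal := inferInstance
  have hinf : M ⊓ N = ⊥ := by
    rcases hMmin (M ⊓ N) inferInstance inf_le_left with h | h
    · exact h
    · exfalso
      have h1 : M ≤ N := by rw [← h]; exact inf_le_right
      rcases hNmin M hMn h1 with h2 | h2
      · exact hM h2
      · exact hMN h2
  have hcomm : ∀ x ∈ M, ∀ y ∈ N, x * y = y * x := fun x hx y hy =>
    Subgroup.commute_of_normal_of_disjoint M N hMn hNn (disjoint_iff.2 hinf) x y hx hy
  have hcomm' : ∀ x ∈ N, ∀ y ∈ M, x * y = y * x := fun x hx y hy => (hcomm y hy x hx).symm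
  have hCM := cent_eq hMt hNt hcomm
  have hCN := cent_eq hNt hMt hcomm'
  have hsM := stab_eq hNt hcomm'
  have hsN := stab_eq hMt hcomm
  have hα : Nonempty α := by
    by_contra hα
    haveI := not_nonempty_iff.1 hα
    exact hM (Subsingleton.elim _ _)
  obtain ⟨a⟩ := hα
  refine ⟨hsM, hsN, ?_, ?_, hCM, hCN, ?_⟩
  · intro hab
    have h1 : M ≤ N := by
      intro m hm
      have h2 : ((m : G) : Equiv.Perm α) ∈ Subgroup.centralizer ((M.map G.subtype : Subgroup (Equiv.Perm α)) : Set (Equiv.Perm α)) := by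
        rw [Subgroup.mem_centralizer_iff]
        rintro _ ⟨m', hm', rfl⟩
        have h3 : (⟨m', hm'⟩ : M) * ⟨m, hm⟩ = ⟨m, hm⟩ * ⟨m', hm'⟩ := mul_comm' _ _
        have h4 : m' * m = m * m' := congrArg (fun z : M => (z : G)) h3
        exact congrArg (fun z : G => (z : Equiv.Perm α)) h4
      rw [hCM] at h2
      obtain ⟨n, hn, hnm⟩ := h2
      have : n = m := Subtype.ext hnm
      rw [← this]; exact hn
    apply hM
    rw [← hinf]
    exact (inf_eq_left.2 h1).symm
  · have hex : ∀ m : M, ∃ n : N, ((n : G) : Equiv.Perm α) a = (((m : G) : Equiv.Perm α))⁻¹ a := fun m =>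
      MulAction.exists_smul_eq N a _
    choose φ hφ using hex
    have huN : ∀ n n' : N, ((n : G) : Equiv.Perm α) a = ((n' : G) : Equiv.Perm α) a → n = n' := by
      intro n n' h
      have h1 : n'⁻¹ * n ∈ MulAction.stabilizer N a := by
        rw [MulAction.mem_stabilizer_iff, mul_smul, inv_smul_eq_iff]; exact h
      rw [hsN, Subgroup.mem_bot, inv_mul_eq_one] at h1
      exact h1.symm
    have huM : ∀ n n' : M, ((n : G) : Equiv.Perm α) a = ((n' : G) : Equiv.Perm α) a → n = n' := by
      intro n n' h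
      have h1 : n'⁻¹ * n ∈ MulAction.stabilizer M a := by
        rw [MulAction.mem_stabilizer_iff, mul_smul, inv_smul_eq_iff]; exact h
      rw [hsM, Subgroup.mem_bot, inv_mul_eq_one] at h1
      exact h1.symm
    have hmul : ∀ m m' : M, φ (m * m') = φ m * φ m' := by
      intro m m'
      apply huN
      rw [hφ]
      have e1 : ((φ m * φ m' : N) : G) = ((φ m : N) : G) * ((φ m' : N) : G) := rfl
      rw [e1]
      change (((m' : G) : Equiv.Perm α))⁻¹ ((((m : G) : Equiv.Perm α))⁻¹ a) = ((φ m : G) : Equiv.Perm α) (((φ m' : G) : Equiv.Perm α) a)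
      rw [hφ m', ← hφ m]
      have h5 := hcomm' (φ m : G) (φ m).2 ((m' : G)⁻¹) (M.inv_mem m'.2)
      exact (congrArg (fun z : G => (z : Equiv.Perm α) a) h5).symm
    let Φ : M →* N := MonoidHom.mk' φ hmul
    refine ⟨MulEquiv.ofBijective Φ ⟨?_, ?_⟩⟩
    · intro m m' h
      have h1 : φ m = φ m' := h
      have h2 := hφ m
      rw [h1, hφ m'] at h2
      have h3 : m'⁻¹ = m⁻¹ := huM _ _ h2
      exact (inv_injective h3).symm
    · intro n
      obtain ⟨m, hm⟩ := MulAction.exists_smul_eq M a (((n : G) : Equiv.Perm α) a)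
      refine ⟨m⁻¹, ?_⟩
      apply huN
      change ((φ m⁻¹ : G) : Equiv.Perm α) a = _
      rw [hφ]
      rw [← hm]
      have : (((m⁻¹ : M) : G) : Equiv.Perm α)⁻¹ = ((m : G) : Equiv.Perm α) := by simp
      rw [this]; rfl
  · intro L hL hLb hLmin
    by_contra hcon
    push Not at hcon
    obtain ⟨hLM, hLN⟩ := hcon
    have h1 : L ⊓ M = ⊥ := by
      rcases hMmin (L ⊓ M) inferInstance inf_le_right with h | h
      · exact h
      · exfalso
        have h1 : M ≤ L := by rw [← h]; exact inf_le_left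
        rcases hLmin M hMn h1 with h2 | h2
        · exact hM h2
        · exact hLM h2.symm
    have hcommL : ∀ x ∈ L, ∀ y ∈ M, x * y = y * x := fun x hx y hy =>
      Subgroup.commute_of_normal_of_disjoint L M hL hMn (disjoint_iff.2 h1) x y hx hy
    have hLN' : L ≤ N := by
      intro x hx
      have h1 : (x : Equiv.Perm α) ∈ Subgroup.centralizer ((M.map G.subtype : Subgroup (Equiv.Perm α)) : Set (Equiv.Perm α)) := by
        rw [Subgroup.mem_centralizer_iff]
        rintro _ ⟨m, hm, rfl⟩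
        exact congrArg (fun z : G => (z : Equiv.Perm α)) (hcommL x hx m hm).symm
      rw [hCM] at h1
      obtain ⟨m, hm, hmx⟩ := h1
      have : m = x := Subtype.ext hmx
      rw [← this]; exact hm
    rcases hNmin L hL hLN' with h2 | h2
    · exact hLb h2
    · exact hLN h2

end Cfsg.Agent.S0704
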