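import Cfsg.Statements.S0705
import Mathlib
import Cfsg.Agent.Lib.PermTwo

set_option autoImplicit false
open scoped Pointwise
open Cfsg

namespace Cfsg.Agent.S0705

open Cfsg.Agent.Lib.PermTwo

/-- A generously `k`-transitive permutation group (every `(k+1)`-subset has its full symmetric group induced by the setwise stabiliser) of degree greater than `k` is `k`-transitive, and for a `k`-subset the setwise and pointwise stabilisers have the same orbits outside it. -/
theorem result {α : Type*} [Fintype α] [DecidableEq α] (G : Subgroup (Equiv.Perm α)) {k : ℕ} (hk : k < Fintype.card α) (hgen : ∀ s : Finset α, s.card = k + 1 → ∀ σ : Equiv.Perm ↥s, ∃ g ∈ G, ∀ x : ↥s, g (x : α) = σ x) : MulAction.IsMultiplyPretransitive G α k ∧ ∀ s : Finset α, s.card = k → ∀ a b : α, a ∉ s → b ∉ s → (∃ g ∈ G, g • s = s ∧ g a = b) → ∃ g ∈ G, (∀ x ∈ s, g x = x) ∧ g a = b := by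
  have hpart2 : ∀ s : Finset α, s.card = k → ∀ a b : α, a ∉ s → b ∉ s →
      (∃ g ∈ G, g • s = s ∧ g a = b) → ∃ g ∈ G, (∀ x ∈ s, g x = x) ∧ g a = b := by
    rintro s hs a b ha hb ⟨g, hg, hgs, hgab⟩
    have hcard : (insert b s).card = k + 1 := by rw [Finset.card_insert_of_notMem hb, hs]
    have hgmem : ∀ x, x ∈ s ↔ g x ∈ s := by
      intro x
      constructor
      · intro hx
        rw [← hgs]
        exact Finset.smul_mem_smul_finset hx
      · intro hx
        rw [← hgs] at hx
        exact (Finset.smul_mem_smul_finset_iff g).1 hx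
    -- the permutation of insert b s : on s acts as g, fixes b
    let σ : Equiv.Perm ↥(insert b s) :=
      { toFun := fun x => if hx : (x : α) = b then x else ⟨g x, by
          have h1 := x.2
          rw [Finset.mem_insert] at h1
          rw [Finset.mem_insert]
          exact Or.inr ((hgmem _).1 (h1.resolve_left hx))⟩
        invFun := fun x => if hx : (x : α) = b then x else ⟨g.symm x, by
          have h1 := x.2
          rw [Finset.mem_insert] at h1
          rw [Finset.mem_insert]
          right
          rw [hgmem]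
          have h2 := h1.resolve_left hx
          rw [Equiv.apply_symm_apply]; exact h2⟩
        left_inv := fun x => by
          by_cases hx : (x : α) = b
          · simp [hx]
          · have h1 := x.2
            rw [Finset.mem_insert] at h1
            have h2 := (hgmem _).1 (h1.resolve_left hx)
            have h3 : g (x : α) ≠ b := by intro h; rw [h] at h2; exact hb h2
            simp [hx, h3]
        right_inv := fun x => by
          by_cases hx : (x : α) = b
          · simp [hx]
          · have h1 := x.2
            rw [Finset.mem_insert] at h1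
            have h2 := h1.resolve_left hx
            have h3 : g.symm (x : α) ≠ b := by
              intro h
              have h4 : g.symm (x : α) ∈ s := by rw [hgmem, Equiv.apply_symm_apply]; exact h2
              rw [h] at h4; exact hb h4
            simp [hx, h3] }
    obtain ⟨h, hh, hσ⟩ := hgen (insert b s) hcard σ⁻¹
    refine ⟨h * g, G.mul_mem hh hg, ?_, ?_⟩
    · intro x hx
      have hxb : x ≠ b := by rintro rfl; exact hb hx
      have h1 : σ ⟨x, Finset.mem_insert_of_mem hx⟩ = ⟨g x, Finset.mem_insert_of_mem ((hgmem x).1 hx)⟩ := by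
        change (if hx : x = b then _ else _) = _
        rw [dif_neg hxb]
      have h2 : σ⁻¹ ⟨g x, Finset.mem_insert_of_mem ((hgmem x).1 hx)⟩ = ⟨x, Finset.mem_insert_of_mem hx⟩ := by
        rw [Equiv.Perm.inv_eq_iff_eq]; exact h1.symm
      have h3 := hσ ⟨g x, Finset.mem_insert_of_mem ((hgmem x).1 hx)⟩
      rw [h2] at h3
      exact h3
    · have h1 : σ ⟨b, Finset.mem_insert_self b s⟩ = ⟨b, Finset.mem_insert_self b s⟩ := by
        change (if hx : b = b then _ else _) = _
        rw [dif_pos rfl]
      have h2 : σ⁻¹ ⟨b, Finset.mem_insert_self b s⟩ = ⟨b, Finset.mem_insert_self b s⟩ := by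
        rw [Equiv.Perm.inv_eq_iff_eq]; exact h1.symm
      have h3 := hσ ⟨b, Finset.mem_insert_self b s⟩
      rw [h2] at h3
      rw [Equiv.Perm.mul_apply, hgab]
      exact h3
  refine ⟨?_, hpart2⟩
  refine kTrans_of_replace hk fun x i c hc => ?_
  let s : Finset α := insert c (Finset.univ.map x)
  have hc' : c ∉ Finset.univ.map x := by
    rw [Finset.mem_map]
    rintro ⟨j, _, hj⟩
    exact hc ⟨j, hj⟩
  have hs : s.card = k + 1 := by
    rw [Finset.card_insert_of_notMem hc', Finset.card_map, Finset.card_univ, Fintype.card_fin]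
  have hxi : ∀ j, x j ∈ s := fun j => Finset.mem_insert_of_mem (Finset.mem_map.2 ⟨j, Finset.mem_univ _, rfl⟩)
  obtain ⟨g, hg, hσ⟩ := hgen s hs (Equiv.swap ⟨x i, hxi i⟩ ⟨c, Finset.mem_insert_self _ _⟩)
  refine ⟨⟨g, hg⟩, ?_, ?_⟩
  · intro j hj
    have h1 := hσ ⟨x j, hxi j⟩
    rw [Equiv.swap_apply_of_ne_of_ne] at h1
    · exact h1
    · intro h
      exact hj (x.injective (congrArg Subtype.val h))
    · intro h
      exact hc ⟨j, congrArg Subtype.val h⟩
  · have h1 := hσ ⟨x i, hxi i⟩
    rw [Equiv.swap_apply_left] at h1
    exact h1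

end Cfsg.Agent.S0705
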