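import Cfsg.Statements.S0707
import Mathlib

set_option autoImplicit false
open Cfsg

namespace Cfsg.Agent.S0707

theorem prime_card_of_isCoatom_bot {G : Type*} [Group G] (h : IsCoatom (⊥ : Subgroup G)) :
    (Nat.card G).Prime := by
  have hne : (⊥ : Subgroup G) ≠ ⊤ := h.1
  obtain ⟨g, hg⟩ : ∃ g : G, g ≠ 1 := by
    by_contra hcon
    push Not at hcon
    apply hne
    rw [eq_comm, eq_bot_iff]
    intro x _
    exact Subgroup.mem_bot.2 (hcon x)
  have htop : Subgroup.zpowers g = ⊤ := by
    apply h.2
    rw [bot_lt_iff_ne_bot]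
    exact fun h0 => hg (Subgroup.zpowers_eq_bot.1 h0)
  have hcyc : IsCyclic G := ⟨g, fun x => by
    have : x ∈ Subgroup.zpowers g := by rw [htop]; trivial
    exact this⟩
  letI : CommGroup G := IsCyclic.commGroup
  haveI : Nontrivial G := ⟨g, 1, hg⟩
  refine CommGroup.is_simple_iff_prime_card.1 ⟨fun N _ => ?_⟩
  by_cases hN : N = ⊥
  · exact Or.inl hN
  · exact Or.inr (h.2 N (bot_lt_iff_ne_bot.2 hN))

/-- In a primitive permutation group, distinct points have distinct stabilisers unless the group is regular of prime degree. -/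
theorem result {α : Type*} (G : Subgroup (Equiv.Perm α)) [MulAction.IsPreprimitive G α] (h : ¬ (Nat.card α).Prime ∨ ∃ a : α, MulAction.stabilizer G a ≠ ⊥) {a b : α} (hab : a ≠ b) : MulAction.stabilizer G a ≠ MulAction.stabilizer G b := by
  intro heq
  haveI : Nontrivial α := ⟨a, b, hab⟩
  have hmax : IsCoatom (MulAction.stabilizer G a) :=
    (MulAction.isCoatom_stabilizer_iff_preprimitive G a).2 inferInstance
  obtain ⟨g, hg⟩ := MulAction.exists_smul_eq G a b
  have hgn : g ∈ Subgroup.normalizer (MulAction.stabilizer G a : Set G) := by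
    rw [Subgroup.mem_normalizer_iff_map_conj_eq]
    have h5 := MulAction.stabilizer_smul_eq_stabilizer_map_conj g a
    rw [hg, ← heq] at h5
    exact h5.symm
  have hgs : g ∉ MulAction.stabilizer G a := by
    rw [MulAction.mem_stabilizer_iff, hg]; exact hab.symm
  have hnorm : Subgroup.normalizer (MulAction.stabilizer G a : Set G) = ⊤ := by
    apply hmax.2
    refine lt_of_le_of_ne Subgroup.le_normalizer ?_
    intro h
    rw [← h] at hgn
    exact hgs hgn
  have hnormal : (MulAction.stabilizer G a).Normal := Subgroup.normalizer_eq_top_iff.1 hnorm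
  have hbot : MulAction.stabilizer G a = ⊥ := by
    rw [eq_bot_iff]
    intro x hx
    rw [Subgroup.mem_bot]
    apply Subtype.ext
    apply Equiv.ext
    intro c
    obtain ⟨k, hk⟩ := MulAction.exists_smul_eq G a c
    have h2 := hnormal.conj_mem x hx k⁻¹
    rw [MulAction.mem_stabilizer_iff, inv_inv, mul_smul, mul_smul, hk, inv_smul_eq_iff, hk] at h2
    exact h2
  rcases h with h | ⟨c, hc⟩
  · apply h
    rw [hbot] at hmax
    have hp := prime_card_of_isCoatom_bot hmax
    have hcard : Nat.card G = Nat.card α := by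
      have e := MulAction.orbitEquivQuotientStabilizer G a
      rw [MulAction.orbit_eq_univ] at e
      rw [hbot] at e
      rw [← Nat.card_congr (Equiv.Set.univ α), Nat.card_congr e]
      exact (Nat.card_congr (QuotientGroup.quotientBot (G := G)).toEquiv).symm
    rwa [hcard] at hp
  · apply hc
    obtain ⟨k, hk⟩ := MulAction.exists_smul_eq G a c
    rw [← hk, MulAction.stabilizer_smul_eq_stabilizer_map_conj, hbot, Subgroup.map_bot]

end Cfsg.Agent.S0707
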