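import Cfsg.Statements.S0710
import Mathlib
import Cfsg.Agent.Lib.PermTwo

set_option autoImplicit false
open Cfsg

namespace Cfsg.Agent.S0710

open Cfsg.Agent.Lib.PermTwo

/-- No transitive permutation group on 13 points has order `13 * 12 * 11 * 10 * 9 * 8`. -/
theorem result {α : Type*} [Fintype α] [DecidableEq α] (hα : Fintype.card α = 13) (G : Subgroup (Equiv.Perm α)) [MulAction.IsPretransitive G α] : Nat.card G ≠ 13 * 12 * 11 * 10 * 9 * 8 := by
  intro hcard
  haveI hp13 : Fact (Nat.Prime 13) := ⟨by norm_num⟩
  obtain ⟨P⟩ := (inferInstance : Nonempty (Sylow 13 G))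
  have hmod : Nat.card (Sylow 13 G) ≡ 1 [MOD 13] := card_sylow_modEq_one 13 G
  have hdvd : 13 ∣ Nat.card (P : Subgroup G) := by
    apply P.dvd_card_of_dvd_card
    rw [hcard]; norm_num
  haveI hnt : Nontrivial (P : Subgroup G) := by
    rw [← Finite.one_lt_card_iff_nontrivial]
    exact lt_of_lt_of_le (by norm_num) (Nat.le_of_dvd Nat.card_pos hdvd)
  have hα' : Nat.card α = 13 := by rw [Nat.card_eq_fintype_card, hα]
  haveI : FaithfulSMul (P : Subgroup G) α := ⟨fun {g h} hgh => by
    apply Subtype.ext
    apply Subtype.ext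
    ext x
    exact hgh x⟩
  obtain ⟨htr, hst, hP13⟩ := pgroup_prime_degree (K := (P : Subgroup G)) hα' P.2 hnt
  haveI hcyc : IsCyclic (P : Subgroup G) := isCyclic_of_prime_card hP13
  -- the normalizer and centralizer
  set N := Subgroup.normalizer ((P : Subgroup G) : Set G) with hN
  rw [P.card_eq_index_normalizer] at hmod
  have hidx := N.card_mul_index
  -- kernel of the action on `P`
  let φ : N →* MulAut (P : Subgroup G) := Subgroup.normalizerMonoidHom (P : Subgroup G)
  have hker : Nat.card φ.ker = 13 := by
    refine Eq.trans ?_ hP13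
    have h1 : ∀ n : N, n ∈ φ.ker ↔ (n : G) ∈ (P : Subgroup G) := by
      intro n
      have h2 : n ∈ φ.ker ↔ ∀ x : (P : Subgroup G), (n : G) * x * (n : G)⁻¹ = x := by
        rw [MonoidHom.mem_ker]
        constructor
        · intro h x
          have := congrArg (fun f : MulAut (P : Subgroup G) => ((f x : (P : Subgroup G)) : G)) h
          exact this
        · intro h
          apply MulEquiv.ext
          intro x
          apply Subtype.ext
          exact h x
      rw [h2]
      constructor
      · intro h
        haveI : Nonempty α := Fintype.card_pos_iff.1 (by rw [hα]; norm_num)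
        obtain ⟨a⟩ := (inferInstance : Nonempty α)
        obtain ⟨x, hx⟩ := MulAction.exists_smul_eq (P : Subgroup G) a (((n : G) : Equiv.Perm α) a)
        let P' : Subgroup (Equiv.Perm α) := (P : Subgroup G).map G.subtype
        haveI : MulAction.IsPretransitive P' α := ⟨fun u v => by
          obtain ⟨y, hy⟩ := MulAction.exists_smul_eq (P : Subgroup G) u v
          exact ⟨⟨_, y, y.2, rfl⟩, hy⟩⟩
        have hc1 : ((n : G) : Equiv.Perm α) ∈ Subgroup.centralizer (P' : Set (Equiv.Perm α)) := by
          rw [Subgroup.mem_centralizer_iff]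
          rintro _ ⟨y, hy, rfl⟩
          have h3 := h ⟨y, hy⟩
          rw [mul_inv_eq_iff_eq_mul] at h3
          exact congrArg (fun z : G => (z : Equiv.Perm α)) h3.symm
        have hc2 : ((x : G) : Equiv.Perm α) ∈ Subgroup.centralizer (P' : Set (Equiv.Perm α)) := by
          rw [Subgroup.mem_centralizer_iff]
          rintro _ ⟨y, hy, rfl⟩
          letI := hcyc.commGroup
          have h3 : (⟨y, hy⟩ : (P : Subgroup G)) * x = x * ⟨y, hy⟩ := mul_comm _ _
          exact congrArg (fun z : (P : Subgroup G) => ((z : G) : Equiv.Perm α)) h3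
        have h4 := eq_of_commute (G := P') hc1 hc2 (a := a) hx.symm
        have h5 : (n : G) = x := Subtype.ext h4
        rw [h5]; exact x.2
      · intro h x
        letI := hcyc.commGroup
        have h3 : (⟨(n : G), h⟩ : (P : Subgroup G)) * x = x * ⟨(n : G), h⟩ := mul_comm _ _
        have h4 : (n : G) * x = x * (n : G) := congrArg (fun z : (P : Subgroup G) => (z : G)) h3
        rw [h4]; group
    refine Nat.card_congr
      { toFun := fun n => ⟨n.1.1, (h1 n.1).1 n.2⟩
        invFun := fun x => ⟨⟨x.1, Subgroup.le_normalizer x.2⟩, (h1 _).2 x.2⟩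
        left_inv := fun n => rfl
        right_inv := fun x => rfl }
  have hcN : Nat.card N = 13 * Nat.card φ.range := by
    have h1 := φ.ker.card_mul_index
    rw [Subgroup.index_ker, hker] at h1
    exact h1.symm
  have hd : Nat.card φ.range ∣ 12 := by
    have h1 : Nat.card φ.range ∣ Nat.card (MulAut (P : Subgroup G)) := Subgroup.card_subgroup_dvd_card _
    rw [IsCyclic.card_mulAut, hP13] at h1
    have h2 : Nat.totient 13 = 12 := by decide
    rwa [h2] at h1
  have hidx' : N.index * Nat.card φ.range = 95040 := by
    rw [hcN, hcard] at hidx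
    have h1 : 13 * (N.index * Nat.card φ.range) = 13 * 95040 := by
      rw [← hidx]; ring
    omega
  have hdl : Nat.card φ.range ≤ 12 := Nat.le_of_dvd (by norm_num) hd
  have hmod' : N.index ≡ 1 [MOD 13] := hmod
  generalize Nat.card φ.range = d at *
  generalize N.index = m at *
  have hmm : m = 95040 / d := by
    rw [← hidx']
    have : 0 < d := by
      rcases Nat.eq_zero_or_pos d with h | h
      · rw [h] at hidx'; omega
      · exact h
    rw [Nat.mul_div_cancel _ this]
  subst hmm
  unfold Nat.ModEq at hmod'
  interval_cases d <;> revert hmod' hd <;> decide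

end Cfsg.Agent.S0710
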