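import Cfsg.Statements.S0722
import Mathlib
import Cfsg.Agent.Lib.Basic

set_option autoImplicit false
open Cfsg

namespace Cfsg.Agent.S0722

/-- In a primitive group `H`, with `N` a minimal normal subgroup and `K` a point stabiliser, `K ⊓ N` is maximal among proper `K`-invariant subgroups of `N`. -/
theorem result {α : Type*} [Finite α] (H : Subgroup (Equiv.Perm α)) [MulAction.IsPreprimitive H α] (N : Subgroup H) [N.Normal] (hN : N ≠ ⊥) (hmin : ∀ M : Subgroup H, M.Normal → M ≤ N → M = ⊥ ∨ M = N) (a : α) (X : Subgroup H) (hX : X ≤ N) (hKX : MulAction.stabilizer H a ⊓ N ≤ X) (hinv : MulAction.stabilizer H a ≤ Subgroup.normalizer (X : Set H)) : X = MulAction.stabilizer H a ⊓ N ∨ X = N := by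
  have hne : Nontrivial α := by
    by_contra hnt
    rw [not_nontrivial_iff_subsingleton] at hnt
    apply hN
    rw [eq_bot_iff]
    intro x _
    rw [Subgroup.mem_bot]
    ext y
    exact Subsingleton.elim _ _
  have hmax : IsCoatom (MulAction.stabilizer H a) :=
    (MulAction.isCoatom_stabilizer_iff_preprimitive H a).2 inferInstance
  have h1 := hmax.le_iff.1 (le_sup_left : MulAction.stabilizer H a ≤ MulAction.stabilizer H a ⊔ X)
  rcases h1 with h1 | h1
  · right
    apply le_antisymm hX
    intro n hn
    have hn' : n ∈ MulAction.stabilizer H a ⊔ X := by rw [h1]; trivial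
    rw [sup_comm, Cfsg.Agent.Lib.Basic.mem_sup_iff_left hinv] at hn'
    obtain ⟨x, hx, k, hk, rfl⟩ := hn'
    refine X.mul_mem hx (hKX ⟨hk, ?_⟩)
    have := N.mul_mem (N.inv_mem (hX hx)) hn
    simpa using this
  · left
    apply le_antisymm _ hKX
    exact le_inf (by rw [← h1]; exact le_sup_right) hX

end Cfsg.Agent.S0722
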