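import Cfsg.Statements.S0724
import Mathlib

set_option autoImplicit false
open Cfsg

namespace Cfsg.Agent.S0724

/-- Blichfeldt's Theorem: if a finite set `L` of natural numbers contains the number of fixed points of every non-identity element of a permutation group `G` of degree `n`, then the order of `G` divides `∏ (n - l)` over `l ∈ L`. -/
theorem result {α : Type*} [Fintype α] [DecidableEq α] (G : Subgroup (Equiv.Perm α)) (L : Finset ℕ) (hL : ∀ g ∈ G, g ≠ 1 → Nat.card (MulAction.fixedBy α g) ∈ L) : Nat.card G ∣ ∏ l ∈ L, (Fintype.card α - l) := by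
  classical
  by_cases hbig : ∃ l ∈ L, Fintype.card α ≤ l
  · obtain ⟨l, hl, hle⟩ := hbig
    rw [Finset.prod_eq_zero hl (Nat.sub_eq_zero_of_le hle)]
    exact dvd_zero _
  push Not at hbig
  haveI := Fintype.ofFinite G
  -- powers of the permutation character
  have hpow : ∀ k : ℕ, (Nat.card G : ℤ) ∣ ∑ g : G, ((Nat.card (MulAction.fixedBy α (g : Equiv.Perm α)) : ℤ)) ^ k := by
    intro k
    have h1 := MulAction.sum_card_fixedBy_eq_card_orbits_mul_card_group G (Fin k → α)
    have h2 : ∀ g : G, Fintype.card (MulAction.fixedBy (Fin k → α) g) =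
        (Nat.card (MulAction.fixedBy α (g : Equiv.Perm α))) ^ k := by
      intro g
      have e : MulAction.fixedBy (Fin k → α) g ≃ (Fin k → MulAction.fixedBy α (g : Equiv.Perm α)) :=
        { toFun := fun f i => ⟨f.1 i, congrFun f.2 i⟩
          invFun := fun f => ⟨fun i => (f i).1, funext fun i => (f i).2⟩
          left_inv := fun f => rfl
          right_inv := fun f => rfl }
      rw [← Nat.card_eq_fintype_card, Nat.card_congr e, Nat.card_fun]
      simp
    rw [Finset.sum_congr rfl fun g _ => h2 g] at h1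
    have h3 : (∑ g : G, ((Nat.card (MulAction.fixedBy α (g : Equiv.Perm α)) : ℤ)) ^ k) =
        ((∑ g : G, (Nat.card (MulAction.fixedBy α (g : Equiv.Perm α))) ^ k : ℕ) : ℤ) := by
      push_cast; rfl
    rw [h3, h1, Nat.card_eq_fintype_card]
    push_cast
    exact dvd_mul_left _ _
  -- polynomials
  have hpoly : ∀ P : Polynomial ℤ, (Nat.card G : ℤ) ∣ ∑ g : G, P.eval ((Nat.card (MulAction.fixedBy α (g : Equiv.Perm α)) : ℤ)) := by
    intro P
    have h1 : ∀ g : G, P.eval ((Nat.card (MulAction.fixedBy α (g : Equiv.Perm α)) : ℤ)) =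
        ∑ i ∈ Finset.range (P.natDegree + 1), P.coeff i * ((Nat.card (MulAction.fixedBy α (g : Equiv.Perm α)) : ℤ)) ^ i :=
      fun g => Polynomial.eval_eq_sum_range _
    rw [Finset.sum_congr rfl fun g _ => h1 g, Finset.sum_comm]
    refine Finset.dvd_sum fun i _ => ?_
    rw [← Finset.mul_sum]
    exact Dvd.dvd.mul_left (hpow i) _
  have h1 := hpoly (∏ l ∈ L, (Polynomial.X - Polynomial.C (l : ℤ)))
  have h2 : ∀ g : G, (∏ l ∈ L, (Polynomial.X - Polynomial.C (l : ℤ))).eval ((Nat.card (MulAction.fixedBy α (g : Equiv.Perm α)) : ℤ)) =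
      ∏ l ∈ L, ((Nat.card (MulAction.fixedBy α (g : Equiv.Perm α)) : ℤ) - l) := by
    intro g
    rw [Polynomial.eval_prod]
    simp
  rw [Finset.sum_congr rfl fun g _ => h2 g] at h1
  rw [Finset.sum_eq_single (1 : G)] at h1
  · have h3 : Nat.card (MulAction.fixedBy α ((1 : G) : Equiv.Perm α)) = Fintype.card α := by
      have : MulAction.fixedBy α ((1 : G) : Equiv.Perm α) = Set.univ := by
        ext x
        simp
      rw [this, Nat.card_univ, Nat.card_eq_fintype_card]
    rw [h3] at h1
    have h4 : ∏ l ∈ L, ((Fintype.card α : ℤ) - l) = ((∏ l ∈ L, (Fintype.card α - l) : ℕ) : ℤ) := by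
      push_cast
      refine Finset.prod_congr rfl fun l hl => ?_
      rw [Nat.cast_sub (hbig l hl).le]
    rw [h4] at h1
    exact_mod_cast h1
  · intro g _ hg
    refine Finset.prod_eq_zero (hL g g.2 (fun h => hg (Subtype.ext h))) ?_
    simp
  · intro h; exact absurd (Finset.mem_univ _) h

end Cfsg.Agent.S0724
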