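import Cfsg.Statements.S0726
import Mathlib

set_option autoImplicit false
open Cfsg

namespace Cfsg.Agent.S0726

/-- The left and right regular permutation representations of a group are each other's centralisers in the symmetric group: the centraliser of the left regular image is the right regular image, and a transitive subgroup centralising the left regular image is the whole right regular image. -/
theorem result {G : Type*} [Group G] : Subgroup.centralizer ((MulAction.toPermHom G G).range : Set (Equiv.Perm G)) = (MulAction.toPermHom Gᵐᵒᵖ G).range ∧ ∀ H : Subgroup (Equiv.Perm G), H ≤ Subgroup.centralizer ((MulAction.toPermHom G G).range : Set (Equiv.Perm G)) → MulAction.IsPretransitive H G → H = (MulAction.toPermHom Gᵐᵒᵖ G).range := by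
  have key : ∀ σ : Equiv.Perm G, σ ∈ Subgroup.centralizer ((MulAction.toPermHom G G).range : Set (Equiv.Perm G)) →
      ∀ x, σ x = x * σ 1 := by
    intro σ hσ x
    rw [Subgroup.mem_centralizer_iff] at hσ
    have := hσ (MulAction.toPermHom G G x) ⟨x, rfl⟩
    have h2 := congrArg (fun τ : Equiv.Perm G => τ 1) this
    simp only [Equiv.Perm.mul_apply, MulAction.toPermHom_apply, MulAction.toPerm_apply, smul_eq_mul, mul_one] at h2
    exact h2.symm
  have heq : ∀ (σ : Equiv.Perm G) (g : G), (∀ x, σ x = x * g) → σ = MulAction.toPermHom Gᵐᵒᵖ G (MulOpposite.op g) := by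
    intro σ g h
    ext x
    simp [h x]
  constructor
  · ext σ
    constructor
    · intro hσ
      exact ⟨MulOpposite.op (σ 1), (heq σ _ (key σ hσ)).symm⟩
    · rintro ⟨g, rfl⟩
      rw [Subgroup.mem_centralizer_iff]
      rintro _ ⟨h, rfl⟩
      ext x
      simp [mul_assoc]
  · intro H hH htr
    apply le_antisymm
    · intro σ hσ
      exact ⟨MulOpposite.op (σ 1), (heq σ _ (key σ (hH hσ))).symm⟩
    · rintro _ ⟨g, rfl⟩
      obtain ⟨h, hh⟩ := htr.exists_smul_eq (1 : G) g.unop
      have h1 : (h : Equiv.Perm G) 1 = g.unop := hh
      have h2 := key (h : Equiv.Perm G) (hH h.2)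
      have h3 := heq (h : Equiv.Perm G) g.unop (fun x => by rw [h2 x, h1])
      rw [MulOpposite.op_unop] at h3
      rw [← h3]; exact h.2

end Cfsg.Agent.S0726
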