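import Cfsg.Statements.S0731
import Cfsg.Agent.Lib.ZassOdd

set_option autoImplicit false
open Cfsg

namespace Cfsg.Agent.S0731

/-- A finite Zassenhaus group whose point stabiliser has an abelian regular normal subgroup on the remaining points is sharply triply transitive or isomorphic to `PSL(2, F)` for a finite field `F` of odd characteristic. -/
theorem result {G Ω : Type*} [Group G] [Finite G] [MulAction G Ω] [Finite Ω] (hZ : Cfsg.IsZassenhausGroup G Ω) (x : Ω) (F : Subgroup G) (hFle : F ≤ MulAction.stabilizer G x) (hFn : (F.subgroupOf (MulAction.stabilizer G x)).Normal) (hFab : IsMulCommutative F) (hreg : ∀ y z : Ω, y ≠ x → z ≠ x → ∃! u : F, (u : G) • y = z) : (MulAction.IsMultiplyPretransitive G Ω 3 ∧ ∀ t : Fin 3 ↪ Ω, MulAction.stabilizer G t = ⊥) ∨ ∃ (K : Type) (_ : Field K) (_ : Fintype K), ringChar K ≠ 2 ∧ Nonempty (G ≃* Matrix.ProjectiveSpecialLinearGroup (Fin 2) K) := by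
  haveI := Fintype.ofFinite Ω
  haveI : Nontrivial Ω := by
    obtain ⟨-, -, -, ⟨g, -, a, b, hab, -, -⟩, -⟩ := id hZ
    exact ⟨⟨a, b, hab⟩⟩
  obtain ⟨y, hy⟩ := exists_ne x
  obtain ⟨h1, h2⟩ := Cfsg.Agent.Lib.ZassAb.of_regular hy.symm F hFle hreg
  exact Cfsg.Agent.Lib.ZassOdd.abelian_kernel hZ hy.symm F hFle h1 h2 (fun u hu v hv =>
    congrArg Subtype.val (hFab.is_comm.comm (⟨u, hu⟩ : F) ⟨v, hv⟩))
end Cfsg.Agent.S0731
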