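import Cfsg.Statements.S0733
import Mathlib

set_option autoImplicit false
open Cfsg

namespace Cfsg.Agent.S0733

open scoped Pointwise

/-- A permutation group of affine type — generated by the translations of a finite vector space `V` over `ZMod p` together with a group `G₀` of linear automorphisms — is primitive on `V` if and only if `G₀` is irreducible on `V`. -/
theorem result {p : ℕ} [Fact p.Prime] {V : Type*} [AddCommGroup V] [Module (ZMod p) V] [Finite V] [Nontrivial V] (G₀ : Subgroup (V ≃ₗ[ZMod p] V)) (G : Subgroup (Equiv.Perm V)) (hG : ∀ σ : Equiv.Perm V, σ ∈ G ↔ ∃ g ∈ G₀, ∃ b : V, ∀ x : V, σ x = (g : V ≃ₗ[ZMod p] V) x + b) : MulAction.IsPreprimitive G V ↔ ∀ W : Submodule (ZMod p) V, (∀ g ∈ G₀, ∀ v ∈ W, (g : V ≃ₗ[ZMod p] V) v ∈ W) → W = ⊥ ∨ W = ⊤ := by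
  have htransl : ∀ b : V, (Equiv.addRight b : Equiv.Perm V) ∈ G := fun b =>
    (hG _).2 ⟨1, G₀.one_mem, b, fun x => rfl⟩
  have hlin : ∀ g ∈ G₀, ((g : V ≃ₗ[ZMod p] V).toEquiv : Equiv.Perm V) ∈ G := fun g hg =>
    (hG _).2 ⟨g, hg, 0, fun x => by rw [add_zero]; rfl⟩
  haveI htr : MulAction.IsPretransitive G V := ⟨fun x y => ⟨⟨_, htransl (y - x)⟩, by
    change x + (y - x) = y
    abel⟩⟩
  constructor
  · intro hprim W hW
    have hB : MulAction.IsBlock G (W : Set V) := by
      rw [MulAction.isBlock_iff_smul_eq_of_mem]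
      rintro ⟨σ, hσ⟩ a ha hσa
      obtain ⟨g, hg, b, hgb⟩ := (hG σ).1 hσ
      have hga : (g : V ≃ₗ[ZMod p] V) a ∈ W := hW g hg a ha
      have h1 : σ a ∈ W := hσa
      have hb : b ∈ W := by
        rw [hgb a] at h1
        exact (W.add_mem_iff_right hga).1 h1
      apply Set.eq_of_subset_of_ncard_le
      · rintro _ ⟨x, hx, rfl⟩
        change σ x ∈ W
        rw [hgb x]
        exact W.add_mem (hW g hg x hx) hb
      · rw [Set.ncard_smul_set]
      · exact Set.toFinite _
    rcases hprim.isTrivialBlock_of_isBlock hB with h | h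
    · left
      rw [eq_bot_iff]
      intro x hx
      exact (Submodule.mem_bot _).2 (h hx W.zero_mem)
    · right
      rw [eq_top_iff]
      intro x _
      have : x ∈ (W : Set V) := by rw [h]; trivial
      exact this
  · intro hirr
    refine MulAction.IsPreprimitive.of_isTrivialBlock_base (0 : V) fun {B} h0 hB => ?_
    rw [MulAction.isBlock_iff_smul_eq_of_mem] at hB
    have hadd : ∀ x ∈ B, ∀ y ∈ B, x + y ∈ B := by
      intro x hx y hy
      have h1 : (⟨_, htransl x⟩ : G) • (0 : V) ∈ B := by
        change 0 + x ∈ B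
        rw [zero_add]; exact hx
      have h2 := hB h0 h1
      rw [← h2]
      refine ⟨y, hy, ?_⟩
      change y + x = x + y
      exact add_comm _ _
    let W : Submodule (ZMod p) V :=
      { carrier := B
        add_mem' := fun {x y} hx hy => hadd x hx y hy
        zero_mem' := h0
        smul_mem' := fun c x hx => by
          have hn : ∀ n : ℕ, n • x ∈ B := by
            intro n
            induction n with
            | zero => rw [zero_smul]; exact h0
            | succ n ih => rw [succ_nsmul]; exact hadd _ ih _ hx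
          have h1 : c • x = c.val • x := by
            rw [← Nat.cast_smul_eq_nsmul (ZMod p), ZMod.natCast_zmod_val]
          rw [h1]
          exact hn _ }
    have hWinv : ∀ g ∈ G₀, ∀ v ∈ W, (g : V ≃ₗ[ZMod p] V) v ∈ W := by
      intro g hg v hv
      have h1 : (⟨_, hlin g hg⟩ : G) • (0 : V) ∈ B := by
        change (g : V ≃ₗ[ZMod p] V) 0 ∈ B
        rw [map_zero]; exact h0
      have h2 := hB h0 h1
      change (g : V ≃ₗ[ZMod p] V) v ∈ B
      rw [← h2]
      exact ⟨v, hv, rfl⟩
    rcases hirr W hWinv with h | h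
    · left
      intro x hx y hy
      have hx' : x ∈ W := hx
      have hy' : y ∈ W := hy
      rw [h, Submodule.mem_bot] at hx' hy'
      rw [hx', hy']
    · right
      rw [Set.eq_univ_iff_forall]
      intro x
      have : x ∈ W := by rw [h]; trivial
      exact this

end Cfsg.Agent.S0733
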