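import Cfsg.Statements.S0734
import Mathlib

set_option autoImplicit false
open Cfsg

namespace Cfsg.Agent.S0734

open scoped Pointwise

/-- Higman's criterion for primitivity: a transitive action on a finite set is primitive if and only if every non-trivial orbital graph (edges = images of a fixed pair of distinct points) is connected. -/
theorem result {G : Type*} [Group G] {Ω : Type*} [Finite Ω] [MulAction G Ω] [MulAction.IsPretransitive G Ω] [Nontrivial Ω] : MulAction.IsPreprimitive G Ω ↔ ∀ a b : Ω, a ≠ b → (SimpleGraph.fromRel fun x y : Ω => ∃ g : G, g • a = x ∧ g • b = y).Connected := by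
  let Γ : Ω → Ω → SimpleGraph Ω := fun a b => SimpleGraph.fromRel fun x y : Ω => ∃ g : G, g • a = x ∧ g • b = y
  -- adjacency is `G`-invariant
  have hinv : ∀ (a b : Ω) (g : G) (x y : Ω), (Γ a b).Adj x y → (Γ a b).Adj (g • x) (g • y) := by
    intro a b g x y h
    rw [SimpleGraph.fromRel_adj] at h ⊢
    refine ⟨fun e => h.1 (smul_left_cancel g e), ?_⟩
    rcases h.2 with ⟨k, rfl, rfl⟩ | ⟨k, rfl, rfl⟩
    · left; exact ⟨g * k, by rw [mul_smul], by rw [mul_smul]⟩
    · right; exact ⟨g * k, by rw [mul_smul], by rw [mul_smul]⟩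
  have hreach : ∀ (a b : Ω) (g : G) (x y : Ω), (Γ a b).Reachable x y → (Γ a b).Reachable (g • x) (g • y) := by
    intro a b g x y h
    obtain ⟨w⟩ := h
    induction w with
    | nil => exact SimpleGraph.Reachable.refl _
    | cons hadj _ ih => exact (hinv a b g _ _ hadj).reachable.trans ih
  constructor
  · intro hprim a b hab
    have hadj : (Γ a b).Adj a b := by
      rw [SimpleGraph.fromRel_adj]
      exact ⟨hab, Or.inl ⟨1, one_smul _ _, one_smul _ _⟩⟩
    let B : Set Ω := {x | (Γ a b).Reachable a x}
    have hB : MulAction.IsBlock G B := by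
      rw [MulAction.isBlock_iff_smul_eq_of_mem]
      intro g x hx hgx
      have hx' : (Γ a b).Reachable a x := hx
      have hgx' : (Γ a b).Reachable a (g • x) := hgx
      have h1 : (Γ a b).Reachable (g • a) a := (hreach a b g _ _ hx').trans hgx'.symm
      ext y
      rw [Set.mem_smul_set_iff_inv_smul_mem]
      change (Γ a b).Reachable a (g⁻¹ • y) ↔ (Γ a b).Reachable a y
      constructor
      · intro h
        have h2 := hreach a b g _ _ h
        rw [smul_inv_smul] at h2
        exact h1.symm.trans h2
      · intro h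
        have h2 := hreach a b g⁻¹ _ _ (h1.trans h)
        rwa [inv_smul_smul] at h2
    rcases hprim.isTrivialBlock_of_isBlock hB with h | h
    · exfalso
      exact hab (h (SimpleGraph.Reachable.refl _ : a ∈ B) hadj.reachable)
    · rw [SimpleGraph.connected_iff]
      refine ⟨?_, ⟨a⟩⟩
      intro x y
      have hx : x ∈ B := by rw [h]; trivial
      have hy : y ∈ B := by rw [h]; trivial
      exact (SimpleGraph.Reachable.symm hx).trans hy
  · intro hconn
    refine ⟨fun {B} hB => ?_⟩
    by_cases hsub : B.Subsingleton
    · exact Or.inl hsub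
    right
    rw [Set.not_subsingleton_iff] at hsub
    obtain ⟨a, ha, b, hb, hab⟩ := hsub
    rw [Set.eq_univ_iff_forall]
    have hstep : ∀ x y, (Γ a b).Adj x y → x ∈ B → y ∈ B := by
      intro x y hxy hx
      rw [SimpleGraph.fromRel_adj] at hxy
      rcases hxy.2 with ⟨g, rfl, rfl⟩ | ⟨g, rfl, rfl⟩
      · have := (MulAction.isBlock_iff_smul_eq_of_mem.1 hB) ha hx
        rw [← this]
        exact Set.smul_mem_smul_set hb
      · have := (MulAction.isBlock_iff_smul_eq_of_mem.1 hB) hb hx
        rw [← this]
        exact Set.smul_mem_smul_set ha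
    intro x
    obtain ⟨w⟩ := (hconn a b hab).preconnected a x
    have hwalk : ∀ u v : Ω, (Γ a b).Walk u v → u ∈ B → v ∈ B := by
      intro u v w
      induction w with
      | nil => exact id
      | cons hadj _ ih => exact fun hu => ih (hstep _ _ hadj hu)
    exact hwalk a x w ha

end Cfsg.Agent.S0734
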