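import Cfsg.Statements.S0739
import Cfsg.Agent.Lib.ZassCyc

set_option autoImplicit false
open Cfsg

namespace Cfsg.Agent.S0739

open Cfsg.Agent.Lib.ZassCyc Cfsg.Agent.Lib.ZassNorm Cfsg.Agent.Lib.ZassInv Cfsg.Agent.Lib.ZassChar Cfsg.Agent.Lib.Zass

/-- In a finite Zassenhaus group whose two-point stabiliser `H = G_{a,b}` has odd order `d`, and which has no normal `q`-complement for any prime `q ∣ d`, `H` is cyclic, `C_G(H) = H`, and every element swapping `a` and `b` inverts each element of `H`. -/
theorem result {G Ω : Type*} [Group G] [Finite G] [MulAction G Ω] [Fintype Ω] (hZ : Cfsg.IsZassenhausGroup G Ω) {a b : Ω} (hab : a ≠ b) (hodd : Odd (Nat.card ↥(MulAction.stabilizer G a ⊓ MulAction.stabilizer G b))) (hnil : ∀ q : ℕ, q.Prime → q ∣ Nat.card ↥(MulAction.stabilizer G a ⊓ MulAction.stabilizer G b) → ¬ ∃ N : Subgroup G, N.Normal ∧ N.index = q ^ (Nat.card G).factorization q) : IsCyclic ↥(MulAction.stabilizer G a ⊓ MulAction.stabilizer G b) ∧ Subgroup.centralizer ((MulAction.stabilizer G a ⊓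 MulAction.stabilizer G b : Subgroup G) : Set G) = MulAction.stabilizer G a ⊓ MulAction.stabilizer G b ∧ ∀ s : G, s • a = b → s • b = a → ∀ h ∈ MulAction.stabilizer G a ⊓ MulAction.stabilizer G b, s * h * s⁻¹ = h⁻¹ := by
  classical
  have hcop := coprime_of_no_compl hZ hab hodd hnil
  obtain ⟨t, hta, htb⟩ := exists_swap hZ hab
  have hcomm := (inverts' hZ hab hodd hcop hta htb).1
  have hcyc : IsCyclic ↥(MulAction.stabilizer G a ⊓ MulAction.stabilizer G b) := by
    haveI := zgroup hZ hab hodd
    haveI : Group.IsNilpotent ↥(MulAction.stabilizer G a ⊓ MulAction.stabilizer G b) := by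
      letI : CommGroup ↥(MulAction.stabilizer G a ⊓ MulAction.stabilizer G b) :=
        { (inferInstance : Group ↥(MulAction.stabilizer G a ⊓ MulAction.stabilizer G b)) with
          mul_comm := fun x y => Subtype.ext (hcomm x.1 x.2 y.1 y.2) }
      exact CommGroup.isNilpotent
    infer_instance
  refine ⟨hcyc, ?_, fun s hsa hsb x hx => (inverts' hZ hab hodd hcop hsa hsb).2 x hx⟩
  apply le_antisymm
  · intro g hg
    haveI : Nontrivial ↥(MulAction.stabilizer G a ⊓ MulAction.stabilizer G b) :=
      Finite.one_lt_card_iff_nontrivial.mp (two_lt hZ hab).1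
    obtain ⟨x, hx1⟩ := exists_ne (1 : ↥(MulAction.stabilizer G a ⊓ MulAction.stabilizer G b))
    have hx1' : (x : G) ≠ 1 := fun h => hx1 (Subtype.ext h)
    have hgx : (x : G) * g = g * x := Subgroup.mem_centralizer_iff.mp hg x.1 x.2
    obtain ⟨hxa, hxb⟩ := mem_two.mp x.2
    have hga : (x : G) • (g • a) = g • a := by rw [← mul_smul, hgx, mul_smul, hxa]
    have hgb : (x : G) • (g • b) = g • b := by rw [← mul_smul, hgx, mul_smul, hxb]
    have h1 : g • a = a ∨ g • a = b := S0879.fix_pair hZ hab x.2 hx1' hga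
    have h2 : g • b = a ∨ g • b = b := S0879.fix_pair hZ hab x.2 hx1' hgb
    have hne : g • a ≠ g • b := fun h => hab (MulAction.injective g h)
    rcases h1 with h1 | h1
    · rcases h2 with h2 | h2
      · exact absurd (h1.trans h2.symm) hne
      · exact mem_two.mpr ⟨h1, h2⟩
    · rcases h2 with h2 | h2
      · exfalso
        have h3 := (inverts' hZ hab hodd hcop h1 h2).2 x.1 x.2
        have h4 : g * (x : G) * g⁻¹ = x := by rw [← hgx]; group
        rw [h4] at h3
        have h5 : (x : G) ^ 2 = 1 := by rw [pow_two]; nth_rw 1 [h3]; exact inv_mul_cancel _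
        have h6 : x ^ 2 = 1 := Subtype.ext (by simpa using h5)
        have h7 : orderOf x ∣ Nat.gcd 2 (Nat.card ↥(MulAction.stabilizer G a ⊓ MulAction.stabilizer G b)) :=
          Nat.dvd_gcd (orderOf_dvd_of_pow_eq_one h6) (orderOf_dvd_natCard _)
        rw [Nat.Coprime.gcd_eq_one (Nat.coprime_two_left.mpr hodd), Nat.dvd_one, orderOf_eq_one_iff] at h7
        exact hx1 h7
      · exact absurd (h1.trans h2.symm) hne
  · intro g hg
    rw [Subgroup.mem_centralizer_iff]
    intro h hh
    exact hcomm h hh g hg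
end Cfsg.Agent.S0739
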