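import Cfsg.Statements.S0751
import Mathlib
import Cfsg.Agent.Lib.Herm4
-- import your own Cfsg.Agent.* helpers here

set_option autoImplicit false
open Cfsg
set_option linter.all false

namespace Cfsg.Agent.S0751

/-- Witt's Lemma for Hermitian forms. Let σ be a non-identity involutive automorphism of a finite field F and B a non-degenerate σ-sesquilinear form on a finite-dimensional F-space V which is conjugate-symmetric (σ (B x y) = B y x). Then every linear equivalence between subspaces X, Y of V preserving B extends to a B-preserving linear automorphism of V. -/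
theorem result {F V : Type*} [Field F] [Finite F] [AddCommGroup V] [Module F V] [FiniteDimensional F V] (σ : F →+* F) (hσ : σ ≠ RingHom.id F) (hσ2 : ∀ a : F, σ (σ a) = a) (B : V →ₛₗ[σ] V →ₗ[F] F) (hS : B.IsSymm) (hB : B.Nondegenerate) (X Y : Submodule F V) (φ : X ≃ₗ[F] Y) (hφ : ∀ x x' : X, B (φ x : V) (φ x' : V) = B (x : V) (x' : V)) : ∃ g : V ≃ₗ[F] V, (∀ u v : V, B (g u) (g v) = B u v) ∧ ∀ x : X, g (x : V) = (φ x : V) := by
  classical
  let B' := Cfsg.Agent.Lib.Herm.ofLM' σ hσ2 B hS
  have hND : B'.ND := fun x hx => hB.2 x hx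
  let b := Module.finBasis F X
  have hv : LinearIndependent F (fun i => ((b i : X) : V)) :=
    b.linearIndependent.map' X.subtype (Submodule.ker_subtype X)
  have hw : LinearIndependent F (fun i => ((φ (b i) : Y) : V)) :=
    (b.linearIndependent.map' φ.toLinearMap φ.ker).map' Y.subtype (Submodule.ker_subtype Y)
  obtain ⟨g, hg, hg2⟩ := hND.witt (Cfsg.Agent.Lib.Herm.orderOf_mkEquiv hσ hσ2) hv hw
    (fun i j => (hφ (b j) (b i)).symm)
  refine ⟨g, fun u v => hg v u, ?_⟩
  intro x
  have h1 : ((g : V →ₗ[F] V).comp X.subtype) = Y.subtype.comp φ.toLinearMap := by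
    apply b.ext
    intro i
    exact hg2 i
  exact congrArg (fun f => f x) h1


end Cfsg.Agent.S0751
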