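import Cfsg.Statements.S0753
import Mathlib
import Cfsg.Agent.Lib.Herm4
-- import your own Cfsg.Agent.* helpers here

set_option autoImplicit false
open Cfsg
set_option linter.all false

namespace Cfsg.Agent.S0753

/-- If σ is a ring endomorphism of the field F other than the identity and B is a σ-sesquilinear conjugate-symmetric form with B v v = 0 for every v, then B = 0. -/
theorem result {F V : Type*} [Field F] [AddCommGroup V] [Module F V] (σ : F →+* F) (hσ : σ ≠ RingHom.id F) (B : V →ₛₗ[σ] V →ₗ[F] F) (hS : B.IsSymm) (h0 : ∀ v : V, B v v = 0) : B = 0 := by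
  obtain ⟨a, ha⟩ : ∃ a, σ a ≠ a := by
    by_contra h
    push Not at h
    exact hσ (RingHom.ext h)
  ext x y
  by_contra hxy
  have hxy' : B x y ≠ 0 := hxy
  have key : ∀ c : F, c + σ c = 0 := by
    intro c
    have h1 := h0 (x + (c * (B x y)⁻¹) • y)
    have h2 : B y x = σ (B x y) := (hS.eq x y).symm
    simp only [map_add, LinearMap.add_apply, LinearMap.map_smulₛₗ, LinearMap.smul_apply, smul_eq_mul,
      h0, h2, map_mul, map_inv₀, map_smul, RingHom.id_apply] at h1
    have h3 : σ (B x y) ≠ 0 := by
      rw [Ne, map_eq_zero_iff σ σ.injective]; exact hxy'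
    field_simp at h1
    have h4 : (σ (B x y) * B x y) * (c + σ c) = 0 := by linear_combination h1
    exact (mul_eq_zero.mp h4).resolve_left (mul_ne_zero h3 hxy')
  have h2 := key 1
  rw [map_one] at h2
  have h3 := key a
  exact ha (by linear_combination h3 - a * h2)


end Cfsg.Agent.S0753
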