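import Cfsg.Statements.S0754
import Mathlib
import Cfsg.Agent.Lib.Herm4
-- import your own Cfsg.Agent.* helpers here

set_option autoImplicit false
open Cfsg
set_option linter.all false

namespace Cfsg.Agent.S0754

/-- In a field F with q^2 elements, every non-zero μ with μ^q = μ (that is, μ in the subfield of order q) has exactly q + 1 solutions λ of λ^(q+1) = μ. -/
theorem result {F : Type*} [Field F] [Fintype F] {q : ℕ} (hF : Fintype.card F = q ^ 2) (μ : F) (hμ : μ ≠ 0) (hμq : μ ^ q = μ) : Nat.card {x : F // x ^ (q + 1) = μ} = q + 1 := by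
  obtain ⟨σ, hσ, hq⟩ := Cfsg.Agent.Lib.Herm.exists_sigma hF
  refine (Nat.card_congr (Equiv.subtypeEquivRight fun v => ?_)).trans
    (Cfsg.Agent.Lib.Herm.card_norm_sol hF hσ hq hμ (by rw [hq, hμq]))
  rw [hq, pow_succ']


end Cfsg.Agent.S0754
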