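import Cfsg.Statements.S0755
import Mathlib
import Cfsg.Agent.Lib.Herm4
-- import your own Cfsg.Agent.* helpers here

set_option autoImplicit false
open Cfsg
set_option linter.all false

namespace Cfsg.Agent.S0755

/-- Classification of Hermitian forms over finite fields: if σ is a non-identity involutive automorphism of the finite field F and B is a non-degenerate conjugate-symmetric σ-sesquilinear form on the finite-dimensional space V, then V has a B-orthonormal basis. -/
theorem result {F V : Type*} [Field F] [Finite F] [AddCommGroup V] [Module F V] [FiniteDimensional F V] (σ : F →+* F) (hσ : σ ≠ RingHom.id F) (hσ2 : ∀ a : F, σ (σ a) = a) (B : V →ₛₗ[σ] V →ₗ[F] F) (hS : B.IsSymm) (hB : B.Nondegenerate) : ∃ b : Module.Basis (Fin (Module.finrank F V)) F V, ∀ i j, B (b i) (b j) = if i = j then 1 else 0 := by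
  classical
  let B' := Cfsg.Agent.Lib.Herm.ofLM' σ hσ2 B hS
  have hND : B'.ND := fun x hx => hB.2 x hx
  obtain ⟨e, he⟩ := B'.exists_ON (Cfsg.Agent.Lib.Herm.orderOf_mkEquiv hσ hσ2) hND
  have hc : Fintype.card (Fin (Module.finrank F V)) = Module.finrank F V := by simp
  let b := basisOfLinearIndependentOfCardEqFinrank' e he.li hc
  have eb : ∀ i, b i = e i := fun i => by simp [b]
  refine ⟨b, fun i j => ?_⟩
  rw [eb, eb]
  by_cases hij : i = j
  · subst hij; rw [if_pos rfl]; exact he.1 i
  · rw [if_neg hij]; exact he.2 j i (Ne.symm hij)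


end Cfsg.Agent.S0755
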