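import Cfsg.Statements.S0757
import Mathlib
import Cfsg.Agent.Lib.Orth17
-- import your own Cfsg.Agent.* helpers here

set_option autoImplicit false
open Cfsg
set_option linter.all false

namespace Cfsg.Agent.S0757

/-- The two diagonal forms Σ x_i^2 and Σ_(i<n) x_i^2 + α x_n^2 on F^(n+1), with α a non-square and 2 ≠ 0 in F, are inequivalent quadratic forms (so over a finite field of odd order there are exactly two classes of non-singular symmetric bilinear forms in each dimension). -/
theorem result {F : Type*} [Field F] (h2 : (2 : F) ≠ 0) (n : ℕ) (α : F) (hα : ¬ IsSquare α) : ¬ (QuadraticMap.weightedSumSquares F (fun _ : Fin (n + 1) => (1 : F))).Equivalent (QuadraticMap.weightedSumSquares F (fun i : Fin (n + 1) => if i = Fin.last n then α else (1 : F))) := by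
  rintro ⟨e⟩
  have hp : ∀ (w : Fin (n+1) → F) (x y : Fin (n+1) → F), QuadraticMap.polar (QuadraticMap.weightedSumSquares F w) x y
      = ∑ i, 2 * (w i * (x i * y i)) := by
    intro w x y
    simp only [QuadraticMap.polar, QuadraticMap.weightedSumSquares_apply, Pi.add_apply, smul_eq_mul]
    rw [← Finset.sum_sub_distrib, ← Finset.sum_sub_distrib]
    refine Finset.sum_congr rfl (fun i _ => ?_)
    ring
  have hd : ∀ (w : Fin (n+1) → F), (Cfsg.Agent.Lib.Orth.gram ⇑(QuadraticMap.weightedSumSquares F w)
      (Pi.basisFun F (Fin (n+1)))).det = ∏ i, (2 * w i) := by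
    intro w
    have : Cfsg.Agent.Lib.Orth.gram ⇑(QuadraticMap.weightedSumSquares F w)
      (Pi.basisFun F (Fin (n+1))) = Matrix.diagonal (fun i => 2 * w i) := by
      ext i j
      simp only [Cfsg.Agent.Lib.Orth.gram, Matrix.of_apply, hp, Pi.basisFun_apply]
      rw [Finset.sum_eq_single i]
      · by_cases hij : i = j
        · subst hij
          simp
        · rw [Matrix.diagonal_apply_ne _ hij]
          simp [hij]
      · intro k _ hk
        simp [hk]
      · simp
    rw [this, Matrix.det_diagonal]
  obtain ⟨t, ht, hte⟩ := Cfsg.Agent.Lib.Orth.det_gram_eq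
    (QuadraticMap.weightedSumSquares F (fun i : Fin (n + 1) => if i = Fin.last n then α else (1 : F)))
    (Pi.basisFun F (Fin (n+1))) ((Pi.basisFun F (Fin (n+1))).map e.toLinearEquiv)
  have h3 := Cfsg.Agent.Lib.Orth.gram_map (c := 1) (Q := QuadraticMap.weightedSumSquares F (fun _ : Fin (n + 1) => (1 : F)))
    (Q' := (QuadraticMap.weightedSumSquares F (fun i : Fin (n + 1) => if i = Fin.last n then α else (1 : F))))
    e.toLinearEquiv (fun v => by
      rw [one_mul]
      exact e.map_app v) (Pi.basisFun F (Fin (n+1)))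
  rw [one_smul] at h3
  have h4 : ⇑((Pi.basisFun F (Fin (n+1))).map e.toLinearEquiv) = fun i => e.toLinearEquiv (Pi.basisFun F (Fin (n+1)) i) := rfl
  rw [h4, h3, hd, hd] at hte
  simp only [Finset.prod_mul_distrib, Finset.prod_const, Finset.card_univ, Fintype.card_fin, mul_one,
    Finset.prod_ite_eq', Finset.mem_univ, if_true] at hte
  have h2n : (2 : F) ^ (n + 1) ≠ 0 := pow_ne_zero _ h2
  have h5 : t ^ 2 * α = 1 := by
    have : (2 : F) ^ (n + 1) * (t ^ 2 * α) = 2 ^ (n + 1) * 1 := by
      rw [mul_one]
      calc (2 : F) ^ (n + 1) * (t ^ 2 * α) = t ^ 2 * (2 ^ (n+1) * α) := by ring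
        _ = 2 ^ (n + 1) := hte.symm
    exact mul_left_cancel₀ h2n this
  exact hα ⟨t⁻¹, by field_simp; linear_combination h5⟩


end Cfsg.Agent.S0757
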