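import Cfsg.Statements.S0758
import Mathlib
-- import your own Cfsg.Agent.* helpers here

set_option autoImplicit false
open Cfsg
set_option linter.all false

namespace Cfsg.Agent.S0758

/-- For a finite field F of odd order q and a non-square α: the form x² + y² is isotropic iff q ≡ 1 mod 4, and the form x² + α y² is isotropic iff q ≡ 3 mod 4. -/
theorem result {F : Type*} [Field F] [Fintype F] (h2 : (2 : F) ≠ 0) (α : F) (hα : ¬ IsSquare α) : ((∃ x y : F, (x ≠ 0 ∨ y ≠ 0) ∧ x ^ 2 + y ^ 2 = 0) ↔ Fintype.card F % 4 = 1) ∧ ((∃ x y : F, (x ≠ 0 ∨ y ≠ 0) ∧ x ^ 2 + α * y ^ 2 = 0) ↔ Fintype.card F % 4 = 3) := by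
  classical
  have hα0 : α ≠ 0 := by rintro rfl; exact hα (IsSquare.zero)
  have hodd : Fintype.card F % 2 = 1 := by
    apply FiniteField.odd_card_of_char_ne_two
    intro h
    have : (2 : F) = 0 := by
      have := ringChar.spec F 2
      rw [h] at this
      simpa using this
    exact h2 this
  have hsq : ∀ β : F, β ≠ 0 → ((∃ x y : F, (x ≠ 0 ∨ y ≠ 0) ∧ x ^ 2 + β * y ^ 2 = 0) ↔
      IsSquare (-β)) := by
    intro β hβ
    constructor
    · rintro ⟨x, y, hxy, h⟩
      have hy : y ≠ 0 := by
        rintro rfl
        rcases hxy with hx | hy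
        · apply hx; simpa using h
        · exact hy rfl
      refine ⟨x / y, ?_⟩
      field_simp
      linear_combination -h
    · rintro ⟨z, hz⟩
      refine ⟨z, 1, Or.inr one_ne_zero, ?_⟩
      linear_combination -hz
  have e1 := hsq 1 one_ne_zero
  simp only [one_mul] at e1
  have e2 := hsq α hα0
  have hneg := FiniteField.isSquare_neg_one_iff (F := F)
  constructor
  · rw [e1, hneg]
    omega
  · rw [e2]
    constructor
    · intro h
      by_contra h3
      have hn : IsSquare (-1 : F) := hneg.mpr (by omega)
      apply hα
      have : α = -α * -1 := by ring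
      rw [this]
      exact h.mul hn
    · intro h
      have hn : ¬ IsSquare (-1 : F) := by
        rw [hneg]; omega
      -- product of two nonsquares is a square
      have hchar : ringChar F ≠ 2 := by
        intro h'
        have : (2 : F) = 0 := by
          have := ringChar.spec F 2
          rw [h'] at this
          simpa using this
        exact h2 this
      have h4 : quadraticChar F (-α) = 1 := by
        have : (-α) = (-1) * α := by ring
        rw [this, map_mul, quadraticChar_neg_one_iff_not_isSquare.mpr hα,
          quadraticChar_neg_one_iff_not_isSquare.mpr hn]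
        norm_num
      exact (quadraticChar_one_iff_isSquare (neg_ne_zero.mpr hα0)).mp h4


end Cfsg.Agent.S0758
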