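import Cfsg.Statements.S0759
import Mathlib
import Cfsg.Agent.Lib.Orth18
import Cfsg.Agent.Lib.Orth14
-- import your own Cfsg.Agent.* helpers here

set_option autoImplicit false
open Cfsg
set_option linter.all false

namespace Cfsg.Agent.S0759

/-- Type of the orthonormal form: over a finite field of odd order q and for m ≥ 1, the quadratic form Σ_(i<2m) x_i² on F^(2m) admits an m-dimensional subspace on which it vanishes identically if and only if it is not the case that q ≡ 3 (mod 4) and m is odd. -/
theorem result {F : Type*} [Field F] [Fintype F] (h2 : (2 : F) ≠ 0) (m : ℕ) (hm : 1 ≤ m) : (∃ W : Submodule F (Fin (2 * m) → F), Module.finrank F W = m ∧ ∀ w ∈ W, ∑ i, w i ^ 2 = 0) ↔ ¬ (Fintype.card F % 4 = 3 ∧ Odd m) := by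
  open Cfsg.Agent.Lib.Orth Module in
  let Q : QuadraticForm F (Fin (2 * m) → F) := QuadraticMap.weightedSumSquares F (fun _ => (1 : F))
  have hQa : ∀ v, Q v = ∑ i, v i ^ 2 := by
    intro v
    simp only [Q, QuadraticMap.weightedSumSquares_apply, smul_eq_mul, one_mul, pow_two]
  have hpol : ∀ i j, QuadraticMap.polar Q (Pi.single i 1) (Pi.single j 1) = if i = j then 2 else 0 := by
    intro i j
    have : ∀ x y : Fin (2*m) → F, QuadraticMap.polar Q x y = ∑ k, 2 * (x k * y k) := by
      intro x y
      simp only [QuadraticMap.polar, hQa, Pi.add_apply]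
      rw [← Finset.sum_sub_distrib, ← Finset.sum_sub_distrib]
      refine Finset.sum_congr rfl (fun i _ => ?_)
      ring
    rw [this, Finset.sum_eq_single i]
    · by_cases hij : i = j
      · subst hij; simp
      · simp [hij]
    · intro k _ hk
      simp [hk]
    · simp
  have hdet : (gram ⇑Q (Pi.basisFun F (Fin (2*m)))).det = 2 ^ (2 * m) := by
    have : gram ⇑Q (Pi.basisFun F (Fin (2*m))) = Matrix.diagonal (fun _ => 2) := by
      ext i j
      simp only [gram, Matrix.of_apply, Pi.basisFun_apply, hpol, Matrix.diagonal_apply]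
    rw [this, Matrix.det_diagonal]
    simp
  have hQ : ND Q := by
    refine (LinearMap.BilinForm.nondegenerate_iff_det_ne_zero (Pi.basisFun F (Fin (2*m)))).mpr ?_
    rw [← gram_eq_toMatrix, hdet]
    exact pow_ne_zero _ h2
  have hq : Odd (Fintype.card F) := odd_card_of_two_ne_zero h2
  have hiff : IsSquare ((-1 : F) ^ m) ↔ ¬ (Fintype.card F % 4 = 3 ∧ Odd m) := by
    rw [isSquare_neg_one_pow_iff rfl hq]
    have h4 : Fintype.card F % 4 = 1 ∨ Fintype.card F % 4 = 3 := by
      obtain ⟨k, hk⟩ := hq
      omega
    rw [Nat.pow_mod]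
    rcases h4 with h | h
    · rw [h, one_pow]
      simp
    · rw [h]
      rcases Nat.even_or_odd m with ⟨j, rfl⟩ | ⟨j, rfl⟩
      · rw [← two_mul, pow_mul, Nat.pow_mod, show 3 ^ 2 % 4 = 1 by norm_num, one_pow]
        have : ¬ Odd (2 * j) := by simp
        simp [this]
      · rw [pow_succ, pow_mul, Nat.mul_mod, Nat.pow_mod, show 3 ^ 2 % 4 = 1 by norm_num, one_pow]
        simp
  rw [← hiff]
  constructor
  · rintro ⟨W, hW, hW0⟩
    obtain ⟨m', e, f, hef, ha, -, hd⟩ := exists_decomp hQ
    have h1 := hef.finrank_le hQ ha (W := W) (fun w hw => by rw [hQa]; exact hW0 w hw)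
    have h3 : finrank F (Fin (2 * m) → F) = 2 * m := finrank_fin _
    have hm' : m' = m := by omega
    subst hm'
    have h0 : finrank F (cpl Q e f) = 0 := by omega
    -- isometric to plus
    let w : Fin 0 → (Fin (2 * m') → F) := Fin.elim0
    let b := hef.basis (w := w) (fun k => k.elim0) linearIndependent_empty_type (by simp [h0])
    have hdb : (gram ⇑Q b).det = (-1) ^ m' := by
      rw [← det_swap_block m']
      have : gram ⇑Q b = (Matrix.fromBlocks (Matrix.fromBlocks (0 : Matrix (Fin m') (Fin m') F) (1 : Matrix (Fin m') (Fin m') F)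
        (1 : Matrix (Fin m') (Fin m') F) (0 : Matrix (Fin m') (Fin m') F)) 0 0 (1 : Matrix (Fin 0) (Fin 0) F)) := by
        ext i j
        rcases i with (i | i) | i
        · rcases j with (j | j) | j
          · simp only [gram, Matrix.of_apply, b, hef.basis_apply, Sum.elim_inl, Matrix.fromBlocks_apply₁₁]
            exact hef.hee i j
          · simp only [gram, Matrix.of_apply, b, hef.basis_apply, Sum.elim_inl, Sum.elim_inr, Matrix.fromBlocks_apply₁₁, Matrix.fromBlocks_apply₁₂, Matrix.one_apply]
            exact hef.hef i j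
          · exact j.elim0
        · rcases j with (j | j) | j
          · simp only [gram, Matrix.of_apply, b, hef.basis_apply, Sum.elim_inl, Sum.elim_inr, Matrix.fromBlocks_apply₁₁, Matrix.fromBlocks_apply₂₁, Matrix.one_apply]
            exact hef.hfe i j
          · simp only [gram, Matrix.of_apply, b, hef.basis_apply, Sum.elim_inl, Sum.elim_inr, Matrix.fromBlocks_apply₁₁, Matrix.fromBlocks_apply₂₂]
            exact hef.hff i j
          · exact j.elim0
        · exact i.elim0
      rw [this, Matrix.det_fromBlocks_zero₁₂, Matrix.det_one, mul_one]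
    rw [← hdb, ← isSquare_gram_iff Q (Pi.basisFun F (Fin (2*m'))) b, hdet]
    exact ⟨2 ^ m', by ring⟩
  · intro h
    obtain ⟨g, hg⟩ := isometric_of_disc h2 (nd_plus (m := m) (F := F)) hQ
      (by simp; ring) (Pi.basisFun F _) (Pi.basisFun F _) (by
        rw [det_gram_plus, hdet]
        obtain ⟨s, hs⟩ := h
        exact ⟨s * 2 ^ m, by rw [hs]; ring⟩)
    let W0 : Submodule F (Fin m ⊕ Fin m → F) := Submodule.span F (Set.range (ePlus (F := F) (m := m)))
    have hWz : ∀ x ∈ W0, qPlus m F x = 0 := by
      intro x hx
      have : ∀ x ∈ W0, ∀ i, x (Sum.inr i) = 0 := by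
        intro x hx i
        refine Submodule.span_induction (p := fun x _ => x (Sum.inr i) = 0) ?_ ?_ ?_ ?_ hx
        · rintro _ ⟨j, rfl⟩
          simp [ePlus]
        · rfl
        · intro a b _ _ ha hb
          simp [ha, hb]
        · intro a b _ hb
          simp [hb]
      rw [qPlus_apply]
      simp only [Cfsg.quadFormPlus]
      exact Finset.sum_eq_zero (fun i _ => by rw [this x hx i, mul_zero])
    have hfr : finrank F W0 = m := by
      have hli : LinearIndependent F (ePlus (F := F) (m := m)) := by
        have := (Pi.basisFun F (Fin m ⊕ Fin m)).linearIndependent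
        have h2 := this.comp (Sum.inl : Fin m → Fin m ⊕ Fin m) Sum.inl_injective
        convert h2 using 1
        funext i
        simp [ePlus]
      rw [finrank_span_eq_card hli, Fintype.card_fin]
    refine ⟨W0.map g.toLinearMap, ?_, ?_⟩
    · exact (LinearEquiv.finrank_map_eq g W0).trans hfr
    · rintro _ ⟨x, hx, rfl⟩
      rw [← hQa]
      have := hg x
      rw [hWz x hx] at this
      exact this


end Cfsg.Agent.S0759
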