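import Cfsg.Statements.S0760
import Mathlib
import Cfsg.Agent.Lib.Orth1
import Cfsg.Agent.Lib.Orth2
import Cfsg.Agent.Lib.Orth3
import Cfsg.Agent.Lib.Orth4
import Cfsg.Agent.Lib.Orth5
import Cfsg.Agent.Lib.Orth6
import Cfsg.Agent.Lib.Orth7
import Cfsg.Agent.Lib.Orth8
import Cfsg.Agent.Lib.Orth9
-- import your own Cfsg.Agent.* helpers here

set_option autoImplicit false
open Cfsg
set_option linter.all false

namespace Cfsg.Agent.S0760

/-- Witt index is well defined: if Q is a quadratic form on a finite-dimensional space V over a finite field with non-degenerate polar form, and W₁, W₂ are subspaces on which Q vanishes that are maximal with this property, then W₁ and W₂ have the same dimension, and twice this dimension is at most dim V. -/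
theorem result {F V : Type*} [Field F] [Finite F] [AddCommGroup V] [Module F V] [FiniteDimensional F V] (Q : QuadraticForm F V) (hQ : (QuadraticMap.polarBilin Q).Nondegenerate) (W₁ W₂ : Submodule F V) (h₁ : ∀ w ∈ W₁, Q w = 0) (h₂ : ∀ w ∈ W₂, Q w = 0) (hmax₁ : ∀ W : Submodule F V, W₁ ≤ W → (∀ w ∈ W, Q w = 0) → W = W₁) (hmax₂ : ∀ W : Submodule F V, W₂ ≤ W → (∀ w ∈ W, Q w = 0) → W = W₂) : Module.finrank F W₁ = Module.finrank F W₂ ∧ 2 * Module.finrank F W₁ ≤ Module.finrank F V := by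
  have key : ∀ W₁ W₂ : Submodule F V, (∀ w ∈ W₁, Q w = 0) → (∀ w ∈ W₂, Q w = 0) →
      (∀ W : Submodule F V, W₁ ≤ W → (∀ w ∈ W, Q w = 0) → W = W₁) →
      Module.finrank F W₁ ≤ Module.finrank F W₂ → Module.finrank F W₁ = Module.finrank F W₂ := by
    intro W₁ W₂ h₁ h₂ hmax hle
    have b1 := Module.finBasis F W₁
    have b2 := Module.finBasis F W₂
    let φ : W₁ →ₗ[F] W₂ := b1.constr F (fun i => b2 (Fin.castLE hle i))
    have hφ : ∀ i, φ (b1 i) = b2 (Fin.castLE hle i) := fun i => b1.constr_basis F _ i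
    have hinj : Function.Injective φ := by
      rw [injective_iff_map_eq_zero]
      intro x hx
      have hli := b2.linearIndependent.comp _ (Fin.castLE_injective hle)
      rw [Fintype.linearIndependent_iff] at hli
      have h3 : ∑ i, b1.repr x i • (⇑b2 ∘ Fin.castLE hle) i = 0 := by
        rw [← hx]
        conv_rhs => rw [← b1.sum_repr x, map_sum]
        exact Finset.sum_congr rfl fun i _ => by rw [map_smul, hφ]; rfl
      have h4 := hli _ h3
      rw [← b1.sum_repr x]
      exact Finset.sum_eq_zero fun i _ => by rw [h4 i, zero_smul]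
    obtain ⟨g, hg, hgx⟩ := Cfsg.Agent.Lib.Orth.witt hQ W₁ (W₂.subtype.comp φ)
      (fun a b hab => hinj (W₂.injective_subtype hab))
      (fun x => by rw [h₁ x x.2]; exact h₂ _ (φ x).2)
    have h4 := hmax (W₂.map (g⁻¹ : V ≃ₗ[F] V).toLinearMap) (by
      intro x hx
      refine ⟨(φ ⟨x, hx⟩ : V), (φ ⟨x, hx⟩).2, ?_⟩
      have h5 := hgx ⟨x, hx⟩
      change g⁻¹ (φ ⟨x, hx⟩ : V) = x
      have h6 : (φ ⟨x, hx⟩ : V) = g x := h5.symm
      rw [h6]
      exact g.symm_apply_apply x) (by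
      rintro _ ⟨y, hy, rfl⟩
      have h7 : Q (g⁻¹ y) = Q y := (inv_mem hg : g⁻¹ ∈ Cfsg.Agent.Lib.Orth.O Q) y
      exact h7.trans (h₂ y hy))
    rw [← h4]
    exact LinearEquiv.finrank_map_eq (g⁻¹ : V ≃ₗ[F] V) W₂
  refine ⟨?_, Cfsg.Agent.Lib.Orth.two_mul_finrank_le hQ h₁⟩
  rcases le_total (Module.finrank F W₁) (Module.finrank F W₂) with h | h
  · exact key W₁ W₂ h₁ h₂ hmax₁ h
  · exact (key W₂ W₁ h₂ h₁ hmax₂ h).symm


end Cfsg.Agent.S0760
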