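import Cfsg.Statements.S0761
import Mathlib
-- import your own Cfsg.Agent.* helpers here

set_option autoImplicit false
open Cfsg
set_option linter.all false

namespace Cfsg.Agent.S0761

/-- Hyperbolic partners: let B be a non-degenerate bilinear form on a finite-dimensional space, either alternating, or symmetric with 2 ≠ 0. If Z is a subspace on which B vanishes, x ∉ Z is isotropic and orthogonal to Z, then there is an isotropic y with B x y = 1 which is orthogonal to Z. -/
theorem result {F V : Type*} [Field F] [AddCommGroup V] [Module F V] [FiniteDimensional F V] (B : LinearMap.BilinForm F V) (hB : B.Nondegenerate) (hform : B.IsAlt ∨ (B.IsSymm ∧ (2 : F) ≠ 0)) (x : V) (Z : Submodule F V) (hxZ : x ∉ Z) (hx : B x x = 0) (hxz : ∀ z ∈ Z, B x z = 0) (hZ : ∀ z ∈ Z, ∀ z' ∈ Z, B z z' = 0) : ∃ y : V, B y y = 0 ∧ B x y = 1 ∧ ∀ z ∈ Z, B z y = 0 := by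
  obtain ⟨f0, hf0, hker⟩ := Submodule.exists_le_ker_of_notMem hxZ
  -- represent functionals on the right
  have hsurj : ∀ f : Module.Dual F V, ∃ y : V, ∀ z, B z y = f z := by
    intro f
    have hB' : (B.flip).Nondegenerate := ⟨hB.2, hB.1⟩
    refine ⟨(B.flip.toDual hB').symm f, fun z => ?_⟩
    have := congrArg (fun g : Module.Dual F V => g z) ((B.flip.toDual hB').apply_symm_apply f)
    simp only [LinearMap.BilinForm.toDual_def] at this
    exact this
  obtain ⟨y0, hy0⟩ := hsurj ((f0 x)⁻¹ • f0)
  have hxy0 : B x y0 = 1 := by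
    rw [hy0]; simp [hf0]
  have hzy0 : ∀ z ∈ Z, B z y0 = 0 := by
    intro z hz
    rw [hy0]
    have : f0 z = 0 := hker hz
    simp [this]
  rcases hform with hA | ⟨hS, h2⟩
  · exact ⟨y0, hA y0, hxy0, hzy0⟩
  · have hS' : ∀ u v, B u v = B v u := fun u v => by simpa using hS.eq u v
    refine ⟨y0 - (B y0 y0 / 2) • x, ?_, ?_, ?_⟩
    · simp only [map_sub, LinearMap.sub_apply, map_smul, LinearMap.smul_apply, smul_eq_mul, hx,
        hS' y0 x, hxy0]
      field_simp
      ring
    · simp [hxy0, hx]
    · intro z hz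
      simp [hzy0 z hz, hS' z x, hxz z hz]


end Cfsg.Agent.S0761
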