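import Cfsg.Statements.S0763
import Mathlib
import Cfsg.Agent.Lib.Orth18
-- import your own Cfsg.Agent.* helpers here

set_option autoImplicit false
open Cfsg
set_option linter.all false

namespace Cfsg.Agent.S0763

/-- Binary quadratic forms in characteristic two over a finite field: if Q is a quadratic form on a 2-dimensional space whose polar form is non-degenerate, then either there are vectors v, w with Q v = Q w = 0 and polar value 1 (Q is xy in these coordinates), or there are v, w and μ with Q v = 1, Q w = μ, polar value 1 and x² + x + μ without roots in F (Q is x² + xy + μy²). -/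
theorem result {F V : Type*} [Field F] [Finite F] [CharP F 2] [AddCommGroup V] [Module F V] (Q : QuadraticForm F V) (h2 : Module.finrank F V = 2) (hQ : (QuadraticMap.polarBilin Q).Nondegenerate) : (∃ v w : V, LinearIndependent F ![v, w] ∧ Q v = 0 ∧ Q w = 0 ∧ QuadraticMap.polar Q v w = 1) ∨ (∃ (v w : V) (μ : F), LinearIndependent F ![v, w] ∧ (∀ x : F, x ^ 2 + x + μ ≠ 0) ∧ Q v = 1 ∧ Q w = μ ∧ QuadraticMap.polar Q v w = 1) := by
  have hfd : FiniteDimensional F V := Module.finite_of_finrank_pos (by omega)
  by_cases ha : ∀ x, Q x = 0 → x = 0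
  · obtain ⟨x, y, hli, hx, hxy, ht⟩ := Cfsg.Agent.Lib.Orth.exists_anis_basis hQ ha h2
    exact Or.inr ⟨x, y, Q y, hli, ht, hx, rfl, hxy⟩
  · push Not at ha
    obtain ⟨e, he, he0⟩ := ha
    obtain ⟨f, hf⟩ := Cfsg.Agent.Lib.Orth.exists_hyp hQ he0 he
    exact Or.inl ⟨e, f, hf.li, hf.he, hf.hf, hf.hef⟩


end Cfsg.Agent.S0763
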