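import Cfsg.Statements.S0768
import Mathlib
import Cfsg.Agent.Lib.Symp4
-- import your own Cfsg.Agent.* helpers here

set_option autoImplicit false
open scoped LinearAlgebra.Projectivization
open Cfsg
set_option linter.all false

namespace Cfsg.Agent.S0768

/-- Primitivity: for m ≥ 1 and F finite, the symplectic group of the form sympForm (as a subgroup of the general linear group) acts primitively on the projective space of F^(2m). -/
theorem result {F : Type*} [Field F] [Finite F] (m : ℕ) (hm : 1 ≤ m) : MulAction.IsPreprimitive ↥(Cfsg.spGL m F) (ℙ F (Fin m ⊕ Fin m → F)) := by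
  have h1 := Lib.Symp.isPreprimitive (F := F) hm
  -- the homomorphism from the symplectic group to `spGL`
  have hmem : ∀ g : Matrix.symplecticGroup (Fin m) F, ∃ g' : Cfsg.spGL m F,
      ((g' : Matrix.GeneralLinearGroup (Fin m ⊕ Fin m) F) : Matrix (Fin m ⊕ Fin m) (Fin m ⊕ Fin m) F)
        = (g : Matrix (Fin m ⊕ Fin m) (Fin m ⊕ Fin m) F) := by
    intro g
    refine ⟨⟨⟨(g : Matrix (Fin m ⊕ Fin m) (Fin m ⊕ Fin m) F),
      ((g⁻¹ : Matrix.symplecticGroup (Fin m) F) : Matrix (Fin m ⊕ Fin m) (Fin m ⊕ Fin m) F),
      ?_, ?_⟩, ?_⟩, rfl⟩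
    · have : g * g⁻¹ = 1 := mul_inv_cancel g
      exact congrArg Subtype.val this
    · have : g⁻¹ * g = 1 := inv_mul_cancel g
      exact congrArg Subtype.val this
    · intro u v
      exact Lib.Symp.preserves g u v
  choose φ hφ using hmem
  let Φ : (Projectivization F (Fin m ⊕ Fin m → F)) →ₑ[φ] (Projectivization F (Fin m ⊕ Fin m → F)) :=
    { toFun := id
      map_smul' := by
        intro g x
        induction x using Projectivization.ind with | _ u hu => ?_
        simp only [id_eq]
        rw [Projectivization.smul_mk]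
        have h3 : (g • u : Fin m ⊕ Fin m → F) = (φ g) • u := by
          show (g : Matrix (Fin m ⊕ Fin m) (Fin m ⊕ Fin m) F).mulVec u = _
          rw [← hφ g]; rfl
        have h4 : (φ g) • Projectivization.mk F u hu = Projectivization.mk F ((φ g) • u)
            ((smul_ne_zero_iff_ne (φ g)).mpr hu) := rfl
        rw [h4]
        simp only [h3] }
  exact MulAction.IsPreprimitive.of_surjective (f := Φ) Function.surjective_id


end Cfsg.Agent.S0768
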