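import Cfsg.Statements.S0776
import Mathlib
import Cfsg.Agent.Lib.SpSplit
-- import your own Cfsg.Agent.* helpers here

set_option autoImplicit false
open Cfsg

namespace Cfsg.Agent.S0776

/-- If W ≤ F^(2m) is a 2k-dimensional subspace on which the symplectic form is non-degenerate, then the stabiliser of W in Sp_2m(F) is isomorphic to Sp_2k(F) × Sp_(2m−2k)(F). -/
theorem result {F : Type*} [Field F] (m k : ℕ) (hk : k ≤ m) (W : Submodule F (Fin m ⊕ Fin m → F)) (hWk : Module.finrank F W = 2 * k) (hW : ∀ u ∈ W, (∀ v ∈ W, Cfsg.sympForm m F u v = 0) → u = 0) : Nonempty (↥(Cfsg.stabilizing (Cfsg.spToMat m F) (W : Set (Fin m ⊕ Fin m → F))) ≃* Matrix.symplecticGroup (Fin k) F × Matrix.symplecticGroup (Fin (m - k)) F) := by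
  classical
  have hdim : Module.finrank F (Fin m ⊕ Fin m → F) = 2 * m := by
    rw [Module.finrank_pi, Fintype.card_sum, Fintype.card_fin]; ring
  set B := Cfsg.Agent.Lib.Symp.sympBilin m F with hB
  have hBa : B.IsAlt := Cfsg.Agent.Lib.Symp.sympBilin_isAlt
  have hBr : B.IsRefl := hBa.isRefl
  have hBn : B.Nondegenerate := Cfsg.Agent.Lib.Symp.sympBilin_nondegenerate
  have hWn : (B.restrict W).Nondegenerate := by
    constructor
    · intro x hx
      apply Subtype.ext
      exact hW x x.2 (fun v hv => hx ⟨v, hv⟩)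
    · intro x hx
      apply Subtype.ext
      refine hW x x.2 (fun v hv => ?_)
      have := hx ⟨v, hv⟩
      have h2 : Cfsg.sympForm m F v x = 0 := this
      rw [Cfsg.Agent.Lib.Symp.sympForm_swap, h2, neg_zero]
  have hc : IsCompl W (B.orthogonal W) := LinearMap.BilinForm.isCompl_orthogonal_of_restrict_nondegenerate hBr hWn
  have horth : ∀ x ∈ B.orthogonal W, ∀ y ∈ W, B x y = 0 ∧ B y x = 0 := by
    intro x hx y hy
    have h1 : B y x = 0 := hx y hy
    exact ⟨hBr _ _ h1, h1⟩
  have hWn' : (B.restrict (B.orthogonal W)).Nondegenerate := Cfsg.Agent.Lib.BForm.nondeg_restrict hBn hc.symm horth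
  have hfr := Submodule.finrank_add_eq_of_isCompl hc
  rw [hdim, hWk] at hfr
  obtain ⟨k1, hk1⟩ := Cfsg.Agent.Lib.BForm.alt_iso (B := Cfsg.Agent.Lib.Symp.sympBilin k F) (C := B.restrict W)
    Cfsg.Agent.Lib.Symp.sympBilin_nondegenerate hWn Cfsg.Agent.Lib.Symp.sympBilin_isAlt (fun x => hBa x) (by
      rw [hWk, Module.finrank_pi, Fintype.card_sum, Fintype.card_fin]; ring)
  obtain ⟨k2, hk2⟩ := Cfsg.Agent.Lib.BForm.alt_iso (B := Cfsg.Agent.Lib.Symp.sympBilin (m - k) F) (C := B.restrict (B.orthogonal W))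
    Cfsg.Agent.Lib.Symp.sympBilin_nondegenerate hWn' Cfsg.Agent.Lib.Symp.sympBilin_isAlt (fun x => hBa x) (by
      rw [Module.finrank_pi, Fintype.card_sum, Fintype.card_fin]; omega)
  refine Cfsg.Agent.Lib.SpSplit.split ((k1.prodCongr k2).trans (Submodule.prodEquivOfIsCompl W _ hc)) ?_ W ?_
  · intro u v u' v'
    change B ((k1 u : Fin m ⊕ Fin m → F) + k2 v) ((k1 u' : Fin m ⊕ Fin m → F) + k2 v') = _
    rw [map_add, map_add, LinearMap.add_apply, LinearMap.add_apply]
    have h1 : B (k1 u) (k1 u') = Cfsg.sympForm k F u u' := hk1 u u'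
    have h2 : B (k2 v) (k2 v') = Cfsg.sympForm (m - k) F v v' := hk2 v v'
    rw [h1, h2, (horth _ (k2 v).2 _ (k1 u').2).1, (horth _ (k2 v').2 _ (k1 u).2).2]
    ring
  · intro x
    have e1 : (((k1.prodCongr k2).trans (Submodule.prodEquivOfIsCompl W _ hc)).symm x).2 =
        k2.symm (((Submodule.prodEquivOfIsCompl W _ hc).symm x).2) := rfl
    rw [e1]
    constructor
    · intro hx
      have h2 : (Submodule.prodEquivOfIsCompl W _ hc).symm x = (⟨x, hx⟩, 0) := by
        rw [LinearEquiv.symm_apply_eq]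
        simp
      rw [h2, map_zero]
    · intro hx
      have h3 : ((Submodule.prodEquivOfIsCompl W _ hc).symm x).2 = 0 := by
        have := congrArg k2 hx
        rwa [k2.apply_symm_apply, map_zero] at this
      have h4 := (Submodule.prodEquivOfIsCompl W _ hc).apply_symm_apply x
      rw [← h4]
      rw [Submodule.coe_prodEquivOfIsCompl', h3]
      simp

end Cfsg.Agent.S0776
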