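import Cfsg.Statements.S0779
import Mathlib
import Cfsg.Agent.Lib.Herm9
-- import your own Cfsg.Agent.* helpers here

set_option autoImplicit false
open Cfsg
set_option linter.all false

namespace Cfsg.Agent.S0779

/-- Unitary transvections: let |F| = q², h the standard Hermitian form Σ x_i y_i^q and v ≠ 0 with h(v, v) = 0. The linear map x ↦ x + c h(x, v) v is an isometry of h if and only if c = 0 or c^(q−1) = −1. -/
theorem result {F : Type*} [Field F] [Fintype F] {q : ℕ} (hF : Fintype.card F = q ^ 2) (n : ℕ) (v : Fin n → F) (hv : v ≠ 0) (hv0 : Cfsg.hermForm n F q v v = 0) (c : F) : (∀ x y : Fin n → F, Cfsg.hermForm n F q ((Cfsg.unitaryTransvection n q v c).mulVec x) ((Cfsg.unitaryTransvection n q v c).mulVec y) = Cfsg.hermForm n F q x y) ↔ (c = 0 ∨ c ^ (q - 1) = -1) := by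
  obtain ⟨σ, hσ, hq⟩ := Cfsg.Agent.Lib.Herm.exists_sigma hF
  obtain ⟨h1, h2, h3⟩ := Cfsg.Agent.Lib.Herm.sigma_facts hσ
  have hq1 := Cfsg.Agent.Lib.Herm.one_lt_q hF
  rw [Cfsg.Agent.Lib.Herm.hermForm_eq h1 hq] at hv0
  have key : c + σ c = 0 ↔ (c = 0 ∨ c ^ (q - 1) = -1) := by
    rw [hq]
    have e : c ^ q = c ^ (q - 1) * c := by
      rw [← pow_succ, Nat.sub_add_cancel (by omega)]
    rw [e]
    constructor
    · intro h
      by_cases hc : c = 0
      · exact Or.inl hc
      · right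
        have : (c ^ (q - 1) + 1) * c = 0 := by linear_combination h
        exact eq_neg_of_add_eq_zero_left ((mul_eq_zero.mp this).resolve_right hc)
    · rintro (h | h)
      · rw [h]; ring
      · rw [h]; ring
  rw [← key]
  constructor
  · intro h
    apply Cfsg.Agent.Lib.Herm.trace_of_ut hF hσ hq h1 hv hv0
    intro x y
    rw [← Cfsg.Agent.Lib.Herm.hermForm_eq h1 hq, ← Cfsg.Agent.Lib.Herm.hermForm_eq h1 hq]
    exact h x y
  · intro h x y
    rw [Cfsg.Agent.Lib.Herm.hermForm_eq h1 hq, Cfsg.Agent.Lib.Herm.hermForm_eq h1 hq]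
    set B := Cfsg.Agent.Lib.Herm.std σ h1 n
    obtain ⟨g, hg⟩ := B.exists_sie (e := v) (w := 0) (a := c) hv0 (B.zero_left _)
      (by rw [B.zero_left, neg_zero, h])
    have hgx : ∀ x, (Cfsg.unitaryTransvection n q v c).mulVec x = g x := by
      intro x
      rw [Cfsg.Agent.Lib.Herm.ut_mulVec v c hq h1, hg.2.2.2, B.zero_right]
      simp [B]
    rw [hgx, hgx]
    exact hg.mem_iso x y


end Cfsg.Agent.S0779
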