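import Cfsg.Statements.S0782
import Mathlib
import Cfsg.Agent.Lib.Herm11
-- import your own Cfsg.Agent.* helpers here

set_option autoImplicit false
open Cfsg
set_option linter.all false

namespace Cfsg.Agent.S0782

/-- Maximal parabolics of SU_n(q): if W is a k-dimensional subspace of F^n (n ≥ 1, |F| = q²) on which the Hermitian form vanishes, then (q + 1) times the order of its stabiliser in SU_n(q) equals q^(k(2n−3k)) · |GL_k(q²)| · |GU_(n−2k)(q)|, where |GU_m(q)| = q^(m(m−1)/2) Π_(i=1..m) (q^i − (−1)^i). -/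
theorem result {F : Type*} [Field F] [Fintype F] {q : ℕ} (hF : Fintype.card F = q ^ 2) (n k : ℕ) (hn : 1 ≤ n) (hk : 2 * k ≤ n) (W : Submodule F (Fin n → F)) (hWk : Module.finrank F W = k) (hW : ∀ u ∈ W, ∀ v ∈ W, Cfsg.hermForm n F q u v = 0) : (q + 1) * Nat.card ↥((Cfsg.stabilizing (Cfsg.slToMat n F) (W : Set (Fin n → F))).subgroupOf (Cfsg.SU n F q)) = q ^ (k * (2 * n - 3 * k)) * (∏ i : Fin k, ((q ^ 2) ^ k - (q ^ 2) ^ (i : ℕ))) * (q ^ ((n - 2 * k) * ((n - 2 * k) - 1) / 2) * ∏ i ∈ Finset.range (n - 2 * k), (if Even i then q ^ (i + 1) + 1 else q ^ (i + 1) - 1)) := by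
  obtain ⟨σ, hσ, hq⟩ := Cfsg.Agent.Lib.Herm.exists_sigma hF
  obtain ⟨h1, h2, h3⟩ := Cfsg.Agent.Lib.Herm.sigma_facts hσ
  have hq1 := Cfsg.Agent.Lib.Herm.one_lt_q hF
  obtain ⟨m, rfl⟩ : ∃ m, n = m + 2 * k := ⟨n - 2 * k, by omega⟩
  have hfr : Module.finrank F (Fin (m + 2 * k) → F) = m + 2 * k := by simp
  set B := Cfsg.Agent.Lib.Herm.std σ h1 (m + 2 * k) with hB
  have hND : B.ND := Cfsg.Agent.Lib.Herm.std_nd h1 _
  have hW' : ∀ u ∈ W, ∀ v ∈ W, B.h u v = 0 := by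
    intro u hu v hv
    rw [hB, ← Cfsg.Agent.Lib.Herm.hermForm_eq h1 hq]
    exact hW u hu v hv
  have c1 := hND.card_stabI hF hσ hq hfr hWk hW'
  have c2 := Cfsg.Agent.Lib.Herm.card_det hND hF hσ hq (B.stabI W) (fun g hg => hg.1)
    (fun l hl => hND.det_surj_stab hσ (by rw [hfr]; exact hn) hW' hl)
  have c3 : Nat.card ↥((Cfsg.stabilizing (Cfsg.slToMat (m + 2 * k) F)
      (W : Set (Fin (m + 2 * k) → F))).subgroupOf (Cfsg.SU (m + 2 * k) F q)) =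
      Nat.card (B.stabI W ⊓ (LinearEquiv.det (R := F) (M := (Fin (m + 2 * k) → F))).ker :
        Subgroup ((Fin (m + 2 * k) → F) ≃ₗ[F] (Fin (m + 2 * k) → F))) := by
    have hmem : ∀ g : ↥((Cfsg.stabilizing (Cfsg.slToMat (m + 2 * k) F)
        (W : Set (Fin (m + 2 * k) → F))).subgroupOf (Cfsg.SU (m + 2 * k) F q)),
        Cfsg.Agent.Lib.Herm.suPhi F (m + 2 * k) q g.1 ∈ (B.stabI W ⊓
          (LinearEquiv.det (R := F) (M := (Fin (m + 2 * k) → F))).ker :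
        Subgroup ((Fin (m + 2 * k) → F) ≃ₗ[F] (Fin (m + 2 * k) → F))) := by
      intro g
      have h5 := Cfsg.Agent.Lib.Herm.suPhi_mem h1 hq g.1
      exact ⟨⟨h5.1, fun v => g.2 v⟩, h5.2⟩
    refine Nat.card_congr (Equiv.ofBijective (fun g => ⟨_, hmem g⟩) ⟨?_, ?_⟩)
    · intro a b h
      have h5 := congrArg Subtype.val h
      exact Subtype.ext (Cfsg.Agent.Lib.Herm.suPhi_inj h5)
    · rintro ⟨g, ⟨hg1, hg2⟩, hg3⟩
      obtain ⟨A, rfl⟩ := Cfsg.Agent.Lib.Herm.suPhi_surj h1 hq ⟨hg1, hg3⟩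
      exact ⟨⟨A, fun v => hg2 v⟩, rfl⟩
  rw [c3, ← c2, c1]
  have e1 : m + 2 * k - 2 * k = m := by omega
  have e2 : 2 * (m + 2 * k) - 3 * k = k + 2 * m := by omega
  have e3 : Cfsg.Agent.Lib.Herm.Gn q m = q ^ (m * (m - 1) / 2) *
      ∏ i ∈ Finset.range m, (if Even i then q ^ (i + 1) + 1 else q ^ (i + 1) - 1) := by
    rw [Cfsg.Agent.Lib.Herm.Gn_eq, Cfsg.Agent.Lib.Herm.prod_Nn]
  rw [e1, e2, e3]
  ring


end Cfsg.Agent.S0782
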