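import Cfsg.Statements.S0783
import Mathlib
import Cfsg.Agent.Lib.Herm11
-- import your own Cfsg.Agent.* helpers here

set_option autoImplicit false
open Cfsg
set_option linter.all false

namespace Cfsg.Agent.S0783

/-- PGU_n(q)/PSU_n(q) is cyclic of order (n, q+1): for n ≥ 2 and |F| = q² there is a surjective homomorphism from GU_n(q) onto the cyclic group of order gcd(n, q + 1) whose kernel is generated by the determinant-one elements together with the centre. -/
theorem result {F : Type*} [Field F] [Fintype F] {q : ℕ} (hF : Fintype.card F = q ^ 2) (n : ℕ) (hn : 2 ≤ n) : ∃ φ : ↥(Cfsg.GU n F q) →* Multiplicative (ZMod (Nat.gcd n (q + 1))), Function.Surjective φ ∧ φ.ker = (Matrix.GeneralLinearGroup.det : Matrix.GeneralLinearGroup (Fin n) F →* Fˣ).ker.subgroupOf (Cfsg.GU n F q) ⊔ Subgroup.center ↥(Cfsg.GU n F q) := by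
  classical
  obtain ⟨σ, hσ, hq⟩ := Cfsg.Agent.Lib.Herm.exists_sigma hF
  obtain ⟨h1, h2, h3⟩ := Cfsg.Agent.Lib.Herm.sigma_facts hσ
  have hq1 := Cfsg.Agent.Lib.Herm.one_lt_q hF
  have hfr : Module.finrank F (Fin n → F) = n := by simp
  set B := Cfsg.Agent.Lib.Herm.std σ h1 n with hB
  have hND : B.ND := Cfsg.Agent.Lib.Herm.std_nd h1 _
  set d := Nat.gcd n (q + 1) with hd
  have hd0 : 0 < d := Nat.gcd_pos_of_pos_left _ (by omega)
  obtain ⟨m, hm⟩ : ∃ m, q + 1 = d * m := Nat.gcd_dvd_right n (q + 1)
  obtain ⟨s, hs⟩ : ∃ s, n = d * s := Nat.gcd_dvd_left n (q + 1)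
  have hm0 : 0 < m := by
    rcases Nat.eq_zero_or_pos m with h | h
    · subst h; simp at hm
    · exact h
  -- the norm one group
  let K : Subgroup Fˣ := (powMonoidHom (q + 1) : Fˣ →* Fˣ).ker
  have hKmem : ∀ x : Fˣ, x ∈ K ↔ x ^ (q + 1) = 1 := fun x => by
    rw [MonoidHom.mem_ker]; rfl
  have hqd : q + 1 ∣ Nat.card Fˣ := by
    rw [Nat.card_units, Nat.card_eq_fintype_card, hF]
    have e : q ^ 2 - 1 = (q + 1) * (q - 1) := by
      have := Nat.sq_sub_sq q 1
      rw [one_pow] at this
      exact this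
    rw [e]
    exact dvd_mul_right _ _
  have hKcard : Nat.card K = q + 1 := by
    rw [← Cfsg.Agent.Lib.Herm.card_pow_eq_one (G := Fˣ) hqd]
    exact Nat.card_congr (Equiv.subtypeEquivRight fun x => hKmem x)
  have hdetK : ∀ g : Cfsg.GU n F q, Matrix.GeneralLinearGroup.det (g : Matrix.GeneralLinearGroup (Fin n) F) ∈ K := by
    intro g
    rw [hKmem]
    have h5 := hND.det_norm hσ ((Cfsg.Agent.Lib.Herm.mem_GU h1 hq _).mp g.2)
    rw [Cfsg.Agent.Lib.Herm.gl_det, hq, ← pow_succ'] at h5
    apply Units.ext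
    rw [Units.val_pow_eq_pow_val, h5, Units.val_one]
  let δ : Cfsg.GU n F q →* K := MonoidHom.codRestrict
    ((Matrix.GeneralLinearGroup.det : Matrix.GeneralLinearGroup (Fin n) F →* Fˣ).comp (Cfsg.GU n F q).subtype) K hdetK
  have hδ : ∀ g, (δ g : Fˣ) = Matrix.GeneralLinearGroup.det (g : Matrix.GeneralLinearGroup (Fin n) F) := fun g => rfl
  have hδs : Function.Surjective δ := by
    rintro ⟨l, hl⟩
    rw [hKmem] at hl
    obtain ⟨u, hu⟩ := hND.exists_norm_vec hσ (by omega)
    have hl' : (l : F) * σ (l : F) = 1 := by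
      rw [hq, ← pow_succ', ← Units.val_pow_eq_pow_val, hl, Units.val_one]
    obtain ⟨g, hg, hgd, _⟩ := B.exists_qrefl hu hl'
    obtain ⟨A, rfl⟩ := (Cfsg.Agent.Lib.Herm.gl n F).surjective g
    refine ⟨⟨A, (Cfsg.Agent.Lib.Herm.mem_GU h1 hq _).mpr hg⟩, ?_⟩
    apply Subtype.ext
    rw [hδ]
    apply Units.ext
    rw [← hgd, Cfsg.Agent.Lib.Herm.gl_det]
  let π : K →* K := powMonoidHom m
  have hπi : π.range.index = m := by
    have := IsCyclic.index_powMonoidHom_range (G := K) m
    rw [this, hKcard, hm]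
    exact Nat.gcd_eq_right (dvd_mul_left _ _)
  have hπr : Nat.card π.range = d := by
    have h5 := Subgroup.card_mul_index π.range
    rw [hπi, hKcard, hm] at h5
    exact Nat.eq_of_mul_eq_mul_right hm0 h5
  have hcyc : IsCyclic π.range := inferInstance
  let e : π.range ≃* Multiplicative (ZMod d) := mulEquivOfCyclicCardEq (by
    rw [hπr]; exact ((Nat.card_congr Multiplicative.toAdd).trans (Nat.card_zmod d)).symm)
  let φ : Cfsg.GU n F q →* Multiplicative (ZMod d) := e.toMonoidHom.comp (π.rangeRestrict.comp δ)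
  have hφ : ∀ g, φ g = 1 ↔ (δ g) ^ m = 1 := by
    intro g
    show e (π.rangeRestrict (δ g)) = 1 ↔ _
    rw [map_eq_one_iff e e.injective]
    constructor
    · intro h; exact congrArg Subtype.val h
    · intro h; exact Subtype.ext h
  refine ⟨φ, ?_, ?_⟩
  · exact e.surjective.comp (π.rangeRestrict_surjective.comp hδs)
  · -- scalars
    have hsc : ∀ y : Fˣ, y ^ (q + 1) = 1 → ∃ A : Cfsg.GU n F q, A ∈ Subgroup.center (Cfsg.GU n F q) ∧
        Matrix.GeneralLinearGroup.det (A : Matrix.GeneralLinearGroup (Fin n) F) = y ^ n := by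
      intro y hy
      let A : Matrix.GeneralLinearGroup (Fin n) F := Matrix.GeneralLinearGroup.scalar (Fin n) y
      have hA : ∀ x, Cfsg.Agent.Lib.Herm.gl n F A x = (y : F) • x := by
        intro x
        show (Matrix.scalar (Fin n) (y : F)).mulVec x = _
        rw [Matrix.scalar_apply, ← Matrix.smul_one_eq_diagonal, Matrix.smul_mulVec, Matrix.one_mulVec]
      have hmem : A ∈ Cfsg.GU n F q := by
        rw [Cfsg.Agent.Lib.Herm.mem_GU h1 hq]
        intro x z
        rw [hA, hA, Cfsg.Agent.Lib.Herm.HF.smul_left, Cfsg.Agent.Lib.Herm.HF.smul_right, ← mul_assoc,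
          hq (y : F), ← pow_succ', ← Units.val_pow_eq_pow_val, hy, Units.val_one, one_mul]
      refine ⟨⟨A, hmem⟩, ?_, ?_⟩
      · rw [Subgroup.mem_center_iff]
        intro g
        apply Subtype.ext
        apply (Cfsg.Agent.Lib.Herm.gl n F).injective
        show Cfsg.Agent.Lib.Herm.gl n F (g.1 * A) = Cfsg.Agent.Lib.Herm.gl n F (A * g.1)
        rw [map_mul, map_mul]
        apply LinearEquiv.ext
        intro x
        show Cfsg.Agent.Lib.Herm.gl n F g.1 (Cfsg.Agent.Lib.Herm.gl n F A x) =
          Cfsg.Agent.Lib.Herm.gl n F A (Cfsg.Agent.Lib.Herm.gl n F g.1 x)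
        rw [hA, hA, map_smul]
      · apply Units.ext
        show (Matrix.scalar (Fin n) (y : F)).det = _
        rw [Matrix.scalar_apply, Matrix.det_diagonal, Finset.prod_const, Finset.card_univ,
          Fintype.card_fin, Units.val_pow_eq_pow_val]
    apply le_antisymm
    · intro g hg
      have hg' : (δ g) ^ m = 1 := (hφ g).mp hg
      -- `δ g` is an `n`-th power
      let ν : K →* K := powMonoidHom n
      have hνi : ν.range.index = d := by
        have := IsCyclic.index_powMonoidHom_range (G := K) n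
        rw [this, hKcard, Nat.gcd_comm]
      have hνr : Nat.card ν.range = m := by
        have h5 := Subgroup.card_mul_index ν.range
        rw [hνi, hKcard, hm, mul_comm d m] at h5
        exact Nat.eq_of_mul_eq_mul_right hd0 h5
      have hπk : Nat.card π.ker = m := by
        have h5 := Subgroup.card_mul_index π.ker
        rw [Subgroup.index_ker, hπr, hKcard, hm, mul_comm d m] at h5
        exact Nat.eq_of_mul_eq_mul_right hd0 h5
      have hle : ν.range ≤ π.ker := by
        rintro _ ⟨y, rfl⟩
        rw [MonoidHom.mem_ker]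
        show (y ^ n) ^ m = 1
        have hy : y ^ (q + 1) = 1 := Subtype.ext ((hKmem _).mp y.2)
        have : n * m = (q + 1) * s := by
          rw [hm]
          calc n * m = (d * s) * m := by rw [← hs]
            _ = d * m * s := by ring
        rw [← pow_mul, this, pow_mul, hy, one_pow]
      have heq : ν.range = π.ker := by
        apply Subgroup.eq_of_le_of_card_ge hle
        rw [hνr, hπk]
      have hmem : δ g ∈ ν.range := by
        rw [heq, MonoidHom.mem_ker]; exact hg'
      obtain ⟨y, hy⟩ := hmem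
      obtain ⟨A, hAc, hAd⟩ := hsc y.1 ((hKmem _).mp y.2)
      have hg2 : g = (g * A⁻¹) * A := by group
      rw [hg2]
      apply Subgroup.mul_mem_sup
      · rw [Subgroup.mem_subgroupOf, MonoidHom.mem_ker]
        show Matrix.GeneralLinearGroup.det (g.1 * (A.1)⁻¹) = 1
        rw [map_mul, map_inv, hAd, ← hδ, ← hy]
        show (y ^ n : K).1 * ((y : Fˣ) ^ n)⁻¹ = 1
        rw [SubmonoidClass.coe_pow, mul_inv_cancel]
      · exact hAc
    · rw [sup_le_iff]
      constructor
      · intro g hg
        have h5 : δ g = 1 := Subtype.ext hg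
        show φ g = 1
        rw [hφ, h5, one_pow]
      · intro g hg
        obtain ⟨l, hl⟩ := hND.central_scalar hσ (by rw [hfr]; exact hn)
          (g := Cfsg.Agent.Lib.Herm.gl n F g.1) ((Cfsg.Agent.Lib.Herm.mem_GU h1 hq _).mp g.2) (by
            intro k hk
            obtain ⟨A, rfl⟩ := (Cfsg.Agent.Lib.Herm.gl n F).surjective k
            rw [← map_mul, ← map_mul]
            congr 1
            have := Subgroup.mem_center_iff.mp hg ⟨A, (Cfsg.Agent.Lib.Herm.mem_GU h1 hq _).mpr hk.1⟩
            exact (congrArg Subtype.val this).symm)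
        obtain ⟨u, hu⟩ := hND.exists_norm_vec hσ (by omega)
        have hlq : l ^ (q + 1) = 1 := by
          have h5 := (Cfsg.Agent.Lib.Herm.mem_GU h1 hq _).mp g.2 u u
          rw [hl, Cfsg.Agent.Lib.Herm.HF.smul_left, Cfsg.Agent.Lib.Herm.HF.smul_right, hu, mul_one, hq,
            ← pow_succ'] at h5
          exact h5
        have hdet : ((δ g : Fˣ) : F) = l ^ n := by
          rw [hδ]
          show ((g.1 : Matrix.GeneralLinearGroup (Fin n) F) : Matrix (Fin n) (Fin n) F).det = _
          have hM := Cfsg.Agent.Lib.Herm.mulVec_scalar (M := ((g.1 : Matrix.GeneralLinearGroup (Fin n) F) :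
            Matrix (Fin n) (Fin n) F)) (l := l) (fun x => hl x)
          rw [hM, Matrix.scalar_apply, Matrix.det_diagonal, Finset.prod_const, Finset.card_univ,
            Fintype.card_fin]
        show φ g = 1
        rw [hφ]
        apply Subtype.ext
        apply Units.ext
        show (((δ g) ^ m : K).1 : F) = 1
        rw [SubmonoidClass.coe_pow, Units.val_pow_eq_pow_val, hdet, ← pow_mul]
        have : n * m = (q + 1) * s := by
          rw [hm]
          calc n * m = (d * s) * m := by rw [← hs]
            _ = d * m * s := by ring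
        rw [this, pow_mul, hlq, one_pow]


end Cfsg.Agent.S0783
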