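import Cfsg.Statements.S0784
import Mathlib
import Cfsg.Agent.Lib.Orth1
import Cfsg.Agent.Lib.Orth2
import Cfsg.Agent.Lib.Orth3
import Cfsg.Agent.Lib.Orth4
import Cfsg.Agent.Lib.Orth5
import Cfsg.Agent.Lib.Orth6
-- import your own Cfsg.Agent.* helpers here

set_option autoImplicit false
open Cfsg
set_option linter.all false

namespace Cfsg.Agent.S0784

/-- Reflections: if Q(v) ≠ 0 then the matrix R = 1 − Q(v)⁻¹ · v f(v, ·)ᵀ preserves Q, maps v to −v, fixes each x with f(v, x) = 0, and has determinant −1 (in characteristic two, −1 = 1 and R is the orthogonal transvection of v). -/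
theorem result {F : Type*} [Field F] {n : ℕ} (Q : QuadraticForm F (Fin n → F)) (v : Fin n → F) (hv : Q v ≠ 0) : (∀ x, Q ((Cfsg.reflectionMatrix ⇑Q v).mulVec x) = Q x) ∧ (Cfsg.reflectionMatrix ⇑Q v).mulVec v = -v ∧ (∀ x, QuadraticMap.polar ⇑Q v x = 0 → (Cfsg.reflectionMatrix ⇑Q v).mulVec x = x) ∧ (Cfsg.reflectionMatrix ⇑Q v).det = -1 := by
  refine ⟨fun x => ?_, ?_, fun x hx => ?_, ?_⟩
  · rw [Cfsg.Agent.Lib.Orth.reflectionMatrix_mulVec]; exact Cfsg.Agent.Lib.Orth.refl_mem Q v x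
  · rw [Cfsg.Agent.Lib.Orth.reflectionMatrix_mulVec]; exact Cfsg.Agent.Lib.Orth.refl_self hv
  · rw [Cfsg.Agent.Lib.Orth.reflectionMatrix_mulVec]
    exact Cfsg.Agent.Lib.Orth.refl_of_orth (by rw [QuadraticMap.polar_comm]; exact hx)
  · have h := Cfsg.Agent.Lib.Orth.det_refl (Q := Q) hv
    rw [← LinearMap.det_toLin']
    rw [← h]
    congr 1
    apply LinearMap.ext
    intro x
    rw [Matrix.toLin'_apply, Cfsg.Agent.Lib.Orth.reflectionMatrix_mulVec]
    rfl


end Cfsg.Agent.S0784
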