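import Cfsg.Statements.S0785
import Mathlib
import Cfsg.Agent.Lib.Orth1
import Cfsg.Agent.Lib.Orth2
import Cfsg.Agent.Lib.Orth3
import Cfsg.Agent.Lib.Orth4
import Cfsg.Agent.Lib.Orth5
import Cfsg.Agent.Lib.Orth6
-- import your own Cfsg.Agent.* helpers here

set_option autoImplicit false
open Cfsg
set_option linter.all false

namespace Cfsg.Agent.S0785

/-- det(I) = {±1}: for a quadratic form on F^n whose polar form is non-degenerate, every element of the isometry group has determinant 1 or −1, and as soon as Q takes a non-zero value some isometry has determinant −1. -/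
theorem result {F : Type*} [Field F] {n : ℕ} (Q : QuadraticForm F (Fin n → F)) (hQ : (QuadraticMap.polarBilin Q).Nondegenerate) : (∀ g : ↥(Cfsg.isometryGroup F ⇑Q), ((g : Matrix.GeneralLinearGroup (Fin n) F) : Matrix (Fin n) (Fin n) F).det = 1 ∨ ((g : Matrix.GeneralLinearGroup (Fin n) F) : Matrix (Fin n) (Fin n) F).det = -1) ∧ ((∃ v, Q v ≠ 0) → ∃ g : ↥(Cfsg.isometryGroup F ⇑Q), ((g : Matrix.GeneralLinearGroup (Fin n) F) : Matrix (Fin n) (Fin n) F).det = -1) := by
  refine ⟨fun g => ?_, fun ⟨v, hv⟩ => ?_⟩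
  · rw [← Cfsg.Agent.Lib.Orth.det_isoO]
    exact Cfsg.Agent.Lib.Orth.det_of_mem_O hQ (Cfsg.Agent.Lib.Orth.isoO Q g).2
  · refine ⟨(Cfsg.Agent.Lib.Orth.isoO Q).symm (Cfsg.Agent.Lib.Orth.rf Q v), ?_⟩
    rw [← Cfsg.Agent.Lib.Orth.det_isoO, MulEquiv.apply_symm_apply]
    exact Cfsg.Agent.Lib.Orth.det_refl hv


end Cfsg.Agent.S0785
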