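import Cfsg.Statements.S0786
import Mathlib
import Cfsg.Agent.Lib.Orth1
import Cfsg.Agent.Lib.Orth2
import Cfsg.Agent.Lib.Orth3
import Cfsg.Agent.Lib.Orth4
import Cfsg.Agent.Lib.Orth5
import Cfsg.Agent.Lib.Orth6
-- import your own Cfsg.Agent.* helpers here

set_option autoImplicit false
open Cfsg
set_option linter.all false

namespace Cfsg.Agent.S0786

/-- Generation by reflections: if F is finite, Q is a quadratic form on F^n with non-degenerate polar form, and (|F|, n) ≠ (2, 4), then the isometry group of Q is generated by the reflections r_v, Q(v) ≠ 0. -/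
theorem result {F : Type*} [Field F] [Fintype F] {n : ℕ} (Q : QuadraticForm F (Fin n → F)) (hQ : (QuadraticMap.polarBilin Q).Nondegenerate) (h : Fintype.card F ≠ 2 ∨ n ≠ 4) : Subgroup.closure {g : ↥(Cfsg.isometryGroup F ⇑Q) | ∃ v : Fin n → F, Q v ≠ 0 ∧ ((g : Matrix.GeneralLinearGroup (Fin n) F) : Matrix (Fin n) (Fin n) F) = Cfsg.reflectionMatrix ⇑Q v} = ⊤ := by
  have hR := Cfsg.Agent.Lib.Orth.R_eq_O hQ
    (Cfsg.Agent.Lib.Orth.hex_of (Cfsg.Agent.Lib.Orth.finrank_fin n) h)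
  rw [eq_top_iff]
  rintro g -
  rw [Cfsg.Agent.Lib.Orth.closure_comap_equiv (Cfsg.Agent.Lib.Orth.isoO Q) _
    {g | ∃ v, Q v ≠ 0 ∧ g = Cfsg.Agent.Lib.Orth.rf Q v}]
  · rw [Cfsg.Agent.Lib.Orth.closure_rf hR]; trivial
  · intro g
    constructor
    · rintro ⟨v, hv, h⟩
      exact ⟨v, hv, Subtype.ext ((Cfsg.Agent.Lib.Orth.reflectionMatrix_eq Q g v).mp h)⟩
    · rintro ⟨v, hv, h⟩
      exact ⟨v, hv, (Cfsg.Agent.Lib.Orth.reflectionMatrix_eq Q g v).mpr (congrArg Subtype.val h)⟩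


end Cfsg.Agent.S0786
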