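import Cfsg.Statements.S0787
import Mathlib
import Cfsg.Agent.Lib.Orth1
import Cfsg.Agent.Lib.Orth2
import Cfsg.Agent.Lib.Orth3
import Cfsg.Agent.Lib.Orth4
import Cfsg.Agent.Lib.Orth5
import Cfsg.Agent.Lib.Orth6
-- import your own Cfsg.Agent.* helpers here

set_option autoImplicit false
open Cfsg
set_option linter.all false

namespace Cfsg.Agent.S0787

/-- Existence and uniqueness of Ω: if F is finite, n ≥ 2, Q is a quadratic form on F^n with non-degenerate polar form and (|F|, n) ≠ (2, 4), then the group of isometries of determinant one has a unique subgroup of index 2. -/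
theorem result {F : Type*} [Field F] [Fintype F] {n : ℕ} (hn : 2 ≤ n) (Q : QuadraticForm F (Fin n → F)) (hQ : (QuadraticMap.polarBilin Q).Nondegenerate) (h : Fintype.card F ≠ 2 ∨ n ≠ 4) : ∃! H : Subgroup ↥(Cfsg.specialIsometryGroup F ⇑Q), H.index = 2 := by
  have hR := Cfsg.Agent.Lib.Orth.R_eq_O hQ
    (Cfsg.Agent.Lib.Orth.hex_of (Cfsg.Agent.Lib.Orth.finrank_fin n) h)
  obtain ⟨H, hH, huniq⟩ := Cfsg.Agent.Lib.Orth.existsUnique_index_two_SO hQ hR
    (by rw [Cfsg.Agent.Lib.Orth.finrank_fin]; exact hn)
  have e := Cfsg.Agent.Lib.Orth.isoSO Q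
  refine ⟨H.comap e.toMonoidHom, ?_, ?_⟩
  · change (H.comap e.toMonoidHom).index = 2
    rw [Subgroup.index_comap_of_surjective _ e.surjective]; exact hH
  · intro K hK
    have h1 : K.map e.toMonoidHom = H := by
      apply huniq
      change (K.map e.toMonoidHom).index = 2
      rw [← hK]; exact Subgroup.index_map_equiv K e
    rw [← h1]
    exact (Subgroup.comap_map_eq_self_of_injective e.injective K).symm


end Cfsg.Agent.S0787
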