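import Cfsg.Statements.S0789
import Mathlib
import Cfsg.Agent.Lib.Orth1
import Cfsg.Agent.Lib.Orth2
import Cfsg.Agent.Lib.Orth3
import Cfsg.Agent.Lib.Orth4
import Cfsg.Agent.Lib.Orth5
import Cfsg.Agent.Lib.Orth6
-- import your own Cfsg.Agent.* helpers here

set_option autoImplicit false
open Cfsg
set_option linter.all false

namespace Cfsg.Agent.S0789

/-- Ω has index 2 in O for q even: if F is finite of characteristic two, n ≥ 2, Q is a quadratic form on F^n with non-degenerate polar form, and (|F|, n) ≠ (2, 4), then the commutator subgroup of the isometry group of Q has index 2 in it. -/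
theorem result {F : Type*} [Field F] [Fintype F] [CharP F 2] {n : ℕ} (hn : 2 ≤ n) (Q : QuadraticForm F (Fin n → F)) (hQ : (QuadraticMap.polarBilin Q).Nondegenerate) (h : Fintype.card F ≠ 2 ∨ n ≠ 4) : (Cfsg.Omega F ⇑Q).index = 2 := by
  rw [Cfsg.Agent.Lib.Orth.index_Omega]
  have hR := Cfsg.Agent.Lib.Orth.R_eq_O hQ
    (Cfsg.Agent.Lib.Orth.hex_of (Cfsg.Agent.Lib.Orth.finrank_fin n) h)
  exact Cfsg.Agent.Lib.Orth.index_commutator_two hQ (CharTwo.two_eq_zero (R := F)) hR
    (by rw [Cfsg.Agent.Lib.Orth.finrank_fin]; omega)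


end Cfsg.Agent.S0789
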