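import Cfsg.Statements.S0792
import Mathlib
import Cfsg.Agent.Lib.Orth1
import Cfsg.Agent.Lib.Orth2
import Cfsg.Agent.Lib.Orth3
import Cfsg.Agent.Lib.Orth4
import Cfsg.Agent.Lib.Orth5
import Cfsg.Agent.Lib.Orth6
-- import your own Cfsg.Agent.* helpers here

set_option autoImplicit false
open Cfsg
set_option linter.all false

namespace Cfsg.Agent.S0792

/-- For q odd and Q with non-degenerate polar form on F^n, the determinant-one isometries form the subgroup generated by all products r_u r_v of two reflections (Q(u), Q(v) ≠ 0). -/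
theorem result {F : Type*} [Field F] [Fintype F] (h2 : (2 : F) ≠ 0) {n : ℕ} (Q : QuadraticForm F (Fin n → F)) (hQ : (QuadraticMap.polarBilin Q).Nondegenerate) : Cfsg.specialIsometryGroup F ⇑Q = Subgroup.closure {g : ↥(Cfsg.isometryGroup F ⇑Q) | ∃ u v : Fin n → F, Q u ≠ 0 ∧ Q v ≠ 0 ∧ ((g : Matrix.GeneralLinearGroup (Fin n) F) : Matrix (Fin n) (Fin n) F) = Cfsg.reflectionMatrix ⇑Q u * Cfsg.reflectionMatrix ⇑Q v} := by
  ext g
  rw [Cfsg.Agent.Lib.Orth.mem_specialIsometryGroup_iff, Cfsg.Agent.Lib.Orth.SO_eq_closure hQ h2]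
  symm
  apply Cfsg.Agent.Lib.Orth.closure_comap_equiv
  intro g
  constructor
  · rintro ⟨u, v, hu, hv, h⟩
    refine ⟨u, v, hu, hv, Subtype.ext (LinearEquiv.ext fun x => ?_)⟩
    rw [(Cfsg.Agent.Lib.Orth.coe_eq_iff Q g _).mp h, ← Matrix.mulVec_mulVec,
      Cfsg.Agent.Lib.Orth.reflectionMatrix_mulVec, Cfsg.Agent.Lib.Orth.reflectionMatrix_mulVec]
    rfl
  · rintro ⟨u, v, hu, hv, h⟩
    refine ⟨u, v, hu, hv, (Cfsg.Agent.Lib.Orth.coe_eq_iff Q g _).mpr fun x => ?_⟩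
    rw [← Matrix.mulVec_mulVec,
      Cfsg.Agent.Lib.Orth.reflectionMatrix_mulVec, Cfsg.Agent.Lib.Orth.reflectionMatrix_mulVec, h]
    rfl


end Cfsg.Agent.S0792
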