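import Cfsg.Statements.S0793
import Mathlib
import Cfsg.Agent.Lib.Orth1
import Cfsg.Agent.Lib.Orth2
import Cfsg.Agent.Lib.Orth3
import Cfsg.Agent.Lib.Orth4
import Cfsg.Agent.Lib.Orth5
import Cfsg.Agent.Lib.Orth6
-- import your own Cfsg.Agent.* helpers here

set_option autoImplicit false
open Cfsg
set_option linter.all false

namespace Cfsg.Agent.S0793

/-- Root elements: if Q(u) = Q(v) = 0 and f(u, v) = 0 (f the polar form), then for every c the Siegel matrix T_(u,v)(c) preserves Q, fixes u and v, and T(c) T(d) = T(c + d). -/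
theorem result {F : Type*} [Field F] {n : ℕ} (Q : QuadraticForm F (Fin n → F)) (u v : Fin n → F) (hu : Q u = 0) (hv : Q v = 0) (huv : QuadraticMap.polar ⇑Q u v = 0) : (∀ c x, Q ((Cfsg.siegelMatrix ⇑Q u v c).mulVec x) = Q x) ∧ (∀ c, (Cfsg.siegelMatrix ⇑Q u v c).mulVec u = u ∧ (Cfsg.siegelMatrix ⇑Q u v c).mulVec v = v) ∧ ∀ c d, Cfsg.siegelMatrix ⇑Q u v c * Cfsg.siegelMatrix ⇑Q u v d = Cfsg.siegelMatrix ⇑Q u v (c + d) := by
  refine ⟨fun c x => ?_, fun c => ⟨?_, ?_⟩, fun c d => ?_⟩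
  · rw [Cfsg.Agent.Lib.Orth.siegelMatrix_mulVec' Q x c hu hv huv]
    exact Cfsg.Agent.Lib.Orth.siegel_mem _ _ x
  · rw [Cfsg.Agent.Lib.Orth.siegelMatrix_mulVec, Cfsg.Agent.Lib.Orth.polar_self', hu, huv]
    simp
  · rw [Cfsg.Agent.Lib.Orth.siegelMatrix_mulVec, Cfsg.Agent.Lib.Orth.polar_self', hv,
      QuadraticMap.polar_comm, huv]
    simp
  · apply Matrix.toLin'.injective
    apply LinearMap.ext
    intro x
    rw [Matrix.toLin'_apply, Matrix.toLin'_apply, ← Matrix.mulVec_mulVec,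
      Cfsg.Agent.Lib.Orth.siegelMatrix_mulVec, Cfsg.Agent.Lib.Orth.siegelMatrix_mulVec,
      Cfsg.Agent.Lib.Orth.siegelMatrix_mulVec]
    have hvu : QuadraticMap.polar ⇑Q v u = 0 := by rw [QuadraticMap.polar_comm]; exact huv
    simp only [QuadraticMap.polar_add_left, QuadraticMap.polar_sub_left,
      QuadraticMap.polar_smul_left, Cfsg.Agent.Lib.Orth.polar_self', hu, hv, huv, hvu, smul_eq_mul]
    module


end Cfsg.Agent.S0793
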