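import Cfsg.Statements.S0794
import Mathlib
import Cfsg.Agent.Lib.Orth1
import Cfsg.Agent.Lib.Orth2
import Cfsg.Agent.Lib.Orth5
import Cfsg.Agent.Lib.Orth6
import Cfsg.Agent.Lib.Orth10
import Cfsg.Agent.Lib.Orth11
import Cfsg.Agent.Lib.Orth15
-- import your own Cfsg.Agent.* helpers here

set_option autoImplicit false
open Cfsg
set_option linter.all false

namespace Cfsg.Agent.S0794

/-- For q odd, n ≥ 5 and Q with non-degenerate polar form: an isometry whose matrix is a Siegel transformation T_(u,v)(c) (u, v singular and orthogonal) is a commutator in the isometry group, so lies in Ω. -/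
theorem result {F : Type*} [Field F] [Fintype F] (h2 : (2 : F) ≠ 0) {n : ℕ} (hn : 5 ≤ n) (Q : QuadraticForm F (Fin n → F)) (hQ : (QuadraticMap.polarBilin Q).Nondegenerate) (u v : Fin n → F) (hu : Q u = 0) (hv : Q v = 0) (huv : QuadraticMap.polar ⇑Q u v = 0) (c : F) (g : ↥(Cfsg.isometryGroup F ⇑Q)) (hg : ((g : Matrix.GeneralLinearGroup (Fin n) F) : Matrix (Fin n) (Fin n) F) = Cfsg.siegelMatrix ⇑Q u v c) : g ∈ commutatorSet ↥(Cfsg.isometryGroup F ⇑Q) ∧ g ∈ Cfsg.Omega F ⇑Q := by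
  have h1 : Cfsg.Agent.Lib.Orth.isoO Q g = Cfsg.Agent.Lib.Orth.sg Q u (c • v) hu
      (by rw [QuadraticMap.polar_smul_right, huv, smul_zero]) :=
    Subtype.ext ((Cfsg.Agent.Lib.Orth.siegelMatrix_eq Q g c hu hv huv).mp hg)
  have h3 : (-1 : F) ≠ 1 := fun h => h2 (by linear_combination -h)
  have h4 : g ∈ commutatorSet ↥(Cfsg.isometryGroup F ⇑Q) := by
    have h5 := Cfsg.Agent.Lib.Orth.sg_mem_commutatorSet hQ (neg_ne_zero.mpr one_ne_zero) h3 hu
      (z := c • v) (by rw [QuadraticMap.polar_smul_right, huv, smul_zero])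
    rw [← h1, mem_commutatorSet_iff] at h5
    obtain ⟨a, b, hab⟩ := h5
    rw [mem_commutatorSet_iff]
    refine ⟨(Cfsg.Agent.Lib.Orth.isoO Q).symm a, (Cfsg.Agent.Lib.Orth.isoO Q).symm b, ?_⟩
    apply (Cfsg.Agent.Lib.Orth.isoO Q).injective
    rw [map_commutatorElement, MulEquiv.apply_symm_apply, MulEquiv.apply_symm_apply, hab]
  refine ⟨h4, ?_⟩
  change g ∈ commutator _
  rw [commutator_eq_closure]
  exact Subgroup.subset_closure h4


end Cfsg.Agent.S0794
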