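import Cfsg.Statements.S0795
import Mathlib
import Cfsg.Agent.Lib.Orth1
import Cfsg.Agent.Lib.Orth2
import Cfsg.Agent.Lib.Orth5
import Cfsg.Agent.Lib.Orth6
import Cfsg.Agent.Lib.Orth10
import Cfsg.Agent.Lib.Orth11
import Cfsg.Agent.Lib.Orth15
-- import your own Cfsg.Agent.* helpers here

set_option autoImplicit false
open Cfsg
set_option linter.all false

namespace Cfsg.Agent.S0795

/-- Generation of Ω by root elements: for q odd, n ≥ 5 and Q with non-degenerate polar form on F^n, the commutator subgroup of the isometry group equals the subgroup generated by the isometries whose matrices are Siegel transformations T_(u,v)(c) with u, v singular and orthogonal. -/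
theorem result {F : Type*} [Field F] [Fintype F] (h2 : (2 : F) ≠ 0) {n : ℕ} (hn : 5 ≤ n) (Q : QuadraticForm F (Fin n → F)) (hQ : (QuadraticMap.polarBilin Q).Nondegenerate) : Cfsg.Omega F ⇑Q = Subgroup.closure {g : ↥(Cfsg.isometryGroup F ⇑Q) | ∃ (u v : Fin n → F) (c : F), Q u = 0 ∧ Q v = 0 ∧ QuadraticMap.polar ⇑Q u v = 0 ∧ ((g : Matrix.GeneralLinearGroup (Fin n) F) : Matrix (Fin n) (Fin n) F) = Cfsg.siegelMatrix ⇑Q u v c} := by
  have hfr := Cfsg.Agent.Lib.Orth.finrank_fin (F := F) n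
  have hex : (∃ a : F, a ≠ 0 ∧ a ≠ -1) ∨ Module.finrank F (Fin n → F) ≠ 4 := Or.inr (by omega)
  ext g
  rw [Cfsg.Agent.Lib.Orth.mem_Omega_iff, Cfsg.Agent.Lib.Orth.commutator_eq_SG hQ hex (by omega)]
  rw [Cfsg.Agent.Lib.Orth.closure_comap_equiv (Cfsg.Agent.Lib.Orth.isoO Q) _
    {g | ∃ (u v : Fin n → F) (hu : Q u = 0) (hv : Q v = 0)
      (huv : QuadraticMap.polar Q u v = 0), g = Cfsg.Agent.Lib.Orth.sg Q u v hu huv}]
  · constructor
    · intro h
      have h1 : Cfsg.Agent.Lib.Orth.SG Q ≤ Subgroup.closure {g : ↥(Cfsg.Agent.Lib.Orth.O Q) |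
          ∃ (u v : Fin n → F) (hu : Q u = 0) (hv : Q v = 0)
          (huv : QuadraticMap.polar Q u v = 0), g = Cfsg.Agent.Lib.Orth.sg Q u v hu huv} := by
        rw [Cfsg.Agent.Lib.Orth.SG, Subgroup.closure_le]
        rintro _ ⟨w, z, hw, hwz, rfl⟩
        exact Cfsg.Agent.Lib.Orth.sg_mem_closure_singular hQ (by omega) hw hwz
      exact h1 h
    · intro h
      have h1 : Subgroup.closure {g : ↥(Cfsg.Agent.Lib.Orth.O Q) |
          ∃ (u v : Fin n → F) (hu : Q u = 0) (hv : Q v = 0)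
          (huv : QuadraticMap.polar Q u v = 0), g = Cfsg.Agent.Lib.Orth.sg Q u v hu huv} ≤
          Cfsg.Agent.Lib.Orth.SG Q := by
        rw [Subgroup.closure_le]
        rintro _ ⟨w, z, hw, hz, hwz, rfl⟩
        exact Cfsg.Agent.Lib.Orth.sg_mem_SG _ _
      exact h1 h
  · intro g
    constructor
    · rintro ⟨u, v, c, hu, hv, huv, h⟩
      refine ⟨u, c • v, hu, by rw [Cfsg.Agent.Lib.Orth.map_smul', hv, mul_zero],
        by rw [QuadraticMap.polar_smul_right, huv, smul_zero], ?_⟩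
      exact Subtype.ext ((Cfsg.Agent.Lib.Orth.siegelMatrix_eq Q g c hu hv huv).mp h)
    · rintro ⟨u, v, hu, hv, huv, h⟩
      refine ⟨u, v, 1, hu, hv, huv, ?_⟩
      rw [Cfsg.Agent.Lib.Orth.siegelMatrix_eq Q g 1 hu hv huv, h]
      apply LinearEquiv.ext
      intro x
      rw [Cfsg.Agent.Lib.Orth.sg_apply, Cfsg.Agent.Lib.Orth.siegel_apply, one_smul]


end Cfsg.Agent.S0795
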