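import Cfsg.Statements.S0797
import Mathlib
import Cfsg.Agent.Lib.Orth1
import Cfsg.Agent.Lib.Orth2
import Cfsg.Agent.Lib.Orth3
import Cfsg.Agent.Lib.Orth4
import Cfsg.Agent.Lib.Orth5
import Cfsg.Agent.Lib.Orth6
-- import your own Cfsg.Agent.* helpers here

set_option autoImplicit false
open Cfsg
set_option linter.all false

namespace Cfsg.Agent.S0797

theorem card_aux {G : Type*} [Group G] (φ : G →* ℤˣ × ℤˣ) (hs : Function.Surjective φ)
    (hk : φ.ker = commutator G) : Nat.card {H : Subgroup G // H.index = 2} = 3 := by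
  classical
  obtain ⟨x, hx⟩ := hs (-1, 1)
  obtain ⟨y, hy⟩ := hs (1, -1)
  have hval : ∀ a : ℤˣ × ℤˣ, a = 1 ∨ a = (-1, 1) ∨ a = (1, -1) ∨ a = (-1, -1) := by decide
  -- the three characters
  let χ1 : G →* ℤˣ := (MonoidHom.fst ℤˣ ℤˣ).comp φ
  let χ2 : G →* ℤˣ := (MonoidHom.snd ℤˣ ℤˣ).comp φ
  let χ3 : G →* ℤˣ := χ1 * χ2
  have m1 : ∀ g, g ∈ χ1.ker ↔ (φ g).1 = 1 := fun g => Iff.rfl
  have m2 : ∀ g, g ∈ χ2.ker ↔ (φ g).2 = 1 := fun g => Iff.rfl
  have m3 : ∀ g, g ∈ χ3.ker ↔ (φ g).1 * (φ g).2 = 1 := fun g => Iff.rfl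
  have hidx : ∀ χ : G →* ℤˣ, (∃ g, χ g = -1) → χ.ker.index = 2 := by
    rintro χ ⟨g, hg⟩
    have hsurj : Function.Surjective χ := by
      intro a
      rcases Int.units_eq_one_or a with rfl | rfl
      · exact ⟨1, map_one _⟩
      · exact ⟨g, hg⟩
    rw [Subgroup.index_ker, MonoidHom.range_eq_top.mpr hsurj, Subgroup.card_top,
      Nat.card_eq_fintype_card]
    rfl
  have i1 : χ1.ker.index = 2 := hidx _ ⟨x, by change (φ x).1 = -1; rw [hx]⟩
  have i2 : χ2.ker.index = 2 := hidx _ ⟨y, by change (φ y).2 = -1; rw [hy]⟩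
  have i3 : χ3.ker.index = 2 := hidx _ ⟨x, by change (φ x).1 * (φ x).2 = -1; rw [hx]; rfl⟩
  have hcomm : ∀ H : Subgroup G, H.index = 2 → φ.ker ≤ H := by
    intro H hH
    haveI : H.Normal := Subgroup.normal_of_index_eq_two hH
    rw [hk]
    have hc : Nat.card (G ⧸ H) = 2 := by rw [← hH]; rfl
    have h1 : ∀ a b : G ⧸ H, a * b = b * a := by
      haveI : Fact (Nat.Prime 2) := ⟨Nat.prime_two⟩
      haveI : IsCyclic (G ⧸ H) := isCyclic_of_prime_card hc
      intro a b
      exact (IsCyclic.commGroup (α := G ⧸ H)).mul_comm a b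
    rw [commutator_def, Subgroup.commutator_le]
    intro a _ b _
    rw [← QuotientGroup.eq_one_iff, commutatorElement_def]
    change (QuotientGroup.mk' H) (a * b * a⁻¹ * b⁻¹) = 1
    rw [map_mul, map_mul, map_mul, map_inv, map_inv, mul_inv_eq_one, mul_inv_eq_iff_eq_mul]
    exact h1 _ _
  have hall : ∀ H : Subgroup G, H.index = 2 → H = χ1.ker ∨ H = χ2.ker ∨ H = χ3.ker := by
    intro H hH
    have hker := hcomm H hH
    have hmul : ∀ a b, a ∉ H → b ∉ H → a * b ∈ H := fun a b ha hb =>
      (Subgroup.mul_mem_iff_of_index_two hH).mpr (iff_of_false ha hb)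
    have hstep : ∀ g h, h ∈ H → φ g = φ h → g ∈ H := by
      intro g h hh hgh
      have : g * h⁻¹ ∈ H := hker (by rw [MonoidHom.mem_ker, map_mul, map_inv, hgh, mul_inv_cancel])
      have h3 := H.mul_mem this hh
      rwa [inv_mul_cancel_right] at h3
    have hone : ∀ g, φ g = 1 → g ∈ H := fun g hg => hker hg
    by_cases hxH : x ∈ H
    · by_cases hyH : y ∈ H
      · exfalso
        have : H = ⊤ := by
          rw [eq_top_iff]
          rintro g -
          rcases hval (φ g) with h | h | h | h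
          · exact hone g h
          · exact hstep g x hxH (by rw [h, hx])
          · exact hstep g y hyH (by rw [h, hy])
          · exact hstep g (x * y) (mul_mem hxH hyH) (by rw [h, map_mul, hx, hy]; rfl)
        rw [this, Subgroup.index_top] at hH
        norm_num at hH
      · right; left
        refine Cfsg.Agent.Lib.Orth.eq_of_le_of_index_two (fun g hg => ?_) i2 hH
        rw [m2] at hg
        rcases hval (φ g) with h | h | h | h
        · exact hone g h
        · exact hstep g x hxH (by rw [h, hx])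
        · rw [h] at hg; exact absurd hg (by decide)
        · rw [h] at hg; exact absurd hg (by decide)
    · by_cases hyH : y ∈ H
      · left
        refine Cfsg.Agent.Lib.Orth.eq_of_le_of_index_two (fun g hg => ?_) i1 hH
        rw [m1] at hg
        rcases hval (φ g) with h | h | h | h
        · exact hone g h
        · rw [h] at hg; exact absurd hg (by decide)
        · exact hstep g y hyH (by rw [h, hy])
        · rw [h] at hg; exact absurd hg (by decide)
      · right; right
        refine Cfsg.Agent.Lib.Orth.eq_of_le_of_index_two (fun g hg => ?_) i3 hH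
        rw [m3] at hg
        rcases hval (φ g) with h | h | h | h
        · exact hone g h
        · rw [h] at hg; exact absurd hg (by decide)
        · rw [h] at hg; exact absurd hg (by decide)
        · exact hstep g (x * y) (hmul x y hxH hyH) (by rw [h, map_mul, hx, hy]; rfl)
  have h12 : χ1.ker ≠ χ2.ker := by
    intro h
    have h1 : x ∈ χ2.ker := by rw [m2, hx]
    rw [← h, m1, hx] at h1
    exact absurd h1 (by decide)
  have h13 : χ1.ker ≠ χ3.ker := by
    intro h
    have h1 : y ∈ χ1.ker := by rw [m1, hy]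
    rw [h, m3, hy] at h1
    exact absurd h1 (by decide)
  have h23 : χ2.ker ≠ χ3.ker := by
    intro h
    have h1 : x ∈ χ2.ker := by rw [m2, hx]
    rw [h, m3, hx] at h1
    exact absurd h1 (by decide)
  have e : {H : Subgroup G | H.index = 2} = ({χ1.ker, χ2.ker, χ3.ker} : Finset (Subgroup G)) := by
    ext H
    simp only [Set.mem_setOf_eq, Finset.coe_insert, Finset.coe_singleton, Set.mem_insert_iff,
      Set.mem_singleton_iff]
    constructor
    · exact hall H
    · rintro (rfl | rfl | rfl) <;> assumption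
  change Nat.card ↥{H : Subgroup G | H.index = 2} = 3
  rw [e]
  rw [Nat.card_coe_set_eq, Set.ncard_coe_finset]
  rw [Finset.card_insert_of_notMem, Finset.card_pair h23]
  simp [h12, h13]

/-- O^ε_2m(q) ≅ Ω.2² for q odd: if F is finite of odd characteristic, n ≥ 2 is even and Q has non-degenerate polar form on F^n, the isometry group of Q has exactly three subgroups of index 2. -/
theorem result {F : Type*} [Field F] [Fintype F] (h2 : (2 : F) ≠ 0) {n : ℕ} (hn : 2 ≤ n) (heven : Even n) (Q : QuadraticForm F (Fin n → F)) (hQ : (QuadraticMap.polarBilin Q).Nondegenerate) : Nat.card {H : Subgroup ↥(Cfsg.isometryGroup F ⇑Q) // H.index = 2} = 3 := by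
  obtain ⟨ε, hε0, hε⟩ := Cfsg.Agent.Lib.Orth.exists_not_isSquare h2
  have e := (Cfsg.Agent.Lib.Orth.isoO Q)
  apply card_aux ((Cfsg.Agent.Lib.Orth.spin2 Q ε).comp e.toMonoidHom)
  · intro a
    obtain ⟨g, hg⟩ := Cfsg.Agent.Lib.Orth.spin2_surjective hQ h2
      (by rw [Cfsg.Agent.Lib.Orth.finrank_fin]; exact hn) hε a
    exact ⟨e.symm g, by
      change Cfsg.Agent.Lib.Orth.spin2 Q ε (e (e.symm g)) = a
      rw [e.apply_symm_apply, hg]⟩
  · rw [← MonoidHom.comap_ker, Cfsg.Agent.Lib.Orth.ker_spin2 hQ h2 hε]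
    exact (Cfsg.Agent.Lib.Orth.commutator_eq_comap e).symm


end Cfsg.Agent.S0797
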