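import Cfsg.Statements.S0800
import Mathlib
-- import your own Cfsg.Agent.* helpers here

set_option autoImplicit false
open Cfsg
set_option linter.all false

namespace Cfsg.Agent.S0800

/-- Tori of SL_2(q): if g ∈ SL_2(q) has order coprime to the characteristic p, then the order of g divides q − 1 or q + 1. -/
theorem result {F : Type*} [Field F] [Fintype F] {q : ℕ} (hF : Fintype.card F = q) (p : ℕ) [Fact p.Prime] [CharP F p] (g : Matrix.SpecialLinearGroup (Fin 2) F) (hg : Nat.Coprime (orderOf g) p) : orderOf g ∣ q - 1 ∨ orderOf g ∣ q + 1 := by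
  classical
  subst hF
  have hp : p.Prime := Fact.out
  have hq : 1 < Fintype.card F := Fintype.one_lt_card
  have CH : ∀ B : Matrix (Fin 2) (Fin 2) F, B * B = B.trace • B - B.det • (1 : Matrix (Fin 2) (Fin 2) F) := by
    intro B
    apply Matrix.ext
    intro i j
    rw [Matrix.sub_apply, Matrix.smul_apply, Matrix.smul_apply, Matrix.mul_apply, Fin.sum_univ_two, Matrix.trace_fin_two, Matrix.det_fin_two]
    fin_cases i <;> fin_cases j <;> simp <;> ring
  have hone : ∀ h : Matrix (Fin 2) (Fin 2) F, h.det = 1 → (h - 1).det = 0 → (h - 1) * (h - 1) = 0 := by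
    intro h h1 h2
    have h3 : h.trace = 2 := by
      rw [Matrix.det_fin_two] at h1 h2
      simp only [Matrix.sub_apply, Matrix.one_apply_eq] at h2
      rw [Matrix.one_apply_ne (by decide : (0 : Fin 2) ≠ 1), Matrix.one_apply_ne (by decide : (1 : Fin 2) ≠ 0)] at h2
      rw [Matrix.trace_fin_two]
      linear_combination h1 - h2
    have h4 := CH h
    rw [h3, h1, one_smul] at h4
    rw [Matrix.sub_mul, Matrix.mul_sub, h4, Matrix.mul_one, Matrix.one_mul, two_smul]
    abel
  set A : Matrix (Fin 2) (Fin 2) F := (g : Matrix (Fin 2) (Fin 2) F) with hA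
  have hdA : A.det = 1 := g.2
  set q := Fintype.card F with hq'
  set X := A ^ q with hX
  have hdX : X.det = 1 := by rw [hX, Matrix.det_pow, hdA, one_pow]
  have htX : X.trace = A.trace := by
    rw [hX, hq', FiniteField.trace_pow_card, FiniteField.pow_card]
  have hXX := CH X
  rw [htX, hdX, one_smul] at hXX
  have hAA := CH A
  rw [hdA, one_smul] at hAA
  have hsum : A ^ (q - 1) + A ^ (q + 1) = A.trace • X := by
    have e1 : A ^ (q + 1) = A ^ (q - 1) * (A * A) := by
      rw [← pow_two, ← pow_add]; congr 1; omega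
    have e2 : X = A ^ (q - 1) * A := by
      rw [hX, ← pow_succ]; congr 1; omega
    rw [e1, hAA, e2, Matrix.mul_sub, Matrix.mul_one, Matrix.mul_smul]
    abel
  have hprod : A ^ (q - 1) * A ^ (q + 1) = X * X := by
    rw [hX, ← pow_add, ← pow_add]; congr 1; omega
  have hzero : (A ^ (q - 1) - 1) * (A ^ (q + 1) - 1) = 0 := by
    rw [Matrix.sub_mul, Matrix.mul_sub, hprod, Matrix.mul_one, Matrix.one_mul, hXX, ← hsum]
    abel
  have hd : (A ^ (q - 1) - 1).det = 0 ∨ (A ^ (q + 1) - 1).det = 0 := by
    have := congrArg Matrix.det hzero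
    rw [Matrix.det_mul, Matrix.det_zero] at this
    exact mul_eq_zero.mp this
  haveI : CharP (Matrix (Fin 2) (Fin 2) F) p := inferInstance
  have key : ∀ k : ℕ, (A ^ k - 1).det = 0 → orderOf g ∣ k := by
    intro k hk
    have h1 := hone (A ^ k) (by rw [Matrix.det_pow, hdA, one_pow]) hk
    have h2 : (A ^ k - 1) ^ p = 0 := by
      obtain ⟨c, hc⟩ : ∃ c, p = 2 + c := ⟨p - 2, by have := hp.two_le; omega⟩
      rw [hc, pow_add, pow_two, h1, Matrix.zero_mul]
    have h3 : (A ^ k) ^ p = 1 := by
      have h4 := sub_pow_char_of_commute (R := Matrix (Fin 2) (Fin 2) F) (p := p) (x := A ^ k) (y := 1) (Commute.one_right _)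
      rw [h2, one_pow] at h4
      exact (sub_eq_zero.mp h4.symm)
    have h5 : (g ^ k) ^ p = 1 := by
      apply Subtype.ext
      exact h3
    have h6 : orderOf (g ^ k) ∣ p := orderOf_dvd_of_pow_eq_one h5
    have h7 : orderOf (g ^ k) ∣ orderOf g := orderOf_pow_dvd k
    have h8 : orderOf (g ^ k) = 1 := Nat.eq_one_of_dvd_coprimes hg h7 h6
    exact orderOf_dvd_of_pow_eq_one (orderOf_eq_one_iff.mp h8)
  rcases hd with h | h
  · exact Or.inl (key _ h)
  · exact Or.inr (key _ h)


end Cfsg.Agent.S0800
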