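import Cfsg.Statements.S2601
import Mathlib
import Cfsg.Agent.Lib.AutPSL10
-- import your own Cfsg.Agent.* helpers here

set_option autoImplicit false
open Cfsg
set_option linter.all false

namespace Cfsg.Agent.S2601

/-- Structure of the outer automorphism group of PSL_n(q), n ≥ 3, q = p^f: it has a normal cyclic subgroup of order gcd(n, q − 1) (the diagonal automorphisms) whose quotient is the direct product of a cyclic group of order f (field automorphisms) and a group of order 2 (the inverse-transpose graph automorphism). -/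
theorem result {F : Type*} [Field F] [Fintype F] {p f n : ℕ} [Fact p.Prime] (hf : 1 ≤ f) (hF : Fintype.card F = p ^ f) (hn : 3 ≤ n) : ∃ φ : Cfsg.Out (Matrix.ProjectiveSpecialLinearGroup (Fin n) F) →* Multiplicative (ZMod f × ZMod 2), Function.Surjective φ ∧ IsCyclic φ.ker ∧ Nat.card φ.ker = Nat.gcd n (p ^ f - 1) := by
  open Cfsg.Agent.Lib.AutPSL Cfsg.Agent.Lib.FinGal in
  obtain ⟨θ, -, hθ, hk⟩ := exists_proj_PSL (F := F) hn
  obtain ⟨φ, hφ, hc, hcard⟩ := Cfsg.Agent.Lib.AutPSL.out_structure (by omega) θ hθ hk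
  obtain ⟨e⟩ := Cfsg.Agent.Lib.FinGal.exists_gal_equiv F p hF hf
  let e' : (F ≃+* F) × Multiplicative (ZMod 2) ≃* Multiplicative (ZMod f × ZMod 2) :=
    (MulEquiv.prodCongr e (MulEquiv.refl _)).trans (MulEquiv.prodMultiplicative (ZMod f) (ZMod 2)).symm
  have hker : (e'.toMonoidHom.comp φ).ker = φ.ker := by
    ext x
    rw [MonoidHom.mem_ker, MonoidHom.mem_ker]
    show e' (φ x) = 1 ↔ _
    rw [map_eq_one_iff _ e'.injective]
  refine ⟨e'.toMonoidHom.comp φ, e'.surjective.comp hφ, ?_, ?_⟩
  · rw [hker]; exact hc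
  · rw [hker, hcard, hF]


end Cfsg.Agent.S2601
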