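import Cfsg.Statements.S2602
import Mathlib
import Cfsg.Agent.Lib.AutPSL10
-- import your own Cfsg.Agent.* helpers here

set_option autoImplicit false
open Cfsg
set_option linter.all false

namespace Cfsg.Agent.S2602

/-- Structure of the outer automorphism group of PSL_2(q), q = p^f ≥ 4: it has a normal cyclic subgroup of order gcd(2, q − 1) (diagonal automorphisms) with cyclic quotient of order f (field automorphisms); there is no graph automorphism in dimension 2. -/
theorem result {F : Type*} [Field F] [Fintype F] {p f : ℕ} [Fact p.Prime] (hf : 1 ≤ f) (hF : Fintype.card F = p ^ f) (h4 : 4 ≤ p ^ f) : ∃ φ : Cfsg.Out (Matrix.ProjectiveSpecialLinearGroup (Fin 2) F) →* Multiplicative (ZMod f), Function.Surjective φ ∧ IsCyclic φ.ker ∧ Nat.card φ.ker = Nat.gcd 2 (p ^ f - 1) := by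
  obtain ⟨θ, -, hθ, hk⟩ := Cfsg.Agent.Lib.AutPSL.exists_proj_PSL_two (F := F)
  obtain ⟨φ, hφ, hc, hcard⟩ := Cfsg.Agent.Lib.AutPSL.out_structure le_rfl θ hθ hk
  obtain ⟨e⟩ := Cfsg.Agent.Lib.FinGal.exists_gal_equiv F p hF hf
  have hker : (e.toMonoidHom.comp φ).ker = φ.ker := by
    ext x
    rw [MonoidHom.mem_ker, MonoidHom.mem_ker]
    show e (φ x) = 1 ↔ _
    rw [map_eq_one_iff _ e.injective]
  refine ⟨e.toMonoidHom.comp φ, e.surjective.comp hφ, ?_, ?_⟩
  · rw [hker]; exact hc
  · rw [hker, hcard, hF]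


end Cfsg.Agent.S2602
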