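import Cfsg.Statements.S0813
import Mathlib
import Cfsg.Agent.S2601
import Cfsg.Agent.S2602

set_option autoImplicit false
open Cfsg

namespace Cfsg.Agent.S0813

theorem conj_inj {F : Type*} [Field F] [Fintype F] {n : ℕ} (hn : 2 ≤ n) :
    Function.Injective (MulAut.conj : Matrix.ProjectiveSpecialLinearGroup (Fin n) F →* MulAut (Matrix.ProjectiveSpecialLinearGroup (Fin n) F)) := by
  rw [injective_iff_map_eq_one]
  intro x hx
  obtain ⟨s, rfl⟩ := Cfsg.Agent.Lib.AutPSL.mk_surj x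
  rw [← Cfsg.Agent.Lib.AutPSL.delta_coe_SL, Cfsg.Agent.Lib.AutPSL.delta_eq_one_iff hn] at hx
  obtain ⟨c, hc⟩ := hx
  refine (QuotientGroup.eq_one_iff s).2 ?_
  rw [Subgroup.mem_center_iff]
  intro t
  apply Subtype.ext
  have hs : s.1 = c • (1 : Matrix (Fin n) (Fin n) F) := hc
  show t.1 * s.1 = s.1 * t.1
  rw [hs, Matrix.mul_smul, Matrix.smul_mul, Matrix.mul_one, Matrix.one_mul]

theorem main {F : Type*} [Field F] [Fintype F] {n : ℕ} (hn : 2 ≤ n) {M : Type*} [Group M] (φ : Cfsg.Out (Matrix.ProjectiveSpecialLinearGroup (Fin n) F) →* M)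
    (hφ : Function.Surjective φ) (hk : Nat.card φ.ker = Nat.gcd n (Fintype.card F - 1)) :
    Nat.card (MulAut (Matrix.ProjectiveSpecialLinearGroup (Fin n) F)) = Nat.card M * Nat.card (Matrix.ProjGenLinGroup (Fin n) F) := by
  have h1 := φ.ker.card_mul_index
  rw [Subgroup.index_ker, MonoidHom.range_eq_top.2 hφ, Nat.card_congr (Subgroup.topEquiv (G := M)).toEquiv, hk] at h1
  have h2 := (Cfsg.Inn (Matrix.ProjectiveSpecialLinearGroup (Fin n) F)).card_mul_index
  have h3 : Nat.card (Cfsg.Inn (Matrix.ProjectiveSpecialLinearGroup (Fin n) F)) = Nat.card (Matrix.ProjectiveSpecialLinearGroup (Fin n) F) :=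
    (Nat.card_congr (MonoidHom.ofInjective (conj_inj hn)).toEquiv).symm
  have h4 : (Cfsg.Inn (Matrix.ProjectiveSpecialLinearGroup (Fin n) F)).index = Nat.card (Cfsg.Out (Matrix.ProjectiveSpecialLinearGroup (Fin n) F)) := rfl
  rw [h3, h4, ← h1] at h2
  rw [← h2, Cfsg.Agent.Lib.GLSL.card_PGL, ← Cfsg.Agent.Lib.GLSL.card_PSL n (by omega)]
  ring

/-- |Aut(PSL_n(q))|, q = p^f: for n ≥ 3 it is 2 f |PGL_n(q)|, and for n = 2 (q ≥ 4) it is f |PGL_2(q)|. -/
theorem result {F : Type*} [Field F] [Fintype F] (p f : ℕ) [Fact p.Prime] (hf : 1 ≤ f) (hF : Fintype.card F = p ^ f) (n : ℕ) (hn : 2 ≤ n) (h2 : n = 2 → 4 ≤ p ^ f) : Nat.card (MulAut (Matrix.ProjectiveSpecialLinearGroup (Fin n) F)) = (if n = 2 then 1 else 2) * f * Nat.card (Matrix.ProjGenLinGroup (Fin n) F) := by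
  by_cases h : n = 2
  · subst h
    obtain ⟨φ, h1, -, h3⟩ := Cfsg.Agent.S2602.result (F := F) hf hF (h2 rfl)
    haveI : NeZero f := ⟨by omega⟩
    rw [main le_rfl φ h1 (by rw [h3, hF]), if_pos rfl, Nat.card_eq_fintype_card (α := Multiplicative (ZMod f))]
    rw [Fintype.card_multiplicative, ZMod.card]
    ring
  · obtain ⟨φ, h1, -, h3⟩ := Cfsg.Agent.S2601.result (F := F) (n := n) hf hF (by omega)
    haveI : NeZero f := ⟨by omega⟩
    rw [main hn φ h1 (by rw [h3, hF]), if_neg h, Nat.card_eq_fintype_card (α := Multiplicative (ZMod f × ZMod 2)),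
      Fintype.card_multiplicative, Fintype.card_prod, ZMod.card, ZMod.card]
    ring

end Cfsg.Agent.S0813
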