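import Cfsg.Statements.S0814
import Mathlib
import Cfsg.Agent.H8.SpAut6

set_option autoImplicit false
open Cfsg

namespace Cfsg.Agent.S0814

open Cfsg.Agent.H8.SpAut in
theorem main {F : Type*} [Field F] [Fintype F] (p f : ℕ) [Fact p.Prime] (hf : 1 ≤ f) (hF : Fintype.card F = p ^ f) (m : ℕ) (hm : 2 ≤ m) :
    Nat.card (MulAut (Cfsg.PSp m F)) = (if m = 2 ∧ p = 2 then 2 else 1) * Nat.gcd 2 (p ^ f - 1) * f * Nat.card (Cfsg.PSp m F) := by
  have hidx : (stdG m F).index = (if m = 2 ∧ p = 2 then 2 else 1) := by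
    haveI : CharP F p := charP_of_card_eq_prime_pow hF
    split_ifs with h
    · obtain ⟨rfl, rfl⟩ := h
      exact index_std (CharTwo.two_eq_zero)
    · have : stdG m F = ⊤ := by
        apply stdG_top hm
        intro h2 h0
        apply h
        refine ⟨h2, ?_⟩
        have : p ∣ 2 := (CharP.cast_eq_zero_iff F p 2).1 (by exact_mod_cast h0)
        exact (Nat.prime_dvd_prime_iff_eq Fact.out Nat.prime_two).1 this
      rw [this, Subgroup.index_top]
  have h1 := (stdG m F).card_mul_index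
  rw [← h1, hidx, card_stdG (by omega), card_delta (by omega), Cfsg.Agent.Lib.FinGal.card_gal F p hF hf, hF]
  ring

/-- |Aut(PSp_2m(q))| = gcd(2, q−1) · f · |PSp_2m(q)| for q = p^f, m ≥ 2, (m, q) ≠ (2, 2), with an extra factor 2 exactly when m = 2 and p = 2. -/
theorem result {F : Type*} [Field F] [Fintype F] (p f : ℕ) [Fact p.Prime] (hf : 1 ≤ f) (hF : Fintype.card F = p ^ f) (m : ℕ) (hm : 2 ≤ m) (h22 : m = 2 → 3 ≤ p ^ f) : Nat.card (MulAut (Cfsg.PSp m F)) = (if m = 2 ∧ p = 2 then 2 else 1) * Nat.gcd 2 (p ^ f - 1) * f * Nat.card (Cfsg.PSp m F) := by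
  exact main p f hf hF m hm

end Cfsg.Agent.S0814
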