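import Cfsg.Statements.S0829
import Mathlib
import Cfsg.Agent.Lib.Herm11
-- import your own Cfsg.Agent.* helpers here

set_option autoImplicit false
open Cfsg
set_option linter.all false

namespace Cfsg.Agent.S0829

/-- The unitary quadrangle of PSU_4(q): with |F| = q², the number of 2-dimensional subspaces of F^4 on which the Hermitian form Σ x_i y_i^q vanishes is (q + 1)(q³ + 1). -/
theorem result {F : Type*} [Field F] [Fintype F] {q : ℕ} (hF : Fintype.card F = q ^ 2) : Nat.card {W : Submodule F (Fin 4 → F) // Module.finrank F W = 2 ∧ ∀ u ∈ W, ∀ v ∈ W, Cfsg.hermForm 4 F q u v = 0} = (q + 1) * (q ^ 3 + 1) := by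
  obtain ⟨σ, hσ, hq⟩ := Cfsg.Agent.Lib.Herm.exists_sigma hF
  obtain ⟨h1, h2, h3⟩ := Cfsg.Agent.Lib.Herm.sigma_facts hσ
  have hq1 := Cfsg.Agent.Lib.Herm.one_lt_q hF
  have key := (Cfsg.Agent.Lib.Herm.std_nd h1 4).card_TI_sub hF hσ hq (n := 4) (by simp) 2
  have e : Nat.card {W : Submodule F (Fin 4 → F) // Module.finrank F W = 2 ∧ ∀ u ∈ W, ∀ v ∈ W,
      Cfsg.hermForm 4 F q u v = 0} = Nat.card {W : Submodule F (Fin 4 → F) // Module.finrank F W = 2 ∧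
      ∀ u ∈ W, ∀ v ∈ W, (Cfsg.Agent.Lib.Herm.std σ h1 4).h u v = 0} := by
    refine Nat.card_congr (Equiv.subtypeEquivRight fun W => ?_)
    simp only [Cfsg.Agent.Lib.Herm.hermForm_eq h1 hq]
  rw [e]
  set N := Nat.card {W : Submodule F (Fin 4 → F) // Module.finrank F W = 2 ∧
      ∀ u ∈ W, ∀ v ∈ W, (Cfsg.Agent.Lib.Herm.std σ h1 4).h u v = 0}
  have z4 : Cfsg.Agent.Lib.Herm.Zn q 4 - 1 = (q ^ 4 - 1) * (q ^ 3 + 1) := rfl
  have z2 : Cfsg.Agent.Lib.Herm.Zn q 2 - 1 = (q ^ 2 - 1) * (q ^ 1 + 1) := rfl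
  rw [Fin.prod_univ_two, Finset.prod_range_succ, Finset.prod_range_succ, Finset.prod_range_zero] at key
  norm_num at key
  rw [z4, z2] at key
  have hp : (q ^ 2) ^ 2 - q ^ 2 = q ^ 2 * (q ^ 2 - 1) := by
    rw [Nat.mul_sub, mul_one, pow_two (q ^ 2)]
  have hp2 : (q ^ 2) ^ 2 - 1 = q ^ 4 - 1 := by rw [← pow_mul]
  rw [hp, hp2] at key
  have h2q : 1 < q ^ 2 := by nlinarith
  have h4q : 1 < q ^ 4 := by
    have : q ^ 4 = q ^ 2 * q ^ 2 := by ring
    rw [this]; nlinarith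
  have hpos : 0 < (q ^ 4 - 1) * (q ^ 2 * (q ^ 2 - 1)) := by
    apply Nat.mul_pos (by omega)
    apply Nat.mul_pos (by positivity) (by omega)
  apply Nat.eq_of_mul_eq_mul_right hpos
  rw [key]
  ring


end Cfsg.Agent.S0829
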