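import Cfsg.Statements.S0831
import Mathlib
import Cfsg.Agent.Lib.Orth19
-- import your own Cfsg.Agent.* helpers here

set_option autoImplicit false
open Cfsg
set_option linter.all false

namespace Cfsg.Agent.S0831

/-- The two families of maximal totally singular subspaces of the hyperbolic quadric: for the form Σ x_i y_i on F^(2m), m ≥ 1, and m-dimensional subspaces U, W, X on which it vanishes, the parities of m − dim(U ∩ W), m − dim(W ∩ X) and m − dim(U ∩ X) sum to an even number (so 'even codimension of the intersection' is an equivalence relation), and there exist two such subspaces meeting in codimension 1 (so there are exactly two classes). -/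
theorem result {F : Type*} [Field F] (m : ℕ) (hm : 1 ≤ m) : (∀ U W X : Submodule F (Fin m ⊕ Fin m → F), (Module.finrank F U = m ∧ ∀ w ∈ U, Cfsg.quadFormPlus m F w = 0) → (Module.finrank F W = m ∧ ∀ w ∈ W, Cfsg.quadFormPlus m F w = 0) → (Module.finrank F X = m ∧ ∀ w ∈ X, Cfsg.quadFormPlus m F w = 0) → Even ((m - Module.finrank F ↥(U ⊓ W)) + (m - Module.finrank F ↥(W ⊓ X)) + (m - Module.finrank F ↥(U ⊓ X)))) ∧ ∃ U W : Submodule F (Fin m ⊕ Fin m → F), (Module.finrank F U = m ∧ ∀ w ∈ U, Cfsg.quadFormPlus m F w = 0) ∧ (Module.finrank F W = m ∧ ∀ w ∈ W, Cfsg.quadFormPlus m F w = 0) ∧ Module.finrank F ↥(U ⊓ W) + 1 = m := by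
  open Cfsg.Agent.Lib.Orth Module in
  have hQ : ND (qPlus m F) := nd_plus
  constructor
  · intro U W X hU hW hX
    have h := parity_three hQ ((MS_iff U).mpr hU) ((MS_iff W).mpr hW) ((MS_iff X).mpr hX)
    have h1 : finrank F ↥(U ⊓ W) ≤ m := (Submodule.finrank_mono inf_le_left).trans_eq hU.1
    have h2 : finrank F ↥(W ⊓ X) ≤ m := (Submodule.finrank_mono inf_le_left).trans_eq hW.1
    have h3 : finrank F ↥(U ⊓ X) ≤ m := (Submodule.finrank_mono inf_le_left).trans_eq hU.1
    rw [hU.1] at h
    rw [Nat.even_iff] at h ⊢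
    omega
  · have hE := eSpace_MS (F := F) (m := m)
    obtain ⟨W, hW, hd⟩ := exists_meet_codim_one hQ hE (by
      rw [finrank_pi', Fintype.card_sum, Fintype.card_fin]; omega)
    refine ⟨eSpace m F, W, (MS_iff _).mp hE, (MS_iff _).mp hW, ?_⟩
    rw [hd, finrank_eSpace]


end Cfsg.Agent.S0831
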