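import Cfsg.Statements.S0832
import Mathlib
import Cfsg.Agent.Lib.Orth19
-- import your own Cfsg.Agent.* helpers here

set_option autoImplicit false
open Cfsg
set_option linter.all false

namespace Cfsg.Agent.S0832

/-- For the form Σ x_i y_i on F^(2m) over a finite field, m ≥ 1: an (m−1)-dimensional subspace on which the form vanishes is contained in exactly two m-dimensional subspaces on which it vanishes. -/
theorem result {F : Type*} [Field F] [Finite F] (m : ℕ) (hm : 1 ≤ m) (U : Submodule F (Fin m ⊕ Fin m → F)) (hU : Module.finrank F U + 1 = m ∧ ∀ u ∈ U, Cfsg.quadFormPlus m F u = 0) : Nat.card {W : Submodule F (Fin m ⊕ Fin m → F) // Module.finrank F W = m ∧ (∀ w ∈ W, Cfsg.quadFormPlus m F w = 0) ∧ U ≤ W} = 2 := by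
  open Cfsg.Agent.Lib.Orth Module in
  have hQ : ND (qPlus m F) := nd_plus
  have hE := eSpace_MS (F := F) (m := m)
  obtain ⟨W₁, W₂, hne, h⟩ := exists_two_MS hQ hE (U := U) (fun u hu => by rw [qPlus_apply]; exact hU.2 u hu) (by
      rw [finrank_pi', Fintype.card_sum, Fintype.card_fin]; omega)
  classical
  have : {W : Submodule F (Fin m ⊕ Fin m → F) | Module.finrank F W = m ∧ (∀ w ∈ W, Cfsg.quadFormPlus m F w = 0) ∧ U ≤ W}
    = {W₁, W₂} := by
    ext W
    simp only [Set.mem_setOf_eq, Set.mem_insert_iff, Set.mem_singleton_iff]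
    rw [← h W, MS_iff]
    tauto
  show Nat.card ↥{W : Submodule F (Fin m ⊕ Fin m → F) | Module.finrank F W = m ∧ (∀ w ∈ W, Cfsg.quadFormPlus m F w = 0) ∧ U ≤ W} = 2
  rw [this, Nat.card_coe_set_eq, Set.ncard_pair hne]


end Cfsg.Agent.S0832
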