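import Cfsg.Statements.S0833
import Mathlib
import Cfsg.Agent.Lib.Alt
-- import your own Cfsg.Agent.* helpers here

set_option autoImplicit false
open Cfsg

namespace Cfsg.Agent.S0833

open Module TensorProduct in
/-- `tmul` of two forms with dual bases is separating -/
theorem sep_tmul {F U W : Type*} [Field F] [AddCommGroup U] [Module F U] [AddCommGroup W] [Module F W]
    (B₁ : LinearMap.BilinForm F U) (B₂ : LinearMap.BilinForm F W) {ι κ : Type*} [Fintype ι] [Fintype κ] [DecidableEq ι] [DecidableEq κ]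
    (b : Basis ι F U) (c : Basis κ F W) (b' : ι → U) (c' : κ → W)
    (hb : ∀ i j, B₁ (b i) (b' j) = if i = j then 1 else 0) (hc : ∀ i j, B₂ (c i) (c' j) = if i = j then 1 else 0)
    (x : U ⊗[F] W) (hx : ∀ y, (B₁.tmul B₂) x y = 0) : x = 0 := by
  have h1 := (b.tensorProduct c).sum_repr x
  rw [← h1]
  apply Finset.sum_eq_zero
  rintro ⟨i, j⟩ _
  have h2 := hx (b' i ⊗ₜ c' j)
  rw [← h1, map_sum, LinearMap.sum_apply, Finset.sum_eq_single (i, j)] at h2
  · rw [map_smul, LinearMap.smul_apply, Basis.tensorProduct_apply, LinearMap.BilinForm.tensorDistrib_tmul, hb, hc, if_pos rfl, if_pos rfl] at h2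
    simp at h2
    rw [h2, zero_smul]
  · rintro ⟨i', j'⟩ _ hne
    rw [map_smul, LinearMap.smul_apply, Basis.tensorProduct_apply, LinearMap.BilinForm.tensorDistrib_tmul, hb, hc]
    by_cases h : i' = i
    · have h' : j' ≠ j := fun h3 => hne (by rw [h, h3])
      rw [if_neg h']; simp
    · rw [if_neg h]; simp
  · intro h; exact absurd (Finset.mem_univ _) h

/-- If B₁, B₂ are non-degenerate alternating forms on U (dim 2k) and W (dim 2l), then B₁ ⊗ B₂ on U ⊗ W is symmetric, non-degenerate, and vanishes identically on some subspace of dimension 2kl (half of dim U ⊗ W). -/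
theorem result {F U W : Type*} [Field F] [Fintype F] [AddCommGroup U] [Module F U] [FiniteDimensional F U] [AddCommGroup W] [Module F W] [FiniteDimensional F W] (B₁ : LinearMap.BilinForm F U) (B₂ : LinearMap.BilinForm F W) (h₁ : B₁.Nondegenerate) (h₂ : B₂.Nondegenerate) (hA₁ : B₁.IsAlt) (hA₂ : B₂.IsAlt) (k l : ℕ) (hU : Module.finrank F U = 2 * k) (hW : Module.finrank F W = 2 * l) : (B₁.tmul B₂).IsSymm ∧ (B₁.tmul B₂).Nondegenerate ∧ (∃ X : Submodule F (TensorProduct F U W), Module.finrank F X = 2 * k * l ∧ ∀ x ∈ X, ∀ y ∈ X, (B₁.tmul B₂) x y = 0) := by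
  classical
  obtain ⟨k', b, hb1, hb2, hb3⟩ := Cfsg.Agent.Lib.Alt.exists_basis_of_nondegenerate B₁ hA₁ h₁
  obtain ⟨l', c, hc1, hc2, hc3⟩ := Cfsg.Agent.Lib.Alt.exists_basis_of_nondegenerate B₂ hA₂ h₂
  have hk : k' = k := by
    have := Module.finrank_eq_card_basis b
    rw [Fintype.card_sum, Fintype.card_fin, hU] at this
    omega
  have hl : l' = l := by
    have := Module.finrank_eq_card_basis c
    rw [Fintype.card_sum, Fintype.card_fin, hW] at this
    omega
  subst hk hl
  have hn1 : ∀ x y, B₁ x y = -B₁ y x := fun x y => (LinearMap.BilinForm.IsAlt.neg_eq hA₁ y x).symm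
  have hn2 : ∀ x y, B₂ x y = -B₂ y x := fun x y => (LinearMap.BilinForm.IsAlt.neg_eq hA₂ y x).symm
  have hsymm' : ∀ x y, (B₁.tmul B₂) x y = (B₁.tmul B₂) y x := by
    intro x y
    induction x using TensorProduct.induction_on with
    | zero => simp
    | add a b ha hb => rw [map_add, LinearMap.add_apply, ha, hb, map_add]
    | tmul u w =>
      induction y using TensorProduct.induction_on with
      | zero => simp
      | add a b ha hb => rw [map_add, ha, hb, map_add, LinearMap.add_apply]
      | tmul u' w' =>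
        rw [LinearMap.BilinForm.tensorDistrib_tmul, LinearMap.BilinForm.tensorDistrib_tmul, hn1 u' u, hn2 w' w]
        simp
  have hsymm : (B₁.tmul B₂).IsSymm := ⟨fun x y => hsymm' x y⟩
  -- dual bases
  let b' : Fin k' ⊕ Fin k' → U := Sum.elim (fun i => b (Sum.inr i)) (fun i => -b (Sum.inl i))
  let c' : Fin l' ⊕ Fin l' → W := Sum.elim (fun i => c (Sum.inr i)) (fun i => -c (Sum.inl i))
  have hb : ∀ i j, B₁ (b i) (b' j) = if i = j then 1 else 0 := by
    rintro (i | i) (j | j)
    · simp only [b', Sum.elim_inl, hb1, Sum.inl.injEq]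
    · simp [b', hb2]
    · simp [b', hb3]
    · simp only [b', Sum.elim_inr, map_neg]
      rw [← hn1, hb1]
      simp [eq_comm]
  have hc : ∀ i j, B₂ (c i) (c' j) = if i = j then 1 else 0 := by
    rintro (i | i) (j | j)
    · simp only [c', Sum.elim_inl, hc1, Sum.inl.injEq]
    · simp [c', hc2]
    · simp [c', hc3]
    · simp only [c', Sum.elim_inr, map_neg]
      rw [← hn2, hc1]
      simp [eq_comm]
  have hsep := sep_tmul B₁ B₂ b c b' c' hb hc
  refine ⟨hsymm, ⟨hsep, fun x hx => hsep x (fun y => by rw [hsymm']; exact hx y)⟩, ?_⟩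
  let v : Fin k' × (Fin l' ⊕ Fin l') → TensorProduct F U W := fun p => (b.tensorProduct c) (Sum.inl p.1, p.2)
  have hv : LinearIndependent F v := (b.tensorProduct c).linearIndependent.comp _ (by
    rintro ⟨i, j⟩ ⟨i', j'⟩ h
    simpa using h)
  have hvv : ∀ p q, (B₁.tmul B₂) (v p) (v q) = 0 := by
    intro p q
    simp only [v]
    rw [Module.Basis.tensorProduct_apply, Module.Basis.tensorProduct_apply, LinearMap.BilinForm.tensorDistrib_tmul, hb2, smul_zero]
  refine ⟨Submodule.span F (Set.range v), ?_, ?_⟩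
  · rw [finrank_span_eq_card hv, Fintype.card_prod, Fintype.card_sum, Fintype.card_fin, Fintype.card_fin]; ring
  · have h1 : ∀ q, ∀ x ∈ Submodule.span F (Set.range v), (B₁.tmul B₂) x (v q) = 0 := by
      intro q
      have : Submodule.span F (Set.range v) ≤ LinearMap.ker ((B₁.tmul B₂).flip (v q)) := by
        rw [Submodule.span_le]
        rintro _ ⟨p, rfl⟩
        exact hvv p q
      exact fun x hx => this hx
    intro x hx
    have : Submodule.span F (Set.range v) ≤ LinearMap.ker ((B₁.tmul B₂) x) := by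
      rw [Submodule.span_le]
      rintro _ ⟨p, rfl⟩
      exact h1 p x hx
    exact fun y hy => this hy

end Cfsg.Agent.S0833
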