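import Cfsg.Statements.S0837
import Mathlib
import Cfsg.Agent.Lib.Herm11
-- import your own Cfsg.Agent.* helpers here

set_option autoImplicit false
open Cfsg
set_option linter.all false

namespace Cfsg.Agent.S0837

/-- If W ≤ F^n (|F| = q²) is a k-dimensional subspace on which the Hermitian form Σ x_i y_i^q is non-degenerate, then the stabiliser of W in GU_n(q) is isomorphic to GU_k(q) × GU_(n−k)(q). -/
theorem result {F : Type*} [Field F] [Fintype F] {q : ℕ} (hF : Fintype.card F = q ^ 2) (n k : ℕ) (hk : k ≤ n) (W : Submodule F (Fin n → F)) (hWk : Module.finrank F W = k) (hW : ∀ u ∈ W, (∀ v ∈ W, Cfsg.hermForm n F q u v = 0) → u = 0) : Nonempty (↥((Cfsg.stabilizing (Cfsg.glToMat (Fin n) F) (W : Set (Fin n → F))).subgroupOf (Cfsg.GU n F q)) ≃* ↥(Cfsg.GU k F q) × ↥(Cfsg.GU (n - k) F q)) := by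
  obtain ⟨σ, hσ, hq⟩ := Cfsg.Agent.Lib.Herm.exists_sigma hF
  obtain ⟨h1, h2, h3⟩ := Cfsg.Agent.Lib.Herm.sigma_facts hσ
  have hfr : Module.finrank F (Fin n → F) = n := by simp
  set B := Cfsg.Agent.Lib.Herm.std σ h1 n with hB
  have hND : B.ND := Cfsg.Agent.Lib.Herm.std_nd h1 _
  have hW' : (B.res W).ND := by
    rintro ⟨u, hu⟩ h
    apply Subtype.ext
    apply hW u hu
    intro v hv
    rw [Cfsg.Agent.Lib.Herm.hermForm_eq h1 hq]
    exact h ⟨v, hv⟩
  obtain ⟨⟨e1⟩, hnd2, hsum⟩ := hND.stab_prod hσ hW'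
  rw [hfr, hWk] at hsum
  obtain ⟨e2⟩ := hW'.iso_equiv_GU hσ hq hWk
  obtain ⟨e3⟩ := hnd2.iso_equiv_GU hσ hq (n := n - k) (by omega)
  have hst : ∀ g : ↥((Cfsg.stabilizing (Cfsg.glToMat (Fin n) F) (W : Set (Fin n → F))).subgroupOf (Cfsg.GU n F q)),
      Cfsg.Agent.Lib.Herm.gl n F g.1.1 ∈ B.stabI W := by
    intro g
    exact ⟨(Cfsg.Agent.Lib.Herm.mem_GU h1 hq _).mp g.1.2, fun v => g.2 v⟩
  let f : ↥((Cfsg.stabilizing (Cfsg.glToMat (Fin n) F) (W : Set (Fin n → F))).subgroupOf (Cfsg.GU n F q)) →*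
      B.stabI W := MonoidHom.codRestrict (((Cfsg.Agent.Lib.Herm.gl n F).toMonoidHom.comp
        (Cfsg.GU n F q).subtype).comp (Subgroup.subtype _)) _ hst
  have hf : Function.Bijective f := by
    constructor
    · intro a b hab
      have h5 := congrArg Subtype.val hab
      apply Subtype.ext
      apply Subtype.ext
      exact (Cfsg.Agent.Lib.Herm.gl n F).injective h5
    · rintro ⟨g, hg⟩
      obtain ⟨A, rfl⟩ := (Cfsg.Agent.Lib.Herm.gl n F).surjective g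
      exact ⟨⟨⟨A, (Cfsg.Agent.Lib.Herm.mem_GU h1 hq _).mpr hg.1⟩, fun v => hg.2 v⟩, rfl⟩
  exact ⟨(MulEquiv.ofBijective f hf).trans (e1.trans (e2.prodCongr e3))⟩


end Cfsg.Agent.S0837
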