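import Cfsg.Statements.S0838
import Mathlib
import Cfsg.Agent.Lib.Orth18
-- import your own Cfsg.Agent.* helpers here

set_option autoImplicit false
open Cfsg
set_option linter.all false

namespace Cfsg.Agent.S0838

/-- Over a finite field with 2 ≠ 0 and n odd: two quadratic forms Q₁, Q₂ on F^n with non-degenerate polar forms are similar — there are an invertible linear map g and a scalar c ≠ 0 with Q₂ (g v) = c · Q₁ v for all v. -/
theorem result {F : Type*} [Field F] [Fintype F] (h2 : (2 : F) ≠ 0) {n : ℕ} (hn : Odd n) (Q₁ Q₂ : QuadraticForm F (Fin n → F)) (h₁ : (QuadraticMap.polarBilin Q₁).Nondegenerate) (h₂ : (QuadraticMap.polarBilin Q₂).Nondegenerate) : ∃ (g : (Fin n → F) ≃ₗ[F] (Fin n → F)) (c : F), c ≠ 0 ∧ ∀ v, Q₂ (g v) = c * Q₁ v := by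
  obtain ⟨ε, hε0, hε⟩ := Cfsg.Agent.Lib.Orth.exists_not_isSquare h2
  set d1 := (Cfsg.Agent.Lib.Orth.gram ⇑Q₁ (Pi.basisFun F (Fin n))).det with hd1
  set d2 := (Cfsg.Agent.Lib.Orth.gram ⇑Q₂ (Pi.basisFun F (Fin n))).det with hd2
  have hd1' : d1 ≠ 0 := Cfsg.Agent.Lib.Orth.det_gram_ne_zero h₁ _
  have hd2' : d2 ≠ 0 := Cfsg.Agent.Lib.Orth.det_gram_ne_zero h₂ _
  obtain ⟨c, hc, hsq⟩ : ∃ c : F, c ≠ 0 ∧ IsSquare (c ^ n * d1 * d2) := by
    by_cases h : IsSquare (d1 * d2)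
    · exact ⟨1, one_ne_zero, by rw [one_pow, one_mul]; exact h⟩
    · refine ⟨ε, hε0, ?_⟩
      have hεn : ¬ IsSquare (ε ^ n) := by
        obtain ⟨k, rfl⟩ := hn
        rw [pow_succ, Cfsg.Agent.Lib.Orth.isSquare_mul_iff h2 (pow_ne_zero _ hε0) hε0]
        have : IsSquare (ε ^ (2 * k)) := ⟨ε ^ k, by ring⟩
        simp [this, hε]
      rw [mul_assoc, Cfsg.Agent.Lib.Orth.isSquare_mul_iff h2 (pow_ne_zero _ hε0) (mul_ne_zero hd1' hd2')]
      exact iff_of_false hεn h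
  obtain ⟨g, hg⟩ := Cfsg.Agent.Lib.Orth.isometric_of_disc h2 (Cfsg.Agent.Lib.Orth.nd_smul h₁ hc) h₂ rfl
    (Pi.basisFun F (Fin n)) (Pi.basisFun F (Fin n)) (by
        rw [Cfsg.Agent.Lib.Orth.gram_smul, Matrix.det_smul, Fintype.card_fin]
        exact hsq)
  exact ⟨g, c, hc, fun v => by rw [hg]; rfl⟩


end Cfsg.Agent.S0838
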