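import Cfsg.Statements.S0841
import Cfsg.Agent.Lib.CharBasic

set_option autoImplicit false
open Cfsg

namespace Cfsg.Agent.S0841

theorem aux {G : Type*} [Group G] (x y c : G) (hc : ∀ g, g * c = c * g) (h : y * x = x * y * c)
    (n : ℕ) : y ^ n * x = x * y ^ n * c ^ n := by
  induction n with
  | zero => simp
  | succ n ih =>
    have hcn : ∀ g, g * c ^ n = c ^ n * g := fun g => (Commute.pow_right (hc g) n)
    calc y ^ (n + 1) * x = y ^ n * (y * x) := by rw [pow_succ]; group
      _ = y ^ n * x * y * c := by rw [h]; group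
      _ = x * y ^ n * (c ^ n * y) * c := by rw [ih]; group
      _ = x * y ^ n * (y * c ^ n) * c := by rw [hcn y]
      _ = x * y ^ (n + 1) * c ^ (n + 1) := by rw [pow_succ, pow_succ]; group

theorem tri (n : ℕ) : (n + 1) * (n + 1 - 1) / 2 = n * (n - 1) / 2 + n := by
  cases n with
  | zero => rfl
  | succ k =>
    simp only [Nat.add_sub_cancel]
    have h : (k + 1 + 1) * (k + 1) = (k + 1) * k + (k + 1) * 2 := by ring
    rw [h, Nat.add_mul_div_right _ _ (by norm_num)]

/-- If the commutator subgroup of G lies in the centre, then for all x, y in G and every natural number n one has (x * y) ^ n = x ^ n * y ^ n * c ^ (n * (n - 1) / 2) with c = y⁻¹ * x⁻¹ * y * x. -/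
theorem result {G : Type*} [Group G] (hG : commutator G ≤ Subgroup.center G) (x y : G) (n : ℕ) : (x * y) ^ n = x ^ n * y ^ n * (y⁻¹ * x⁻¹ * y * x) ^ (n * (n - 1) / 2) := by
  set c := y⁻¹ * x⁻¹ * y * x with hc
  have hcc : ∀ g, g * c = c * g := by
    have h1 : c ∈ commutator G := by
      have h2 := Subgroup.commutator_mem_commutator (Subgroup.mem_top y⁻¹) (Subgroup.mem_top x⁻¹)
      rw [commutatorElement_def, inv_inv, inv_inv] at h2
      exact h2
    exact fun g => Subgroup.mem_center_iff.mp (hG h1) g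
  have hyx : y * x = x * y * c := by rw [hc]; group
  clear_value c
  induction n with
  | zero => simp
  | succ n ih =>
    have hcn : ∀ k g, g * c ^ k = c ^ k * g := fun k g => (Commute.pow_right (hcc g) k)
    have hx : ∀ k, c ^ k * y = y * c ^ k := fun k => (hcn k y).symm
    have hx2 : ∀ k, c ^ k * (x * y) = x * y * c ^ k := fun k => (hcn k _).symm
    rw [tri, pow_succ (x * y), ih]
    calc x ^ n * y ^ n * c ^ (n * (n - 1) / 2) * (x * y)
        = x ^ n * y ^ n * (c ^ (n * (n - 1) / 2) * (x * y)) := by rw [mul_assoc]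
      _ = x ^ n * (y ^ n * x) * y * c ^ (n * (n - 1) / 2) := by rw [hx2]; simp only [mul_assoc]
      _ = x ^ n * x * y ^ n * (c ^ n * y) * c ^ (n * (n - 1) / 2) := by
          rw [aux x y c hcc hyx n]; simp only [mul_assoc]
      _ = x ^ n * x * (y ^ n * y) * (c ^ n * c ^ (n * (n - 1) / 2)) := by
          rw [hx]; simp only [mul_assoc]
      _ = x ^ (n + 1) * y ^ (n + 1) * c ^ (n * (n - 1) / 2 + n) := by
          rw [← pow_add, ← pow_succ, ← pow_succ, add_comm n (n * (n - 1) / 2)]
end Cfsg.Agent.S0841
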