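import Cfsg.Statements.S0844
import Mathlib
import Cfsg.Agent.Lib.QuatApp

set_option autoImplicit false
open Cfsg

namespace Cfsg.Agent.S0844

/-- Suppose a Sylow 2-subgroup S of the finite group G is generalized quaternion of order at least 16. Then G has two non-principal irreducible characters χ₁ and χ₂ with χ₁ 1 = χ₂ 1 + 1 such that χ₁ g - χ₂ g = 1 for every element g whose order is not divisible by 4. -/
theorem result {G : Type*} [Group G] [Fintype G] (S : Sylow 2 G) (n : ℕ) (e : (S : Subgroup G) ≃* QuaternionGroup (2 ^ (n + 2))) : ∃ χ₁ χ₂ : G → ℂ, Cfsg.IsIrrCharacter G χ₁ ∧ Cfsg.IsIrrCharacter G χ₂ ∧ χ₁ ≠ (fun _ => 1) ∧ χ₂ ≠ (fun _ => 1) ∧ χ₁ 1 = χ₂ 1 + 1 ∧ ∀ g : G, ¬ 4 ∣ orderOf g → χ₁ g - χ₂ g = 1 := by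
  obtain ⟨a, b, h⟩ := Cfsg.Agent.Lib.QuatApp.qs_of_equiv S (k := n + 2) (by omega) e
  obtain ⟨M, hM⟩ := Cfsg.Agent.Lib.CharMod.exists_pModular Nat.prime_two
  obtain ⟨χ1, χ2, h1, h2, -, -, hp⟩ := Cfsg.Agent.Lib.QuatApp.exists_pair hM h (by omega)
  refine ⟨χ1.1, χ2.1, χ1.2, χ2.2, fun h3 => h1 (Subtype.ext h3), fun h3 => h2 (Subtype.ext h3), ?_, ?_⟩
  · have := hp 1 (Cfsg.Agent.Lib.QuatApp.pp_sq_of (by rw [orderOf_one]; norm_num))
    linear_combination this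
  · intro g hg
    exact hp g (Cfsg.Agent.Lib.QuatApp.pp_sq_of hg)

end Cfsg.Agent.S0844
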