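import Cfsg.Statements.S0845
import Mathlib
import Cfsg.Agent.Lib.QuatApp

set_option autoImplicit false
open Cfsg

namespace Cfsg.Agent.S0845

/-- Suppose a Sylow 2-subgroup S of the finite group G is generalized quaternion of order at least 16. Then G has a normal subgroup M of even order such that G / M is non-abelian, that is, M does not contain the commutator subgroup of G. -/
theorem result {G : Type*} [Group G] [Finite G] (S : Sylow 2 G) (n : ℕ) (e : (S : Subgroup G) ≃* QuaternionGroup (2 ^ (n + 2))) : ∃ M : Subgroup G, M.Normal ∧ Even (Nat.card M) ∧ ¬ commutator G ≤ M := by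
  obtain ⟨a, b, h⟩ := Cfsg.Agent.Lib.QuatApp.qs_of_equiv S (k := n + 2) (by omega) e
  obtain ⟨M, hM⟩ := Cfsg.Agent.Lib.CharMod.exists_pModular Nat.prime_two
  have hui : Cfsg.Agent.Lib.BSuz.UI S (a ^ (2 ^ (n + 2))) :=
    ⟨h.zle h.z_mem, h.z_ne, h.z_sq, fun x hx hx2 hx1 => h.eq_z hx hx2 hx1⟩
  exact Cfsg.Agent.Lib.QuatApp.s0845 hM h (by omega) hui.oddCond

end Cfsg.Agent.S0845
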