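import Cfsg.Statements.S0846
import Mathlib
import Cfsg.Agent.Lib.ZStarD

set_option autoImplicit false
open Cfsg

namespace Cfsg.Agent.S0846

/-- Suppose a Sylow 2-subgroup S of the finite group G is generalized quaternion of order at least 16. Then every Sylow 2-subgroup of the subgroup generated by the involutions of G is cyclic. -/
theorem result {G : Type*} [Group G] [Finite G] (S : Sylow 2 G) (n : ℕ) (e : (S : Subgroup G) ≃* QuaternionGroup (2 ^ (n + 2))) (Q : Sylow 2 ↥(Subgroup.closure {g : G | orderOf g = 2})) : IsCyclic Q := by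
  obtain ⟨z, hz⟩ := Cfsg.Agent.Lib.ZStar.quat_UI S (m := 2 ^ (n + 2)) (by rw [pow_add]; have := Nat.one_le_two_pow (n := n); omega) e
  haveI hNn : (Cfsg.pPrimeCore 2 G).Normal := Cfsg.Agent.Lib.Cores.pPrimeCore_normal (G := G) 2
  have hle : Subgroup.closure {g : G | orderOf g = 2} ≤ Cfsg.pPrimeCore 2 G ⊔ Subgroup.zpowers z := by
    rw [Subgroup.closure_le]
    intro t ht
    have ht2 : t ^ 2 = 1 := by
      have ht' : orderOf t = 2 := ht
      rw [← ht']; exact pow_orderOf_eq_one t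
    have ht1 : t ≠ 1 := by
      rintro rfl
      have ht' : orderOf (1 : G) = 2 := ht
      rw [orderOf_one] at ht'; norm_num at ht'
    obtain ⟨T, hT, -⟩ := Cfsg.Agent.Lib.BSuz.exists_sylow_pair ht2 ht2 (Commute.refl t)
    obtain ⟨g, hg⟩ := MulAction.exists_smul_eq G T S
    have h1 : g * t * g⁻¹ = z := by
      apply hz.uniq
      · rw [← hg]; exact ⟨t, hT, rfl⟩
      · rw [conj_pow, ht2]; group
      · intro h; apply ht1
        calc t = g⁻¹ * (g * t * g⁻¹) * g := by group
          _ = 1 := by rw [h]; group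
    have h2 := Cfsg.Agent.Lib.ZStar.zstar_unique hz g⁻¹
    have h3 : t = (z * g⁻¹ * z⁻¹ * (g⁻¹)⁻¹)⁻¹ * z := by
      have h4 : t = g⁻¹ * z * g := by rw [← h1]; group
      rw [h4]; group
    rw [h3]
    exact mul_mem (Subgroup.mem_sup_left (inv_mem h2)) (Subgroup.mem_sup_right (Subgroup.mem_zpowers z))
  have hd : Nat.card (Subgroup.closure {g : G | orderOf g = 2}) ∣ Nat.card (Cfsg.pPrimeCore 2 G) * 2 := by
    have h1 := Subgroup.card_dvd_of_le hle
    have h2 := Cfsg.Agent.Lib.Cores.card_sup_dvd (N := Cfsg.pPrimeCore 2 G) (H := Subgroup.zpowers z)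
      (le_top.trans (Subgroup.normalizer_eq_top_iff.mpr hNn).ge)
    rw [Nat.card_zpowers z, orderOf_eq_prime hz.z2 hz.ne] at h2
    exact h1.trans h2
  obtain ⟨k, hk⟩ := IsPGroup.iff_card.mp Q.isPGroup'
  have h3 : 2 ^ k ∣ Nat.card (Cfsg.pPrimeCore 2 G) * 2 := by
    rw [← hk]; exact (Subgroup.card_subgroup_dvd_card _).trans hd
  have h4 : 2 ^ k ∣ 2 := by
    apply Nat.Coprime.dvd_of_dvd_mul_left _ h3
    exact Nat.Coprime.pow_left k (Cfsg.Agent.Lib.Cores.pPrimeCore_coprime 2).symm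
  have h5 : Nat.card Q = 1 ∨ Nat.card Q = 2 := by
    have h6 : Nat.card Q = 2 ^ k := hk
    rw [h6]
    exact (Nat.dvd_prime Nat.prime_two).mp h4
  rcases h5 with h5 | h5
  · haveI : Subsingleton Q := (Nat.card_eq_one_iff_unique.mp h5).1
    exact isCyclic_of_subsingleton
  · haveI : Fact (Nat.Prime 2) := ⟨Nat.prime_two⟩
    exact isCyclic_of_prime_card h5

end Cfsg.Agent.S0846
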