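import Cfsg.Statements.S0849
import Cfsg.Agent.Lib.CharInd

set_option autoImplicit false
open Cfsg

namespace Cfsg.Agent.S0849

open Cfsg.Agent.Lib.CharInd Cfsg.Agent.Lib.CharBasic

theorem pair_sum_conj {G : Type*} [Group G] [Fintype G] (u v : G) (F : G → ℂ) (x : G) :
    ∑ p : G × G, Set.indicator {p : G × G | IsConj u p.1 ∧ IsConj v p.2}
      (fun p => F (x⁻¹ * (p.1 * p.2) * x)) p =
    ∑ p : G × G, Set.indicator {p : G × G | IsConj u p.1 ∧ IsConj v p.2}
      (fun p => F (p.1 * p.2)) p := by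
  classical
  let e : G × G ≃ G × G := Equiv.prodCongr (MulAut.conj x⁻¹).toEquiv (MulAut.conj x⁻¹).toEquiv
  refine Fintype.sum_equiv e _ _ ?_
  rintro ⟨a, b⟩
  have h1 : ∀ u a : G, IsConj u (x⁻¹ * a * x) ↔ IsConj u a := by
    intro u a
    have : IsConj a (x⁻¹ * a * x) := isConj_iff.mpr ⟨x⁻¹, by simp⟩
    exact ⟨fun h => h.trans this.symm, fun h => h.trans this⟩
  have he : e (a, b) = (x⁻¹ * a * x, x⁻¹ * b * x) := by
    simp [e, Equiv.prodCongr]
  rw [he]
  by_cases h : IsConj u a ∧ IsConj v b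
  · rw [Set.indicator_of_mem (by exact h), Set.indicator_of_mem]
    · simp only
      congr 1
      group
    · exact ⟨(h1 _ _).mpr h.1, (h1 _ _).mpr h.2⟩
  · rw [Set.indicator_of_notMem (by exact h), Set.indicator_of_notMem]
    rintro ⟨h2, h3⟩
    exact h ⟨(h1 _ _).mp h2, (h1 _ _).mp h3⟩

/-- Let H be a subgroup of a finite group G and S a subset of H that is mapped to itself under conjugation by H, is disjoint from its conjugate by any element outside H, and is closed under inverses. Let φ be a class function of H vanishing on H away from S, and let u, v be involutions of G. Then the sum of the induced function of φ over all products a * b with a conjugate to u and b conjugate to v equals the index of H times the sum of φ (a * b) over such pairs with a and b in H. -/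
theorem result {G : Type*} [Group G] [Fintype G] (H : Subgroup G) (S : Set G) (hSH : S ⊆ H) (hHS : ∀ h ∈ H, ∀ s ∈ S, h * s * h⁻¹ ∈ S) (hTI : ∀ g : G, g ∉ H → ∀ s ∈ S, g * s * g⁻¹ ∉ S) (hinv : ∀ s ∈ S, s⁻¹ ∈ S) (φ : H → ℂ) (hφ : Cfsg.IsClassFunction H φ) (hφS : ∀ x : H, (x : G) ∉ S → φ x = 0) (u v : G) (hu : orderOf u = 2) (hv : orderOf v = 2) : ∑ᶠ p ∈ {p : G × G | IsConj u p.1 ∧ IsConj v p.2}, Cfsg.indFun H φ (p.1 * p.2) = (H.index : ℂ) * ∑ᶠ p ∈ {p : H × H | IsConj u (p.1 : G) ∧ IsConj v (p.2 : G)}, φ (p.1 * p.2) := by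
  classical
  have : Fintype H := Fintype.ofFinite _
  rw [finsum_mem_def, finsum_eq_sum_of_fintype, finsum_mem_def, finsum_eq_sum_of_fintype]
  have hG0 : (Nat.card G : ℂ) ≠ 0 := Nat.cast_ne_zero.mpr Nat.card_pos.ne'
  have hH0 : (Nat.card H : ℂ) ≠ 0 := Nat.cast_ne_zero.mpr Nat.card_pos.ne'
  have h1 : ∀ p : G × G, Set.indicator {p : G × G | IsConj u p.1 ∧ IsConj v p.2}
      (fun p => indFun H φ (p.1 * p.2)) p = (Nat.card H : ℂ)⁻¹ * ∑ x : G,
      Set.indicator {p : G × G | IsConj u p.1 ∧ IsConj v p.2}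
        (fun p => extendByZero H φ (x⁻¹ * (p.1 * p.2) * x)) p := by
    intro p
    by_cases hp : p ∈ {p : G × G | IsConj u p.1 ∧ IsConj v p.2}
    · simp only [Set.indicator_of_mem hp]
      rw [indFun_apply]
    · simp only [Set.indicator_of_notMem hp]
      simp
  simp only [h1]
  rw [← Finset.mul_sum, Finset.sum_comm]
  simp only [pair_sum_conj u v (extendByZero H φ)]
  rw [Finset.sum_const, Finset.card_univ, nsmul_eq_mul, ← Nat.card_eq_fintype_card,
    ← H.index_mul_card]
  push_cast
  have h2 : ∑ p : G × G, Set.indicator {p : G × G | IsConj u p.1 ∧ IsConj v p.2}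
      (fun p => extendByZero H φ (p.1 * p.2)) p =
      ∑ p : H × H, Set.indicator {p : H × H | IsConj u (p.1 : G) ∧ IsConj v (p.2 : G)}
        (fun p => φ (p.1 * p.2)) p := by
    symm
    let f : H × H → G × G := fun p => (p.1, p.2)
    have hf : Function.Injective f := by
      rintro ⟨a, b⟩ ⟨c, d⟩ h
      simp only [f, Prod.mk.injEq] at h
      exact Prod.ext (Subtype.ext h.1) (Subtype.ext h.2)
    have h3 : ∀ p : H × H, Set.indicator {p : H × H | IsConj u (p.1 : G) ∧ IsConj v (p.2 : G)}
        (fun p => φ (p.1 * p.2)) p = Set.indicator {p : G × G | IsConj u p.1 ∧ IsConj v p.2}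
      (fun p => extendByZero H φ (p.1 * p.2)) (f p) := by
      intro p
      by_cases hp : p ∈ {p : H × H | IsConj u (p.1 : G) ∧ IsConj v (p.2 : G)}
      · rw [Set.indicator_of_mem hp, Set.indicator_of_mem (by exact hp)]
        rw [ext_mem H φ (H.mul_mem p.1.2 p.2.2)]
        rfl
      · rw [Set.indicator_of_notMem hp, Set.indicator_of_notMem (by exact hp)]
    simp only [h3]
    rw [← Finset.sum_image (f := fun q => Set.indicator {p : G × G | IsConj u p.1 ∧ IsConj v p.2}
      (fun p => extendByZero H φ (p.1 * p.2)) q) (s := Finset.univ) (g := f) (fun a _ b _ h => hf h)]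
    apply Finset.sum_subset (Finset.subset_univ _)
    rintro ⟨a, b⟩ _ hab
    rw [Set.indicator_apply_eq_zero]
    rintro ⟨hua, hvb⟩
    simp only at hua hvb ⊢
    by_cases hmem : a * b ∈ H
    swap
    · exact ext_notMem H φ hmem
    rw [ext_mem H φ hmem]
    apply hφS
    intro hS
    simp only at hS
    have ha2 : a * a = 1 := by
      obtain ⟨c, hc⟩ := isConj_iff.mp hua
      rw [← hc]
      have := pow_orderOf_eq_one u
      rw [hu, pow_two] at this
      calc c * u * c⁻¹ * (c * u * c⁻¹) = c * (u * u) * c⁻¹ := by group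
        _ = 1 := by rw [this]; group
    have hb2 : b * b = 1 := by
      obtain ⟨c, hc⟩ := isConj_iff.mp hvb
      rw [← hc]
      have := pow_orderOf_eq_one v
      rw [hv, pow_two] at this
      calc c * v * c⁻¹ * (c * v * c⁻¹) = c * (v * v) * c⁻¹ := by group
        _ = 1 := by rw [this]; group
    have ha' : a⁻¹ = a := inv_eq_of_mul_eq_one_left ha2
    have hb' : b⁻¹ = b := inv_eq_of_mul_eq_one_left hb2
    have haH : a ∈ H := by
      by_contra haH
      apply hTI a haH _ hS
      have : a * (a * b) * a⁻¹ = (a * b)⁻¹ := by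
        rw [mul_inv_rev, ha', hb', ← mul_assoc a a b, ha2, one_mul]
      rw [this]
      exact hinv _ hS
    have hbH : b ∈ H := by
      have : b = a⁻¹ * (a * b) := by group
      rw [this]
      exact H.mul_mem (H.inv_mem haH) hmem
    apply hab
    rw [Finset.mem_image]
    exact ⟨(⟨a, haH⟩, ⟨b, hbH⟩), Finset.mem_univ _, rfl⟩
  rw [h2]
  field_simp
end Cfsg.Agent.S0849
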