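import Cfsg.Statements.S0851
import Cfsg.Agent.Lib.OddTIChar

set_option autoImplicit false
open Cfsg

namespace Cfsg.Agent.S0851

open Cfsg.Agent.Lib.OddSib Cfsg.Agent.Lib.OddCohE Cfsg.Agent.Lib.OddCohD Cfsg.Agent.Lib.OddCohC Cfsg.Agent.Lib.OddCohB Cfsg.Agent.Lib.OddCoh Cfsg.Agent.Lib.OddTIFN Cfsg.Agent.Lib.OddCohF
open Cfsg.Agent.Lib.OddFeit Cfsg.Agent.Lib.OddTIChar

/-- Let K be a subgroup of the finite group G that meets each conjugate by an element outside its normalizer N trivially, is properly contained in N, and contains the centralizer of each of its non-identity elements (a T.I. subgroup with Frobenius normalizer). Suppose K is abelian, let e be the index of K in N, and call an irreducible character of N relevant when it takes at some element of K a value different from its degree. Then either there is exactly one relevant character and K is an elementary abelian p-group of order e + 1 for some prime p, or there are a sign ε and an injective map f from the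 relevant characters to the irreducible characters of G such that inducing χ - ξ to G gives ε (f χ - f ξ) for all relevant χ and ξ. -/
theorem result {G : Type*} [Group G] [Fintype G] (K : Subgroup G) (hTI : ∀ g : G, g ∉ Subgroup.normalizer (K : Set G) → ∀ k ∈ K, g * k * g⁻¹ ∈ K → k = 1) (hlt : K < Subgroup.normalizer (K : Set G)) (hC : ∀ k ∈ K, k ≠ 1 → Subgroup.centralizer ({k} : Set G) ≤ K) (hab : ∀ a ∈ K, ∀ b ∈ K, a * b = b * a) : (Nat.card {χ : Cfsg.IrrCharacter (Subgroup.normalizer (K : Set G)) // ∃ k : Subgroup.normalizer (K : Set G), (k : G) ∈ K ∧ (χ : ↥(Subgroup.normalizer (K : Set G)) → ℂ) k ≠ (χ : ↥(Subgroup.normalizer (K : Set G)) → ℂ) 1} = 1 ∧ ∃ p : ℕ, p.Prime ∧ Cfsg.IsElementaryAbelian p K ∧ Nat.card K = (K.subgroupOf (Subgroup.normalizer (K : Set G))).index + 1) ∨ ∃ (ε : ℂ) (f : {χ : Cfsg.IrrCharacter (Subgroup.normalizer (K : Set G)) // ∃ k : Subgroup.normalizer (K : Set G), (k : G) ∈ K ∧ (χ : ↥(Subgroup.normalizer (K : Set G)) → ℂ) k ≠ (χ : ↥(Subgroup.normalizer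 (K : Set G)) → ℂ) 1} → Cfsg.IrrCharacter G), (ε = 1 ∨ ε = -1) ∧ Function.Injective f ∧ ∀ χ ξ, Cfsg.indFun (Subgroup.normalizer (K : Set G)) ((χ.1 : ↥(Subgroup.normalizer (K : Set G)) → ℂ) - (ξ.1 : ↥(Subgroup.normalizer (K : Set G)) → ℂ)) = ε • ((f χ : G → ℂ) - (f ξ : G → ℂ)) := by
  classical
  haveI : Fintype (Subgroup.normalizer (K : Set G)) := Fintype.ofFinite _
  have hKn : (K.subgroupOf (Subgroup.normalizer (K : Set G))).Normal := sub_normal rfl
  have hfpf := sub_fpf (L := Subgroup.normalizer (K : Set G)) hC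
  have hset := iia_eq hfpf
  have hTI' := sub_TI (L := Subgroup.normalizer (K : Set G)) rfl hTI
  have hti := ti_iso hTI'
  have hcardK : Nat.card (K.subgroupOf (Subgroup.normalizer (K : Set G))) = Nat.card K :=
    Nat.card_congr (Subgroup.subgroupOfEquivOfLe hlt.le).toEquiv
  by_cases hc : Nat.card (K.subgroupOf (Subgroup.normalizer (K : Set G))) = (K.subgroupOf (Subgroup.normalizer (K : Set G))).index + 1
  · left
    constructor
    · have h1 := card_one hfpf hc
      rw [hset] at h1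
      rw [← h1]
      refine Nat.card_congr ⟨fun χ => ⟨χ.1.1, χ.1.2, χ.2⟩, fun χ => ⟨⟨χ.1, χ.2.1⟩, χ.2.2⟩, fun _ => rfl, fun _ => rfl⟩
    · obtain ⟨-, q, hq, hqe⟩ := elem_ab hfpf hc
      refine ⟨q, hq, ⟨⟨⟨fun a b => Subtype.ext (hab a a.2 b b.2)⟩⟩, ?_⟩, by rw [← hcardK]; exact hc⟩
      intro a ha
      have h3 := congrArg Subtype.val (hqe ⟨a, hlt.le ha⟩ ha)
      simpa using h3
  · right
    by_cases hK1 : K.subgroupOf (Subgroup.normalizer (K : Set G)) = ⊥
    · refine ⟨1, fun χ => ⟨fun _ => 1, Cfsg.Agent.Lib.CharBasic.isIrr_trivial⟩, Or.inl rfl, ?_, ?_⟩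
      · intro χ
        exfalso
        obtain ⟨k, hk, h⟩ := χ.2
        have hk' : k ∈ K.subgroupOf (Subgroup.normalizer (K : Set G)) := hk
        rw [hK1, Subgroup.mem_bot] at hk'
        exact h (by rw [hk'])
      · intro χ
        exfalso
        obtain ⟨k, hk, h⟩ := χ.2
        have hk' : k ∈ K.subgroupOf (Subgroup.normalizer (K : Set G)) := hk
        rw [hK1, Subgroup.mem_bot] at hk'
        exact h (by rw [hk'])
    · have hcoh := frob_coherent hfpf hK1 hti.1 hti.2 hc (Or.inl (fun a ha b hb => Subtype.ext (hab a ha b hb)))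
      obtain ⟨⟨α, hα, hα0⟩, τ₁, hτ₁, hext⟩ := hcoh
      have hirr : ∀ χ ∈ Cfsg.inducedIrrAbove (K.subgroupOf (Subgroup.normalizer (K : Set G))) ⊥, Cfsg.IsIrrCharacter _ χ :=
        fun χ hχ => iia_irr' hfpf hχ
      have hne : (Cfsg.inducedIrrAbove (K.subgroupOf (Subgroup.normalizer (K : Set G))) ⊥).Nonempty := by
        by_contra h
        rw [Set.not_nonempty_iff_eq_empty] at h
        apply hα0
        have := hα.1
        rw [h, mem_zsp] at this
        simpa [zsp] using this
      obtain ⟨ε, hε, h1, h2⟩ := signs_uniform hirr hne hτ₁ (star_zero hext)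
      have hmem : ∀ χ : {χ : Cfsg.IrrCharacter (Subgroup.normalizer (K : Set G)) // ∃ k : Subgroup.normalizer (K : Set G), (k : G) ∈ K ∧ (χ : ↥(Subgroup.normalizer (K : Set G)) → ℂ) k ≠ (χ : ↥(Subgroup.normalizer (K : Set G)) → ℂ) 1},
          χ.1.1 ∈ Cfsg.inducedIrrAbove (K.subgroupOf (Subgroup.normalizer (K : Set G))) ⊥ := by
        intro χ
        rw [hset]
        exact ⟨χ.1.2, χ.2⟩
      have hεε : ε * ε = 1 := by rcases hε with h | h <;> simp [h]
      refine ⟨ε, fun χ => ⟨ε • τ₁ χ.1.1, h1 _ (hmem χ)⟩, hε, ?_, ?_⟩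
      · intro χ ξ h
        have h3 := congrArg Subtype.val h
        change ε • τ₁ χ.1.1 = ε • τ₁ ξ.1.1 at h3
        have h4 : τ₁ χ.1.1 = τ₁ ξ.1.1 := by
          have := congrArg (fun f => ε • f) h3
          simpa only [smul_smul, hεε, one_smul] using this
        exact Subtype.ext (Subtype.ext (h2 _ (hmem χ) _ (hmem ξ) h4))
      · intro χ ξ
        change _ = ε • (ε • τ₁ χ.1.1 - ε • τ₁ ξ.1.1)
        rw [← smul_sub, smul_smul, hεε, one_smul]
        have hs' : Cfsg.IsLinearIsometryOn ((zsp (Cfsg.inducedIrrAbove (K.subgroupOf (Subgroup.normalizer (K : Set G))) ⊥) : Submodule ℤ _) : Set _) τ₁ := hτ₁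
        rw [← iso_sub hs' (subset_zspan _ (hmem χ)) (subset_zspan _ (hmem ξ))]
        refine (hext _ (mem_zon_one.mpr ⟨(zsp _).sub_mem (subset_zspan _ (hmem χ)) (subset_zspan _ (hmem ξ)), ?_⟩)).symm
        have hdeg : ∀ χ ∈ Cfsg.inducedIrrAbove (K.subgroupOf (Subgroup.normalizer (K : Set G))) ⊥, χ 1 = ((K.subgroupOf (Subgroup.normalizer (K : Set G))).index : ℂ) := by
          rintro χ ⟨θ, k1, k2, -, rfl⟩
          obtain ⟨l, h3⟩ := Cfsg.Agent.Lib.CharBasic.irr_lin_of_comm (fun a b : K.subgroupOf (Subgroup.normalizer (K : Set G)) =>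
            Subtype.ext (Subtype.ext (hab _ a.2 _ b.2))) k1
          rw [Cfsg.Agent.Lib.CharInd.indFun_one, h3]; simp
        rw [Pi.sub_apply, hdeg _ (hmem χ), hdeg _ (hmem ξ), sub_self]
end Cfsg.Agent.S0851
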