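import Cfsg.Statements.S0853
import Cfsg.Agent.Lib.OddTIChar

set_option autoImplicit false
open Cfsg

namespace Cfsg.Agent.S0853

open Cfsg.Agent.Lib.OddSib Cfsg.Agent.Lib.OddCohE Cfsg.Agent.Lib.OddCohD Cfsg.Agent.Lib.OddCohC Cfsg.Agent.Lib.OddCohB Cfsg.Agent.Lib.OddCoh Cfsg.Agent.Lib.OddTIFN Cfsg.Agent.Lib.OddCohF
open Cfsg.Agent.Lib.OddFeit Cfsg.Agent.Lib.OddTIChar

/-- Let K be a subgroup of the finite group G that meets each conjugate by an element outside its normalizer N trivially, is properly contained in N, and contains the centralizer of each of its non-identity elements (a T.I. subgroup with Frobenius normalizer). Let S be the set of irreducible characters of N taking at some element of K a value different from their degree, suppose S has at least two members, and let star be a linear isometry on the integer span of S into the generalized characters of G that agrees with induction on the members vanishing at the identity (so S is coherent, with star as the extending isometry). Then there is a single integer m such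 that star χ k - χ k = m * χ 1 / e for every χ in S and every non-identity element k of K, where e is the index of K in N. -/
theorem result {G : Type*} [Group G] [Fintype G] (K : Subgroup G) (hTI : ∀ g : G, g ∉ Subgroup.normalizer (K : Set G) → ∀ k ∈ K, g * k * g⁻¹ ∈ K → k = 1) (hlt : K < Subgroup.normalizer (K : Set G)) (hC : ∀ k ∈ K, k ≠ 1 → Subgroup.centralizer ({k} : Set G) ≤ K) [Fintype ↥(Subgroup.normalizer (K : Set G))] (S : Set (↥(Subgroup.normalizer (K : Set G)) → ℂ)) (hS : S = {χ : ↥(Subgroup.normalizer (K : Set G)) → ℂ | Cfsg.IsIrrCharacter ↥(Subgroup.normalizer (K : Set G)) χ ∧ ∃ k : ↥(Subgroup.normalizer (K : Set G)), (k : G) ∈ K ∧ χ k ≠ χ 1}) (htwo : ∃ χ ∈ S, ∃ ξ ∈ S, χ ≠ ξ) (star : (↥(Subgroup.normalizer (K : Set G)) → ℂ) → (G → ℂ)) (hstar : Cfsg.IsLinearIsometryOn (Cfsg.zspan S) star) (hext : ∀ α ∈ Cfsg.zspanOn S ({1}ᶜ : Set ↥(Subgroup.normalizer (K : Set G))), star α = Cfsg.indFun (Subgroup.normalizer (K : Set G)) α) : ∃ m : ℤ, ∀ χ ∈ S, ∀ k : ↥(Subgroup.normalizer (K : Set G)), (k : G) ∈ K → k ≠ 1 → star χ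 k - χ k = (m : ℂ) * χ 1 / ((K.subgroupOf (Subgroup.normalizer (K : Set G))).index : ℂ) := by
  classical
  have hKn : (K.subgroupOf (Subgroup.normalizer (K : Set G))).Normal := sub_normal rfl
  have hfpf := sub_fpf (L := Subgroup.normalizer (K : Set G)) hC
  have hset : S = Cfsg.inducedIrrAbove (K.subgroupOf (Subgroup.normalizer (K : Set G))) ⊥ := by
    rw [hS, iia_eq hfpf]; rfl
  subst hset
  have hne : K.subgroupOf (Subgroup.normalizer (K : Set G)) ≠ ⊤ := by
    intro h
    apply hlt.not_ge
    intro x hx
    have : (⟨x, hx⟩ : Subgroup.normalizer (K : Set G)) ∈ K.subgroupOf (Subgroup.normalizer (K : Set G)) := by rw [h]; exact Subgroup.mem_top _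
    exact this
  have hnil := nilp_frob hfpf hne
  obtain ⟨m, hm⟩ := restriction_const hfpf inferInstance hstar hext (fun α h1 h2 h3 x =>
    Cfsg.Agent.Lib.CharTI.indFun_res K hTI hC h1 (fun y hy => h2 y hy) h3 x)
  exact ⟨m, fun χ hχ k hk hk1 => hm χ hχ k hk hk1⟩
end Cfsg.Agent.S0853
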