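import Cfsg.Statements.S0861
import Cfsg.Agent.Lib.CharMod
import Cfsg.Agent.Lib.CharAvg
import Cfsg.Agent.Lib.CharClifford
import Cfsg.Agent.Lib.CharKer
import Cfsg.Agent.Lib.CharLin

set_option autoImplicit false
open Cfsg

namespace Cfsg.Agent.S0861

open Cfsg.Agent.Lib.CharMod Cfsg.Agent.Lib.CharAvg Cfsg.Agent.Lib.CharClifford
open Cfsg.Agent.Lib.CharBasic Cfsg.Agent.Lib.CharKer Cfsg.Agent.Lib.CharLin

/-- Let P be a normal abelian Sylow p-subgroup of the finite group G and suppose some element g of P has centralizer exactly P. Then the number of irreducible characters of G is at most the order of P, and if equality holds then G / P is abelian (the commutator subgroup lies in P). -/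
theorem result {G : Type*} [Group G] [Finite G] (p : ℕ) [Fact p.Prime] (P : Sylow p G) [(P : Subgroup G).Normal] (hab : ∀ a ∈ P, ∀ b ∈ P, a * b = b * a) (g : G) (hg : g ∈ P) (hC : Subgroup.centralizer ({g} : Set G) = P) : Nat.card (Cfsg.IrrCharacter G) ≤ Nat.card P ∧ (Nat.card (Cfsg.IrrCharacter G) = Nat.card P → commutator G ≤ P) := by
  classical
  have hp : p.Prime := Fact.out
  cases nonempty_fintype G
  have hgo : ∃ k, orderOf g = p ^ k := by
    obtain ⟨k, hk⟩ := P.isPGroup' ⟨g, hg⟩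
    have : g ^ p ^ k = 1 := congrArg Subtype.val hk
    obtain ⟨j, -, hj⟩ := (Nat.dvd_prime_pow hp).mp (orderOf_dvd_of_pow_eq_one this)
    exact ⟨j, hj⟩
  have hne : ∀ χ : IrrCharacter G, χ.1 g ≠ 0 := by
    intro χ
    obtain ⟨d, hd0, hd⟩ := isIrr_one_eq χ.2
    have h1 := ito χ.2 (P : Subgroup G) hab hd
    apply ne_zero_of_not_dvd hp (isChar_of_irr χ.2) hd _ hgo
    intro h2
    exact P.not_dvd_index (h2.trans h1)
  have h1 := card_irr_le g hne
  rw [hC] at h1
  refine ⟨h1.1, fun h => ?_⟩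
  have h2 := h1.2 h
  intro x hx
  rw [← QuotientGroup.eq_one_iff]
  have : Fintype (G ⧸ (P : Subgroup G)) := Fintype.ofFinite _
  have hlin : ∀ ψ : IrrCharacter (G ⧸ (P : Subgroup G)), ψ.1 (x : G ⧸ (P : Subgroup G)) = ψ.1 1 := by
    intro ψ
    have h3 := isIrr_infl (P : Subgroup G) ψ.2
    have h4 := h2 ⟨_, h3⟩
    simp only at h4
    have hg1 : (g : G ⧸ (P : Subgroup G)) = 1 := (QuotientGroup.eq_one_iff g).mpr hg
    obtain ⟨d, hd0, hd⟩ := isIrr_one_eq ψ.2
    rw [hg1, hd] at h4
    have hd1 : d = 1 := by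
      have : (d : ℝ) = 1 := by simpa using h4
      exact_mod_cast this
    rw [hd1] at hd
    obtain ⟨l, hl⟩ := lin_iff.mp ⟨isChar_of_irr ψ.2, by rw [hd]; simp⟩
    have h5 : l (x : G ⧸ (P : Subgroup G)) = 1 := by
      have h6 : commutator G ≤ (l.comp (QuotientGroup.mk' (P : Subgroup G))).ker :=
        Abelianization.commutator_subset_ker _
      exact h6 hx
    rw [hl, linFn_apply, h5, linFn_apply_one]; rfl
  have h3 := irr_separates (g := (x : G ⧸ (P : Subgroup G))) (h := 1) hlin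
  rw [isConj_comm] at h3
  obtain ⟨c, hc⟩ := isConj_iff.mp h3
  rw [← hc]; simp
end Cfsg.Agent.S0861
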