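import Cfsg.Statements.S0874
import Cfsg.Agent.Lib.CharBrauer

set_option autoImplicit false
open Cfsg

namespace Cfsg.Agent.S0874

/-- For a finite group G and a prime p there are an integer m not divisible by p and a list of triples (E, φ, c), with E a p-elementary subgroup, φ a character of E and c an integer, such that the constant function m on G equals the sum of the c • (function induced from φ). -/
theorem result {G : Type*} [Group G] [Fintype G] (p : ℕ) (hp : p.Prime) : ∃ (m : ℤ) (l : List ((E : Subgroup G) × ((E → ℂ) × ℤ))), ¬ (p : ℤ) ∣ m ∧ (∀ t ∈ l, Cfsg.IsElementary p t.1 ∧ Cfsg.IsCharacter t.1 t.2.1) ∧ (fun _ : G => (m : ℂ)) = (l.map fun t => (t.2.2 : ℂ) • Cfsg.indFun t.1 t.2.1).sum := by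
  obtain ⟨m, hm, h⟩ := Lib.CharBrauer.brauer_local (G := G) hp
  refine ⟨m, ?_⟩
  suffices hs : ∃ l : List ((E : Subgroup G) × ((E → ℂ) × ℤ)),
      (∀ t ∈ l, IsElementary p t.1 ∧ IsCharacter t.1 t.2.1) ∧
      (fun _ : G => (m : ℂ)) = (l.map fun t => (t.2.2 : ℂ) • indFun t.1 t.2.1).sum by
    obtain ⟨l, hl⟩ := hs
    exact ⟨l, hm, hl⟩
  generalize (fun _ : G => (m : ℂ)) = f at h ⊢
  induction h using AddSubgroup.closure_induction with
  | mem x hx =>
    obtain ⟨q, E, ψ, rfl, hp, hE, hψ, rfl⟩ := hx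
    refine ⟨[⟨E, ψ, 1⟩], ?_, ?_⟩
    · intro t ht
      rw [List.mem_singleton] at ht
      subst ht
      exact ⟨hE, hψ⟩
    · simp
  | zero => exact ⟨[], by simp, by simp⟩
  | add x y _ _ hx hy =>
    obtain ⟨l1, h1, h2⟩ := hx
    obtain ⟨l2, h3, h4⟩ := hy
    refine ⟨l1 ++ l2, ?_, ?_⟩
    · intro t ht
      rcases List.mem_append.mp ht with h | h
      · exact h1 t h
      · exact h3 t h
    · rw [List.map_append, List.sum_append, ← h2, ← h4]
  | neg x _ hx =>
    obtain ⟨l1, h1, h2⟩ := hx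
    refine ⟨l1.map (fun t => ⟨t.1, t.2.1, -t.2.2⟩), ?_, ?_⟩
    · intro t ht
      obtain ⟨s, hs, rfl⟩ := List.mem_map.mp ht
      exact h1 s hs
    · rw [List.map_map, h2]
      clear h1 h2
      induction l1 with
      | nil => simp
      | cons a l ih =>
        rw [List.map_cons, List.sum_cons, List.map_cons, List.sum_cons, ← ih]
        simp; abel
end Cfsg.Agent.S0874
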