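import Cfsg.Statements.S0875
import Cfsg.Agent.Lib.CharSection

set_option autoImplicit false
open Cfsg

namespace Cfsg.Agent.S0875

open Lib.CharBasic Lib.CharSection

/-- Let G be a finite group of order m * n with m and n coprime, and g an element whose order is coprime to m. Every x in G factors uniquely as x = u * v with u, v commuting, the order of u coprime to n and the order of v coprime to m; let ϑ be the function on G equal to n at those x whose factor v is conjugate to g and equal to 0 elsewhere. Then ϑ is a linear combination of the irreducible characters of G with algebraic-integer coefficients. -/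
theorem result {G : Type*} [Group G] [Fintype G] (m n : ℕ) (hmn : Nat.card G = m * n) (hcop : Nat.Coprime m n) (g : G) (hg : Nat.Coprime (orderOf g) m) (ϑ : G → ℂ) (hϑ1 : ∀ x : G, (∃ v : G, IsConj v g ∧ (∃ u : G, x = u * v ∧ Commute u v ∧ Nat.Coprime (orderOf u) n ∧ Nat.Coprime (orderOf v) m)) → ϑ x = n) (hϑ0 : ∀ x : G, (¬ ∃ v : G, IsConj v g ∧ (∃ u : G, x = u * v ∧ Commute u v ∧ Nat.Coprime (orderOf u) n ∧ Nat.Coprime (orderOf v) m)) → ϑ x = 0) : ∃ c : Cfsg.IrrCharacter G → ℂ, (∀ χ, c χ ∈ Cfsg.AlgInt) ∧ ϑ = ∑ᶠ χ : Cfsg.IrrCharacter G, c χ • (χ : G → ℂ) := by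
  classical
  have hθ : ϑ = secFn m n n g := by
    funext x
    simp only [secFn]
    by_cases h : InSec m n g x
    · rw [if_pos h]; exact hϑ1 x h
    · rw [if_neg h]; exact hϑ0 x h
  refine ⟨fun χ => classInner ϑ χ.1, fun χ => ?_, ?_⟩
  · rw [hθ]
    exact section_integral hmn hcop g n
      (fun B hB b _ => (Subgroup.card_subgroup_dvd_card _).trans hB) (isChar_of_irr χ.2)
  · rw [finsum_eq_sum_of_fintype]
    exact classFn_expand ϑ (by rw [hθ]; exact secFn_classFn m n n g)
end Cfsg.Agent.S0875
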