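import Cfsg.Statements.S0878
import Cfsg.Agent.Lib.CharInd
import Cfsg.Agent.Lib.Frob

set_option autoImplicit false
open Cfsg

namespace Cfsg.Agent.S0878

open MulAction

theorem index_eq {G Ω : Type*} [Group G] [Finite G] [MulAction G Ω] [Fintype Ω]
    (hZ : IsZassenhausGroup G Ω) {a b : Ω} (hab : a ≠ b) :
    ((stabilizer G b).subgroupOf (stabilizer G a)).index + 1 = Fintype.card Ω := by
  classical
  have h1 : (stabilizer G b).subgroupOf (stabilizer G a) = stabilizer (stabilizer G a) b := by
    ext x
    rw [Subgroup.mem_subgroupOf, mem_stabilizer_iff, mem_stabilizer_iff]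
    rfl
  rw [h1, index_stabilizer]
  have h2 : orbit (stabilizer G a) b = {a}ᶜ := by
    ext c
    rw [mem_orbit_iff, Set.mem_compl_iff, Set.mem_singleton_iff]
    constructor
    · rintro ⟨g, rfl⟩ h
      apply hab
      have h3 : (g : G) • a = a := g.2
      have h4 : (g : G) • b = a := h
      exact MulAction.injective (g : G) (h3.trans h4.symm)
    · intro hc
      obtain ⟨-, h2, -, -, -⟩ := hZ
      rw [MulAction.is_two_pretransitive_iff] at h2
      obtain ⟨g, hg1, hg2⟩ := h2 hab (Ne.symm hc)
      exact ⟨⟨g, hg1⟩, hg2⟩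
  rw [h2, Set.ncard_compl, Set.ncard_singleton, Nat.card_eq_fintype_card]
  have : 0 < Fintype.card Ω := Fintype.card_pos_iff.mpr ⟨a⟩
  omega

/-- Let G be a Zassenhaus group on the finite set Ω, a a point, and let H be the subgroup of the stabilizer of a consisting of the identity and the elements fixing no point other than a (given here as a subgroup of the stabilizer of order one less than the number of points whose non-identity elements fix only a; it is the Frobenius kernel of the stabilizer). Then an element outside the stabilizer of a conjugates no non-identity element of H into H, and the normalizer of H is exactly the stabilizer of a. -/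
theorem result {G Ω : Type*} [Group G] [Finite G] [MulAction G Ω] [Fintype Ω] (hZ : Cfsg.IsZassenhausGroup G Ω) (a : Ω) (H : Subgroup G) (hHa : H ≤ MulAction.stabilizer G a) (hHcard : Nat.card H + 1 = Fintype.card Ω) (hHfix : ∀ u ∈ H, u ≠ 1 → ∀ c : Ω, u • c = c → c = a) : (∀ g : G, g ∉ MulAction.stabilizer G a → ∀ u ∈ H, g * u * g⁻¹ ∈ H → u = 1) ∧ Subgroup.normalizer (H : Set G) = MulAction.stabilizer G a := by
  classical
  have hfirst : ∀ g : G, g ∉ MulAction.stabilizer G a → ∀ u ∈ H, g * u * g⁻¹ ∈ H → u = 1 := by
    intro g hg u hu hgu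
    by_contra hu1
    apply hg
    have h1 : u • a = a := hHa hu
    have h2 : (g * u * g⁻¹) • (g • a) = g • a := by
      rw [← mul_smul, inv_mul_cancel_right, mul_smul, h1]
    exact hHfix _ hgu (fun h => hu1 (conj_eq_one_iff.mp h)) _ h2
  refine ⟨hfirst, ?_⟩
  -- a second point
  have hZ' := hZ
  obtain ⟨-, -, h3, ⟨g₀, hg₀, c, d, hcd, hc, hd⟩, -⟩ := hZ
  obtain ⟨b, hab⟩ : ∃ b : Ω, a ≠ b := by
    by_cases h : a = c
    · exact ⟨d, by rw [h]; exact hcd⟩
    · exact ⟨c, h⟩
  set L := MulAction.stabilizer G a with hL
  set M := (MulAction.stabilizer G b).subgroupOf L with hM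
  have hidx := index_eq hZ' hab
  have hTI : Cfsg.Agent.Lib.Frob.TI M := by
    intro g hg
    rw [eq_bot_iff]
    intro x hx
    obtain ⟨hx1, hx2⟩ := Subgroup.mem_inf.mp hx
    rw [Cfsg.Agent.Lib.SchurZas.mem_conj_smul_iff] at hx2
    rw [hM, Subgroup.mem_subgroupOf] at hx1
    rw [hM, Subgroup.mem_subgroupOf] at hx2 hg
    rw [Subgroup.mem_bot]
    apply Subtype.ext
    have hx1' : (x : G) • b = b := hx1
    have hxa : (x : G) • a = a := x.2
    have hx2' : (x : G) • ((g : G) • b) = (g : G) • b := by
      have h4 : ((g : G)⁻¹ * x * g) • b = b := hx2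
      rw [mul_smul, mul_smul, inv_smul_eq_iff] at h4
      exact h4
    have hga : (g : G) • a = a := g.2
    apply h3 (x : G) a b ((g : G) • b) hab (fun h => hg h.symm) _ hxa hx1' hx2'
    intro h
    apply hab
    exact MulAction.injective (g : G) (hga.trans h)
  have hcard := Cfsg.Agent.Lib.Frob.card_kernel hTI
  have hsub : ((H.subgroupOf L : Subgroup L) : Set L) ⊆ frobeniusKernel M := by
    intro u hu
    rw [SetLike.mem_coe, Subgroup.mem_subgroupOf] at hu
    by_cases hu1 : u = 1
    · exact Or.inl hu1
    right
    intro g hg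
    rw [Cfsg.Agent.Lib.SchurZas.mem_conj_smul_iff, hM, Subgroup.mem_subgroupOf] at hg
    have h4 : ((g : G)⁻¹ * u * g) • b = b := hg
    rw [mul_smul, mul_smul, inv_smul_eq_iff] at h4
    have h5 := hHfix _ hu (fun h => hu1 (Subtype.ext h)) _ h4
    have hga : (g : G) • a = a := g.2
    exact hab (MulAction.injective (g : G) (hga.trans h5.symm))
  have heq : ((H.subgroupOf L : Subgroup L) : Set L) = frobeniusKernel M := by
    apply Set.eq_of_subset_of_ncard_le hsub _ (Set.toFinite _)
    rw [← Nat.card_coe_set_eq, ← Nat.card_coe_set_eq, hcard]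
    have h4 : Nat.card (H.subgroupOf L : Subgroup L) = Nat.card H :=
      Nat.card_congr (Subgroup.subgroupOfEquivOfLe hHa).toEquiv
    change M.index ≤ Nat.card (H.subgroupOf L : Subgroup L)
    rw [h4]
    change M.index + 1 = Fintype.card Ω at hidx
    omega
  apply le_antisymm
  · intro g hg
    by_contra hgL
    obtain ⟨u, hu, hu1⟩ : ∃ u ∈ H, u ≠ 1 := by
      apply H.ne_bot_iff_exists_ne_one.mp _ |>.elim
      · intro u hu; exact ⟨u, u.2, fun h => hu (Subtype.ext h)⟩
      · rintro rfl
        rw [Subgroup.card_bot] at hHcard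
        -- only two points
        have h5 : ∃ e : Ω, e ≠ a ∧ e ≠ b := by
          by_contra hcon
          push Not at hcon
          have h6 : ∀ e : Ω, e ≠ a → e = b := hcon
          obtain ⟨hf, -⟩ := hZ'
          apply hg₀
          apply hf.eq_of_smul_eq_smul (α := Ω)
          intro e
          rw [one_smul]
          by_cases hca : c = a
          · have hdb : d = b := h6 d (fun h => hcd (hca.trans h.symm))
            by_cases hea : e = a
            · rw [hea, ← hca, hc]
            · rw [h6 e hea, ← hdb, hd]
          · have hcb := h6 c hca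
            have hda : d = a := by
              by_contra hda
              exact hcd (hcb.trans (h6 d hda).symm)
            by_cases hea : e = a
            · rw [hea, ← hda, hd]
            · rw [h6 e hea, ← hcb, hc]
        obtain ⟨e, hea, heb⟩ := h5
        have h7 : ({a, b, e} : Finset Ω).card ≤ Fintype.card Ω := Finset.card_le_univ _
        rw [Finset.card_insert_of_notMem (by simp [hab, Ne.symm hea]),
          Finset.card_insert_of_notMem (by simp [Ne.symm heb]), Finset.card_singleton] at h7
        omega
    exact hu1 (hfirst g hgL u hu ((Subgroup.mem_normalizer_iff.mp hg u).mp hu))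
  · intro g hg
    have key : ∀ g ∈ L, ∀ u ∈ H, g * u * g⁻¹ ∈ H := by
      intro g hg u hu
      have h4 : (⟨u, hHa hu⟩ : L) ∈ frobeniusKernel M := by
        rw [← heq]; exact hu
      have h5 : (⟨g, hg⟩ * ⟨u, hHa hu⟩ * ⟨g, hg⟩⁻¹ : L) ∈ frobeniusKernel M := by
        rcases h4 with h4 | h4
        · left
          rw [h4]; group
        · right
          intro k hk
          apply h4 (⟨g, hg⟩⁻¹ * k)
          rw [Cfsg.Agent.Lib.SchurZas.mem_conj_smul_iff] at hk ⊢
          convert hk using 1
          group
      rw [← heq] at h5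
      exact h5
    rw [Subgroup.mem_normalizer_iff]
    intro u
    refine ⟨key g hg u, fun h => ?_⟩
    have := key g⁻¹ (L.inv_mem hg) _ h
    simpa [mul_assoc] using this
end Cfsg.Agent.S0878
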