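import Cfsg.Statements.S0880
import Cfsg.Agent.Lib.Zass

set_option autoImplicit false
open Cfsg

namespace Cfsg.Agent.S0880

open Cfsg.Agent.Lib.Zass

/-- Let G be a finite simple Zassenhaus group on Ω with n points whose two-point stabilizer E has odd order less than n - 2. Then there are two elements of G, each fixing no point of Ω, that are not conjugate. -/
theorem result {G Ω : Type*} [Group G] [Finite G] [MulAction G Ω] [Fintype Ω] (hZ : Cfsg.IsZassenhausGroup G Ω) {a b : Ω} (hab : a ≠ b) [IsSimpleGroup G] (hodd : Odd (Nat.card ↥(MulAction.stabilizer G a ⊓ MulAction.stabilizer G b : Subgroup G))) (hlt : Nat.card ↥(MulAction.stabilizer G a ⊓ MulAction.stabilizer G b : Subgroup G) < Fintype.card Ω - 2) : ∃ x y : G, (∀ c : Ω, x • c ≠ c) ∧ (∀ c : Ω, y • c ≠ c) ∧ ¬ IsConj x y := by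
  classical
  have hfree := card_free hZ hab
  have hG := card_group hZ hab
  obtain ⟨he1, hn2⟩ := two_lt hZ hab
  obtain ⟨e, he⟩ : ∃ e, e = Nat.card ↥(MulAction.stabilizer G a ⊓ MulAction.stabilizer G b : Subgroup G) := ⟨_, rfl⟩
  obtain ⟨f, hf⟩ : ∃ f, f = Nat.card {g : G // ∀ c : Ω, g • c ≠ c} := ⟨_, rfl⟩
  rw [← he] at hG he1 hodd
  rw [← hf] at hfree
  have he3 : 3 ≤ e := by
    rcases hodd with ⟨k, hk⟩
    omega
  obtain ⟨m, hm⟩ : ∃ m, Fintype.card Ω = m + 2 := ⟨Fintype.card Ω - 2, by omega⟩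
  rw [hm] at hG hfree hn2
  have e1 : m + 2 - 1 = m + 1 := rfl
  have e2 : m + 2 - 2 = m := rfl
  rw [e1] at hG
  rw [e1, e2] at hfree
  have hm1 : 1 ≤ m := by omega
  have hGge : (m + 2) * (m + 1) * 3 ≤ Nat.card G := by
    rw [← hG]; exact Nat.mul_le_mul_left _ he3
  have hfpos : 0 < f := by nlinarith
  by_contra hcon
  push Not at hcon
  have hne : Nonempty {g : G // ∀ c : Ω, g • c ≠ c} := by
    by_contra h
    rw [not_nonempty_iff] at h
    rw [hf, Nat.card_of_isEmpty] at hfpos
    exact lt_irrefl _ hfpos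
  obtain ⟨⟨x, hx⟩⟩ := hne
  have hdvd : f ∣ Nat.card G := by
    have h1 : f = Nat.card {y : G // IsConj x y} := by
      rw [hf]
      refine Nat.card_congr (Equiv.subtypeEquivRight fun y => ?_)
      constructor
      · intro hy
        exact hcon x y hx hy
      · intro hy c hc
        obtain ⟨g, hg⟩ := isConj_iff.mp hy
        apply hx (g⁻¹ • c)
        rw [← hg, mul_smul, mul_smul] at hc
        rw [eq_inv_smul_iff]
        exact hc
    rw [h1, ← card_cls x]
    exact dvd_mul_right _ _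
  obtain ⟨k, hk⟩ := hdvd
  rw [hk] at hfree hGge
  have hk2 : 2 < k := by
    by_contra h
    have : f * k ≤ f * 2 := Nat.mul_le_mul_left _ (by omega)
    nlinarith
  have hk3 : k < 3 := by
    by_contra h
    have : f * 3 ≤ f * k := Nat.mul_le_mul_left _ (by omega)
    nlinarith
  omega
end Cfsg.Agent.S0880
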