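import Cfsg.Statements.S0900
import Cfsg.Agent.Lib.CharClifford

set_option autoImplicit false
open Cfsg

namespace Cfsg.Agent.S0900

open Lib.CharBasic Lib.CharInd Lib.CharNormal Lib.CharClifford

/-- Let N be a normal subgroup of the finite group G, χ an irreducible character of G and ϑ an irreducible character of N having nonzero inner product with the restriction of χ. Consider: (a) the restriction of χ to N is e • ϑ for a natural number e with e ^ 2 equal to the index of N; (b) χ vanishes outside N and ϑ is invariant under conjugation by G; (c) ϑ is invariant and every irreducible character of G having nonzero inner product with the function induced from ϑ equals χ. Then (a) ↔ (b) and (a) ↔ (c). -/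
theorem result {G : Type*} [Group G] [Fintype G] (N : Subgroup G) [hN : N.Normal] [Fintype N] (χ : G → ℂ) (hχ : Cfsg.IsIrrCharacter G χ) (ϑ : N → ℂ) (hϑ : Cfsg.IsIrrCharacter N ϑ) (hcon : Cfsg.classInner (fun n : N => χ n) ϑ ≠ 0) : ((∃ e : ℕ, (fun n : N => χ n) = (e : ℂ) • ϑ ∧ e ^ 2 = N.index) ↔ ((∀ g : G, g ∉ N → χ g = 0) ∧ ∀ (g : G) (n : N), ϑ ⟨g * n * g⁻¹, hN.conj_mem (n : G) n.2 g⟩ = ϑ n)) ∧ ((∃ e : ℕ, (fun n : N => χ n) = (e : ℂ) • ϑ ∧ e ^ 2 = N.index) ↔ (∀ (g : G) (n : N), ϑ ⟨g * n * g⁻¹, hN.conj_mem (n : G) n.2 g⟩ = ϑ n ∧ ∀ ψ : G → ℂ, Cfsg.IsIrrCharacter G ψ → Cfsg.classInner (Cfsg.indFun N ϑ) ψ ≠ 0 → ψ = χ)) := by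
  classical

  obtain ⟨e, he⟩ := exists_nat_inner (isChar_res N (isChar_of_irr hχ)) hϑ
  have he0 : (e : ℂ) ≠ 0 := by rw [← he]; exact hcon
  have hG : (Nat.card G : ℂ) ≠ 0 := Nat.cast_ne_zero.mpr Nat.card_pos.ne'
  have hNc : (Nat.card N : ℂ) ≠ 0 := Nat.cast_ne_zero.mpr Nat.card_pos.ne'
  have hidx : (N.index : ℂ) * Nat.card N = Nat.card G := by
    exact_mod_cast N.index_mul_card
  -- norm over `N` and over `G`
  have hsumG : ∑ g : G, χ g * (starRingEnd ℂ) (χ g) = Nat.card G := by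
    have := irr_inner_self hχ
    rw [classInner_def, inv_mul_eq_one₀ hG] at this
    exact this.symm
  have hinner_of : ∀ k : ℕ, (fun n : N => χ n) = (k : ℂ) • ϑ → (k : ℂ) = e := by
    intro k hk
    rw [← he, hk, classInner_smul_left, irr_inner_self hϑ, mul_one]
  have hsumN : ∀ k : ℕ, (fun n : N => χ n) = (k : ℂ) • ϑ →
      ∑ n : N, χ n * (starRingEnd ℂ) (χ n) = (k : ℂ) ^ 2 * Nat.card N := by
    intro k hk
    have h1 : classInner (fun n : N => χ n) (fun n : N => χ n) = (k : ℂ) ^ 2 := by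
      rw [hk, classInner_smul_left, classInner_smul_right, irr_inner_self hϑ]
      simp; ring
    rw [classInner_def] at h1
    field_simp at h1
    rw [h1]; ring
  have hsplit : ∑ g : G, χ g * (starRingEnd ℂ) (χ g) = ∑ n : N, χ n * (starRingEnd ℂ) (χ n) +
      ∑ g ∈ Finset.univ.filter (fun g => g ∉ N), χ g * (starRingEnd ℂ) (χ g) := by
    rw [← Finset.sum_filter_add_sum_filter_not Finset.univ (fun g => g ∈ N)]
    congr 1
    exact (Finset.sum_subtype _ (by simp) _)
  have hinv_iff : (∀ (g : G) (n : N), ϑ ⟨g * n * g⁻¹, hN.conj_mem (n : G) n.2 g⟩ = ϑ n) ↔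
      ∀ g : G, cj g ϑ = ϑ :=
    forall_congr' fun g => cj_eq_iff.symm
  have hinv_of : (∃ e : ℕ, (fun n : N => χ n) = (e : ℂ) • ϑ) → ∀ g : G, cj g ϑ = ϑ := by
    rintro ⟨k, hk⟩ g
    have hke := hinner_of k hk
    have hk0 : (k : ℂ) ≠ 0 := by rw [hke]; exact he0
    have h1 : ϑ = (k : ℂ)⁻¹ • fun n : N => χ n := by
      rw [hk, smul_smul, inv_mul_cancel₀ hk0, one_smul]
    rw [h1, cj_smul, cj_res g (isChar_classFn (isChar_of_irr hχ))]
  have hres : (∀ g : G, cj g ϑ = ϑ) → (fun n : N => χ n) = (e : ℂ) • ϑ := by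
    intro h
    rw [← he]
    exact res_eq_smul hχ hϑ h hcon
  have hIself : (∀ g : G, cj g ϑ = ϑ) →
      classInner (indFun N ϑ) (indFun N ϑ) = N.index := by
    intro h
    have : inertia (G := G) ϑ = ⊤ := by ext g; simp [mem_inertia, h]
    rw [ind_inner_self hϑ, this, Subgroup.relIndex_top_right]
  have hI := isChar_ind N (isChar_of_irr hϑ)
  choose m hm using fun ψ : IrrCharacter G => exists_nat_inner hI ψ.2
  have hexp : indFun N ϑ = ∑ ψ : IrrCharacter G, (m ψ : ℂ) • ψ.1 := by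
    conv_lhs => rw [char_eq_sum_inner hI]
    simp only [hm]
  have hself : classInner (indFun N ϑ) (indFun N ϑ) =
      ∑ ψ : IrrCharacter G, (m ψ : ℂ) * m ψ := by
    rw [hexp, inner_sum_sum]
    simp
  have hmχ : (m ⟨χ, hχ⟩ : ℂ) = e := by
    rw [← hm, reciprocity N _ χ (isChar_classFn (isChar_of_irr hχ)), ← classInner_conj_symm, he]
    simp
  have hmχ' : m ⟨χ, hχ⟩ = e := by exact_mod_cast hmχ
  constructor
  · constructor
    · rintro ⟨k, hk, hk2⟩
      refine ⟨?_, hinv_iff.mpr (hinv_of ⟨k, hk⟩)⟩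
      have h1 : ∑ g ∈ Finset.univ.filter (fun g => g ∉ N), χ g * (starRingEnd ℂ) (χ g) = 0 := by
        have h2 := hsplit
        rw [hsumG, hsumN k hk, ← hidx, ← hk2] at h2
        push_cast at h2
        linear_combination -h2
      have h2 : ∑ g ∈ Finset.univ.filter (fun g => g ∉ N), ‖χ g‖ ^ 2 = 0 := by
        have h3 : ((∑ g ∈ Finset.univ.filter (fun g => g ∉ N), ‖χ g‖ ^ 2 : ℝ) : ℂ) = 0 := by
          rw [← h1]
          push_cast
          refine Finset.sum_congr rfl fun g _ => ?_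
          rw [Complex.mul_conj, Complex.normSq_eq_norm_sq]
          push_cast; rfl
        exact_mod_cast h3
      intro g hg
      have h3 := (Finset.sum_eq_zero_iff_of_nonneg (fun g _ => sq_nonneg ‖χ g‖)).mp h2 g
        (by simp [hg])
      simpa using h3
    · rintro ⟨hvan, hinv⟩
      refine ⟨e, hres (hinv_iff.mp hinv), ?_⟩
      have h2 := hsplit
      rw [hsumG, hsumN e (hres (hinv_iff.mp hinv)), Finset.sum_eq_zero (fun g hg => by
        rw [hvan g (Finset.mem_filter.mp hg).2]; simp), add_zero, ← hidx] at h2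
      have h3 := mul_right_cancel₀ hNc h2
      exact_mod_cast h3.symm
  · have hcast : (∀ (g : G) (n : N), ϑ ⟨g * n * g⁻¹, hN.conj_mem (n : G) n.2 g⟩ = ϑ n ∧
        ∀ ψ : G → ℂ, IsIrrCharacter G ψ → classInner (indFun N ϑ) ψ ≠ 0 → ψ = χ) ↔
        ((∀ g : G, cj g ϑ = ϑ) ∧
        ∀ ψ : G → ℂ, IsIrrCharacter G ψ → classInner (indFun N ϑ) ψ ≠ 0 → ψ = χ) := by
      constructor
      · intro h
        exact ⟨hinv_iff.mp fun g n => (h g n).1, (h 1 1).2⟩
      · rintro ⟨h1, h2⟩ g n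
        exact ⟨hinv_iff.mpr h1 g n, h2⟩
    rw [hcast]
    constructor
    · rintro ⟨k, hk, hk2⟩
      have hinv := hinv_of ⟨k, hk⟩
      refine ⟨hinv, fun ψ hψ hne => ?_⟩
      have hke : k = e := by exact_mod_cast hinner_of k hk
      by_contra hcon2
      have h1 : (N.index : ℂ) = ∑ ψ : IrrCharacter G, (m ψ : ℂ) * m ψ := by
        rw [← hself, hIself hinv]
      have h2 : N.index = ∑ ψ : IrrCharacter G, m ψ * m ψ := by exact_mod_cast h1
      have h3 : m ⟨χ, hχ⟩ * m ⟨χ, hχ⟩ + m ⟨ψ, hψ⟩ * m ⟨ψ, hψ⟩ ≤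
          ∑ ψ : IrrCharacter G, m ψ * m ψ := by
        have hne' : (⟨χ, hχ⟩ : IrrCharacter G) ≠ ⟨ψ, hψ⟩ := fun h =>
          hcon2 (congrArg Subtype.val h).symm
        rw [← Finset.sum_pair (f := fun ψ => m ψ * m ψ) hne']
        exact Finset.sum_le_sum_of_subset (Finset.subset_univ _)
      have h4 : m ⟨ψ, hψ⟩ ≠ 0 := by
        intro h0
        apply hne
        have := hm ⟨ψ, hψ⟩
        rw [h0] at this
        simpa using this
      rw [hmχ', ← h2, ← hk2, hke] at h3
      have h5 : 0 < m ⟨ψ, hψ⟩ * m ⟨ψ, hψ⟩ := by positivity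
      nlinarith
    · rintro ⟨hinv, huniq⟩
      refine ⟨e, hres hinv, ?_⟩
      have h1 : (N.index : ℂ) = ∑ ψ : IrrCharacter G, (m ψ : ℂ) * m ψ := by
        rw [← hself, hIself hinv]
      rw [Finset.sum_eq_single (⟨χ, hχ⟩ : IrrCharacter G) (fun ψ _ hne => by
        have h0 : m ψ = 0 := by
          by_contra hcon2
          apply hne
          apply Subtype.ext
          exact huniq ψ.1 ψ.2 (by rw [hm]; exact_mod_cast hcon2)
        rw [h0]; simp) (fun h => absurd (Finset.mem_univ _) h), hmχ] at h1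
      have : N.index = e * e := by exact_mod_cast h1
      rw [this, sq]
end Cfsg.Agent.S0900
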