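import Cfsg.Statements.S0901
import Cfsg.Agent.Lib.BlockMore

set_option autoImplicit false
open Cfsg

namespace Cfsg.Agent.S0901
open Cfsg.Agent.Lib.BlockMore Cfsg.Agent.Lib.BlockQuotB Cfsg.Agent.Lib.BlockQuot Cfsg.Agent.Lib.BlockCov Cfsg.Agent.Lib.BlockM Cfsg.Agent.Lib.BlockHt Cfsg.Agent.Lib.BlockFirst Cfsg.Agent.Lib.BlockSecond Cfsg.Agent.Lib.BlockInd Cfsg.Agent.Lib.BlockNP Cfsg.Agent.Lib.BlockDeg Cfsg.Agent.Lib.BlockDef Cfsg.Agent.Lib.BlockRed Cfsg.Agent.Lib.BlockOrth Cfsg.Agent.Lib.BlockIdem Cfsg.Agent.Lib.BlockGA Cfsg.Agent.Lib.BlockLoc Cfsg.Agent.Lib.CharBasic Cfsg.Agent.Lib.BlockPP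
open scoped ComplexConjugate



/-- Let M be a maximal ideal of the ring of algebraic integers containing the prime p, and let U be the set of complex roots of unity of order prime to p. Then reduction modulo M is injective on U, and every algebraic integer not in M is congruent modulo M to an element of U (so U maps bijectively onto the nonzero residues). -/
theorem result (p : ℕ) [Fact p.Prime] (M : Ideal Cfsg.AlgInt) (hM : Cfsg.IsPModular p M) : (∀ ε₁ ε₂ : Cfsg.AlgInt, (∃ m : ℕ, ¬ p ∣ m ∧ (ε₁ : ℂ) ^ m = 1) → (∃ m : ℕ, ¬ p ∣ m ∧ (ε₂ : ℂ) ^ m = 1) → ε₁ - ε₂ ∈ M → ε₁ = ε₂) ∧ (∀ a : Cfsg.AlgInt, a ∉ M → ∃ ε : Cfsg.AlgInt, (∃ m : ℕ, ¬ p ∣ m ∧ (ε : ℂ) ^ m = 1) ∧ a - ε ∈ M) := by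
  constructor
  · rintro ε₁ ε₂ ⟨m₁, hm₁, h₁⟩ ⟨m₂, hm₂, h₂⟩ hsub
    haveI := isPrime hM
    -- common exponent
    have hp := hM.1
    set m := m₁ * m₂ with hm
    have hpm : ¬ p ∣ m := by
      intro h
      rcases (Nat.Prime.dvd_mul hp).1 h with h | h
      · exact hm₁ h
      · exact hm₂ h
    have hm0 : m ≠ 0 := by
      rintro h; rw [h] at hpm; exact hpm (dvd_zero p)
    have e1 : ε₁ ^ m = 1 := by
      apply Subtype.ext
      have : ((ε₁ ^ m : AlgInt) : ℂ) = (ε₁ : ℂ) ^ m := by push_cast; rfl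
      rw [this, hm, pow_mul, h₁, one_pow]; rfl
    have e2 : ε₂ ^ m = 1 := by
      apply Subtype.ext
      have : ((ε₂ ^ m : AlgInt) : ℂ) = (ε₂ : ℂ) ^ m := by push_cast; rfl
      rw [this, hm, mul_comm, pow_mul, h₂, one_pow]; rfl
    by_contra hne
    -- `ε = ε₁ ε₂^(m-1)`
    set ε := ε₁ * ε₂ ^ (m - 1) with hε
    have hε1 : ε ^ m = 1 := by
      rw [hε, mul_pow, e1, one_mul, ← pow_mul, mul_comm (m - 1) m, pow_mul, e2, one_pow]
    have h3 : ε₂ ^ (m - 1) * ε₂ = 1 := by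
      rw [← pow_succ, Nat.sub_add_cancel (Nat.one_le_iff_ne_zero.2 hm0), e2]
    have hεne : ε ≠ 1 := by
      intro h
      apply hne
      calc ε₁ = ε₁ * (ε₂ ^ (m - 1) * ε₂) := by rw [h3, mul_one]
        _ = ε * ε₂ := by rw [hε]; ring
        _ = ε₂ := by rw [h, one_mul]
    have hεM : ε - 1 ∈ M := by
      have : ε - 1 = (ε₁ - ε₂) * ε₂ ^ (m - 1) := by
        rw [sub_mul, ← h3, hε]; ring
      rw [this]
      exact M.mul_mem_right _ hsub
    have hsum : ∑ i ∈ Finset.range m, ε ^ i = 0 := by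
      have h4 := mul_geom_sum ε m
      rw [hε1, sub_self] at h4
      exact (mul_eq_zero.1 h4).resolve_left (sub_ne_zero.2 hεne)
    have h5 : ∀ i, ε ^ i - 1 ∈ M := by
      intro i
      obtain ⟨c, hc⟩ := sub_one_dvd_pow_sub_one ε i
      rw [hc]
      exact M.mul_mem_right _ hεM
    have h6 : (m : AlgInt) ∈ M := by
      have h7 : ∑ i ∈ Finset.range m, (ε ^ i - 1) ∈ M := M.sum_mem fun i _ => h5 i
      rw [Finset.sum_sub_distrib, hsum, zero_sub, Finset.sum_const, Finset.card_range,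
        nsmul_eq_mul, mul_one] at h7
      simpa using M.neg_mem h7
    have h8 : MemLocalIdeal M ((m : AlgInt) : ℂ) := max_of_mem hM h6
    have h9 : ((m : AlgInt) : ℂ) = (m : ℂ) := by push_cast; rfl
    rw [h9, max_natCast_iff hM] at h8
    exact hpm h8
  · intro a ha
    haveI hMax := hM.2.1
    haveI := isPrime hM
    letI : Field (AlgInt ⧸ M) := Ideal.Quotient.field M
    have hpK : ((p : ℕ) : AlgInt ⧸ M) = 0 := by
      have := Ideal.Quotient.eq_zero_iff_mem.2 hM.2.2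
      simpa using this
    haveI : CharP (AlgInt ⧸ M) p := by
      have h1 : ringChar (AlgInt ⧸ M) = p := by
        have h2 := ringChar.dvd hpK
        rcases (Nat.dvd_prime hM.1).1 h2 with h3 | h3
        · exact absurd h3 (CharP.ringChar_ne_one)
        · exact h3
      exact h1 ▸ ringChar.charP _
    letI : Algebra (ZMod p) (AlgInt ⧸ M) := ZMod.algebra _ p
    set β : AlgInt ⧸ M := Ideal.Quotient.mk M a with hβ
    have hβ0 : β ≠ 0 := by
      rw [hβ, Ne, Ideal.Quotient.eq_zero_iff_mem]; exact ha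
    have hint : IsIntegral (ZMod p) β := by
      have h1 : IsIntegral ℤ (a : ℂ) := a.2
      have h2 : IsIntegral ℤ a := (isIntegral_algHom_iff (Subalgebra.val _) Subtype.val_injective).1 h1
      have h3 : IsIntegral ℤ β := h2.map (Ideal.Quotient.mkₐ ℤ M)
      exact h3.tower_top
    haveI : FiniteDimensional (ZMod p) (IntermediateField.adjoin (ZMod p) {β}) :=
      IntermediateField.adjoin.finiteDimensional hint
    haveI : Finite (IntermediateField.adjoin (ZMod p) {β}) := Module.finite_of_finite (ZMod p)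
    haveI : Fintype (IntermediateField.adjoin (ZMod p) {β}) := Fintype.ofFinite _
    set γ : IntermediateField.adjoin (ZMod p) {β} :=
      ⟨β, IntermediateField.mem_adjoin_simple_self (ZMod p) β⟩ with hγ
    have hγ0 : γ ≠ 0 := fun h => hβ0 (congrArg Subtype.val h)
    obtain ⟨n, hn1, hn2⟩ := FiniteField.card (IntermediateField.adjoin (ZMod p) {β}) p
    have hpow := FiniteField.pow_card_sub_one_eq_one γ hγ0
    rw [hn2] at hpow
    set m := p ^ (n : ℕ) - 1 with hm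
    have hpm : ¬ p ∣ m := by
      intro h
      have h1 : p ∣ p ^ (n : ℕ) := dvd_pow_self p n.ne_zero
      have h2 : 1 ≤ p ^ (n : ℕ) := Nat.one_le_pow _ _ hM.1.pos
      have h3 : p ∣ 1 := by
        have := (Nat.dvd_sub h1 h)
        rw [hm, Nat.sub_sub_self h2] at this
        exact this
      exact hM.1.one_lt.ne' (Nat.dvd_one.1 h3)
    have hm0 : m ≠ 0 := by
      intro h; rw [h] at hpm; exact hpm (dvd_zero p)
    have hβm : β ^ m = 1 := congrArg Subtype.val hpow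
    have haM : a ^ m - 1 ∈ M := by
      rw [← Ideal.Quotient.eq_zero_iff_mem, map_sub, map_pow, map_one, ← hβ, hβm, sub_self]
    -- factor `X^m - 1`
    haveI : NeZero m := ⟨hm0⟩
    have hfac : ∏ ζ ∈ Polynomial.nthRootsFinset m (1 : ℂ), ((a : ℂ) - ζ) = (a : ℂ) ^ m - 1 := by
      have h1 := Polynomial.X_pow_sub_one_eq_prod (Nat.pos_of_ne_zero hm0)
        (Complex.isPrimitiveRoot_exp m hm0)
      have h2 := congrArg (Polynomial.eval (a : ℂ)) h1
      rw [Polynomial.eval_prod] at h2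
      simp only [Polynomial.eval_sub, Polynomial.eval_pow, Polynomial.eval_X,
        Polynomial.eval_one, Polynomial.eval_C] at h2
      exact h2.symm
    have hint2 : ∀ ζ ∈ Polynomial.nthRootsFinset m (1 : ℂ), IsIntegral ℤ ζ := by
      intro ζ hζ
      rw [Polynomial.mem_nthRootsFinset (Nat.pos_of_ne_zero hm0)] at hζ
      exact isIntegral_of_pow_eq_one hm0 hζ
    let F : {ζ // ζ ∈ Polynomial.nthRootsFinset m (1 : ℂ)} → AlgInt := fun ζ => a - ⟨ζ.1, hint2 ζ.1 ζ.2⟩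
    have hprod : ∏ ζ ∈ (Polynomial.nthRootsFinset m (1 : ℂ)).attach, F ζ = a ^ m - 1 := by
      apply Subtype.ext
      have h1 : ((∏ ζ ∈ (Polynomial.nthRootsFinset m (1 : ℂ)).attach, F ζ : AlgInt) : ℂ) =
          ∏ ζ ∈ (Polynomial.nthRootsFinset m (1 : ℂ)).attach, ((F ζ : AlgInt) : ℂ) := by
        exact map_prod (Subalgebra.val _) _ _
      rw [h1]
      have h2 : ((a ^ m - 1 : AlgInt) : ℂ) = (a : ℂ) ^ m - 1 := by push_cast; rfl
      rw [h2, ← hfac]
      exact Finset.prod_attach (Polynomial.nthRootsFinset m (1 : ℂ)) (fun ζ => (a : ℂ) - ζ)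
    have hmem : ∏ ζ ∈ (Polynomial.nthRootsFinset m (1 : ℂ)).attach, F ζ ∈ M := by
      rw [hprod]; exact haM
    obtain ⟨ζ, -, hζ⟩ := (Ideal.IsPrime.prod_mem_iff).1 hmem
    refine ⟨⟨ζ.1, hint2 ζ.1 ζ.2⟩, ⟨m, hpm, ?_⟩, hζ⟩
    have := ζ.2
    rw [Polynomial.mem_nthRootsFinset (Nat.pos_of_ne_zero hm0)] at this
    exact this

end Cfsg.Agent.S0901
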