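import Cfsg.Statements.S0903
import Cfsg.Agent.Lib.BlockQuotB

set_option autoImplicit false
open Cfsg

namespace Cfsg.Agent.S0903
open Cfsg.Agent.Lib.BlockQuotB Cfsg.Agent.Lib.BlockQuot Cfsg.Agent.Lib.BlockCov Cfsg.Agent.Lib.BlockM Cfsg.Agent.Lib.BlockHt Cfsg.Agent.Lib.BlockFirst Cfsg.Agent.Lib.BlockSecond Cfsg.Agent.Lib.BlockInd Cfsg.Agent.Lib.BlockNP Cfsg.Agent.Lib.BlockDeg Cfsg.Agent.Lib.BlockDef Cfsg.Agent.Lib.BlockRed Cfsg.Agent.Lib.BlockOrth Cfsg.Agent.Lib.BlockIdem Cfsg.Agent.Lib.BlockGA Cfsg.Agent.Lib.BlockLoc Cfsg.Agent.Lib.CharBasic Cfsg.Agent.Lib.BlockPP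
open scoped ComplexConjugate



/-- Let P be a p-subgroup of the finite group G, let c centralize P and let g, h ∈ G. The number of pairs (x, y) with x conjugate to g, y conjugate to h and x * y = c is congruent modulo p to the number of such pairs in which x and y both centralize P. (This is why the Brauer map on class sums is multiplicative.) -/
theorem result {G : Type*} [Group G] [Finite G] (p : ℕ) [Fact p.Prime] (P : Subgroup G) (hP : IsPGroup p P) (c : G) (hc : c ∈ Subgroup.centralizer (P : Set G)) (g h : G) : Nat.card {xy : G × G // IsConj g xy.1 ∧ IsConj h xy.2 ∧ xy.1 * xy.2 = c} ≡ Nat.card {xy : G × G // IsConj g xy.1 ∧ IsConj h xy.2 ∧ xy.1 * xy.2 = c ∧ xy.1 ∈ Subgroup.centralizer (P : Set G) ∧ xy.2 ∈ Subgroup.centralizer (P : Set G)} [MOD p] := by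
  classical
  cases nonempty_fintype G
  haveI : CharP (ZMod p) p := ZMod.charP p
  rw [← (ZMod.natCast_eq_natCast_iff _ _ p)]
  have hcP : ∀ q ∈ P, Commute q c := by
    intro q hq
    rw [Subgroup.mem_centralizer_iff] at hc
    exact hc q hq
  have h1 : Nat.card {xy : G × G // IsConj g xy.1 ∧ IsConj h xy.2 ∧ xy.1 * xy.2 = c} =
      (Finset.univ.filter (fun x : G => IsConj g x ∧ IsConj h (x⁻¹ * c))).card := by
    rw [← Fintype.card_coe, ← Nat.card_eq_fintype_card]
    refine Nat.card_congr ?_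
    refine
      { toFun := fun xy => ⟨xy.1.1, ?_⟩
        invFun := fun x => ⟨(x.1, x.1⁻¹ * c), ?_⟩
        left_inv := ?_
        right_inv := fun x => rfl }
    · obtain ⟨⟨x, y⟩, h1, h2, h3⟩ := xy
      rw [Finset.mem_filter]
      refine ⟨Finset.mem_univ _, h1, ?_⟩
      have : x⁻¹ * c = y := by rw [← h3]; simp
      rw [this]; exact h2
    · have := (Finset.mem_filter.1 x.2).2
      exact ⟨this.1, this.2, by simp⟩
    · rintro ⟨⟨x, y⟩, h1, h2, h3⟩
      apply Subtype.ext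
      have : x⁻¹ * c = y := by rw [← h3]; simp
      exact Prod.ext rfl this
  have h2 : Nat.card {xy : G × G // IsConj g xy.1 ∧ IsConj h xy.2 ∧ xy.1 * xy.2 = c ∧
      xy.1 ∈ Subgroup.centralizer (P : Set G) ∧ xy.2 ∈ Subgroup.centralizer (P : Set G)} =
      ((Finset.univ.filter (fun x : G => ∀ q ∈ P, Commute q x)).filter
        (fun x : G => IsConj g x ∧ IsConj h (x⁻¹ * c))).card := by
    rw [← Fintype.card_coe, ← Nat.card_eq_fintype_card]
    refine Nat.card_congr ?_
    refine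
      { toFun := fun xy => ⟨xy.1.1, ?_⟩
        invFun := fun x => ⟨(x.1, x.1⁻¹ * c), ?_⟩
        left_inv := ?_
        right_inv := fun x => rfl }
    · obtain ⟨⟨x, y⟩, h1, h2, h3, h4, h5⟩ := xy
      rw [Finset.mem_filter, Finset.mem_filter]
      refine ⟨⟨Finset.mem_univ _, fun q hq => ?_⟩, h1, ?_⟩
      · exact (Subgroup.mem_centralizer_iff.1 h4) q hq
      · have : x⁻¹ * c = y := by rw [← h3]; simp
        rw [this]; exact h2
    · have h3 := Finset.mem_filter.1 x.2
      have h4 := (Finset.mem_filter.1 h3.1).2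
      refine ⟨h3.2.1, h3.2.2, by simp, ?_, ?_⟩
      · rw [Subgroup.mem_centralizer_iff]; exact fun q hq => (h4 q hq).eq
      · rw [Subgroup.mem_centralizer_iff]
        exact fun q hq => ((h4 q hq).inv_right.mul_right (hcP q hq)).eq
    · rintro ⟨⟨x, y⟩, h1, h2, h3, h4, h5⟩
      apply Subtype.ext
      have : x⁻¹ * c = y := by rw [← h3]; simp
      exact Prod.ext rfl this
  rw [h1, h2, Finset.card_filter, Finset.card_filter]
  push_cast
  refine sum_eq_sum_centralizer (k := ZMod p) (p := p) hP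
    (fun x : G => if IsConj g x ∧ IsConj h (x⁻¹ * c) then (1 : ZMod p) else 0) ?_
  intro q hq x
  have h3 : (q * x * q⁻¹)⁻¹ * c = q * (x⁻¹ * c) * q⁻¹ := by
    have := (hcP q hq).eq
    have h4 : q⁻¹ * c = c * q⁻¹ := by
      rw [inv_mul_eq_iff_eq_mul, ← mul_assoc, this]; group
    simp only [mul_inv_rev, inv_inv, mul_assoc]
    rw [h4]
  have h5 : (IsConj g (q * x * q⁻¹) ∧ IsConj h ((q * x * q⁻¹)⁻¹ * c)) ↔
      (IsConj g x ∧ IsConj h (x⁻¹ * c)) := by
    rw [h3, isConj_conj_right, isConj_conj_right]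
  by_cases h6 : IsConj g x ∧ IsConj h (x⁻¹ * c)
  · rw [if_pos h6, if_pos (h5.2 h6)]
  · rw [if_neg h6, if_neg (fun h7 => h6 (h5.1 h7))]

end Cfsg.Agent.S0903
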