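import Cfsg.Statements.S0905
import Cfsg.Agent.Lib.BlockNP

set_option autoImplicit false
open Cfsg

namespace Cfsg.Agent.S0905

open Cfsg.Agent.Lib.BlockGA Cfsg.Agent.Lib.BlockIdem Cfsg.Agent.Lib.BlockNP

/-- The comparison map to functions. -/
noncomputable def cmp (k G : Type*) [Field k] [Group G] [Finite G] : MonoidAlgebra k G →ₐ[k] GA k G :=
  MonoidAlgebra.lift k (GA k G) G
    { toFun := fun g => sg g
      map_one' := sg_one
      map_mul' := fun g h => (sg_mul_sg g h).symm }

theorem cmp_apply {k G : Type*} [Field k] [Group G] [Finite G] (x : MonoidAlgebra k G) (g : G) :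
    (cmp k G x) g = x.coeff g := by
  classical
  induction x using MonoidAlgebra.induction_linear with
  | zero => rw [map_zero]; rfl
  | add x y hx hy => rw [map_add, ga_add, hx, hy, MonoidAlgebra.coeff_add, Finsupp.add_apply]
  | single h c =>
    rw [cmp, MonoidAlgebra.lift_single, ga_smul]
    change c * (sg h : GA k G) g = _
    rw [sg_apply, MonoidAlgebra.coeff_single, Finsupp.single_apply]
    by_cases hh : g = h
    · simp [hh]
    · simp [hh, Ne.symm hh]

theorem cmp_injective (k G : Type*) [Field k] [Group G] [Finite G] :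
    Function.Injective (cmp k G) := by
  intro x y h
  apply MonoidAlgebra.coeff_injective
  ext g
  rw [← cmp_apply, ← cmp_apply, h]



/-- Let F be a field of characteristic p and let g be an element of the finite group G no conjugate of which centralizes O_p(G). Then the class sum of g is a nilpotent element of the group algebra F[G]. -/
theorem result {G : Type*} [Group G] [Finite G] (p : ℕ) [Fact p.Prime] (F : Type*) [Field F] [CharP F p] (g : G) (hg : ∀ x : G, IsConj g x → x ∉ Subgroup.centralizer (Cfsg.pCore p G : Set G)) : IsNilpotent (∑ᶠ x ∈ ConjClasses.carrier (ConjClasses.mk g), MonoidAlgebra.single x (1 : F) : MonoidAlgebra F G) := by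
  classical
  rw [← IsNilpotent.map_iff (cmp_injective F G)]
  have hN : (Cfsg.pCore p G).Normal := Cfsg.Agent.Lib.Cores.pCore_normal p
  apply isNilpotent_of_supp (N := Cfsg.pCore p G) (Cfsg.Agent.Lib.Cores.pCore_isPGroup p)
  · intro n _ y
    rw [cmp_apply, cmp_apply]
    have hfin : (ConjClasses.carrier (ConjClasses.mk g)).Finite := Set.toFinite _
    rw [finsum_mem_eq_finite_toFinset_sum _ hfin, MonoidAlgebra.coeff_sum]
    rw [Finsupp.finsetSum_apply, Finsupp.finsetSum_apply]
    simp only [MonoidAlgebra.coeff_single, Finsupp.single_apply]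
    rw [Finset.sum_ite_eq', Finset.sum_ite_eq']
    congr 1
    rw [eq_iff_iff]
    simp only [Set.Finite.mem_toFinset, ConjClasses.mem_carrier_iff_mk_eq,
      ConjClasses.mk_eq_mk_iff_isConj]
    rw [isConj_conj_left]
  · intro y hy
    rw [cmp_apply]
    have hfin : (ConjClasses.carrier (ConjClasses.mk g)).Finite := Set.toFinite _
    rw [finsum_mem_eq_finite_toFinset_sum _ hfin, MonoidAlgebra.coeff_sum,
      Finsupp.finsetSum_apply]
    simp only [MonoidAlgebra.coeff_single, Finsupp.single_apply]
    rw [Finset.sum_ite_eq', if_neg]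
    intro h
    rw [Set.Finite.mem_toFinset, ConjClasses.mem_carrier_iff_mk_eq,
      ConjClasses.mk_eq_mk_iff_isConj] at h
    apply hg y h.symm
    rw [Subgroup.mem_centralizer_iff]
    intro n hn
    exact hy n hn

end Cfsg.Agent.S0905
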