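import Cfsg.Statements.S0907
import Cfsg.Agent.Lib.BlockOrth

set_option autoImplicit false
open scoped ComplexConjugate
open Cfsg

namespace Cfsg.Agent.S0907

/-- Weak block orthogonality. Let B be a block of the finite group G relative to a maximal ideal M of the algebraic integers containing the prime p. If the order of x is prime to p and the order of y is divisible by p, then the sum over χ ∈ B of χ x * conj (χ y) is zero. -/
theorem result {G : Type*} [Group G] [Finite G] (p : ℕ) [Fact p.Prime] (M : Ideal Cfsg.AlgInt) (hM : Cfsg.IsPModular p M) (B : Set (Cfsg.IrrCharacter G)) (hB : Cfsg.IsPBlock M B) (x y : G) (hx : ¬ p ∣ orderOf x) (hy : p ∣ orderOf y) : ∑ᶠ χ ∈ B, (χ : G → ℂ) x * conj ((χ : G → ℂ) y) = 0 := by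
  classical
  open Cfsg.Agent.Lib.BlockOrth Cfsg.Agent.Lib.BlockPP in
  have hp := hM.1
  have h1 : ¬ IsConj (Cfsg.Agent.Lib.BlockPP.pp p x) (Cfsg.Agent.Lib.BlockPP.pp p y) := by
    intro hc
    rw [(Cfsg.Agent.Lib.BlockPP.pp_eq_one_iff hp x).2 hx] at hc
    rw [isConj_one_right] at hc
    exact ((Cfsg.Agent.Lib.BlockPP.pp_eq_one_iff hp y).1 hc) hy
  rw [← Cfsg.Agent.Lib.BlockOrth.block_orth' hM hB h1]
  refine finsum_congr fun χ => finsum_congr fun _ => ?_
  rw [Cfsg.Agent.Lib.BlockOrth.conj_irr]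

end Cfsg.Agent.S0907
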