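import Cfsg.Statements.S0910
import Cfsg.Agent.Lib.BlkH8B

set_option autoImplicit false
set_option linter.style.haveILetI false
set_option linter.unusedVariables false
open Cfsg

namespace Cfsg.Agent.S0910
open Cfsg.Agent.Lib.BlkH8B Cfsg.Agent.Lib.BlockRey Cfsg.Agent.Lib.BlockPC Cfsg.Agent.Lib.BlockRk Cfsg.Agent.Lib.BlockInt Cfsg.Agent.Lib.BlockIndIn Cfsg.Agent.Lib.BlockMaxB Cfsg.Agent.Lib.BlockMax Cfsg.Agent.Lib.BlockNilC Cfsg.Agent.Lib.BlockNilB Cfsg.Agent.Lib.BlockNil Cfsg.Agent.Lib.BlockFusB Cfsg.Agent.Lib.BlockFus Cfsg.Agent.Lib.BlockPairF Cfsg.Agent.Lib.BlockPairE Cfsg.Agent.Lib.BlockPairD Cfsg.Agent.Lib.BlockPairC Cfsg.Agent.Lib.BlockPairB Cfsg.Agent.Lib.BlockPair Cfsg.Agent.Lib.BlockBP Cfsg.Agent.Lib.BlockCovB Cfsg.Agent.Lib.BlockTr Cfsg.Agent.Lib.BlockMoreB Cfsg.Agent.Lib.BlockMore Cfsg.Agent.Lib.BlockQuotB Cfsg.Agent.Lib.BlockQuot Cfsg.Agent.Lib.BlockCov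 Cfsg.Agent.Lib.BlockM Cfsg.Agent.Lib.BlockHt Cfsg.Agent.Lib.BlockFirst Cfsg.Agent.Lib.BlockSecond Cfsg.Agent.Lib.BlockInd Cfsg.Agent.Lib.BlockNP Cfsg.Agent.Lib.BlockDeg Cfsg.Agent.Lib.BlockDef Cfsg.Agent.Lib.BlockRed Cfsg.Agent.Lib.BlockOrth Cfsg.Agent.Lib.BlockIdem Cfsg.Agent.Lib.BlockGA Cfsg.Agent.Lib.BlockLoc Cfsg.Agent.Lib.CharBasic Cfsg.Agent.Lib.BlockPP Cfsg.Agent.Lib.CharNormal Cfsg.Agent.Lib.CharPerm Cfsg.Agent.Lib.CharPermB Cfsg.Agent.Lib.BlockSum Cfsg.Agent.Lib.BlockKB Cfsg.Agent.Lib.BlockLar Cfsg.Agent.Lib.BlockBFM Cfsg.Agent.Lib.BlkH8A Cfsg.Agent.Lib.BlkH7R Cfsg.Agent.Lib.BlkH6L Cfsg.Agent.Lib.BlkH6K Cfsg.Agent.Lib.BlkH6J Cfsg.Agent.Lib.BlkH6I Cfsg.Agent.Lib.BlkH6H Cfsg.Agent.Lib.BlkH6G Cfsg.Agent.Lib.BlkH5T Cfsg.Agent.Lib.BlkH5Q Cfsg.Agent.Lib.BlkH5P Cfsg.Agent.Lib.BlkH5O Cfsg.Agent.Lib.BlkH5N Cfsg.Agent.Lib.BlkH5A Cfsg.Agent.Lib.BlkH5G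 Cfsg.Agent.Lib.BlkH5B Cfsg.Agent.Lib.BlkH5C Cfsg.Agent.Lib.BlkH5D Cfsg.Agent.Lib.BlkH5E Cfsg.Agent.Lib.BlkH5F Cfsg.Agent.Lib.BlkH5L Cfsg.Agent.Lib.BlkH5M Cfsg.Agent.Lib.BlkH5R Cfsg.Agent.Lib.BlkH5S Cfsg.Agent.Lib.BlkH5U Cfsg.Agent.Lib.BlkH5V Cfsg.Agent.Lib.BlkH5W Cfsg.Agent.Lib.BlkH5X Cfsg.Agent.Lib.BlkH6F Cfsg.Agent.Lib.BlkH6N Cfsg.Agent.Lib.BlkH6M Cfsg.Agent.Lib.BlkH6D Cfsg.Agent.Lib.BlkH6C Cfsg.Agent.Lib.BlkH6B Cfsg.Agent.Lib.BlkH6A Cfsg.Agent.Lib.BlkH5Y Cfsg.Agent.Lib.BlkH7C Cfsg.Agent.Lib.BlkH7A Cfsg.Agent.Lib.BlkH7B Cfsg.Agent.Lib.BlkH7E Cfsg.Agent.Lib.BlkH7D Cfsg.Agent.Lib.BlkH7F Cfsg.Agent.Lib.BlkH7G Cfsg.Agent.Lib.BlkH6P Cfsg.Agent.Lib.BlkH6O Cfsg.Agent.Lib.BlkH7H Cfsg.Agent.Lib.BlkH7I Cfsg.Agent.Lib.BlkH7J Cfsg.Agent.Lib.BlkH7K Cfsg.Agent.Lib.BlkH7L Cfsg.Agent.Lib.BlkH7M Cfsg.Agent.Lib.BlkH7N Cfsg.Agent.Lib.BlkH7O Cfsg.Agent.Lib.BlkH7P Cfsg.Agent.Lib.BlkH7Q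
open scoped ComplexConjugate



/-- Let G be a non-abelian finite simple group and p a prime. If an irreducible character χ lies in the principal block (relative to a maximal ideal of the algebraic integers containing p) and χ 1 is a power of p, then χ is the principal character. -/
theorem result {G : Type*} [Group G] [Finite G] (p : ℕ) [Fact p.Prime] (M : Ideal Cfsg.AlgInt) (hM : Cfsg.IsPModular p M) [IsSimpleGroup G] (hna : ∃ a b : G, a * b ≠ b * a) (χ : Cfsg.IrrCharacter G) (hχ : χ ∈ Cfsg.principalBlock M G) (k : ℕ) (hdeg : (χ : G → ℂ) 1 = (p : ℂ) ^ k) : (χ : G → ℂ) = fun _ => 1 := by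
  classical
  cases nonempty_fintype G
  have hna' : ¬ ∀ a b : G, a * b = b * a := by
    obtain ⟨a, b, hab⟩ := hna
    exact fun h => hab (h a b)
  have hdeg' : χ.1 1 = ((p ^ k : ℕ) : ℂ) := by rw [hdeg]; push_cast; rfl
  by_cases hk : p ^ k = 1
  · obtain ⟨g, hg⟩ := exists_ne (1 : G)
    obtain ⟨lam, hlam⟩ := exists_lin_of_one (isChar_of_irr χ.2) (by rw [hdeg', hk]; simp)
    refine Cfsg.Agent.Lib.CharBurnside.eq_trivial_of_norm hna' χ.2 g hg hdeg' ?_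
    rw [hk, hlam]
    have := lin_pow_card_eq_one lam g
    have h2 := Complex.norm_eq_one_of_pow_eq_one this (orderOf_pos g).ne'
    simpa using h2
  · have hp : p.Prime := Fact.out
    have hpG : p ∣ Nat.card G := by
      have h1 : charDegree χ.1 = p ^ k := charDegree_eq hdeg'
      have h2 := charDegree_dvd χ.2
      rw [h1] at h2
      refine (dvd_pow_self p ?_).trans h2
      rintro rfl
      exact hk (pow_zero p)
    obtain ⟨P⟩ : Nonempty (Sylow p G) := inferInstance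
    have hPn : Nontrivial (P : Subgroup G) := by
      rw [Subgroup.nontrivial_iff_ne_bot]
      exact P.ne_bot_of_dvd_card hpG
    haveI := hPn
    have hcn := IsPGroup.center_nontrivial P.2
    obtain ⟨z, hz⟩ := exists_ne (1 : Subgroup.center (P : Subgroup G))
    have hzc : ∀ x ∈ (P : Subgroup G), Commute ((z : (P : Subgroup G)) : G) x := by
      intro x hx
      have := Subgroup.mem_center_iff.1 z.2 ⟨x, hx⟩
      exact (congrArg Subtype.val this).symm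
    have hz1 : ((z : (P : Subgroup G)) : G) ≠ 1 := by
      intro h
      exact hz (Subtype.ext (Subtype.ext h))
    rcases Cfsg.Agent.Lib.BlkH8B.zero_of_p_pow P hzc χ.2 hdeg' with h | h
    · exfalso
      have hs := hχ ((z : (P : Subgroup G)) : G)
      have e1 : centralChar χ.1 ((z : (P : Subgroup G)) : G) = 0 := by
        simp [centralChar, h]
      rw [e1, sub_zero] at hs
      have e2 : centralChar (fun _ : G => (1 : ℂ)) ((z : (P : Subgroup G)) : G) =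
          ((Subgroup.centralizer ({((z : (P : Subgroup G)) : G)} : Set G)).index : ℂ) := by
        simp [centralChar]
      rw [e2, max_natCast_iff hM] at hs
      exact Cfsg.Agent.Lib.BlkH8B.index_coprime P hzc hs
    · exact Cfsg.Agent.Lib.CharBurnside.eq_trivial_of_norm hna' χ.2 _ hz1 hdeg' h

end Cfsg.Agent.S0910
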