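import Cfsg.Statements.S0911
import Cfsg.Agent.Lib.BlockDef

set_option autoImplicit false
open Cfsg

namespace Cfsg.Agent.S0911

/-- The min–max Theorem for defect classes. Let B be a block of the finite group G relative to a maximal ideal M of the algebraic integers containing the prime p, let g represent a defect class of B and let D be a Sylow p-subgroup of the centralizer of g (viewed in G). For any h: (a) if the idempotent coefficient of B at h is a local integer outside the local ideal, then some conjugate of D contains a Sylow p-subgroup of the centralizer of h; (b) if the central character of some member of B at h is outside the local ideal, then some conjugate of D is contained in a Sylow p-subgroup of the centralizer of h. -/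
theorem result {G : Type*} [Group G] [Finite G] (p : ℕ) [Fact p.Prime] (M : Ideal Cfsg.AlgInt) (hM : Cfsg.IsPModular p M) (B : Set (Cfsg.IrrCharacter G)) (hB : Cfsg.IsPBlock M B) (g : G) (hg : Cfsg.IsDefectClass M B g) (D : Sylow p (Subgroup.centralizer ({g} : Set G))) (h : G) : (Cfsg.MemLocalRing M (Cfsg.blockCoeff B h) → ¬ Cfsg.MemLocalIdeal M (Cfsg.blockCoeff B h) → ∃ (x : G) (Q : Sylow p (Subgroup.centralizer ({h} : Set G))), (Q : Subgroup (Subgroup.centralizer ({h} : Set G))).map (Subgroup.centralizer ({h} : Set G)).subtype ≤ ((D : Subgroup (Subgroup.centralizer ({g} : Set G))).map (Subgroup.centralizer ({g} : Set G)).subtype).map (MulAut.conj x).toMonoidHom) ∧ ((∃ χ ∈ B, ¬ Cfsg.MemLocalIdeal M (Cfsg.centralChar (χ : G → ℂ) h)) → ∃ (x : G) (Q : Sylow p (Subgroup.centralizer ({h} : Set G))), ((D : Subgroup (Subgroup.centralizer ({g} : Set G))).map (Subgroup.centralizer ({g} : Set G)).subtype).map (MulAut.conj x).toMonoidHom ≤ (Q : Subgroup (Subgroup.centralizer ({h} : Set G))).map (Subgroup.centralizer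 ({h} : Set G)).subtype) := by
  have hl := Cfsg.Agent.Lib.BlockIdem.isLoc_eB hM hB
  have hD : Cfsg.IsDefectGroup p M B ((D : Subgroup (Subgroup.centralizer ({g} : Set G))).map
      (Subgroup.centralizer ({g} : Set G)).subtype) := ⟨g, hg, D, rfl⟩
  constructor
  · intro _ h2
    have h3 := (Cfsg.Agent.Lib.BlockRed.eF_ne_zero_iff hM hl h).2 h2
    have h4 := Cfsg.Agent.Lib.BlockDef.supp_eF hM hB hD h h3
    let Q : Sylow p (Subgroup.centralizer ({h} : Set G)) := default
    obtain ⟨s1, s2, s3⟩ := Cfsg.Agent.Lib.BlockDef.isSyl_of_sylow Q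
    obtain ⟨x, hx⟩ := h4 _ s1 s2
    refine ⟨x⁻¹, Q, ?_⟩
    intro q hq
    refine ⟨x * q * x⁻¹, hx q hq, ?_⟩
    simp only [MulEquiv.toMonoidHom_eq_coe, MonoidHom.coe_coe, MulAut.conj_apply]
    group
  · rintro ⟨χ, hχ, h2⟩
    have h3 : Cfsg.Agent.Lib.BlockRed.lam hM χ.1
        (Cfsg.Agent.Lib.BlockIdem.cs (Cfsg.Agent.Lib.BlockLoc.ResF hM) h) ≠ 0 := by
      rw [Cfsg.Agent.Lib.BlockRed.lam_cs hM χ.2, Ne, Cfsg.Agent.Lib.BlockLoc.red_eq_zero_iff hM
        (Cfsg.Agent.Lib.BlockIdem.loc_centralChar hM χ.2 h)]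
      exact h2
    let Q : Sylow p (Subgroup.centralizer ({h} : Set G)) := default
    obtain ⟨s1, s2, s3⟩ := Cfsg.Agent.Lib.BlockDef.isSyl_of_sylow Q
    obtain ⟨x, hx⟩ := Cfsg.Agent.Lib.BlockDef.subConj_iff.1
      (Cfsg.Agent.Lib.BlockDef.subConj_of_cs hM hB hχ h3 s3 hD)
    exact ⟨x, Q, hx⟩

end Cfsg.Agent.S0911
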