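import Cfsg.Statements.S0916
import Cfsg.Agent.Lib.BlockFirst

set_option autoImplicit false
open Cfsg

namespace Cfsg.Agent.S0916

/-- Let P be a p-subgroup of the finite group G, C its centralizer and N its normalizer. Say that a conjugacy class (of G, or of N) has defect group P when P is a Sylow p-subgroup of the centralizer (in G, respectively in N) of some element of the class. Then: (i) if the class of g in G has defect group P, the elements of that class lying in C form a single N-class, again with defect group P; (ii) every N-class with defect group P arises this way from exactly one G-class with defect group P. -/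
theorem result {G : Type*} [Group G] [Finite G] (p : ℕ) [Fact p.Prime] (P : Subgroup G) (hP : IsPGroup p P) : (∀ g : G, (∃ S : Sylow p (Subgroup.centralizer ({g} : Set G)), (S : Subgroup (Subgroup.centralizer ({g} : Set G))).map (Subgroup.centralizer ({g} : Set G)).subtype = P) → (∃ c : G, IsConj g c ∧ c ∈ Subgroup.centralizer (P : Set G)) ∧ (∀ c₁ c₂ : G, IsConj g c₁ → IsConj g c₂ → c₁ ∈ Subgroup.centralizer (P : Set G) → c₂ ∈ Subgroup.centralizer (P : Set G) → ∃ n ∈ Subgroup.normalizer (P : Set G), n * c₁ * n⁻¹ = c₂)) ∧ (∀ c : G, c ∈ Subgroup.centralizer (P : Set G) → (∃ S : Sylow p (Subgroup.centralizer ({c} : Set G) ⊓ Subgroup.normalizer (P : Set G) : Subgroup G), (S : Subgroup ↥(Subgroup.centralizer ({c} : Set G) ⊓ Subgroup.normalizer (P : Set G))).map (Subgroup.centralizer ({c} : Set G) ⊓ Subgroup.normalizer (P : Set G)).subtype = P) → ∃ S : Sylow p (Subgroup.centralizer ({c} : Set G)), (S : Subgroup (Subgroup.centralizer ({c} : Set G))).map (Subgroup.centralizer ({c} : Set G)).subtype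 = P) := by
  refine ⟨?_, ?_⟩
  · rintro g ⟨S, hS⟩
    have hSyl : Cfsg.Agent.Lib.BlockDef.IsSyl p g P :=
      Cfsg.Agent.Lib.BlockDef.isSyl_iff.2 ⟨S, hS.symm⟩
    refine ⟨⟨g, IsConj.refl g, ?_⟩, ?_⟩
    · rw [Subgroup.mem_centralizer_iff]
      exact fun x hx => hSyl.2.1 x hx
    · intro c₁ c₂ h1 h2 hc₁ hc₂
      rw [Subgroup.mem_centralizer_iff] at hc₁ hc₂
      obtain ⟨t₁, ht₁⟩ := isConj_iff.1 h1
      obtain ⟨t₂, ht₂⟩ := isConj_iff.1 h2
      obtain ⟨n₁, hn₁, e₁⟩ := Cfsg.Agent.Lib.BlockFirst.exists_normalizer_conj hSyl (t := t₁)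
        (by rw [ht₁]; exact fun x hx => hc₁ x hx)
      obtain ⟨n₂, hn₂, e₂⟩ := Cfsg.Agent.Lib.BlockFirst.exists_normalizer_conj hSyl (t := t₂)
        (by rw [ht₂]; exact fun x hx => hc₂ x hx)
      refine ⟨n₂ * n₁⁻¹, Subgroup.mul_mem _ hn₂ (Subgroup.inv_mem _ hn₁), ?_⟩
      rw [← ht₁, ← ht₂, ← e₁, ← e₂]
      group
  · rintro c hc ⟨S, hS⟩
    rw [Subgroup.mem_centralizer_iff] at hc
    have hSyl : Cfsg.Agent.Lib.BlockDef.IsSyl p c P := by
      apply Cfsg.Agent.Lib.BlockFirst.isSyl_of_normalizer hP (fun d hd => hc d hd)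
      intro Q hQ hQc hPQ hQN
      have hQle : Q ≤ Subgroup.centralizer ({c} : Set G) ⊓ Subgroup.normalizer (P : Set G) :=
        le_inf (fun q hq => Cfsg.Agent.Lib.BlockDef.mem_cent_iff.2 (hQc q hq)) hQN
      have h1 : IsPGroup p (Q.subgroupOf
          (Subgroup.centralizer ({c} : Set G) ⊓ Subgroup.normalizer (P : Set G))) :=
        hQ.comap_of_injective _ (Subgroup.subtype_injective _)
      have h2 : (S : Subgroup _) ≤ Q.subgroupOf
          (Subgroup.centralizer ({c} : Set G) ⊓ Subgroup.normalizer (P : Set G)) := by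
        intro s hs
        rw [Subgroup.mem_subgroupOf]
        apply hPQ
        have h5 : (s : G) ∈ (S : Subgroup _).map
            (Subgroup.centralizer ({c} : Set G) ⊓ Subgroup.normalizer (P : Set G)).subtype :=
          ⟨s, hs, rfl⟩
        exact hS.le h5
      have h3 := S.is_maximal' h1 h2
      apply le_antisymm _ hPQ
      intro q hq
      rw [← hS]
      refine ⟨⟨q, hQle hq⟩, ?_, rfl⟩
      have h4 : (⟨q, hQle hq⟩ : ↥(Subgroup.centralizer ({c} : Set G) ⊓
          Subgroup.normalizer (P : Set G))) ∈ Q.subgroupOf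
          (Subgroup.centralizer ({c} : Set G) ⊓ Subgroup.normalizer (P : Set G)) := by
        rw [Subgroup.mem_subgroupOf]; exact hq
      rw [h3] at h4
      exact h4
    obtain ⟨T, hT⟩ := Cfsg.Agent.Lib.BlockDef.isSyl_iff.1 hSyl
    exact ⟨T, hT.symm⟩

end Cfsg.Agent.S0916
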