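import Cfsg.Statements.S0918
import Cfsg.Agent.Lib.BlockInd

set_option autoImplicit false
open Cfsg

namespace Cfsg.Agent.S0918

/-- Let P be a p-subgroup of the finite group G and H a subgroup with P·C_G(P) ≤ H ≤ N_G(P); let b be a block of H and B a block of G relative to a maximal ideal M of the algebraic integers containing p. Then b induces B if and only if, for every g ∈ G, every ξ ∈ b and every χ ∈ B, the central character of χ at g is congruent modulo the local ideal at M to the sum of ξ h / ξ 1 over the elements h of H conjugate in G to g and centralizing P. -/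
theorem result {G : Type*} [Group G] [Finite G] (p : ℕ) [Fact p.Prime] (M : Ideal Cfsg.AlgInt) (hM : Cfsg.IsPModular p M) (P H : Subgroup G) (hP : IsPGroup p P) (hPH : P ≤ H) (hCH : Subgroup.centralizer (P : Set G) ≤ H) (hHN : H ≤ Subgroup.normalizer (P : Set G)) (b : Set (Cfsg.IrrCharacter H)) (hb : Cfsg.IsPBlock M b) (B : Set (Cfsg.IrrCharacter G)) (hB : Cfsg.IsPBlock M B) : Cfsg.IsInducedBlock M H b B ↔ ∀ ξ ∈ b, ∀ χ ∈ B, ∀ g : G, Cfsg.MemLocalIdeal M (Cfsg.brauerCentralChar P H (ξ : H → ℂ) g - Cfsg.centralChar (χ : G → ℂ) g) := by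
  have hN := Cfsg.Agent.Lib.BlockInd.nrm_of_le_normalizer hHN
  have key : ∀ ξ : Cfsg.IrrCharacter H, ∀ g : G,
      Cfsg.Agent.Lib.BlockLoc.red hM (Cfsg.brauerCentralChar P H (ξ : H → ℂ) g) =
      Cfsg.Agent.Lib.BlockRed.lam hM ξ.1 (Cfsg.Agent.Lib.BlockInd.resGA H
        (Cfsg.Agent.Lib.BlockIdem.cs (Cfsg.Agent.Lib.BlockLoc.ResF hM) g)) := by
    intro ξ g
    rw [Cfsg.Agent.Lib.BlockInd.lam_res_eq_br hM hP hPH hN ξ
      (Cfsg.Agent.Lib.BlockIdem.cs_isCl g), Cfsg.Agent.Lib.BlockInd.brauerCentralChar_eq,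
      ← Cfsg.Agent.Lib.BlockRed.lam_rd hM ξ.2
        (Cfsg.Agent.Lib.BlockInd.brGA_isCl hN (Cfsg.Agent.Lib.BlockIdem.cs_isCl g))
        (Cfsg.Agent.Lib.BlockInd.brGA_loc hM (Cfsg.Agent.Lib.BlockIdem.IsLoc.cs hM g)),
      Cfsg.Agent.Lib.BlockInd.rd_brGA, Cfsg.Agent.Lib.BlockRed.rd_cs]
  have hloc : ∀ ξ : Cfsg.IrrCharacter H, ∀ g : G,
      Cfsg.MemLocalRing M (Cfsg.brauerCentralChar P H (ξ : H → ℂ) g) := by
    intro ξ g
    rw [Cfsg.Agent.Lib.BlockInd.brauerCentralChar_eq]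
    exact Cfsg.Agent.Lib.BlockIdem.loc_om hM ξ.2
      (Cfsg.Agent.Lib.BlockInd.brGA_isCl hN (Cfsg.Agent.Lib.BlockIdem.cs_isCl g))
      (Cfsg.Agent.Lib.BlockInd.brGA_loc hM (Cfsg.Agent.Lib.BlockIdem.IsLoc.cs hM g))
  obtain ⟨ξ₀, hξ₀⟩ := Cfsg.Agent.Lib.BlockIdem.block_nonempty hM hb
  obtain ⟨χ₀, hχ₀⟩ := Cfsg.Agent.Lib.BlockIdem.block_nonempty hM hB
  constructor
  · intro hind ξ hξ χ hχ g
    rw [← Cfsg.Agent.Lib.BlockLoc.red_eq_iff hM (hloc ξ g)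
      (Cfsg.Agent.Lib.BlockIdem.loc_centralChar hM χ.2 g), key,
      ← Cfsg.Agent.Lib.BlockRed.lam_cs hM χ.2]
    exact Cfsg.Agent.Lib.BlockInd.lam_of_induced hM hind hξ hχ
      (Cfsg.Agent.Lib.BlockIdem.cs_isCl g)
  · intro h
    rw [Cfsg.Agent.Lib.BlockInd.isInducedBlock_iff hM hξ₀ hχ₀]
    refine ⟨hb, hB, ?_⟩
    rw [← Cfsg.Agent.Lib.BlockInd.forall_cl_iff]
    intro g
    rw [← key, Cfsg.Agent.Lib.BlockRed.lam_cs hM χ₀.2,
      Cfsg.Agent.Lib.BlockLoc.red_eq_iff hM (hloc ξ₀ g)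
      (Cfsg.Agent.Lib.BlockIdem.loc_centralChar hM χ₀.2 g)]
    exact h ξ₀ hξ₀ χ₀ hχ₀ g

end Cfsg.Agent.S0918
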