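import Cfsg.Statements.S0920
import Cfsg.Agent.Lib.BlockFirst

set_option autoImplicit false
open Cfsg

namespace Cfsg.Agent.S0920

/-- Brauer's First Main Theorem. Let D be a p-subgroup of the finite group G with normalizer N, and fix a maximal ideal M of the algebraic integers containing p. Then (i) every block b of N having D as a defect group induces some block B of G having D as a defect group; (ii) every block of G with defect group D is induced by exactly one block of N with defect group D. -/
theorem result {G : Type*} [Group G] [Finite G] (p : ℕ) [Fact p.Prime] (M : Ideal Cfsg.AlgInt) (hM : Cfsg.IsPModular p M) (D : Subgroup G) (hD : IsPGroup p D) : (∀ b : Set (Cfsg.IrrCharacter (Subgroup.normalizer (D : Set G))), Cfsg.IsPBlock M b → Cfsg.IsDefectGroup p M b (D.subgroupOf (Subgroup.normalizer (D : Set G))) → ∃ B : Set (Cfsg.IrrCharacter G), Cfsg.IsPBlock M B ∧ Cfsg.IsDefectGroup p M B D ∧ Cfsg.IsInducedBlock M (Subgroup.normalizer (D : Set G)) b B) ∧ (∀ B : Set (Cfsg.IrrCharacter G), Cfsg.IsPBlock M B → Cfsg.IsDefectGroup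 p M B D → ∃! b : Set (Cfsg.IrrCharacter (Subgroup.normalizer (D : Set G))), Cfsg.IsPBlock M b ∧ Cfsg.IsDefectGroup p M b (D.subgroupOf (Subgroup.normalizer (D : Set G))) ∧ Cfsg.IsInducedBlock M (Subgroup.normalizer (D : Set G)) b B) := by
  have hDN : D ≤ Subgroup.normalizer (D : Set G) := Subgroup.le_normalizer
  have hCN : Subgroup.centralizer (D : Set G) ≤ Subgroup.normalizer (D : Set G) :=
    Subgroup.centralizer_le_normalizer _
  have hN := Cfsg.Agent.Lib.BlockInd.nrm_of_le_normalizer
    (le_refl (Subgroup.normalizer (D : Set G)))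
  constructor
  · intro b hb hbD
    obtain ⟨B, hind⟩ := Cfsg.Agent.Lib.BlockInd.exists_induced hM hD hDN hCN hN hb
    exact ⟨B, hind.2.1, Cfsg.Agent.Lib.BlockFirst.defectGroup_of_induced_normalizer hM hD hind hbD,
      hind⟩
  · intro B hB hBD
    obtain ⟨b, hind⟩ := Cfsg.Agent.Lib.BlockFirst.exists_block_inducing' hM hDN hCN hN hB hBD
    have hbD := Cfsg.Agent.Lib.BlockFirst.defectGroup_of_inducing hM hDN hN hind hBD
    refine ⟨b, ⟨hind.1, hbD, hind⟩, ?_⟩
    rintro b' ⟨hb', hb'D, hind'⟩
    exact Cfsg.Agent.Lib.BlockFirst.block_unique_of_normalizer hM hD hind' hind hb'D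

end Cfsg.Agent.S0920
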