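import Cfsg.Statements.S0926
import Cfsg.Agent.Lib.BlockFirst

set_option autoImplicit false
open Cfsg

namespace Cfsg.Agent.S0926

/-- Let B be a block of the finite group G with defect group D (relative to a maximal ideal M of the algebraic integers containing p), let χ ∈ B have height zero, and let x be a p-element. Then some conjugate of x lies in D if and only if χ does not vanish on the whole p-section of x (the elements whose p-part is conjugate to x). -/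
theorem result {G : Type*} [Group G] [Finite G] (p : ℕ) [Fact p.Prime] (M : Ideal Cfsg.AlgInt) (hM : Cfsg.IsPModular p M) (B : Set (Cfsg.IrrCharacter G)) (hB : Cfsg.IsPBlock M B) (D : Subgroup G) (hD : Cfsg.IsDefectGroup p M B D) (χ : Cfsg.IrrCharacter G) (hχ : χ ∈ B) (h0 : Cfsg.blockHeight p B (χ : G → ℂ) = 0) (x : G) (hx : ∃ k : ℕ, orderOf x = p ^ k) : (∃ g : G, g * x * g⁻¹ ∈ D) ↔ ∃ u : G, (∃ z : G, Cfsg.IsPPart p u z ∧ IsConj x z) ∧ (χ : G → ℂ) u ≠ 0 := by
  constructor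
  · rintro ⟨g, hg⟩
    obtain ⟨y, hy, hS⟩ := Cfsg.Agent.Lib.BlockDef.isDefectGroup_iff.1 hD
    have hxp : ∃ k : ℕ, orderOf (g * x * g⁻¹) = p ^ k :=
      Cfsg.Agent.Lib.BlockPP.exists_orderOf_of_mem hM.1 hS.1 hg
    have hc : Commute (g * x * g⁻¹) y := hS.2.1 _ hg
    refine ⟨g * x * g⁻¹ * y, ⟨g * x * g⁻¹, ?_, isConj_iff.2 ⟨g, rfl⟩⟩, ?_⟩
    · exact ⟨y, rfl, hc, hxp, Cfsg.Agent.Lib.BlockFirst.defectClass_regular hM hB hy⟩
    · exact Cfsg.Agent.Lib.BlockLoc.ne_zero_of_not_max hM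
        (Cfsg.Agent.Lib.BlockFirst.height_zero_unit' hM hB hy hχ h0 hxp hc)
  · rintro ⟨u, ⟨z, hz, hxz⟩, hne⟩
    by_contra hcon
    push Not at hcon
    apply hne
    apply Cfsg.Agent.Lib.BlockSecond.vanish_off_defect hM
    intro E hE hmem
    rw [Cfsg.Agent.Lib.BlockIdem.blockOf_eq_of_mem hM hB hχ] at hE
    rw [← Cfsg.Agent.Lib.BlockPP.eq_pp_of_isPPart hM.1 hz] at hmem
    obtain ⟨t, ht⟩ := Cfsg.Agent.Lib.BlockDef.defectGroup_conj hM hB hE hD
    obtain ⟨s, hs⟩ := isConj_iff.1 hxz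
    apply hcon (t * s)
    rw [ht]
    refine ⟨z, hmem, ?_⟩
    rw [← hs]
    simp only [MulEquiv.toMonoidHom_eq_coe, MonoidHom.coe_coe, MulAut.conj_apply]
    group

end Cfsg.Agent.S0926
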