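import Cfsg.Statements.S0929
import Cfsg.Agent.Lib.BlockFirst

set_option autoImplicit false
open Cfsg

namespace Cfsg.Agent.S0929

/-- Let B be a block of the finite group G with defect group P (relative to a maximal ideal M of the algebraic integers containing p), and let g be an element at which the central character of some member of B is not in the local ideal at M. Then some conjugate x of g centralizes P and has its p-part in the centre of P. -/
theorem result {G : Type*} [Group G] [Finite G] (p : ℕ) [Fact p.Prime] (M : Ideal Cfsg.AlgInt) (hM : Cfsg.IsPModular p M) (B : Set (Cfsg.IrrCharacter G)) (hB : Cfsg.IsPBlock M B) (P : Subgroup G) (hP : Cfsg.IsDefectGroup p M B P) (g : G) (hg : ∃ χ ∈ B, ¬ Cfsg.MemLocalIdeal M (Cfsg.centralChar (χ : G → ℂ) g)) : ∃ x : G, IsConj g x ∧ x ∈ Subgroup.centralizer (P : Set G) ∧ ∀ z : G, Cfsg.IsPPart p x z → z ∈ P ∧ ∀ w ∈ P, z * w = w * z := by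
  obtain ⟨χ, hχ, hne⟩ := hg
  have h1 : Cfsg.Agent.Lib.BlockRed.lam hM χ.1
      (Cfsg.Agent.Lib.BlockIdem.cs (Cfsg.Agent.Lib.BlockLoc.ResF hM) g) ≠ 0 := by
    rw [Cfsg.Agent.Lib.BlockRed.lam_cs hM χ.2, Ne, Cfsg.Agent.Lib.BlockLoc.red_eq_zero_iff hM
      (Cfsg.Agent.Lib.BlockIdem.loc_centralChar hM χ.2 g)]
    exact hne
  obtain ⟨x, hx1, hx2, hx3⟩ :=
    Cfsg.Agent.Lib.BlockFirst.exists_conj_of_lam_ne_zero hM hB hP hχ h1
  refine ⟨x, hx1, Subgroup.mem_centralizer_iff.2 (fun d hd => hx2 d hd), ?_⟩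
  intro z hz
  rw [Cfsg.Agent.Lib.BlockPP.eq_pp_of_isPPart hM.1 hz]
  refine ⟨hx3, fun w hw => ?_⟩
  exact ((hx2 w hw).pow_right _).symm

end Cfsg.Agent.S0929
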