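import Cfsg.Statements.S0930
import Cfsg.Agent.Lib.BlockFirst

set_option autoImplicit false
open Cfsg

namespace Cfsg.Agent.S0930

/-- Let H be a subgroup of the finite group G and fix a maximal ideal M of the algebraic integers containing the prime p. If the block b of H with defect group D induces the block B of G with defect group P, then every element of the centre of P is conjugate in G to an element of the centre of D. -/
theorem result {G : Type*} [Group G] [Finite G] (p : ℕ) [Fact p.Prime] (M : Ideal Cfsg.AlgInt) (hM : Cfsg.IsPModular p M) (H : Subgroup G) (b : Set (Cfsg.IrrCharacter H)) (B : Set (Cfsg.IrrCharacter G)) (hind : Cfsg.IsInducedBlock M H b B) (D : Subgroup H) (hD : Cfsg.IsDefectGroup p M b D) (P : Subgroup G) (hP : Cfsg.IsDefectGroup p M B P) (x : G) (hx : x ∈ P) (hxc : ∀ w ∈ P, x * w = w * x) : ∃ g : G, g * x * g⁻¹ ∈ D.map H.subtype ∧ ∀ w ∈ D.map H.subtype, (g * x * g⁻¹) * w = w *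 (g * x * g⁻¹) := by
  classical
  haveI := Cfsg.Agent.Lib.BlockDef.factP hM
  obtain ⟨ξ, hξ⟩ := Cfsg.Agent.Lib.BlockIdem.block_nonempty hM hind.1
  obtain ⟨χ, hχ⟩ := Cfsg.Agent.Lib.BlockIdem.block_nonempty hM hind.2.1
  obtain ⟨y, hy, hS⟩ := Cfsg.Agent.Lib.BlockDef.isDefectGroup_iff.1 hP
  have hxp := Cfsg.Agent.Lib.BlockPP.exists_orderOf_of_mem hM.1 hS.1 hx
  have hxy : Commute x y := hS.2.1 x hx
  have h1 := Cfsg.Agent.Lib.BlockFirst.lam_center_unit hM hind.2.1 hy hS hx hxc hχ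
  have h2 : Cfsg.Agent.Lib.BlockRed.lam hM χ.1
      (Cfsg.Agent.Lib.BlockIdem.cs (Cfsg.Agent.Lib.BlockLoc.ResF hM) (x * y)) ≠ 0 := by
    rw [Cfsg.Agent.Lib.BlockRed.lam_cs hM χ.2, Ne, Cfsg.Agent.Lib.BlockLoc.red_eq_zero_iff hM
      (Cfsg.Agent.Lib.BlockIdem.loc_centralChar hM χ.2 (x * y))]
    exact h1
  rw [← Cfsg.Agent.Lib.BlockInd.lam_of_induced hM hind hξ hχ
    (Cfsg.Agent.Lib.BlockIdem.cs_isCl _)] at h2
  obtain ⟨h, hh1, hh2⟩ := Cfsg.Agent.Lib.BlockDef.exists_class_of_lam_ne_zero hM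
    (Cfsg.Agent.Lib.BlockInd.resGA_isCl H (Cfsg.Agent.Lib.BlockIdem.cs_isCl (x * y))) h2
  rw [Cfsg.Agent.Lib.BlockInd.resGA_apply, Cfsg.Agent.Lib.BlockIdem.cs_apply] at hh1
  have hc : IsConj (x * y) (h : G) := by
    by_contra hc; rw [if_neg hc] at hh1; exact hh1 rfl
  obtain ⟨h', hc', hcomm, hpp⟩ :=
    Cfsg.Agent.Lib.BlockFirst.exists_conj_of_lam_ne_zero hM hind.1 hD hξ hh2
  have hc'' : IsConj (h : G) (h' : G) := by
    obtain ⟨t, ht⟩ := isConj_iff.1 hc'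
    exact isConj_iff.2 ⟨(t : G), by rw [← ht]; rfl⟩
  obtain ⟨g, hg⟩ := isConj_iff.1 (hc.trans hc'')
  have h3 : g * x * g⁻¹ = Cfsg.Agent.Lib.BlockPP.pp p (h' : G) := by
    rw [← hg, Cfsg.Agent.Lib.BlockPP.pp_conj, Cfsg.Agent.Lib.BlockPP.pp_mul_eq hM.1 hxy hxp
      (Cfsg.Agent.Lib.BlockFirst.defectClass_regular hM hind.2.1 hy)]
  refine ⟨g, ?_, ?_⟩
  · rw [h3, ← Cfsg.Agent.Lib.BlockPP.pp_coe]
    exact ⟨_, hpp, rfl⟩
  · rw [h3]
    rintro _ ⟨w, hw, rfl⟩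
    have h4 : Commute (w : G) (h' : G) := by
      have := hcomm w hw
      unfold Commute SemiconjBy at *
      exact congrArg Subtype.val this
    exact (h4.pow_right _).symm

end Cfsg.Agent.S0930
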