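import Cfsg.Statements.S0931
import Cfsg.Agent.Lib.BlockFirst

set_option autoImplicit false
open Cfsg

namespace Cfsg.Agent.S0931

/-- Let H be a subgroup of the finite group G and fix a maximal ideal M of the algebraic integers containing the prime p. If the block b of H induces the block B of G, then b has defect 0 if and only if B has defect 0. -/
theorem result {G : Type*} [Group G] [Finite G] (p : ℕ) [Fact p.Prime] (M : Ideal Cfsg.AlgInt) (hM : Cfsg.IsPModular p M) (H : Subgroup G) (b : Set (Cfsg.IrrCharacter H)) (B : Set (Cfsg.IrrCharacter G)) (hind : Cfsg.IsInducedBlock M H b B) : Cfsg.blockDefect p b = 0 ↔ Cfsg.blockDefect p B = 0 := by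
  classical
  haveI := Cfsg.Agent.Lib.BlockDef.factP hM
  obtain ⟨D, hD⟩ := Cfsg.Agent.Lib.BlockDef.exists_defectGroup hM hind.1
  obtain ⟨P, hP⟩ := Cfsg.Agent.Lib.BlockDef.exists_defectGroup hM hind.2.1
  have hcD := Cfsg.Agent.Lib.BlockDeg.card_defectGroup hM hind.1 hD
  have hcP := Cfsg.Agent.Lib.BlockDeg.card_defectGroup hM hind.2.1 hP
  constructor
  · intro h0
    rw [h0, pow_zero] at hcD
    have hPp := Cfsg.Agent.Lib.BlockDef.isPGroup_of_isDefectGroup hM hP
    by_contra hne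
    have hPnt : Nontrivial P := by
      by_contra hnt
      rw [not_nontrivial_iff_subsingleton] at hnt
      have : Nat.card P = 1 := Nat.card_of_subsingleton (1 : P)
      rw [hcP] at this
      have h2 := Nat.one_lt_pow hne hM.1.one_lt
      omega
    haveI := IsPGroup.center_nontrivial hPp
    obtain ⟨z, hz⟩ := exists_ne (1 : Subgroup.center P)
    have hzne : ((z : P) : G) ≠ 1 := by
      intro h; apply hz; exact Subtype.ext (Subtype.ext h)
    obtain ⟨ξ, hξ⟩ := Cfsg.Agent.Lib.BlockIdem.block_nonempty hM hind.1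
    obtain ⟨χ, hχ⟩ := Cfsg.Agent.Lib.BlockIdem.block_nonempty hM hind.2.1
    obtain ⟨y, hy, hS⟩ := Cfsg.Agent.Lib.BlockDef.isDefectGroup_iff.1 hP
    set x : G := ((z : P) : G) with hx
    have hxP : x ∈ P := (z : P).2
    have hxp := Cfsg.Agent.Lib.BlockPP.exists_orderOf_of_mem hM.1 hS.1 hxP
    have hxy : Commute x y := hS.2.1 x hxP
    have hxc : ∀ w ∈ P, x * w = w * x := by
      intro w hw
      have := Subgroup.mem_center_iff.1 z.2 ⟨w, hw⟩
      exact (congrArg Subtype.val this).symm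
    have h1 := Cfsg.Agent.Lib.BlockFirst.lam_center_unit hM hind.2.1 hy hS hxP hxc hχ
    have h2 : Cfsg.Agent.Lib.BlockRed.lam hM χ.1
        (Cfsg.Agent.Lib.BlockIdem.cs (Cfsg.Agent.Lib.BlockLoc.ResF hM) (x * y)) ≠ 0 := by
      rw [Cfsg.Agent.Lib.BlockRed.lam_cs hM χ.2, Ne, Cfsg.Agent.Lib.BlockLoc.red_eq_zero_iff hM
        (Cfsg.Agent.Lib.BlockIdem.loc_centralChar hM χ.2 (x * y))]
      exact h1
    rw [← Cfsg.Agent.Lib.BlockInd.lam_of_induced hM hind hξ hχ
      (Cfsg.Agent.Lib.BlockIdem.cs_isCl _)] at h2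
    obtain ⟨h, hh1, hh2⟩ := Cfsg.Agent.Lib.BlockDef.exists_class_of_lam_ne_zero hM
      (Cfsg.Agent.Lib.BlockInd.resGA_isCl H (Cfsg.Agent.Lib.BlockIdem.cs_isCl (x * y))) h2
    rw [Cfsg.Agent.Lib.BlockInd.resGA_apply, Cfsg.Agent.Lib.BlockIdem.cs_apply] at hh1
    have hc : IsConj (x * y) (h : G) := by
      by_contra hc; rw [if_neg hc] at hh1; exact hh1 rfl
    obtain ⟨h', hc', hcomm, hpp⟩ :=
      Cfsg.Agent.Lib.BlockFirst.exists_conj_of_lam_ne_zero hM hind.1 hD hξ hh2
    have hc'' : IsConj (h : G) (h' : G) := by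
      obtain ⟨t, ht⟩ := isConj_iff.1 hc'
      exact isConj_iff.2 ⟨(t : G), by rw [← ht]; rfl⟩
    obtain ⟨g, hg⟩ := isConj_iff.1 (hc.trans hc'')
    have h3 : g * x * g⁻¹ = Cfsg.Agent.Lib.BlockPP.pp p (h' : G) := by
      rw [← hg, Cfsg.Agent.Lib.BlockPP.pp_conj, Cfsg.Agent.Lib.BlockPP.pp_mul_eq hM.1 hxy hxp
        (Cfsg.Agent.Lib.BlockFirst.defectClass_regular hM hind.2.1 hy)]
    have hDbot : D = ⊥ := Subgroup.eq_bot_of_card_eq D hcD
    rw [hDbot, Subgroup.mem_bot] at hpp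
    rw [← Cfsg.Agent.Lib.BlockPP.pp_coe, hpp] at h3
    apply hzne
    have h5 : g * x * g⁻¹ = 1 := h3
    calc x = g⁻¹ * (g * x * g⁻¹) * g := by group
      _ = 1 := by rw [h5]; group
  · intro h0
    rw [h0, pow_zero] at hcP
    have h1 := Cfsg.Agent.Lib.BlockInd.defect_le_of_induced hM hind hD hP
    have h2 := h1.card_le
    have h3 : Nat.card (D.map H.subtype) = Nat.card D :=
      Nat.card_congr (Subgroup.equivMapOfInjective _ _ (Subgroup.subtype_injective _)).symm.toEquiv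
    rw [h3, hcP, hcD] at h2
    by_contra hne
    have h4 := Nat.one_lt_pow hne hM.1.one_lt
    omega

end Cfsg.Agent.S0931
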