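import Cfsg.Statements.S0932
import Cfsg.Agent.Lib.BlockInd

set_option autoImplicit false
open Cfsg

namespace Cfsg.Agent.S0932

/-- Let H be a subgroup of the finite group G and ξ a character of H. For every g ∈ G, the sum of ξ h / ξ 1 over the elements h ∈ H that are conjugate in G to g equals the central character at g of the character of G induced from ξ (class size times value divided by degree). -/
theorem result {G : Type*} [Group G] [Fintype G] (H : Subgroup G) (ξ : H → ℂ) (hξ : Cfsg.IsCharacter H ξ) (g : G) : Cfsg.inducedCentralChar H ξ g = Cfsg.centralChar (Cfsg.indFun H ξ) g := by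
  classical
  haveI : Fintype H := Fintype.ofFinite _
  rw [Cfsg.Agent.Lib.BlockInd.inducedCentralChar_eq, Cfsg.Agent.Lib.BlockIdem.om_eq,
    Cfsg.centralChar, Cfsg.Agent.Lib.CharInd.indFun_one]
  have hcl := Cfsg.Agent.Lib.CharInd.indFun_classFn H ξ
  -- both sides through the inner product with the class sum
  have h1 : ((Subgroup.centralizer ({g} : Set G)).index : ℂ) * Cfsg.indFun H ξ g =
      ∑ x : G, (Cfsg.Agent.Lib.BlockIdem.cs ℂ g) x * Cfsg.indFun H ξ x := by
    have h2 : ∀ x : G, (Cfsg.Agent.Lib.BlockIdem.cs ℂ g) x * Cfsg.indFun H ξ x =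
        if IsConj g x then Cfsg.indFun H ξ g else 0 := by
      intro x
      rw [Cfsg.Agent.Lib.BlockIdem.cs_apply]
      by_cases h : IsConj g x
      · rw [if_pos h, if_pos h, one_mul, Cfsg.Agent.Lib.CharBasic.classFn_isConj hcl h]
      · rw [if_neg h, if_neg h, zero_mul]
    simp only [h2]
    rw [← Finset.sum_filter, Finset.sum_const, nsmul_eq_mul,
      Cfsg.Agent.Lib.BlockIdem.card_conj_filter]
  have h3 : ∑ x : G, (Cfsg.Agent.Lib.BlockIdem.cs ℂ g) x * Cfsg.indFun H ξ x =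
      (H.index : ℂ) * ∑ h : H, (Cfsg.Agent.Lib.BlockInd.resGA H
        (Cfsg.Agent.Lib.BlockIdem.cs ℂ g)) h * ξ h := by
    have h4 : ∀ x : G, (Cfsg.Agent.Lib.BlockIdem.cs ℂ g) x * Cfsg.indFun H ξ x =
        (Nat.card H : ℂ)⁻¹ * ∑ y : G, (Cfsg.Agent.Lib.BlockIdem.cs ℂ g) x *
          Cfsg.extendByZero H ξ (y⁻¹ * x * y) := by
      intro x
      rw [Cfsg.Agent.Lib.CharInd.indFun_apply, ← Finset.mul_sum]
      ring
    simp only [h4]
    rw [← Finset.mul_sum, Finset.sum_comm]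
    have h5 : ∀ y : G, ∑ x : G, (Cfsg.Agent.Lib.BlockIdem.cs ℂ g) x *
        Cfsg.extendByZero H ξ (y⁻¹ * x * y) = ∑ h : H, (Cfsg.Agent.Lib.BlockInd.resGA H
        (Cfsg.Agent.Lib.BlockIdem.cs ℂ g)) h * ξ h := by
      intro y
      have h6 : ∑ x : G, (Cfsg.Agent.Lib.BlockIdem.cs ℂ g) x *
          Cfsg.extendByZero H ξ (y⁻¹ * x * y) = ∑ x : G, Cfsg.extendByZero H ξ x *
          (Cfsg.Agent.Lib.BlockIdem.cs ℂ g) x := by
        refine Fintype.sum_equiv (MulAut.conj y⁻¹).toEquiv _ _ fun x => ?_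
        simp only [MulEquiv.toEquiv_eq_coe, MulEquiv.coe_toEquiv, MulAut.conj_apply, inv_inv]
        have h7 := Cfsg.Agent.Lib.BlockIdem.cs_isCl (k := ℂ) g x y⁻¹
        rw [inv_inv] at h7
        rw [h7, mul_comm]
      rw [h6, Cfsg.Agent.Lib.CharInd.sum_ext H ξ (fun x => (Cfsg.Agent.Lib.BlockIdem.cs ℂ g) x)]
      refine Finset.sum_congr rfl fun h _ => ?_
      rw [Cfsg.Agent.Lib.BlockInd.resGA_apply, mul_comm]
    simp only [h5]
    rw [Finset.sum_const, Finset.card_univ, nsmul_eq_mul, ← mul_assoc]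
    congr 1
    have h8 := H.card_mul_index
    have h9 : (Nat.card H : ℂ) ≠ 0 := by exact_mod_cast Nat.card_pos.ne'
    rw [inv_mul_eq_iff_eq_mul₀ h9, ← Nat.card_eq_fintype_card, ← h8]
    push_cast
    ring
  rw [h1, h3]
  have h10 : (H.index : ℂ) ≠ 0 := by exact_mod_cast Subgroup.index_ne_zero_of_finite
  rw [mul_div_mul_left _ _ h10]

end Cfsg.Agent.S0932
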