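import Cfsg.Statements.S0933
import Cfsg.Agent.Lib.BlockHt
import Cfsg.Agent.S0932

set_option autoImplicit false
open Cfsg

namespace Cfsg.Agent.S0933
open Cfsg.Agent.Lib.BlockHt Cfsg.Agent.Lib.BlockFirst Cfsg.Agent.Lib.BlockSecond Cfsg.Agent.Lib.BlockInd Cfsg.Agent.Lib.BlockNP Cfsg.Agent.Lib.BlockDeg Cfsg.Agent.Lib.BlockDef Cfsg.Agent.Lib.BlockRed Cfsg.Agent.Lib.BlockOrth Cfsg.Agent.Lib.BlockIdem Cfsg.Agent.Lib.BlockGA Cfsg.Agent.Lib.BlockLoc Cfsg.Agent.Lib.CharBasic Cfsg.Agent.Lib.BlockPP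
open scoped ComplexConjugate



/-- Let H be a subgroup of the finite group G and ξ an irreducible character of H such that the induced function ξ^G is an irreducible character of G. Then, relative to any maximal ideal M of the algebraic integers containing the prime p, the block of ξ induces the block of ξ^G. -/
theorem result {G : Type*} [Group G] [Fintype G] (p : ℕ) [Fact p.Prime] (M : Ideal Cfsg.AlgInt) (hM : Cfsg.IsPModular p M) (H : Subgroup G) (ξ : Cfsg.IrrCharacter H) (hind : Cfsg.IsIrrCharacter G (Cfsg.indFun H (ξ : H → ℂ))) : Cfsg.IsInducedBlock M H (Cfsg.blockOf M (ξ : H → ℂ)) (Cfsg.blockOf M (Cfsg.indFun H (ξ : H → ℂ))) := by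
  have hξ := self_mem_blockOf hM ξ
  set χ : IrrCharacter G := ⟨_, hind⟩ with hχd
  have hχ1 : indFun H (ξ : H → ℂ) = χ.1 := rfl
  rw [hχ1]
  have hχ := self_mem_blockOf hM χ
  rw [isInducedBlock_iff hM hξ hχ]
  refine ⟨isPBlock_blockOf M ξ, isPBlock_blockOf M χ, ?_⟩
  rw [← forall_cl_iff]
  intro g
  rw [lam_resGA_cs hM ξ.2, lam_cs hM χ.2]
  congr 1
  exact Cfsg.Agent.S0932.result H ξ.1 (isChar_of_irr ξ.2) g

end Cfsg.Agent.S0933
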