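import Cfsg.Statements.S0934
import Cfsg.Agent.Lib.BlockHt

set_option autoImplicit false
open Cfsg

namespace Cfsg.Agent.S0934
open Cfsg.Agent.Lib.BlockHt Cfsg.Agent.Lib.BlockFirst Cfsg.Agent.Lib.BlockSecond Cfsg.Agent.Lib.BlockInd Cfsg.Agent.Lib.BlockNP Cfsg.Agent.Lib.BlockDeg Cfsg.Agent.Lib.BlockDef Cfsg.Agent.Lib.BlockRed Cfsg.Agent.Lib.BlockOrth Cfsg.Agent.Lib.BlockIdem Cfsg.Agent.Lib.BlockGA Cfsg.Agent.Lib.BlockLoc Cfsg.Agent.Lib.CharBasic Cfsg.Agent.Lib.BlockPP
open scoped ComplexConjugate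



/-- Let H be a subgroup of the finite group G and fix a maximal ideal M of the algebraic integers containing the prime p. If the block b of H induces the block B of G and ξ ∈ b, then there is χ ∈ B whose restriction to H has nonzero inner product with ξ. -/
theorem result {G : Type*} [Group G] [Fintype G] (p : ℕ) [Fact p.Prime] (M : Ideal Cfsg.AlgInt) (hM : Cfsg.IsPModular p M) (H : Subgroup G) [Fintype H] (b : Set (Cfsg.IrrCharacter H)) (B : Set (Cfsg.IrrCharacter G)) (hind : Cfsg.IsInducedBlock M H b B) (ξ : Cfsg.IrrCharacter H) (hξ : ξ ∈ b) : ∃ χ ∈ B, Cfsg.classInner (fun h : H => (χ : G → ℂ) h) (ξ : H → ℂ) ≠ 0 := by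
  classical
  obtain ⟨χ, hχ⟩ := block_nonempty hM hind.2.1
  by_contra hcon
  push Not at hcon
  have hl := isLoc_eB hM hind.2.1
  have h1 := lam_of_induced hM hind hξ hχ (eF_isCl hM B)
  rw [lam_eF_mem hM hl hχ, eF, ← rd_resGA,
    lam_rd hM ξ.2 (resGA_isCl H (eB_isCl B)) (resGA_loc hl)] at h1
  have h2 : om ξ.1 (resGA H (eB B)) = 0 := by
    rw [om_eq]
    have h3 : ∀ h : H, (resGA H (eB B)) h * ξ.1 h = ∑ θ ∈ Finset.univ.filter (· ∈ B),
        (Nat.card G : ℂ)⁻¹ * θ.1 1 * (θ.1 ((h : G)⁻¹) * ξ.1 h) := by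
      intro h
      rw [resGA_apply, eB_apply, blockCoeff_eq, Finset.mul_sum, Finset.sum_mul]
      refine Finset.sum_congr rfl fun θ _ => ?_
      ring
    simp only [h3]
    rw [Finset.sum_comm, Finset.sum_eq_zero, zero_div]
    intro θ hθ
    rw [Finset.mem_filter] at hθ
    rw [← Finset.mul_sum]
    have h4 := hcon θ hθ.2
    rw [classInner] at h4
    have h5 : ∑ h : H, θ.1 ((h : G)⁻¹) * ξ.1 h = 0 := by
      have h6 : conj (∑ h : H, θ.1 (h : G) * conj (ξ.1 h)) = 0 := by
        have h7 : (Fintype.card H : ℂ) ≠ 0 := by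
          rw [← Nat.card_eq_fintype_card]; exact_mod_cast Nat.card_pos.ne'
        have h8 : ∑ h : H, θ.1 (h : G) * conj (ξ.1 h) = 0 := by
          rcases mul_eq_zero.1 h4 with h9 | h9
          · exfalso; exact (inv_ne_zero h7) (by simpa using h9)
          · simpa using h9
        rw [h8, map_zero]
      rw [map_sum] at h6
      rw [← h6]
      refine Finset.sum_congr rfl fun h _ => ?_
      rw [map_mul, Complex.conj_conj, conj_irr]
    rw [h5, mul_zero]
  rw [h2, red_zero] at h1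
  exact zero_ne_one h1

end Cfsg.Agent.S0934
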