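import Cfsg.Statements.S0935
import Cfsg.Agent.Lib.BlockHt

set_option autoImplicit false
open Cfsg

namespace Cfsg.Agent.S0935
open Cfsg.Agent.Lib.BlockHt Cfsg.Agent.Lib.BlockFirst Cfsg.Agent.Lib.BlockSecond Cfsg.Agent.Lib.BlockInd Cfsg.Agent.Lib.BlockNP Cfsg.Agent.Lib.BlockDeg Cfsg.Agent.Lib.BlockDef Cfsg.Agent.Lib.BlockRed Cfsg.Agent.Lib.BlockOrth Cfsg.Agent.Lib.BlockIdem Cfsg.Agent.Lib.BlockGA Cfsg.Agent.Lib.BlockLoc Cfsg.Agent.Lib.CharBasic Cfsg.Agent.Lib.BlockPP
open scoped ComplexConjugate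



/-- Let H be a subgroup of the finite group G and χ an irreducible character of G whose restriction to H is irreducible; fix a maximal ideal M of the algebraic integers containing the prime p and suppose χ and its restriction have height zero in their blocks B and b. If e is a block of H whose induced block is defined, then e induces B if and only if e = b. -/
theorem result {G : Type*} [Group G] [Finite G] (p : ℕ) [Fact p.Prime] (M : Ideal Cfsg.AlgInt) (hM : Cfsg.IsPModular p M) (H : Subgroup G) (χ : Cfsg.IrrCharacter G) (hres : Cfsg.IsIrrCharacter H (fun h : H => (χ : G → ℂ) h)) (hχ0 : Cfsg.blockHeight p (Cfsg.blockOf M (χ : G → ℂ)) (χ : G → ℂ) = 0) (hψ0 : Cfsg.blockHeight p (Cfsg.blockOf M (fun h : H => (χ : G → ℂ) h)) (fun h : H => (χ : G → ℂ) h) = 0) (e : Set (Cfsg.IrrCharacter H)) (he : Cfsg.InducedBlockDefined M H e) : Cfsg.IsInducedBlock M H e (Cfsg.blockOf M (χ : G → ℂ)) ↔ e = Cfsg.blockOf M (fun h : H => (χ : G → ℂ) h) := by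
  obtain ⟨B', hB'⟩ := he
  set ψ : IrrCharacter H := ⟨_, hres⟩ with hψ
  have hψ1 : (fun h : H => (χ : G → ℂ) h) = ψ.1 := rfl
  rw [hψ1] at hψ0 ⊢
  obtain ⟨ξ, hξ⟩ := block_nonempty hM hB'.1
  obtain ⟨θ, hθ⟩ := block_nonempty hM hB'.2.1
  have hBχ := isPBlock_blockOf M χ
  have hbψ := isPBlock_blockOf M ψ
  have key : lz hM ξ ψ = lz hM θ χ := by
    have h1 := lam_of_induced hM hB' hξ hθ (rd_isCl hM (zr_isCl (p := p) (irr_cl χ)))
    rw [← rd_resGA, resGA_zr] at h1
    exact h1
  have h2 : lz hM θ χ ≠ 0 ↔ B' = blockOf M χ.1 := by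
    constructor
    · intro h
      by_contra hne
      apply h
      apply lz_eq_zero hM hBχ (self_mem_blockOf hM χ)
      intro h'
      exact hne (block_eq_of_mem_of_mem hM hB'.2.1 hBχ hθ h')
    · intro h
      rw [h] at hθ
      exact (lz_ne_zero_iff hM hBχ (self_mem_blockOf hM χ) hθ).2 hχ0
  have h3 : lz hM ξ ψ ≠ 0 ↔ e = blockOf M ψ.1 := by
    constructor
    · intro h
      by_contra hne
      apply h
      apply lz_eq_zero hM hbψ (self_mem_blockOf hM ψ)
      intro h'
      exact hne (block_eq_of_mem_of_mem hM hB'.1 hbψ hξ h')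
    · intro h
      rw [h] at hξ
      exact (lz_ne_zero_iff hM hbψ (self_mem_blockOf hM ψ) hξ).2 hψ0
  have h4 : IsInducedBlock M H e (blockOf M χ.1) ↔ B' = blockOf M χ.1 := by
    constructor
    · intro h
      exact induced_unique hM hB' h
    · intro h
      rwa [h] at hB'
  rw [h4, ← h2, ← h3, key]

end Cfsg.Agent.S0935
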