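import Cfsg.Statements.S0937
import Cfsg.Agent.Lib.BlockHt

set_option autoImplicit false
open Cfsg

namespace Cfsg.Agent.S0937
open Cfsg.Agent.Lib.BlockHt Cfsg.Agent.Lib.BlockFirst Cfsg.Agent.Lib.BlockSecond Cfsg.Agent.Lib.BlockInd Cfsg.Agent.Lib.BlockNP Cfsg.Agent.Lib.BlockDeg Cfsg.Agent.Lib.BlockDef Cfsg.Agent.Lib.BlockRed Cfsg.Agent.Lib.BlockOrth Cfsg.Agent.Lib.BlockIdem Cfsg.Agent.Lib.BlockGA Cfsg.Agent.Lib.BlockLoc Cfsg.Agent.Lib.CharBasic Cfsg.Agent.Lib.BlockPP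
open scoped ComplexConjugate



/-- Let H be a subgroup of the finite group G and fix a maximal ideal M of the algebraic integers containing the prime p. If the block b of H induces the block B of G and χ ∈ B has height zero, then there is ξ ∈ b of height zero whose multiplicity in the restriction of χ to H is a natural number not divisible by p. -/
theorem result {G : Type*} [Group G] [Fintype G] (p : ℕ) [Fact p.Prime] (M : Ideal Cfsg.AlgInt) (hM : Cfsg.IsPModular p M) (H : Subgroup G) [Fintype H] (b : Set (Cfsg.IrrCharacter H)) (B : Set (Cfsg.IrrCharacter G)) (hind : Cfsg.IsInducedBlock M H b B) (χ : Cfsg.IrrCharacter G) (hχ : χ ∈ B) (h0 : Cfsg.blockHeight p B (χ : G → ℂ) = 0) : ∃ ξ ∈ b, Cfsg.blockHeight p b (ξ : H → ℂ) = 0 ∧ ∃ n : ℕ, Cfsg.classInner (fun h : H => (χ : G → ℂ) h) (ξ : H → ℂ) = (n : ℂ) ∧ ¬ p ∣ n := by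
  obtain ⟨ξ, hξ⟩ := block_nonempty hM hind.1
  obtain ⟨m, hm1, hm2, hm3⟩ := lam_res_zr hM ξ χ
  have h1 := lam_of_induced hM hind hξ hχ (rd_isCl hM (zr_isCl (p := p) (irr_cl χ)))
  have h2 : lz hM χ χ ≠ 0 := (lz_ne_zero_iff hM hind.2.1 hχ hχ).2 h0
  rw [hm3] at h1
  have h3 : ∑ ψ : IrrCharacter H, (m ψ : ResF hM) * lz hM ξ ψ ≠ 0 := by
    rw [h1]; exact h2
  obtain ⟨ψ, -, hψ⟩ := Finset.exists_ne_zero_of_sum_ne_zero h3
  have h4 : (m ψ : ResF hM) ≠ 0 := left_ne_zero_of_mul hψ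
  have h5 : lz hM ξ ψ ≠ 0 := right_ne_zero_of_mul hψ
  have h6 : ψ ∈ b := by
    by_contra hne
    apply h5
    obtain ⟨b', hb'⟩ : ∃ b', b' = blockOf M ψ.1 := ⟨_, rfl⟩
    apply lz_eq_zero hM (isPBlock_blockOf M ψ) (self_mem_blockOf hM ψ)
    intro h'
    apply hne
    rw [block_eq_of_mem_of_mem hM hind.1 (isPBlock_blockOf M ψ) hξ h']
    exact self_mem_blockOf hM ψ
  refine ⟨ψ, h6, (lz_ne_zero_iff hM hind.1 h6 hξ).1 h5, m ψ, hm1 ψ, ?_⟩
  intro hdvd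
  apply h4
  rwa [CharP.cast_eq_zero_iff (ResF hM) p]

end Cfsg.Agent.S0937
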