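import Cfsg.Statements.S0939
import Cfsg.Agent.Lib.BlockQuotB
import Cfsg.Agent.Lib.Cores

set_option autoImplicit false
open Cfsg

namespace Cfsg.Agent.S0939
open Cfsg.Agent.Lib.BlockQuotB Cfsg.Agent.Lib.BlockQuot Cfsg.Agent.Lib.BlockCov Cfsg.Agent.Lib.BlockM Cfsg.Agent.Lib.BlockHt Cfsg.Agent.Lib.BlockFirst Cfsg.Agent.Lib.BlockSecond Cfsg.Agent.Lib.BlockInd Cfsg.Agent.Lib.BlockNP Cfsg.Agent.Lib.BlockDeg Cfsg.Agent.Lib.BlockDef Cfsg.Agent.Lib.BlockRed Cfsg.Agent.Lib.BlockOrth Cfsg.Agent.Lib.BlockIdem Cfsg.Agent.Lib.BlockGA Cfsg.Agent.Lib.BlockLoc Cfsg.Agent.Lib.CharBasic Cfsg.Agent.Lib.BlockPP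
open scoped ComplexConjugate



/-- Let G be a finite group with a normal p-complement (the largest normal subgroup O_p'(G) of order prime to p has p-power index). Then, relative to any maximal ideal M of the algebraic integers containing p, the principal block of G is the set of irreducible characters χ with χ n = χ 1 for every n ∈ O_p'(G). -/
theorem result {G : Type*} [Group G] [Finite G] (p : ℕ) [Fact p.Prime] (M : Ideal Cfsg.AlgInt) (hM : Cfsg.IsPModular p M) (hnc : ∃ k : ℕ, (Cfsg.pPrimeCore p G).index = p ^ k) : Cfsg.principalBlock M G = {χ : Cfsg.IrrCharacter G | ∀ n ∈ Cfsg.pPrimeCore p G, (χ : G → ℂ) n = (χ : G → ℂ) 1} := by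
  haveI : (pPrimeCore p G).Normal := Cfsg.Agent.Lib.Cores.pPrimeCore_normal p
  have hN := Cfsg.Agent.Lib.Cores.pPrimeCore_not_dvd (G := G) p
  have hs := QuotientGroup.mk'_surjective (pPrimeCore p G)
  ext χ
  constructor
  · intro h
    exact triv_of_sameBlock hM (pPrimeCore p G) hN (χ := triv G) h (fun n _ => rfl)
  · intro h
    obtain ⟨ψ', -, h2, h3⟩ := Cfsg.Agent.Lib.CharKer.exists_quot (isChar_of_irr χ.2) h
    have hp : IsPGroup p (G ⧸ pPrimeCore p G) := by
      obtain ⟨k, hk⟩ := hnc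
      exact IsPGroup.of_card (n := k) (by rw [← hk, Subgroup.index_eq_card])
    have h4 := sameBlock_infl hM (QuotientGroup.mk' (pPrimeCore p G)) hs
      (sameBlock_of_isPGroup hM hp (triv _) ⟨ψ', h3 χ.2⟩)
    have h5 : (inflI (QuotientGroup.mk' (pPrimeCore p G)) hs ⟨ψ', h3 χ.2⟩).1 = χ.1 :=
      (funext h2).symm
    rw [h5] at h4
    exact h4

end Cfsg.Agent.S0939
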