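import Cfsg.Statements.S0941
import Cfsg.Agent.Lib.BlockQuotB

set_option autoImplicit false
open Cfsg

namespace Cfsg.Agent.S0941
open Cfsg.Agent.Lib.BlockQuotB Cfsg.Agent.Lib.BlockQuot Cfsg.Agent.Lib.BlockCov Cfsg.Agent.Lib.BlockM Cfsg.Agent.Lib.BlockHt Cfsg.Agent.Lib.BlockFirst Cfsg.Agent.Lib.BlockSecond Cfsg.Agent.Lib.BlockInd Cfsg.Agent.Lib.BlockNP Cfsg.Agent.Lib.BlockDeg Cfsg.Agent.Lib.BlockDef Cfsg.Agent.Lib.BlockRed Cfsg.Agent.Lib.BlockOrth Cfsg.Agent.Lib.BlockIdem Cfsg.Agent.Lib.BlockGA Cfsg.Agent.Lib.BlockLoc Cfsg.Agent.Lib.CharBasic Cfsg.Agent.Lib.BlockPP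
open scoped ComplexConjugate



/-- Let P be a normal p-subgroup of the finite group G such that the index of C_G(P) is a power of p, and fix a maximal ideal M of the algebraic integers containing p. Then (i) two irreducible characters of G ⧸ P lie in the same block if and only if their inflations to G do, and (ii) every block of G contains the inflation of some irreducible character of G ⧸ P; so inflation induces a bijection between the blocks of G ⧸ P and the blocks of G. -/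
theorem result {G : Type*} [Group G] [Finite G] (p : ℕ) [Fact p.Prime] (M : Ideal Cfsg.AlgInt) (hM : Cfsg.IsPModular p M) (P : Subgroup G) [P.Normal] (hP : IsPGroup p P) (hC : ∃ k : ℕ, (Subgroup.centralizer (P : Set G)).index = p ^ k) : (∀ χ ψ : Cfsg.IrrCharacter (G ⧸ P), Cfsg.SameBlock M (χ : G ⧸ P → ℂ) (ψ : G ⧸ P → ℂ) ↔ Cfsg.SameBlock M ((χ : G ⧸ P → ℂ) ∘ QuotientGroup.mk) ((ψ : G ⧸ P → ℂ) ∘ QuotientGroup.mk)) ∧ ∀ B : Set (Cfsg.IrrCharacter G), Cfsg.IsPBlock M B → ∃ χ : Cfsg.IrrCharacter (G ⧸ P), ∃ θ ∈ B, (θ : G → ℂ) = (χ : G ⧸ P → ℂ) ∘ QuotientGroup.mk := by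
  have hs := QuotientGroup.mk'_surjective P
  have hk : (QuotientGroup.mk' P).ker = P := QuotientGroup.ker_mk' P
  constructor
  · intro χ ψ
    constructor
    · intro h
      exact sameBlock_infl hM (QuotientGroup.mk' P) hs h
    · intro h
      refine sameBlock_of_infl hM (QuotientGroup.mk' P) hs ?_ ?_ h
      · rw [hk]; exact hP
      · rw [hk]; exact hC
  · intro B hB
    obtain ⟨Bb, hBb, hsub, -⟩ := exists_quot_block hM (QuotientGroup.mk' P) hs
      (by rw [hk]; exact hP) hB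
    obtain ⟨χ, hχ⟩ := block_nonempty hM hBb
    exact ⟨χ, _, hsub χ hχ, rfl⟩

end Cfsg.Agent.S0941
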