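import Cfsg.Statements.S0942
import Cfsg.Agent.Lib.BlockQuotB
import Cfsg.Agent.Lib.Cores

set_option autoImplicit false
open Cfsg

namespace Cfsg.Agent.S0942
open Cfsg.Agent.Lib.BlockQuotB Cfsg.Agent.Lib.BlockQuot Cfsg.Agent.Lib.BlockCov Cfsg.Agent.Lib.BlockM Cfsg.Agent.Lib.BlockHt Cfsg.Agent.Lib.BlockFirst Cfsg.Agent.Lib.BlockSecond Cfsg.Agent.Lib.BlockInd Cfsg.Agent.Lib.BlockNP Cfsg.Agent.Lib.BlockDeg Cfsg.Agent.Lib.BlockDef Cfsg.Agent.Lib.BlockRed Cfsg.Agent.Lib.BlockOrth Cfsg.Agent.Lib.BlockIdem Cfsg.Agent.Lib.BlockGA Cfsg.Agent.Lib.BlockLoc Cfsg.Agent.Lib.CharBasic Cfsg.Agent.Lib.BlockPP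
open scoped ComplexConjugate



/-- Let u be a p-element of the finite group G, let v lie in the largest normal subgroup of C_G(u) of order prime to p, and let χ belong to the principal block (relative to a maximal ideal M of the algebraic integers containing p). Then χ (u * v) = χ u. -/
theorem result {G : Type*} [Group G] [Finite G] (p : ℕ) [Fact p.Prime] (M : Ideal Cfsg.AlgInt) (hM : Cfsg.IsPModular p M) (u : G) (hu : ∃ k : ℕ, orderOf u = p ^ k) (v : G) (hv : v ∈ Cfsg.centralizerPPrimeCore p u) (χ : Cfsg.IrrCharacter G) (hχ : χ ∈ Cfsg.principalBlock M G) : (χ : G → ℂ) (u * v) = (χ : G → ℂ) u := by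
  classical
  cases nonempty_fintype G
  obtain ⟨v', hv', rfl⟩ := hv
  haveI : (pPrimeCore p (Subgroup.centralizer ({u} : Set G))).Normal :=
    Cfsg.Agent.Lib.Cores.pPrimeCore_normal p
  have hN := Cfsg.Agent.Lib.Cores.pPrimeCore_not_dvd (G := Subgroup.centralizer ({u} : Set G)) p
  have hvr : ¬ p ∣ orderOf v' := by
    intro h
    have h1 : orderOf v' ∣ Nat.card (pPrimeCore p (Subgroup.centralizer ({u} : Set G))) := by
      have := orderOf_dvd_natCard (⟨v', hv'⟩ : pPrimeCore p (Subgroup.centralizer ({u} : Set G)))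
      rwa [← Subgroup.orderOf_coe] at this
    exact hN (h.trans h1)
  have h1r : ¬ p ∣ orderOf (1 : Subgroup.centralizer ({u} : Set G)) := by
    rw [orderOf_one]; exact hM.1.one_lt.ne' ∘ Nat.dvd_one.1
  have h1 := principal_second hM hu hχ hvr
  have h2 := principal_second hM hu hχ h1r
  have h3 : blockPart (principalBlock M (Subgroup.centralizer ({u} : Set G)))
      (fun c : Subgroup.centralizer ({u} : Set G) => χ.1 (u * (c : G))) v' =
      blockPart (principalBlock M (Subgroup.centralizer ({u} : Set G)))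
      (fun c : Subgroup.centralizer ({u} : Set G) => χ.1 (u * (c : G))) 1 := by
    rw [blockPart_eq, blockPart_eq]
    refine Finset.sum_congr rfl fun ξ hξ => ?_
    rw [Finset.mem_filter] at hξ
    congr 1
    exact triv_of_sameBlock hM (pPrimeCore p (Subgroup.centralizer ({u} : Set G))) hN
      (χ := triv (Subgroup.centralizer ({u} : Set G))) hξ.2 (fun n _ => rfl) v' hv'
  have h4 : χ.1 (u * ((1 : Subgroup.centralizer ({u} : Set G)) : G)) = χ.1 u := by simp
  rw [← h4, h2, ← h3, ← h1]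
  rfl

end Cfsg.Agent.S0942
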