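import Cfsg.Statements.S0944
import Cfsg.Agent.Lib.CharBasic

set_option autoImplicit false
open Cfsg

namespace Cfsg.Agent.S0944

/-- Let χ be an irreducible character of the finite group G and u an involution. Then χ u is a rational integer n with n ≡ χ 1 (mod 2). -/
theorem result {G : Type*} [Group G] [Finite G] (χ : Cfsg.IrrCharacter G) (u : G) (hu : orderOf u = 2) : ∃ n : ℤ, (χ : G → ℂ) u = (n : ℂ) ∧ (2 : ℤ) ∣ (Cfsg.charDegree (χ : G → ℂ) : ℤ) - n := by
  obtain ⟨s, hs, hk, h1⟩ := Cfsg.Agent.Lib.CharBasic.exists_eigenvalues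
    (Cfsg.Agent.Lib.CharBasic.isChar_of_irr χ.2) u
  have h2 := hk 1
  rw [zpow_one] at h2
  have h3 : (Cfsg.charDegree (χ : G → ℂ) : ℤ) = Multiset.card s := by
    rw [Cfsg.charDegree, h1]
    simp
  rw [h3, h2]
  rw [hu] at hs
  clear hk h1 h2 h3
  induction s using Multiset.induction_on with
  | empty => exact ⟨0, by simp, by simp⟩
  | cons a s ih =>
    obtain ⟨n, hn, hd⟩ := ih fun z hz => hs z (Multiset.mem_cons_of_mem hz)
    have ha : (a : ℂ) ^ 2 = 1 := by
      have := hs a (Multiset.mem_cons_self a s)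
      rw [← Units.val_pow_eq_pow_val, this]; rfl
    rw [Multiset.map_cons, Multiset.sum_cons, hn, Multiset.card_cons, zpow_one]
    rcases sq_eq_one_iff.1 ha with h | h
    · refine ⟨n + 1, by rw [h]; push_cast; ring, ?_⟩
      push_cast; omega
    · refine ⟨n - 1, by rw [h]; push_cast; ring, ?_⟩
      push_cast; omega

end Cfsg.Agent.S0944
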