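import Cfsg.Statements.S0947
import Cfsg.Agent.Lib.BlockSum
import Cfsg.Agent.Lib.BlockQuotB
import Cfsg.Agent.S0939

set_option autoImplicit false
set_option linter.style.haveILetI false
set_option linter.unusedVariables false
open Cfsg

namespace Cfsg.Agent.S0947
open Cfsg.Agent.Lib.BlockSum Cfsg.Agent.Lib.BlockSecond Cfsg.Agent.Lib.BlockInd Cfsg.Agent.Lib.BlockNP Cfsg.Agent.Lib.BlockDeg Cfsg.Agent.Lib.BlockDef Cfsg.Agent.Lib.BlockRed Cfsg.Agent.Lib.BlockOrth Cfsg.Agent.Lib.BlockIdem Cfsg.Agent.Lib.BlockGA Cfsg.Agent.Lib.BlockLoc Cfsg.Agent.Lib.CharBasic Cfsg.Agent.Lib.BlockPP Cfsg.Agent.Lib.BlockQuotB Cfsg.Agent.Lib.BlockQuot Cfsg.Agent.Lib.BlockCov Cfsg.Agent.Lib.BlockM Cfsg.Agent.Lib.BlockHt Cfsg.Agent.Lib.BlockFirst Cfsg.Agent.Lib.CharNormal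
open scoped ComplexConjugate



theorem aux {H : Type*} [Group H] [Finite H] (p : ℕ) [Fact p.Prime] (M : Ideal Cfsg.AlgInt)
    (hM : Cfsg.IsPModular p M) (hnc : ∃ k : ℕ, (Cfsg.pPrimeCore p H).index = p ^ k) (y : H)
    (hy : ¬ p ∣ orderOf y) :
    ∑ᶠ χ ∈ principalBlock M H, ‖(χ : H → ℂ) y‖ ^ 2 =
      ((p ^ (Nat.card H).factorization p : ℕ) : ℝ) := by
  classical
  cases nonempty_fintype H
  rw [Cfsg.Agent.S0939.result p M hM hnc]
  haveI : (pPrimeCore p H).Normal := Cfsg.Agent.Lib.Cores.pPrimeCore_normal p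
  have hN := Cfsg.Agent.Lib.Cores.pPrimeCore_not_dvd (G := H) p
  have hyN : y ∈ pPrimeCore p H := by
    obtain ⟨k, hk⟩ := hnc
    have e1 : orderOf (QuotientGroup.mk' (pPrimeCore p H) y) ∣ p ^ k := by
      rw [← hk]; exact orderOf_dvd_natCard _
    have e2 : orderOf (QuotientGroup.mk' (pPrimeCore p H) y) ∣ orderOf y := orderOf_map_dvd _ _
    have hcop : Nat.Coprime (p ^ k) (orderOf y) :=
      Nat.Coprime.pow_left k ((Nat.Prime.coprime_iff_not_dvd Fact.out).2 hy)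
    have h3 := Nat.eq_one_of_dvd_coprimes hcop e1 e2
    rwa [orderOf_eq_one_iff, ← MonoidHom.mem_ker, QuotientGroup.ker_mk'] at h3
  have hfs : ∑ᶠ χ ∈ {χ : IrrCharacter H | ∀ n ∈ pPrimeCore p H, (χ : H → ℂ) n = (χ : H → ℂ) 1},
      ‖(χ : H → ℂ) y‖ ^ 2 = ∑ χ : {χ : IrrCharacter H //
        ∀ n ∈ pPrimeCore p H, χ.1 n = χ.1 1}, ‖χ.1.1 1‖ ^ 2 := by
    rw [finsum_mem_eq_finite_toFinset_sum _ (Set.toFinite _)]
    rw [← Finset.sum_subtype (s := (Set.toFinite {χ : IrrCharacter H |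
      ∀ n ∈ pPrimeCore p H, (χ : H → ℂ) n = (χ : H → ℂ) 1}).toFinset)
      (p := fun χ : IrrCharacter H => ∀ n ∈ pPrimeCore p H, χ.1 n = χ.1 1)
      (f := fun χ => ‖χ.1 1‖ ^ 2)]
    · refine Finset.sum_congr rfl (fun χ hχ => ?_)
      rw [Set.Finite.mem_toFinset] at hχ
      rw [hχ y hyN]
    · intro χ
      rw [Set.Finite.mem_toFinset]
      rfl
  rw [hfs]
  have hq : ∑ χ : {χ : IrrCharacter H // ∀ n ∈ pPrimeCore p H, χ.1 n = χ.1 1}, ‖χ.1.1 1‖ ^ 2 =
      ∑ ψ : IrrCharacter (H ⧸ pPrimeCore p H), ‖ψ.1 1‖ ^ 2 := by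
    refine (Fintype.sum_equiv (Cfsg.Agent.Lib.CharKer.quotEquiv (pPrimeCore p H)).symm _ _
      (fun ψ => ?_)).symm
    rfl
  rw [hq]
  have h5 := column_orth_one (G := H ⧸ pPrimeCore p H) 1
  rw [if_pos rfl] at h5
  have h6 : ((∑ ψ : IrrCharacter (H ⧸ pPrimeCore p H), ‖ψ.1 1‖ ^ 2 : ℝ) : ℂ) =
      ((Nat.card (H ⧸ pPrimeCore p H) : ℝ) : ℂ) := by
    rw [Complex.ofReal_sum, Complex.ofReal_natCast, ← h5]
    refine Finset.sum_congr rfl (fun ψ _ => ?_)
    have := charDegree_cast (isChar_of_irr ψ.2)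
    rw [← this]
    simp [sq]
  have h7 := Complex.ofReal_injective h6
  rw [h7]
  congr 1
  change (pPrimeCore p H).index = _
  obtain ⟨k, hk⟩ := hnc
  have h8 := Subgroup.card_mul_index (pPrimeCore p H)
  rw [hk] at h8 ⊢
  congr 1
  rw [← h8, Nat.factorization_mul Nat.card_pos.ne' (pow_ne_zero _ (Fact.out : p.Prime).ne_zero),
    Finsupp.add_apply, Nat.factorization_eq_zero_of_not_dvd hN, Nat.Prime.factorization_pow Fact.out]
  simp


/-- Let z ≠ 1 be a p-element of the finite group G with centralizer H, and fix a maximal ideal M of the algebraic integers containing p. (i) For every y ∈ H of order prime to p, the sum over ζ in the principal block of G of |ζ (z * y)|² equals the sum over χ in the principal block of H of |χ y|². (ii) If moreover H has a normal p-complement (its largest normal subgroup of order prime to p has p-power index), that common value is the largest power of p dividing the order of H. -/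
theorem result {G : Type*} [Group G] [Finite G] (p : ℕ) [Fact p.Prime] (M : Ideal Cfsg.AlgInt) (hM : Cfsg.IsPModular p M) (z : G) (hz : ∃ k : ℕ, orderOf z = p ^ k) (hz1 : z ≠ 1) (y : Subgroup.centralizer ({z} : Set G)) (hy : ¬ p ∣ orderOf y) : (∑ᶠ ζ ∈ Cfsg.principalBlock M G, ‖(ζ : G → ℂ) (z * (y : G))‖ ^ 2 = ∑ᶠ χ ∈ Cfsg.principalBlock M (Subgroup.centralizer ({z} : Set G)), ‖(χ : Subgroup.centralizer ({z} : Set G) → ℂ) y‖ ^ 2) ∧ ((∃ k : ℕ, (Cfsg.pPrimeCore p (Subgroup.centralizer ({z} : Set G))).index = p ^ k) → ∑ᶠ ζ ∈ Cfsg.principalBlock M G, ‖(ζ : G → ℂ) (z * (y : G))‖ ^ 2 = ((p ^ (Nat.card (Subgroup.centralizer ({z} : Set G))).factorization p : ℕ) : ℝ)) := by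
  classical
  cases nonempty_fintype G
  haveI : Fintype (Subgroup.centralizer ({z} : Set G)) := Fintype.ofFinite _
  have h1 : ∑ᶠ ζ ∈ principalBlock M G, ‖(ζ : G → ℂ) (z * (y : G))‖ ^ 2 =
      ∑ᶠ χ ∈ principalBlock M (Subgroup.centralizer ({z} : Set G)),
        ‖(χ : Subgroup.centralizer ({z} : Set G) → ℂ) y‖ ^ 2 := by
    obtain ⟨B, hB⟩ := exists_induced_centralizer hM hz
      (principal_isPBlock M (Subgroup.centralizer ({z} : Set G)))
    have hBp : B = principalBlock M G := (third_main hM hB).2 rfl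
    have h2 := gram_block hM hz hB hy hy
    have hfs : ∀ {K : Type _} [Group K] [Finite K] (b : Set (IrrCharacter K)) (f : IrrCharacter K → ℝ),
        ∑ᶠ χ ∈ b, f χ = ∑ χ ∈ Finset.univ.filter (· ∈ b), f χ := by
      intro K _ _ b f
      rw [finsum_mem_eq_finite_toFinset_sum _ (Set.toFinite b)]
      refine Finset.sum_congr ?_ (fun _ _ => rfl)
      ext χ; simp
    rw [hfs, hfs]
    have h3 : ∀ {K : Type _} [Group K] [Finite K] (χ : IrrCharacter K) (x : K),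
        ((‖χ.1 x‖ ^ 2 : ℝ) : ℂ) = χ.1 x * conj (χ.1 x) := by
      intro K _ _ χ x
      rw [Complex.mul_conj, Complex.normSq_eq_norm_sq]
    have h4 : ((∑ ζ ∈ Finset.univ.filter (· ∈ principalBlock M G),
        ‖(ζ : G → ℂ) (z * (y : G))‖ ^ 2 : ℝ) : ℂ) =
        ((∑ χ ∈ Finset.univ.filter (· ∈ principalBlock M (Subgroup.centralizer ({z} : Set G))),
        ‖(χ : Subgroup.centralizer ({z} : Set G) → ℂ) y‖ ^ 2 : ℝ) : ℂ) := by
      rw [Complex.ofReal_sum, Complex.ofReal_sum]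
      rw [Finset.sum_congr rfl (fun ζ _ => h3 ζ (z * (y : G))),
        Finset.sum_congr rfl (fun χ _ => h3 χ y)]
      rw [← h2, ← hBp]
      refine Finset.sum_congr rfl (fun ζ hζ => ?_)
      have h5 : ζ ∈ principalBlock M G := hBp ▸ (Finset.mem_filter.1 hζ).2
      rw [principal_second hM hz h5 hy]
    exact_mod_cast h4
  refine ⟨h1, fun hnc => ?_⟩
  rw [h1]
  exact aux p M hM hnc y hy

end Cfsg.Agent.S0947
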