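import Cfsg.Statements.S0948
import Cfsg.Agent.Lib.BlkH5E

set_option autoImplicit false
set_option linter.style.haveILetI false
set_option linter.unusedVariables false
open Cfsg

namespace Cfsg.Agent.S0948
open Cfsg.Agent.Lib.BlkH5E Cfsg.Agent.Lib.BlockRey Cfsg.Agent.Lib.BlockPC Cfsg.Agent.Lib.BlockRk Cfsg.Agent.Lib.BlockInt Cfsg.Agent.Lib.BlockIndIn Cfsg.Agent.Lib.BlockMaxB Cfsg.Agent.Lib.BlockMax Cfsg.Agent.Lib.BlockNilC Cfsg.Agent.Lib.BlockNilB Cfsg.Agent.Lib.BlockNil Cfsg.Agent.Lib.BlockFusB Cfsg.Agent.Lib.BlockFus Cfsg.Agent.Lib.BlockPairF Cfsg.Agent.Lib.BlockPairE Cfsg.Agent.Lib.BlockPairD Cfsg.Agent.Lib.BlockPairC Cfsg.Agent.Lib.BlockPairB Cfsg.Agent.Lib.BlockPair Cfsg.Agent.Lib.BlockBP Cfsg.Agent.Lib.BlockCovB Cfsg.Agent.Lib.BlockTr Cfsg.Agent.Lib.BlockMoreB Cfsg.Agent.Lib.BlockMore Cfsg.Agent.Lib.BlockQuotB Cfsg.Agent.Lib.BlockQuot Cfsg.Agent.Lib.BlockCov Cfsg.Agent.Lib.BlockM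 Cfsg.Agent.Lib.BlockHt Cfsg.Agent.Lib.BlockFirst Cfsg.Agent.Lib.BlockSecond Cfsg.Agent.Lib.BlockInd Cfsg.Agent.Lib.BlockNP Cfsg.Agent.Lib.BlockDeg Cfsg.Agent.Lib.BlockDef Cfsg.Agent.Lib.BlockRed Cfsg.Agent.Lib.BlockOrth Cfsg.Agent.Lib.BlockIdem Cfsg.Agent.Lib.BlockGA Cfsg.Agent.Lib.BlockLoc Cfsg.Agent.Lib.CharBasic Cfsg.Agent.Lib.BlockPP Cfsg.Agent.Lib.CharNormal Cfsg.Agent.Lib.CharPerm Cfsg.Agent.Lib.CharPermB Cfsg.Agent.Lib.BlockSum Cfsg.Agent.Lib.BlockKB Cfsg.Agent.Lib.BlockLar Cfsg.Agent.Lib.BlockBFM Cfsg.Agent.Lib.BlkH5A Cfsg.Agent.Lib.BlkH5B Cfsg.Agent.Lib.BlkH5C Cfsg.Agent.Lib.BlkH5D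
open scoped ComplexConjugate



/-- Let the finite group G have a Sylow 2-subgroup P that is a Klein four-group, suppose all involutions of G are conjugate, and fix a maximal ideal M of the algebraic integers containing 2. Then the principal block consists of exactly four irreducible characters, the principal character and ζ₂, ζ₃, ζ₄, and there is a sign ε such that for every involution z: ζ₂ z = 1, ζ₃ z = ε, ζ₄ z = -1; moreover ζ₂ 1 ≡ 1, ζ₃ 1 ≡ ε, ζ₄ 1 ≡ -1 (mod 4), and 1 + ζ₂ y + ε ζ₃ y - ζ₄ y = 0 for every y of odd order. -/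
theorem result {G : Type*} [Group G] [Finite G] (M : Ideal Cfsg.AlgInt) (hM : Cfsg.IsPModular 2 M) (P : Sylow 2 G) (hP : IsKleinFour (P : Subgroup G)) (hone : ∀ s t : G, orderOf s = 2 → orderOf t = 2 → IsConj s t) : ∃ ζ₂ ζ₃ ζ₄ : Cfsg.IrrCharacter G, ∃ ε : ℤ, (ε = 1 ∨ ε = -1) ∧ (ζ₂ : G → ℂ) ≠ (fun _ => 1) ∧ (ζ₃ : G → ℂ) ≠ (fun _ => 1) ∧ ζ₂ ≠ ζ₃ ∧ ζ₂ ≠ ζ₄ ∧ ζ₃ ≠ ζ₄ ∧ Cfsg.principalBlock M G = {χ : Cfsg.IrrCharacter G | (χ : G → ℂ) = (fun _ => 1) ∨ χ = ζ₂ ∨ χ = ζ₃ ∨ χ = ζ₄} ∧ (∀ z : G, orderOf z = 2 → (ζ₂ : G → ℂ) z = 1 ∧ (ζ₃ : G → ℂ) z = (ε : ℂ) ∧ (ζ₄ : G → ℂ) z = -1) ∧ (4 : ℤ) ∣ (Cfsg.charDegree (ζ₂ : G → ℂ) : ℤ) - 1 ∧ (4 : ℤ) ∣ (Cfsg.charDegree (ζ₃ : G → ℂ) : ℤ) - ε ∧ (4 : ℤ) ∣ (Cfsg.charDegree (ζ₄ : G → ℂ) : ℤ) + 1 ∧ ∀ y : G, Odd (orderOf y) → 1 + (ζ₂ : G → ℂ) y + (ε : ℂ) * (ζ₃ : G → ℂ) y - (ζ₄ : G → ℂ) y = 0 := by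
  classical
  have hP4 : Nat.card P = 4 := by
    have : Nat.card (P : Subgroup G) = 4 := IsKleinFour.card_four
    exact this
  have hexp : ∀ x ∈ (P : Subgroup G), x * x = 1 := fun x hx =>
    congrArg Subtype.val (IsKleinFour.mul_self (G := (P : Subgroup G)) ⟨x, hx⟩)
  obtain ⟨hk4, -⟩ := sylow_four_rank hM P hP4 hexp hone
  obtain ⟨u, hu, hsum⟩ := klein_vals hM P hP4 hexp hone
  have hsum := @hsum inferInstance
  have htm : triv G ∈ Finset.univ.filter (· ∈ principalBlock M G) :=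
    Finset.mem_filter.2 ⟨Finset.mem_univ _, triv_mem hM⟩
  have hcard : (Finset.univ.filter (· ∈ principalBlock M G)).card = 4 := by
    rw [← hk4, Nat.card_eq_fintype_card]
    exact (Fintype.card_subtype _).symm
  have hc3 : ((Finset.univ.filter (· ∈ principalBlock M G)).erase (triv G)).card = 3 := by
    rw [Finset.card_erase_of_mem htm, hcard]
  obtain ⟨a, b, c, hab, hac, hbc, hF⟩ := Finset.card_eq_three.1 hc3
  haveI := factP hM
  obtain ⟨J, hJ⟩ := exists_prime_orderOf_dvd_card' (G := P) 2 (by rw [hP4]; norm_num)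
  have hJ2 : orderOf (J : G) = 2 := by rw [Subgroup.orderOf_coe, hJ]
  have hut : u (triv G) = 1 := by
    have h1 : (1 : ℂ) = u (triv G) := (hu _ (triv_mem hM)).2.1 J hJ2
    exact_mod_cast h1.symm
  have hmem : ∀ χ : IrrCharacter G, χ ∈ principalBlock M G ↔ χ = triv G ∨ χ = a ∨ χ = b ∨ χ = c := by
    intro χ
    have h1 : χ ∈ principalBlock M G ↔ χ ∈ Finset.univ.filter (· ∈ principalBlock M G) := by
      rw [Finset.mem_filter, and_iff_right (Finset.mem_univ _)]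
    rw [h1, ← Finset.insert_erase htm, hF, Finset.mem_insert, Finset.mem_insert, Finset.mem_insert,
      Finset.mem_singleton]
  have hnt : ∀ x : IrrCharacter G, x = a ∨ x = b ∨ x = c → x ≠ triv G := by
    intro x hx
    have : x ∈ (Finset.univ.filter (· ∈ principalBlock M G)).erase (triv G) := by
      rw [hF, Finset.mem_insert, Finset.mem_insert, Finset.mem_singleton]
      exact hx
    exact (Finset.mem_erase.1 this).1
  have hs : ∀ y : G, ¬ 2 ∣ orderOf y → 1 + ((u a : ℂ) * a.1 y + ((u b : ℂ) * b.1 y + (u c : ℂ) * c.1 y)) = 0 := by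
    intro y hy
    have h1 := hsum y hy
    rw [← Finset.add_sum_erase _ _ htm, hF, Finset.sum_insert, Finset.sum_pair hbc, hut] at h1
    · rw [← h1]
      congr 1
      change (1 : ℂ) = ((1 : ℤ) : ℂ) * 1
      simp
    · rw [Finset.mem_insert, Finset.mem_singleton]
      tauto
  have ham := (hmem a).2 (by tauto)
  have hbm := (hmem b).2 (by tauto)
  have hcm := (hmem c).2 (by tauto)
  have key : ∀ a b c : IrrCharacter G, a ≠ b → a ≠ c → b ≠ c →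
      (∀ χ : IrrCharacter G, χ ∈ principalBlock M G ↔ χ = triv G ∨ χ = a ∨ χ = b ∨ χ = c) →
      a ≠ triv G → b ≠ triv G →
      (∀ y : G, ¬ 2 ∣ orderOf y → 1 + ((u a : ℂ) * a.1 y + ((u b : ℂ) * b.1 y + (u c : ℂ) * c.1 y)) = 0) →
      u a = 1 → u c = -1 → ∃ ζ₂ ζ₃ ζ₄ : Cfsg.IrrCharacter G, ∃ ε : ℤ, (ε = 1 ∨ ε = -1) ∧ (ζ₂ : G → ℂ) ≠ (fun _ => 1) ∧ (ζ₃ : G → ℂ) ≠ (fun _ => 1) ∧ ζ₂ ≠ ζ₃ ∧ ζ₂ ≠ ζ₄ ∧ ζ₃ ≠ ζ₄ ∧ Cfsg.principalBlock M G = {χ : Cfsg.IrrCharacter G | (χ : G → ℂ) = (fun _ => 1) ∨ χ = ζ₂ ∨ χ = ζ₃ ∨ χ = ζ₄} ∧ (∀ z : G, orderOf z = 2 → (ζ₂ : G → ℂ) z = 1 ∧ (ζ₃ : G → ℂ) z = (ε : ℂ) ∧ (ζ₄ : G → ℂ) z = -1) ∧ (4 : ℤ) ∣ (Cfsg.charDegree (ζ₂ : G → ℂ) : ℤ) - 1 ∧ (4 : ℤ) ∣ (Cfsg.charDegree (ζ₃ : G → ℂ) : ℤ) - ε ∧ (4 : ℤ) ∣ (Cfsg.charDegree (ζ₄ : G → ℂ) : ℤ) + 1 ∧ ∀ y : G, Odd (orderOf y) → 1 + (ζ₂ : G → ℂ) y + (ε : ℂ) * (ζ₃ : G → ℂ) y - (ζ₄ : G → ℂ) y = 0 := by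
    intro a b c hab hac hbc hmem hat hbt hs ha hc
    have ham := hu a ((hmem a).2 (by tauto))
    have hbm := hu b ((hmem b).2 (by tauto))
    have hcm := hu c ((hmem c).2 (by tauto))
    refine ⟨a, b, c, u b, hbm.1, fun h => hat (Subtype.ext h), fun h => hbt (Subtype.ext h),
      hab, hac, hbc, ?_, ?_, ?_, hbm.2.2.1, ?_, ?_⟩
    · ext χ
      rw [hmem χ]
      constructor
      · rintro (h | h | h | h)
        · left; rw [h]; rfl
        · right; left; exact h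
        · right; right; left; exact h
        · right; right; right; exact h
      · rintro (h | h | h | h)
        · left; exact Subtype.ext h
        · right; left; exact h
        · right; right; left; exact h
        · right; right; right; exact h
    · intro z hz
      refine ⟨?_, hbm.2.1 z hz, ?_⟩
      · rw [ham.2.1 z hz, ha]; simp
      · rw [hcm.2.1 z hz, hc]; simp
    · have := ham.2.2.1; rwa [ha] at this
    · have := hcm.2.2.1
      rw [hc] at this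
      simpa using this
    · intro y hy
      have h1 := hs y (by rw [← even_iff_two_dvd, Nat.not_even_iff_odd]; exact hy)
      rw [ha, hc] at h1
      push_cast at h1
      linear_combination h1
  have h1 := hs 1 (by rw [orderOf_one]; norm_num)
  rw [← charDegree_cast (isChar_of_irr a.2), ← charDegree_cast (isChar_of_irr b.2),
    ← charDegree_cast (isChar_of_irr c.2)] at h1
  have h1' : 1 + (u a * (charDegree a.1 : ℤ) + (u b * (charDegree b.1 : ℤ) + u c * (charDegree c.1 : ℤ))) = 0 := by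
    exact_mod_cast h1
  have hda := charDegree_pos a.2
  have hdb := charDegree_pos b.2
  have hdc := charDegree_pos c.2
  have hat := hnt a (by tauto)
  have hbt := hnt b (by tauto)
  have hct := hnt c (by tauto)
  rcases (hu a ham).1 with ha | ha <;> rcases (hu b hbm).1 with hb | hb <;>
    rcases (hu c hcm).1 with hc | hc
  · rw [ha, hb, hc] at h1'; omega
  · exact key a b c hab hac hbc hmem hat hbt hs ha hc
  · exact key a c b hac hab hbc.symm (fun χ => by rw [hmem χ]; tauto) hat hct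
      (fun y hy => by linear_combination hs y hy) ha hb
  · exact key a b c hab hac hbc hmem hat hbt hs ha hc
  · exact key b c a hbc hab.symm hac.symm (fun χ => by rw [hmem χ]; tauto) hbt hct
      (fun y hy => by linear_combination hs y hy) hb ha
  · exact key b c a hbc hab.symm hac.symm (fun χ => by rw [hmem χ]; tauto) hbt hct
      (fun y hy => by linear_combination hs y hy) hb ha
  · exact key c b a hbc.symm hac.symm hab.symm (fun χ => by rw [hmem χ]; tauto) hct hbt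
      (fun y hy => by linear_combination hs y hy) hc ha
  · rw [ha, hb, hc] at h1'; omega

end Cfsg.Agent.S0948
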