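import Cfsg.Statements.S0951
import Mathlib
import Cfsg.Agent.Lib.BSuzJ
import Cfsg.Agent.Lib.QuatApp
import Cfsg.Agent.Lib.ZStarE

set_option autoImplicit false
open Cfsg

namespace Cfsg.Agent.S0951

/-- Let S be a Sylow 2-subgroup of the finite group G isomorphic to the quaternion group of order 8. Suppose G has no nontrivial normal subgroup of odd order and G ≠ S. Then, relative to any maximal ideal M of the algebraic integers containing 2, the principal block of G consists of exactly 7 irreducible characters. -/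
theorem result {G : Type*} [Group G] [Finite G] (M : Ideal Cfsg.AlgInt) (hM : Cfsg.IsPModular 2 M) (S : Sylow 2 G) (e : (S : Subgroup G) ≃* QuaternionGroup 2) (hO : ∀ N : Subgroup G, N.Normal → Odd (Nat.card N) → N = ⊥) (hG : (S : Subgroup G) ≠ ⊤) : Nat.card (Cfsg.principalBlock M G) = 7 := by
  obtain ⟨a, b, h⟩ := Cfsg.Agent.Lib.QuatApp.qs_of_equiv S (k := 1) le_rfl e
  have hO' : Cfsg.pPrimeCore 2 G = ⊥ :=
    hO _ (Cfsg.Agent.Lib.Cores.pPrimeCore_normal (G := G) 2) Cfsg.Agent.Lib.ZStar.core_two_odd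
  have hui : Cfsg.Agent.Lib.BSuz.UI S (a ^ 2) := by
    have : Cfsg.Agent.Lib.BSuz.UI S (a ^ (2 ^ 1)) :=
      ⟨h.zle h.z_mem, h.z_ne, h.z_sq, fun x hx hx2 hx1 => h.eq_z hx hx2 hx1⟩
    rwa [pow_one] at this
  have hcen : ∀ g : G, Commute (a ^ 2) g := by
    intro g
    have h1 := Cfsg.Agent.Lib.ZStar.zstar_unique hui g
    rw [hO', Subgroup.mem_bot] at h1
    change a ^ 2 * g = g * a ^ 2
    calc a ^ 2 * g = (a ^ 2 * g * (a ^ 2)⁻¹ * g⁻¹) * (g * a ^ 2) := by group
      _ = g * a ^ 2 := by rw [h1, one_mul]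
  have hn : ¬ Cfsg.Agent.Lib.PNilp.PNil 2 G := by
    intro hP
    obtain ⟨k, hk⟩ := Cfsg.Agent.Lib.PNilp.pNil_iff_core.mp hP
    rw [hO', Subgroup.index_bot] at hk
    apply hG
    have hp : IsPGroup 2 G := IsPGroup.of_card hk
    exact (S.is_maximal' (hp.to_subgroup ⊤) le_top).symm
  have hloc : Cfsg.Agent.Lib.BSuz.Loc S a b := by
    refine ⟨h, hcen, ?_⟩
    intro s hs hs2
    obtain ⟨d, -, hd⟩ := Cfsg.Agent.Lib.BSuz.q8_fusion h hn hs hs2
    exact isConj_iff.mpr ⟨d, hd⟩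
  have h7 := hloc.card_B0 hM
  classical
  haveI := Fintype.ofFinite G
  rw [← h7]
  have h8 : (↑(Cfsg.Agent.Lib.BSuz.B0 M G) : Set (Cfsg.IrrCharacter G)) = Cfsg.principalBlock M G := by
    ext χ
    rw [Finset.mem_coe]
    exact Cfsg.Agent.Lib.BSuz.mem_B0
  rw [← h8]
  exact Nat.card_eq_card_toFinset _ |>.trans (by simp)

end Cfsg.Agent.S0951
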