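import Cfsg.Statements.S0952
import Cfsg.Agent.Lib.BlockOrth

set_option autoImplicit false
open scoped ComplexConjugate
open Cfsg

namespace Cfsg.Agent.S0952

/-- Let χ and ψ be irreducible characters of the finite group G lying in different blocks relative to a maximal ideal M of the algebraic integers containing the prime p. Then the sum of χ x * conj (ψ x) over the elements x of order prime to p is zero. -/
theorem result {G : Type*} [Group G] [Finite G] (p : ℕ) [Fact p.Prime] (M : Ideal Cfsg.AlgInt) (hM : Cfsg.IsPModular p M) (χ ψ : Cfsg.IrrCharacter G) (h : ¬ Cfsg.SameBlock M (χ : G → ℂ) (ψ : G → ℂ)) : ∑ᶠ x ∈ {x : G | ¬ p ∣ orderOf x}, (χ : G → ℂ) x * conj ((ψ : G → ℂ) x) = 0 := by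
  classical
  cases nonempty_fintype G
  have hp := hM.1
  have h1 := Cfsg.Agent.Lib.BlockOrth.inner_section_eq_zero hM (χ := χ) (ψ := ψ)
    (B := blockOf M (ψ : G → ℂ))
    (Cfsg.Agent.Lib.BlockIdem.isLoc_eB hM (Cfsg.Agent.Lib.BlockIdem.isPBlock_blockOf M ψ))
    (fun hh => h (Cfsg.Agent.Lib.BlockIdem.sameBlock_symm hM hh))
    (Cfsg.Agent.Lib.BlockIdem.self_mem_blockOf hM ψ) {x : G | ¬ p ∣ orderOf x} (by
      intro g h hc
      change (¬ p ∣ orderOf g) ↔ (¬ p ∣ orderOf h)
      rw [← Cfsg.Agent.Lib.BlockPP.pp_eq_one_iff hp, ← Cfsg.Agent.Lib.BlockPP.pp_eq_one_iff hp]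
      constructor
      · intro h1; rw [h1, isConj_one_right] at hc; exact hc
      · intro h1; rw [h1, isConj_one_left] at hc; exact hc)
  rw [← h1, finsum_mem_eq_finite_toFinset_sum _ (Set.toFinite _)]
  refine Finset.sum_congr ?_ fun χ _ => rfl
  ext χ
  simp

end Cfsg.Agent.S0952
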