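import Cfsg.Statements.S0955
import Cfsg.Agent.Lib.BlockMoreB
import Cfsg.Agent.Lib.Cores

set_option autoImplicit false
set_option linter.style.haveILetI false
set_option linter.unusedVariables false
open Cfsg

namespace Cfsg.Agent.S0955
open Cfsg.Agent.Lib.BlockMoreB Cfsg.Agent.Lib.BlockMore Cfsg.Agent.Lib.BlockQuotB Cfsg.Agent.Lib.BlockQuot Cfsg.Agent.Lib.BlockCov Cfsg.Agent.Lib.BlockM Cfsg.Agent.Lib.BlockHt Cfsg.Agent.Lib.BlockFirst Cfsg.Agent.Lib.BlockSecond Cfsg.Agent.Lib.BlockInd Cfsg.Agent.Lib.BlockNP Cfsg.Agent.Lib.BlockDeg Cfsg.Agent.Lib.BlockDef Cfsg.Agent.Lib.BlockRed Cfsg.Agent.Lib.BlockOrth Cfsg.Agent.Lib.BlockIdem Cfsg.Agent.Lib.BlockGA Cfsg.Agent.Lib.BlockLoc Cfsg.Agent.Lib.CharBasic Cfsg.Agent.Lib.BlockPP Cfsg.Agent.Lib.CharPerm Cfsg.Agent.Lib.CharPermB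
open scoped ComplexConjugate



/-- Let D be a defect group of a block of the finite group G relative to a maximal ideal M of the algebraic integers containing the prime p. Then D is the largest normal p-subgroup of its own normalizer: O_p(N_G(D)) = D. -/
theorem result {G : Type*} [Group G] [Finite G] (p : ℕ) [Fact p.Prime] (M : Ideal Cfsg.AlgInt) (hM : Cfsg.IsPModular p M) (B : Set (Cfsg.IrrCharacter G)) (hB : Cfsg.IsPBlock M B) (D : Subgroup G) (hD : Cfsg.IsDefectGroup p M B D) : (Cfsg.pCore p (Subgroup.normalizer (D : Set G))).map (Subgroup.normalizer (D : Set G)).subtype = D := by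
  obtain ⟨b, hb⟩ := exists_block_inducing' hM (H := Subgroup.normalizer (D : Set G))
    Subgroup.le_normalizer (Subgroup.centralizer_le_normalizer (D : Set G))
    (nrm_of_le_normalizer le_rfl) hB hD
  have hbD : IsDefectGroup p M b (D.subgroupOf (Subgroup.normalizer (D : Set G))) :=
    defectGroup_of_inducing hM Subgroup.le_normalizer (nrm_of_le_normalizer le_rfl) hb hD
  haveI : (pCore p (Subgroup.normalizer (D : Set G))).Normal :=
    Cfsg.Agent.Lib.Cores.pCore_normal p
  have h1 : pCore p (Subgroup.normalizer (D : Set G)) ≤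
      D.subgroupOf (Subgroup.normalizer (D : Set G)) :=
    normal_le_defectGroup hM hb.1 hbD (Cfsg.Agent.Lib.Cores.pCore_isPGroup p)
  haveI hDn : (D.subgroupOf (Subgroup.normalizer (D : Set G))).Normal :=
    Subgroup.normal_in_normalizer
  have h2 : D.subgroupOf (Subgroup.normalizer (D : Set G)) ≤
      pCore p (Subgroup.normalizer (D : Set G)) :=
    Cfsg.Agent.Lib.Cores.le_pCore hDn (isPGroup_of_isDefectGroup hM hbD)
  rw [le_antisymm h1 h2, Subgroup.subgroupOf_map_subtype]
  exact inf_eq_left.2 Subgroup.le_normalizer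

end Cfsg.Agent.S0955
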