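import Cfsg.Statements.S0957
import Cfsg.Agent.Lib.BlockMoreB

set_option autoImplicit false
set_option linter.style.haveILetI false
set_option linter.unusedVariables false
open Cfsg

namespace Cfsg.Agent.S0957
open Cfsg.Agent.Lib.BlockMoreB Cfsg.Agent.Lib.BlockMore Cfsg.Agent.Lib.BlockQuotB Cfsg.Agent.Lib.BlockQuot Cfsg.Agent.Lib.BlockCov Cfsg.Agent.Lib.BlockM Cfsg.Agent.Lib.BlockHt Cfsg.Agent.Lib.BlockFirst Cfsg.Agent.Lib.BlockSecond Cfsg.Agent.Lib.BlockInd Cfsg.Agent.Lib.BlockNP Cfsg.Agent.Lib.BlockDeg Cfsg.Agent.Lib.BlockDef Cfsg.Agent.Lib.BlockRed Cfsg.Agent.Lib.BlockOrth Cfsg.Agent.Lib.BlockIdem Cfsg.Agent.Lib.BlockGA Cfsg.Agent.Lib.BlockLoc Cfsg.Agent.Lib.CharBasic Cfsg.Agent.Lib.BlockPP Cfsg.Agent.Lib.CharPerm Cfsg.Agent.Lib.CharPermB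
open scoped ComplexConjugate



/-- Let P be a Sylow p-subgroup of the finite group G, let g, h ∈ G and let p ^ d be the order of a Sylow p-subgroup of the centralizer of g. Then the number of pairs (y, z) with y conjugate to g, z conjugate to h and z * y⁻¹ ∈ P is divisible by the order of P divided by p ^ d. -/
theorem result {G : Type*} [Group G] [Finite G] (p : ℕ) [Fact p.Prime] (P : Sylow p G) (g h : G) (S : Sylow p (Subgroup.centralizer ({g} : Set G))) : Nat.card P / Nat.card S ∣ Nat.card {yz : G × G // IsConj g yz.1 ∧ IsConj h yz.2 ∧ yz.2 * yz.1⁻¹ ∈ (P : Subgroup G)} := by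
  classical
  letI act : MulAction (P : Subgroup G) {yz : G × G // IsConj g yz.1 ∧ IsConj h yz.2 ∧
      yz.2 * yz.1⁻¹ ∈ (P : Subgroup G)} :=
    { smul := fun u yz => ⟨((u : G) * yz.1.1 * (u : G)⁻¹, (u : G) * yz.1.2 * (u : G)⁻¹), by
        obtain ⟨⟨y, z⟩, h1, h2, h3⟩ := yz
        refine ⟨(isConj_conj_right g y u).2 h1, (isConj_conj_right h z u).2 h2, ?_⟩
        have : (u : G) * z * (u : G)⁻¹ * ((u : G) * y * (u : G)⁻¹)⁻¹ =
          (u : G) * (z * y⁻¹) * (u : G)⁻¹ := by group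
        change (u : G) * z * (u : G)⁻¹ * ((u : G) * y * (u : G)⁻¹)⁻¹ ∈ (P : Subgroup G)
        rw [this]
        exact (P : Subgroup G).mul_mem ((P : Subgroup G).mul_mem u.2 h3)
          ((P : Subgroup G).inv_mem u.2)⟩
      one_smul := fun yz => by
        apply Subtype.ext
        change (((1 : (P : Subgroup G)) : G) * yz.1.1 * ((1 : (P : Subgroup G)) : G)⁻¹,
          ((1 : (P : Subgroup G)) : G) * yz.1.2 * ((1 : (P : Subgroup G)) : G)⁻¹) = yz.1
        simp
      mul_smul := fun u v yz => by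
        apply Subtype.ext
        change (((u * v : (P : Subgroup G)) : G) * yz.1.1 * ((u * v : (P : Subgroup G)) : G)⁻¹,
          ((u * v : (P : Subgroup G)) : G) * yz.1.2 * ((u * v : (P : Subgroup G)) : G)⁻¹) =
          ((u : G) * ((v : G) * yz.1.1 * (v : G)⁻¹) * (u : G)⁻¹,
          (u : G) * ((v : G) * yz.1.2 * (v : G)⁻¹) * (u : G)⁻¹)
        push_cast
        refine Prod.ext ?_ ?_ <;> simp only <;> group }
  haveI : Fintype (P : Subgroup G) := Fintype.ofFinite _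
  haveI : Fintype {yz : G × G // IsConj g yz.1 ∧ IsConj h yz.2 ∧
      yz.2 * yz.1⁻¹ ∈ (P : Subgroup G)} := Fintype.ofFinite _
  haveI : Fintype (MulAction.orbitRel.Quotient (P : Subgroup G)
    {yz : G × G // IsConj g yz.1 ∧ IsConj h yz.2 ∧ yz.2 * yz.1⁻¹ ∈ (P : Subgroup G)}) :=
    Fintype.ofFinite _
  have h1 := sum_eq_sum_orbits (P := (P : Subgroup G)) (X := {yz : G × G // IsConj g yz.1 ∧
    IsConj h yz.2 ∧ yz.2 * yz.1⁻¹ ∈ (P : Subgroup G)}) (A := ℕ) (fun _ => 1) (fun _ _ => rfl)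
  rw [Finset.sum_const, Finset.card_univ, smul_eq_mul, mul_one, ← Nat.card_eq_fintype_card] at h1
  rw [h1]
  apply Finset.dvd_sum
  intro ω _
  rw [smul_eq_mul, mul_one]
  generalize Quotient.out ω = w
  obtain ⟨⟨y, z⟩, hy, hz, hyz⟩ := w
  -- the stabilizer embeds in `C(y)`
  set St := MulAction.stabilizer (P : Subgroup G) (⟨(y, z), hy, hz, hyz⟩ : {yz : G × G //
    IsConj g yz.1 ∧ IsConj h yz.2 ∧ yz.2 * yz.1⁻¹ ∈ (P : Subgroup G)}) with hSt
  have hStp : IsPGroup p (St.map (P : Subgroup G).subtype) :=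
    (P.isPGroup'.to_subgroup St).map _
  have hcomm : ∀ q ∈ St.map (P : Subgroup G).subtype, Commute q y := by
    rintro _ ⟨u, hu, rfl⟩
    have h2 : u • (⟨(y, z), hy, hz, hyz⟩ : {yz : G × G //
      IsConj g yz.1 ∧ IsConj h yz.2 ∧ yz.2 * yz.1⁻¹ ∈ (P : Subgroup G)}) = ⟨(y, z), hy, hz, hyz⟩ := hu
    have h3 : (u : G) * y * (u : G)⁻¹ = y := congrArg (fun w => w.1.1) h2
    have h4 : (u : G) * y = y * u := by
      rw [mul_inv_eq_iff_eq_mul] at h3; exact h3
    exact h4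
  obtain ⟨E, hE, hStE⟩ := exists_isSyl_ge hStp hcomm
  have hcE := card_isSyl hE
  have hcS : Nat.card S = p ^ (Nat.card (Subgroup.centralizer ({g} : Set G))).factorization p :=
    S.card_eq_multiplicity
  have hcc : Nat.card (Subgroup.centralizer ({g} : Set G)) =
      Nat.card (Subgroup.centralizer ({y} : Set G)) := by
    obtain ⟨k, hk⟩ := isConj_iff.1 hy
    rw [card_cent_conj g k, hk]
  have hES : Nat.card E = Nat.card S := by rw [hcE, hcS, hcc]
  have hdvd : Nat.card St ∣ Nat.card S := by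
    rw [← hES]
    have h5 : Nat.card St = Nat.card (St.map (P : Subgroup G).subtype) :=
      Nat.card_congr (St.equivMapOfInjective _ (P : Subgroup G).subtype_injective).toEquiv
    rw [h5]
    exact Subgroup.card_dvd_of_le hStE
  have hSP : Nat.card S ∣ Nat.card P := by
    rw [hcS]
    have h6 : Nat.card P = p ^ (Nat.card G).factorization p := P.card_eq_multiplicity
    rw [h6]
    apply Nat.pow_dvd_pow
    have := fac_card_eq (p := p) g
    omega
  obtain ⟨a, ha⟩ := hdvd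
  obtain ⟨c, hc⟩ := hSP
  have hS0 : 0 < Nat.card S := Nat.card_pos
  have hSt0 : 0 < Nat.card St := Nat.card_pos
  rw [hc, Nat.mul_div_cancel_left _ hS0, ha, mul_assoc, Nat.mul_div_cancel_left _ hSt0]
  exact dvd_mul_left _ _

end Cfsg.Agent.S0957
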