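import Cfsg.Statements.S4441
import Cfsg.Agent.Lib.BlkH7P

set_option autoImplicit false
set_option linter.style.haveILetI false
set_option linter.unusedVariables false
open Cfsg

namespace Cfsg.Agent.S4441
open Cfsg.Agent.Lib.BlkH7P Cfsg.Agent.Lib.BlockRey Cfsg.Agent.Lib.BlockPC Cfsg.Agent.Lib.BlockRk Cfsg.Agent.Lib.BlockInt Cfsg.Agent.Lib.BlockIndIn Cfsg.Agent.Lib.BlockMaxB Cfsg.Agent.Lib.BlockMax Cfsg.Agent.Lib.BlockNilC Cfsg.Agent.Lib.BlockNilB Cfsg.Agent.Lib.BlockNil Cfsg.Agent.Lib.BlockFusB Cfsg.Agent.Lib.BlockFus Cfsg.Agent.Lib.BlockPairF Cfsg.Agent.Lib.BlockPairE Cfsg.Agent.Lib.BlockPairD Cfsg.Agent.Lib.BlockPairC Cfsg.Agent.Lib.BlockPairB Cfsg.Agent.Lib.BlockPair Cfsg.Agent.Lib.BlockBP Cfsg.Agent.Lib.BlockCovB Cfsg.Agent.Lib.BlockTr Cfsg.Agent.Lib.BlockMoreB Cfsg.Agent.Lib.BlockMore Cfsg.Agent.Lib.BlockQuotB Cfsg.Agent.Lib.BlockQuot Cfsg.Agent.Lib.BlockCov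 Cfsg.Agent.Lib.BlockM Cfsg.Agent.Lib.BlockHt Cfsg.Agent.Lib.BlockFirst Cfsg.Agent.Lib.BlockSecond Cfsg.Agent.Lib.BlockInd Cfsg.Agent.Lib.BlockNP Cfsg.Agent.Lib.BlockDeg Cfsg.Agent.Lib.BlockDef Cfsg.Agent.Lib.BlockRed Cfsg.Agent.Lib.BlockOrth Cfsg.Agent.Lib.BlockIdem Cfsg.Agent.Lib.BlockGA Cfsg.Agent.Lib.BlockLoc Cfsg.Agent.Lib.CharBasic Cfsg.Agent.Lib.BlockPP Cfsg.Agent.Lib.CharNormal Cfsg.Agent.Lib.CharPerm Cfsg.Agent.Lib.CharPermB Cfsg.Agent.Lib.BlockSum Cfsg.Agent.Lib.BlockKB Cfsg.Agent.Lib.BlockLar Cfsg.Agent.Lib.BlockBFM Cfsg.Agent.Lib.BlkH6L Cfsg.Agent.Lib.BlkH6K Cfsg.Agent.Lib.BlkH6J Cfsg.Agent.Lib.BlkH6I Cfsg.Agent.Lib.BlkH6H Cfsg.Agent.Lib.BlkH6G Cfsg.Agent.Lib.BlkH5T Cfsg.Agent.Lib.BlkH5Q Cfsg.Agent.Lib.BlkH5P Cfsg.Agent.Lib.BlkH5O Cfsg.Agent.Lib.BlkH5N Cfsg.Agent.Lib.BlkH5A Cfsg.Agent.Lib.BlkH5G Cfsg.Agent.Lib.BlkH5B Cfsg.Agent.Lib.BlkH5C Cfsg.Agent.Lib.BlkH5D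 Cfsg.Agent.Lib.BlkH5E Cfsg.Agent.Lib.BlkH5F Cfsg.Agent.Lib.BlkH5L Cfsg.Agent.Lib.BlkH5M Cfsg.Agent.Lib.BlkH5R Cfsg.Agent.Lib.BlkH5S Cfsg.Agent.Lib.BlkH5U Cfsg.Agent.Lib.BlkH5V Cfsg.Agent.Lib.BlkH5W Cfsg.Agent.Lib.BlkH5X Cfsg.Agent.Lib.BlkH6F Cfsg.Agent.Lib.BlkH6N Cfsg.Agent.Lib.BlkH6M Cfsg.Agent.Lib.BlkH6D Cfsg.Agent.Lib.BlkH6C Cfsg.Agent.Lib.BlkH6B Cfsg.Agent.Lib.BlkH6A Cfsg.Agent.Lib.BlkH5Y Cfsg.Agent.Lib.BlkH7C Cfsg.Agent.Lib.BlkH7A Cfsg.Agent.Lib.BlkH7B Cfsg.Agent.Lib.BlkH7E Cfsg.Agent.Lib.BlkH7D Cfsg.Agent.Lib.BlkH7F Cfsg.Agent.Lib.BlkH7G Cfsg.Agent.Lib.BlkH6P Cfsg.Agent.Lib.BlkH6O Cfsg.Agent.Lib.BlkH7H Cfsg.Agent.Lib.BlkH7I Cfsg.Agent.Lib.BlkH7J Cfsg.Agent.Lib.BlkH7K Cfsg.Agent.Lib.BlkH7L Cfsg.Agent.Lib.BlkH7M Cfsg.Agent.Lib.BlkH7N Cfsg.Agent.Lib.BlkH7O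
open scoped ComplexConjugate



/-- Let p be an odd prime and G a finite group whose Sylow p-subgroup P has order p; let C = C_G(P), N = N_G(P), e the index of C in N and t = (p − 1)/e; fix a maximal ideal M of the algebraic integers containing p and let B₀ be the principal block. Then B₀ is the disjoint union of a set X of e characters and a set Y of t characters such that: each χ ∈ X has a sign ε_χ with χ(1) ≡ ε_χ (mod p) and χ(x y) = ε_χ for every non-identity x ∈ P and every p-regular y ∈ C; all members of Y agree on the p-regular elements of G; there is one sign ε with θ(1) ≡ ε e (mod p) for every θ ∈ Y; and for every θ ∈ Y and every p-regular g, ε θ(g) = Σ_{χ ∈ X} ε_χ χ(g). -/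
theorem result {G : Type*} [Group G] [Fintype G] (p : ℕ) [Fact p.Prime] (M : Ideal Cfsg.AlgInt) (hM : Cfsg.IsPModular p M) (hodd : p ≠ 2) (P : Sylow p G) (hP : Nat.card P = p) (e : ℕ) (he : (Subgroup.centralizer ((P : Subgroup G) : Set G)).relIndex (Subgroup.normalizer ((P : Subgroup G) : Set G)) = e) : ∃ X Y : Set (Cfsg.IrrCharacter G), Cfsg.principalBlock M G = X ∪ Y ∧ Disjoint X Y ∧ Nat.card X = e ∧ Nat.card Y = (p - 1) / e ∧ ∃ (εX : Cfsg.IrrCharacter G → ℤ) (ε : ℤ), (∀ χ ∈ X, (εX χ = 1 ∨ εX χ = -1) ∧ (Cfsg.charDegree (χ : G → ℂ) : ℤ) ≡ εX χ [ZMOD p] ∧ ∀ x : G, x ∈ (P : Subgroup G) → x ≠ 1 → ∀ y : G, y ∈ Subgroup.centralizer ((P : Subgroup G) : Set G) → ¬ p ∣ orderOf y → (χ : G → ℂ) (x * y) = (εX χ : ℂ)) ∧ (ε = 1 ∨ ε = -1) ∧ (∀ θ ∈ Y, (Cfsg.charDegree (θ : G → ℂ) : ℤ) ≡ ε * (e : ℤ) [ZMOD p]) ∧ (∀ θ ∈ Y, ∀ θ' ∈ Y, ∀ g : G, ¬ p ∣ orderOf g → (θ : G → ℂ) g =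 (θ' : G → ℂ) g) ∧ ∀ θ ∈ Y, ∀ g : G, ¬ p ∣ orderOf g → (ε : ℂ) * (θ : G → ℂ) g = ∑ᶠ χ ∈ X, (εX χ : ℂ) * (χ : G → ℂ) g := by
  classical
  have hp : p.Prime := hM.1
  obtain ⟨H, g, c⟩ := exists_cfg P hP
  have hS : ∃ S : Sylow p G, (S : Subgroup G) = (P : Subgroup G) := ⟨P, rfl⟩
  haveI : Fintype (P : Subgroup G) := Fintype.ofFinite _
  haveI : Fintype (phi c).ker := Fintype.ofFinite _
  set θ : IrrCharacter (phi c).ker := triv (phi c).ker with hθ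
  have hPp : IsPGroup p (P : Subgroup G) := P.2
  have hind : IsInducedBlock M (Subgroup.centralizer ((P : Subgroup G) : Set G))
      (principalBlock M _) (principalBlock M G) := by
    obtain ⟨B', hB'⟩ := exists_induced_cent hM hPp
      (principal_isPBlock M (Subgroup.centralizer ((P : Subgroup G) : Set G)))
    rwa [(third_main hM hB').2 rfl] at hB'
  have hov : Ovj (jC c) (triv _) θ := by
    rw [ovj_def]
    have : classInner (fun k => (triv (Subgroup.centralizer ((P : Subgroup G) : Set G))).1 (jC c k))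
        θ.1 = 1 := irr_inner_self isIrr_trivial
    rw [this]
    exact one_ne_zero
  have hIP : IP c θ = principalBlock M G := IP_eq hM c hS (principal_isPBlock M _) (triv_mem hM)
    hov hind (principal_isPBlock M G) (principal_defect hM P)
  have hcj : ∀ x : H, cjI x θ = θ := fun x => Subtype.ext rfl
  have hin : ∀ x : H, x ∈ Cfsg.Agent.Lib.CharClifford.inertia θ.1 := fun x => congrArg Subtype.val (hcj x)
  have hidx : (Cfsg.Agent.Lib.CharClifford.inertia θ.1).index = 1 := by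
    rw [Subgroup.index_eq_one, eq_top_iff]
    exact fun x _ => hin x
  have hdeg : charDegree θ.1 = 1 := charDegree_eq (by rw [Nat.cast_one]; rfl)
  have hcard : Nat.card ((Cfsg.Agent.Lib.CharClifford.inertia θ.1).map (phi c)) = e := by
    rw [← he]
    exact (relIndex_between c (T := Subgroup.normalizer ((P : Subgroup G) : Set G))
      (Subgroup.centralizer_le_normalizer _) le_rfl
      (fun h => ⟨fun _ => c.HN h.2, fun _ => hin h⟩)).symm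
  have he0 : 0 < e := by rw [← hcard]; exact Nat.card_pos
  letI := cg (P : Subgroup G) (Cfg_comm c)
  haveI : Fintype ((Cfsg.Agent.Lib.CharClifford.inertia θ.1).map (phi c)) := Fintype.ofFinite _
  obtain ⟨X, Y, a, δ, hStr, hXY⟩ := defect_one hM c hS θ
  rw [hIP] at hXY
  have hXI : ∀ χ ∈ X, χ ∈ IP c θ := fun χ hχ => by rw [hIP, hXY]; exact Or.inl hχ
  have hXdeg : ∀ χ ∈ X, (charDegree χ.1 : ℤ) ≡ a χ * 1 [ZMOD p] := by
    intro χ hχ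
    have h1 := X_degree hM c hS (hXI χ hχ) (hStr.DX χ hχ)
    rwa [hidx, hdeg] at h1
  have hcX : Nat.card X = e := hStr.cX.trans hcard
  refine ⟨X, Y, hXY, hStr.disj, hcX, ?_, a, δ, ?_, hStr.hδ, ?_, ?_, ?_⟩
  · have h1 := hStr.cY
    rw [hcard, hP] at h1
    exact cX_sub he0 h1
  · intro χ hχ
    refine ⟨hStr.ha χ hχ, ?_, ?_⟩
    · have := hXdeg χ hχ
      rwa [mul_one] at this
    · intro x hx hx1 y hy hyp
      obtain ⟨k, rfl⟩ := reg_mem c hp hy hyp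
      have hx1' : (⟨x, hx⟩ : (P : Subgroup G)) ≠ 1 := fun h => hx1 (congrArg Subtype.val h)
      have h1 := value_eq c hS χ ⟨x, hx⟩ k
      rw [Finset.sum_eq_single θ] at h1
      · rw [hStr.DX χ hχ _ hx1'] at h1
        exact h1.trans (mul_one _)
      · intro θ' _ hne
        have h2 : DP c θ' χ.1 ⟨x, hx⟩ = 0 := by
          by_contra hn
          obtain ⟨z, hz⟩ := orbit_of hM c hS (hXI χ hχ) ⟨_, hx1', hn⟩
          exact hne (hz.trans (hcj z))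
        rw [h2, zero_mul]
      · intro h; exact absurd (Finset.mem_univ _) h
  · intro η hη
    have h1 := Y_degree c hS hStr.rel hStr.ha hStr.hδ hXdeg hη
    rwa [hcX, mul_one] at h1
  · intro η hη η' hη' g hg
    have h1 := hStr.rel (fun χ => χ.1 g) (fun u hu => rel_reg c hS θ hu hg)
    have h2 := h1 η hη
    rw [← h1 η' hη'] at h2
    have h3 : (δ : ℂ) ≠ 0 := by
      rcases hStr.hδ with h | h <;> rw [h] <;> simp
    exact mul_left_cancel₀ h3 h2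
  · intro η hη g hg
    exact hStr.rel (fun χ => χ.1 g) (fun u hu => rel_reg c hS θ hu hg) η hη

end Cfsg.Agent.S4441
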