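import Cfsg.Statements.S0960
import Cfsg.Agent.Lib.BlkH7P
import Cfsg.Agent.S4441

set_option autoImplicit false
set_option linter.style.haveILetI false
set_option linter.unusedVariables false
open Cfsg

namespace Cfsg.Agent.S0960
open Cfsg.Agent.Lib.BlkH7P Cfsg.Agent.Lib.BlockRey Cfsg.Agent.Lib.BlockPC Cfsg.Agent.Lib.BlockRk Cfsg.Agent.Lib.BlockInt Cfsg.Agent.Lib.BlockIndIn Cfsg.Agent.Lib.BlockMaxB Cfsg.Agent.Lib.BlockMax Cfsg.Agent.Lib.BlockNilC Cfsg.Agent.Lib.BlockNilB Cfsg.Agent.Lib.BlockNil Cfsg.Agent.Lib.BlockFusB Cfsg.Agent.Lib.BlockFus Cfsg.Agent.Lib.BlockPairF Cfsg.Agent.Lib.BlockPairE Cfsg.Agent.Lib.BlockPairD Cfsg.Agent.Lib.BlockPairC Cfsg.Agent.Lib.BlockPairB Cfsg.Agent.Lib.BlockPair Cfsg.Agent.Lib.BlockBP Cfsg.Agent.Lib.BlockCovB Cfsg.Agent.Lib.BlockTr Cfsg.Agent.Lib.BlockMoreB Cfsg.Agent.Lib.BlockMore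 Cfsg.Agent.Lib.BlockQuotB Cfsg.Agent.Lib.BlockQuot Cfsg.Agent.Lib.BlockCov Cfsg.Agent.Lib.BlockM Cfsg.Agent.Lib.BlockHt Cfsg.Agent.Lib.BlockFirst Cfsg.Agent.Lib.BlockSecond Cfsg.Agent.Lib.BlockInd Cfsg.Agent.Lib.BlockNP Cfsg.Agent.Lib.BlockDeg Cfsg.Agent.Lib.BlockDef Cfsg.Agent.Lib.BlockRed Cfsg.Agent.Lib.BlockOrth Cfsg.Agent.Lib.BlockIdem Cfsg.Agent.Lib.BlockGA Cfsg.Agent.Lib.BlockLoc Cfsg.Agent.Lib.CharBasic Cfsg.Agent.Lib.BlockPP Cfsg.Agent.Lib.CharNormal Cfsg.Agent.Lib.CharPerm Cfsg.Agent.Lib.CharPermB Cfsg.Agent.Lib.BlockSum Cfsg.Agent.Lib.BlockKB Cfsg.Agent.Lib.BlockLar Cfsg.Agent.Lib.BlockBFM Cfsg.Agent.Lib.BlkH6L Cfsg.Agent.Lib.BlkH6K Cfsg.Agent.Lib.BlkH6J Cfsg.Agent.Lib.BlkH6I Cfsg.Agent.Lib.BlkH6H Cfsg.Agent.Lib.BlkH6G Cfsg.Agent.Lib.BlkH5T Cfsg.Agent.Lib.BlkH5Q Cfsg.Agent.Lib.BlkH5P Cfsg.Agent.Lib.BlkH5O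 Cfsg.Agent.Lib.BlkH5N Cfsg.Agent.Lib.BlkH5A Cfsg.Agent.Lib.BlkH5G Cfsg.Agent.Lib.BlkH5B Cfsg.Agent.Lib.BlkH5C Cfsg.Agent.Lib.BlkH5D Cfsg.Agent.Lib.BlkH5E Cfsg.Agent.Lib.BlkH5F Cfsg.Agent.Lib.BlkH5L Cfsg.Agent.Lib.BlkH5M Cfsg.Agent.Lib.BlkH5R Cfsg.Agent.Lib.BlkH5S Cfsg.Agent.Lib.BlkH5U Cfsg.Agent.Lib.BlkH5V Cfsg.Agent.Lib.BlkH5W Cfsg.Agent.Lib.BlkH5X Cfsg.Agent.Lib.BlkH6F Cfsg.Agent.Lib.BlkH6N Cfsg.Agent.Lib.BlkH6M Cfsg.Agent.Lib.BlkH6D Cfsg.Agent.Lib.BlkH6C Cfsg.Agent.Lib.BlkH6B Cfsg.Agent.Lib.BlkH6A Cfsg.Agent.Lib.BlkH5Y Cfsg.Agent.Lib.BlkH7C Cfsg.Agent.Lib.BlkH7A Cfsg.Agent.Lib.BlkH7B Cfsg.Agent.Lib.BlkH7E Cfsg.Agent.Lib.BlkH7D Cfsg.Agent.Lib.BlkH7F Cfsg.Agent.Lib.BlkH7G Cfsg.Agent.Lib.BlkH6P Cfsg.Agent.Lib.BlkH6O Cfsg.Agent.Lib.BlkH7H Cfsg.Agent.Lib.BlkH7I Cfsg.Agent.Lib.BlkH7J Cfsg.Agent.Lib.BlkH7K Cfsg.Agent.Lib.BlkH7L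 Cfsg.Agent.Lib.BlkH7M Cfsg.Agent.Lib.BlkH7N Cfsg.Agent.Lib.BlkH7O
open scoped ComplexConjugate



/-- Let p be an odd prime and G a finite group whose Sylow p-subgroup P has order p; let e be the index of C_G(P) in N_G(P) (a divisor of p − 1) and fix a maximal ideal M of the algebraic integers containing p. Then the principal block of G consists of exactly e + (p - 1) / e irreducible characters, and the degree d of each of them satisfies d ≡ 1, d ≡ -1, d ≡ e or d ≡ -e modulo p. -/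
theorem result {G : Type*} [Group G] [Finite G] (p : ℕ) [Fact p.Prime] (M : Ideal Cfsg.AlgInt) (hM : Cfsg.IsPModular p M) (hodd : p ≠ 2) (P : Sylow p G) (hP : Nat.card P = p) (e : ℕ) (he : (Subgroup.centralizer ((P : Subgroup G) : Set G)).relIndex (Subgroup.normalizer ((P : Subgroup G) : Set G)) = e) : Nat.card (Cfsg.principalBlock M G) = e + (p - 1) / e ∧ ∀ χ ∈ Cfsg.principalBlock M G, ((Cfsg.charDegree (χ : G → ℂ) : ℤ) ≡ 1 [ZMOD p] ∨ (Cfsg.charDegree (χ : G → ℂ) : ℤ) ≡ -1 [ZMOD p] ∨ (Cfsg.charDegree (χ : G → ℂ) : ℤ) ≡ (e : ℤ) [ZMOD p] ∨ (Cfsg.charDegree (χ : G → ℂ) : ℤ) ≡ -(e : ℤ) [ZMOD p]) := by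
  classical
  cases nonempty_fintype G
  obtain ⟨X, Y, hXY, hdis, hcX, hcY, εX, ε, hX, hε, hY, -, -⟩ :=
    Cfsg.Agent.S4441.result p M hM hodd P hP e he
  constructor
  · have h1 : Set.ncard (X ∪ Y) = Set.ncard X + Set.ncard Y :=
      Set.ncard_union_eq hdis (Set.toFinite _) (Set.toFinite _)
    rw [hXY]
    have h2 : Nat.card ↑(X ∪ Y) = Nat.card X + Nat.card Y := h1
    rw [h2, hcX, hcY]
  · intro χ hχ
    rw [hXY] at hχ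
    rcases hχ with hχ | hχ
    · obtain ⟨h1, h2, -⟩ := hX χ hχ
      rcases h1 with h | h
      · rw [h] at h2
        exact Or.inl h2
      · rw [h] at h2
        exact Or.inr (Or.inl h2)
    · have h2 := hY χ hχ
      rcases hε with h | h
      · rw [h, one_mul] at h2
        exact Or.inr (Or.inr (Or.inl h2))
      · rw [h, neg_one_mul] at h2
        exact Or.inr (Or.inr (Or.inr h2))

end Cfsg.Agent.S0960
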