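import Cfsg.Statements.S0961
import Cfsg.Agent.Lib.BlockInt

set_option autoImplicit false
set_option linter.style.haveILetI false
set_option linter.unusedVariables false
open Cfsg

namespace Cfsg.Agent.S0961
open Cfsg.Agent.Lib.BlockInt Cfsg.Agent.Lib.BlockIndIn Cfsg.Agent.Lib.BlockMaxB Cfsg.Agent.Lib.BlockMax Cfsg.Agent.Lib.BlockNilC Cfsg.Agent.Lib.BlockNilB Cfsg.Agent.Lib.BlockNil Cfsg.Agent.Lib.BlockFusB Cfsg.Agent.Lib.BlockFus Cfsg.Agent.Lib.BlockPairF Cfsg.Agent.Lib.BlockPairE Cfsg.Agent.Lib.BlockPairD Cfsg.Agent.Lib.BlockPairC Cfsg.Agent.Lib.BlockPairB Cfsg.Agent.Lib.BlockPair Cfsg.Agent.Lib.BlockBP Cfsg.Agent.Lib.BlockCovB Cfsg.Agent.Lib.BlockTr Cfsg.Agent.Lib.BlockMoreB Cfsg.Agent.Lib.BlockMore Cfsg.Agent.Lib.BlockQuotB Cfsg.Agent.Lib.BlockQuot Cfsg.Agent.Lib.BlockCov Cfsg.Agent.Lib.BlockM Cfsg.Agent.Lib.BlockHt Cfsg.Agent.Lib.BlockFirst Cfsg.Agent.Lib.BlockSecond Cfsg.Agent.Lib.BlockInd Cfsg.Agent.Lib.BlockNP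 Cfsg.Agent.Lib.BlockDeg Cfsg.Agent.Lib.BlockDef Cfsg.Agent.Lib.BlockRed Cfsg.Agent.Lib.BlockOrth Cfsg.Agent.Lib.BlockIdem Cfsg.Agent.Lib.BlockGA Cfsg.Agent.Lib.BlockLoc Cfsg.Agent.Lib.CharBasic Cfsg.Agent.Lib.BlockPP Cfsg.Agent.Lib.CharNormal Cfsg.Agent.Lib.CharPerm Cfsg.Agent.Lib.CharPermB
open scoped ComplexConjugate



/-- Let χ be an irreducible character of the finite group G and let p ^ a be the largest power of the prime p dividing the order of G. Then the function equal to p ^ a * χ x at elements x of order prime to p and to 0 elsewhere is a generalized character (a difference of characters). -/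
theorem result {G : Type*} [Group G] [Finite G] (p : ℕ) [Fact p.Prime] (χ : Cfsg.IrrCharacter G) : Cfsg.IsGeneralizedCharacter G (fun x : G => if p ∣ orderOf x then 0 else ((p ^ (Nat.card G).factorization p : ℕ) : ℂ) * (χ : G → ℂ) x) := by
  cases nonempty_fintype G
  exact gen_reg Fact.out (isChar_of_irr χ.2)

end Cfsg.Agent.S0961
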