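import Cfsg.Statements.S0962
import Cfsg.Agent.Lib.BlkH5L

set_option autoImplicit false
set_option linter.style.haveILetI false
set_option linter.unusedVariables false
open Cfsg

namespace Cfsg.Agent.S0962
open Cfsg.Agent.Lib.BlkH5L Cfsg.Agent.Lib.BlockRey Cfsg.Agent.Lib.BlockPC Cfsg.Agent.Lib.BlockRk Cfsg.Agent.Lib.BlockInt Cfsg.Agent.Lib.BlockIndIn Cfsg.Agent.Lib.BlockMaxB Cfsg.Agent.Lib.BlockMax Cfsg.Agent.Lib.BlockNilC Cfsg.Agent.Lib.BlockNilB Cfsg.Agent.Lib.BlockNil Cfsg.Agent.Lib.BlockFusB Cfsg.Agent.Lib.BlockFus Cfsg.Agent.Lib.BlockPairF Cfsg.Agent.Lib.BlockPairE Cfsg.Agent.Lib.BlockPairD Cfsg.Agent.Lib.BlockPairC Cfsg.Agent.Lib.BlockPairB Cfsg.Agent.Lib.BlockPair Cfsg.Agent.Lib.BlockBP Cfsg.Agent.Lib.BlockCovB Cfsg.Agent.Lib.BlockTr Cfsg.Agent.Lib.BlockMoreB Cfsg.Agent.Lib.BlockMore Cfsg.Agent.Lib.BlockQuotB Cfsg.Agent.Lib.BlockQuot Cfsg.Agent.Lib.BlockCov Cfsg.Agent.Lib.BlockM Cfsg.Agent.Lib.BlockHt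 Cfsg.Agent.Lib.BlockFirst Cfsg.Agent.Lib.BlockSecond Cfsg.Agent.Lib.BlockInd Cfsg.Agent.Lib.BlockNP Cfsg.Agent.Lib.BlockDeg Cfsg.Agent.Lib.BlockDef Cfsg.Agent.Lib.BlockRed Cfsg.Agent.Lib.BlockOrth Cfsg.Agent.Lib.BlockIdem Cfsg.Agent.Lib.BlockGA Cfsg.Agent.Lib.BlockLoc Cfsg.Agent.Lib.CharBasic Cfsg.Agent.Lib.BlockPP Cfsg.Agent.Lib.CharNormal Cfsg.Agent.Lib.CharPerm Cfsg.Agent.Lib.CharPermB Cfsg.Agent.Lib.BlockSum Cfsg.Agent.Lib.BlockKB Cfsg.Agent.Lib.BlockLar Cfsg.Agent.Lib.BlockBFM Cfsg.Agent.Lib.BlkH5A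
open scoped ComplexConjugate



/-- Fix a maximal ideal M of the algebraic integers containing the prime p and a natural number d. The number of blocks of the finite group G of defect at least d is at most the number of conjugacy classes of p-regular elements of G of defect at least d, where the defect of a class is the exponent of p in the order of the centralizer of any of its elements. -/
theorem result {G : Type*} [Group G] [Finite G] (p : ℕ) [Fact p.Prime] (M : Ideal Cfsg.AlgInt) (hM : Cfsg.IsPModular p M) (d : ℕ) : Nat.card {B : Set (Cfsg.IrrCharacter G) // Cfsg.IsPBlock M B ∧ d ≤ Cfsg.blockDefect p B} ≤ Nat.card {C : ConjClasses G // ∃ g : G, ConjClasses.mk g = C ∧ Cfsg.IsPRegular p g ∧ d ≤ (Nat.card (Subgroup.centralizer ({g} : Set G))).factorization p} := by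
  refine card_le_of_supp hM (fun B => d ≤ blockDefect p B) (fun C => ∃ g : G, ConjClasses.mk g = C ∧
    IsPRegular p g ∧ d ≤ (Nat.card (Subgroup.centralizer ({g} : Set G))).factorization p) ?_
  intro B B' hB hd hB' hd' g χ hχ h1 h2
  obtain ⟨h3, h4⟩ := defect_ge_of_eF hM hB' h1
  have h5 := defect_le_of_cs hM hB hχ h2
  exact ⟨g, rfl, h3, hd.trans h5⟩

end Cfsg.Agent.S0962
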