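import Cfsg.Statements.S0965
import Cfsg.Agent.Lib.BlockCov

set_option autoImplicit false
open Cfsg

namespace Cfsg.Agent.S0965
open Cfsg.Agent.Lib.BlockCov Cfsg.Agent.Lib.BlockM Cfsg.Agent.Lib.BlockHt Cfsg.Agent.Lib.BlockFirst Cfsg.Agent.Lib.BlockSecond Cfsg.Agent.Lib.BlockInd Cfsg.Agent.Lib.BlockNP Cfsg.Agent.Lib.BlockDeg Cfsg.Agent.Lib.BlockDef Cfsg.Agent.Lib.BlockRed Cfsg.Agent.Lib.BlockOrth Cfsg.Agent.Lib.BlockIdem Cfsg.Agent.Lib.BlockGA Cfsg.Agent.Lib.BlockLoc Cfsg.Agent.Lib.CharBasic Cfsg.Agent.Lib.BlockPP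
open scoped ComplexConjugate



/-- Let N be a normal subgroup of the finite group G and let B, b be blocks of G and of N relative to a maximal ideal M of the algebraic integers containing the prime p. Then some χ ∈ B has a constituent in b on restriction to N if and only if, for all χ ∈ B, θ ∈ b and n ∈ N, the central character of χ at n is congruent modulo the local ideal at M to the sum of θ m / θ 1 over the elements m ∈ N conjugate in G to n. -/
theorem result {G : Type*} [Group G] [Fintype G] (p : ℕ) [Fact p.Prime] (M : Ideal Cfsg.AlgInt) (hM : Cfsg.IsPModular p M) (N : Subgroup G) [N.Normal] [Fintype N] (B : Set (Cfsg.IrrCharacter G)) (hB : Cfsg.IsPBlock M B) (b : Set (Cfsg.IrrCharacter N)) (hb : Cfsg.IsPBlock M b) : (∃ χ ∈ B, ∃ θ ∈ b, Cfsg.classInner (fun n : N => (χ : G → ℂ) n) (θ : N → ℂ) ≠ 0) ↔ ∀ χ ∈ B, ∀ θ ∈ b, ∀ n : N, Cfsg.MemLocalIdeal M (Cfsg.centralChar (χ : G → ℂ) (n : G) - Cfsg.inducedCentralChar N (θ :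 N → ℂ) (n : G)) := by
  obtain ⟨χ, hχ⟩ := block_nonempty hM hB
  obtain ⟨θ, hθ⟩ := block_nonempty hM hb
  change Cov B b ↔ _
  have key : ∀ χ θ, ∀ n : N, (lam hM χ.1 (cs (ResF hM) (n : G)) =
      lam hM θ.1 (resGA N (cs (ResF hM) (n : G)))) ↔ MemLocalIdeal M
      (centralChar (χ : IrrCharacter G).1 (n : G) - inducedCentralChar N (θ : IrrCharacter N).1 (n : G)) := by
    intro χ θ n
    rw [lam_cs hM χ.2, lam_resGA_cs hM θ.2,
      red_eq_iff hM (loc_centralChar hM χ.2 _) (loc_inducedCentralChar hM θ.2 _)]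
  constructor
  · intro h χ' hχ' θ' hθ' n
    exact (key χ' θ' n).1 ((cov_iff hM hB hb hχ' hθ').1 h n)
  · intro h
    exact (cov_iff hM hB hb hχ hθ).2 fun n => (key χ θ n).2 (h χ hχ θ hθ n)

end Cfsg.Agent.S0965
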