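import Cfsg.Statements.S0967
import Cfsg.Agent.Lib.BlockQuotB

set_option autoImplicit false
open Cfsg

namespace Cfsg.Agent.S0967
open Cfsg.Agent.Lib.BlockQuotB Cfsg.Agent.Lib.BlockQuot Cfsg.Agent.Lib.BlockCov Cfsg.Agent.Lib.BlockM Cfsg.Agent.Lib.BlockHt Cfsg.Agent.Lib.BlockFirst Cfsg.Agent.Lib.BlockSecond Cfsg.Agent.Lib.BlockInd Cfsg.Agent.Lib.BlockNP Cfsg.Agent.Lib.BlockDeg Cfsg.Agent.Lib.BlockDef Cfsg.Agent.Lib.BlockRed Cfsg.Agent.Lib.BlockOrth Cfsg.Agent.Lib.BlockIdem Cfsg.Agent.Lib.BlockGA Cfsg.Agent.Lib.BlockLoc Cfsg.Agent.Lib.CharBasic Cfsg.Agent.Lib.BlockPP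
open scoped ComplexConjugate



/-- Let N be a normal subgroup of the finite group G of order prime to p and fix a maximal ideal M of the algebraic integers containing p. If χ is an irreducible character of G ⧸ N and ψ lies in the block of its inflation χ ∘ (quotient map), then ψ is itself inflated from an irreducible character ψ' of G ⧸ N lying in the block of χ. (Over a normal p'-subgroup, blocks of the quotient are whole blocks of G.) -/
theorem result {G : Type*} [Group G] [Finite G] (p : ℕ) [Fact p.Prime] (M : Ideal Cfsg.AlgInt) (hM : Cfsg.IsPModular p M) (N : Subgroup G) [N.Normal] (hN : ¬ p ∣ Nat.card N) (χ : Cfsg.IrrCharacter (G ⧸ N)) (ψ : Cfsg.IrrCharacter G) (hψ : ψ ∈ Cfsg.blockOf M ((χ : G ⧸ N → ℂ) ∘ QuotientGroup.mk)) : ∃ ψ' : Cfsg.IrrCharacter (G ⧸ N), (ψ : G → ℂ) = (ψ' : G ⧸ N → ℂ) ∘ QuotientGroup.mk ∧ Cfsg.SameBlock M (χ : G ⧸ N → ℂ) (ψ' : G ⧸ N → ℂ) := by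
  have hs := QuotientGroup.mk'_surjective N
  have h0 : (χ : G ⧸ N → ℂ) ∘ QuotientGroup.mk = (inflI (QuotientGroup.mk' N) hs χ).1 := rfl
  rw [h0] at hψ
  have ht : Triv N (inflI (QuotientGroup.mk' N) hs χ).1 := by
    intro n hn
    change χ.1 (QuotientGroup.mk' N n) = χ.1 (QuotientGroup.mk' N 1)
    rw [map_one]
    exact congrArg χ.1 ((QuotientGroup.eq_one_iff n).2 hn)
  have ht' := triv_of_sameBlock hM N hN hψ ht
  obtain ⟨ψ', -, h2, h3⟩ := Cfsg.Agent.Lib.CharKer.exists_quot (isChar_of_irr ψ.2) ht'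
  refine ⟨⟨ψ', h3 ψ.2⟩, funext h2, ?_⟩
  apply sameBlock_of_infl' (ψ := ⟨ψ', h3 ψ.2⟩) hM (QuotientGroup.mk' N) hs
    (by rw [QuotientGroup.ker_mk']; exact hN)
  have h4 : (inflI (QuotientGroup.mk' N) hs ⟨ψ', h3 ψ.2⟩).1 = ψ.1 := (funext h2).symm
  rw [h4]
  exact hψ

end Cfsg.Agent.S0967
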