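import Cfsg.Statements.S0968
import Cfsg.Agent.Lib.BlockPC

set_option autoImplicit false
set_option linter.style.haveILetI false
set_option linter.unusedVariables false
open Cfsg

namespace Cfsg.Agent.S0968
open Cfsg.Agent.Lib.BlockPC Cfsg.Agent.Lib.BlockRk Cfsg.Agent.Lib.BlockInt Cfsg.Agent.Lib.BlockIndIn Cfsg.Agent.Lib.BlockMaxB Cfsg.Agent.Lib.BlockMax Cfsg.Agent.Lib.BlockNilC Cfsg.Agent.Lib.BlockNilB Cfsg.Agent.Lib.BlockNil Cfsg.Agent.Lib.BlockFusB Cfsg.Agent.Lib.BlockFus Cfsg.Agent.Lib.BlockPairF Cfsg.Agent.Lib.BlockPairE Cfsg.Agent.Lib.BlockPairD Cfsg.Agent.Lib.BlockPairC Cfsg.Agent.Lib.BlockPairB Cfsg.Agent.Lib.BlockPair Cfsg.Agent.Lib.BlockBP Cfsg.Agent.Lib.BlockCovB Cfsg.Agent.Lib.BlockTr Cfsg.Agent.Lib.BlockMoreB Cfsg.Agent.Lib.BlockMore Cfsg.Agent.Lib.BlockQuotB Cfsg.Agent.Lib.BlockQuot Cfsg.Agent.Lib.BlockCov Cfsg.Agent.Lib.BlockM Cfsg.Agent.Lib.BlockHt Cfsg.Agent.Lib.BlockFirst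 Cfsg.Agent.Lib.BlockSecond Cfsg.Agent.Lib.BlockInd Cfsg.Agent.Lib.BlockNP Cfsg.Agent.Lib.BlockDeg Cfsg.Agent.Lib.BlockDef Cfsg.Agent.Lib.BlockRed Cfsg.Agent.Lib.BlockOrth Cfsg.Agent.Lib.BlockIdem Cfsg.Agent.Lib.BlockGA Cfsg.Agent.Lib.BlockLoc Cfsg.Agent.Lib.CharBasic Cfsg.Agent.Lib.BlockPP Cfsg.Agent.Lib.CharNormal Cfsg.Agent.Lib.CharPerm Cfsg.Agent.Lib.CharPermB Cfsg.Agent.Lib.BlockSum
open scoped ComplexConjugate



/-- Let P be a p-subgroup of the finite group G with P ⊔ C_G(P) = G, and let B be a block with defect group P relative to a maximal ideal M of the algebraic integers containing p. Then there is exactly one θ ∈ B with θ x = θ 1 for all x ∈ P; for this θ the exponent of p in θ(1) equals the exponent of p in the index of P; and the number of members of B equals the number of conjugacy classes of P. -/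
theorem result {G : Type*} [Group G] [Finite G] (p : ℕ) [Fact p.Prime] (M : Ideal Cfsg.AlgInt) (hM : Cfsg.IsPModular p M) (P : Subgroup G) (hP : IsPGroup p P) (hG : P ⊔ Subgroup.centralizer (P : Set G) = ⊤) (B : Set (Cfsg.IrrCharacter G)) (hB : Cfsg.IsPBlock M B) (hD : Cfsg.IsDefectGroup p M B P) : (∃! θ : Cfsg.IrrCharacter G, θ ∈ B ∧ ∀ x ∈ P, (θ : G → ℂ) x = (θ : G → ℂ) 1) ∧ (∀ θ ∈ B, (∀ x ∈ P, (θ : G → ℂ) x = (θ : G → ℂ) 1) → (Cfsg.charDegree (θ : G → ℂ)).factorization p = P.index.factorization p) ∧ Nat.card B = Nat.card (ConjClasses P) := by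
  classical
  obtain ⟨⟨χ, hχ, hχP⟩, h2⟩ := Cfsg.Agent.Lib.BlockPC.pc_canonical hM hP hG hB hD
  obtain ⟨hv, hirr, hall⟩ := Cfsg.Agent.Lib.BlockPC.pc_main hM hP hG hB hD hχ hχP
  haveI := factP hM
  have hp := hM.1
  have hreg1 : ¬ p ∣ orderOf (1 : G) := by
    rw [orderOf_one]; exact hp.one_lt.ne' ∘ Nat.dvd_one.1
  refine ⟨⟨χ, ⟨hχ, hχP⟩, ?_⟩, ?_, ?_⟩
  · rintro θ ⟨hθ, hθP⟩
    obtain ⟨ζ, hζ⟩ := (hall θ).1 hθ
    have hχ1 := isIrr_one_ne_zero χ.2
    have h3 : ∀ y : P, ζ.1 y = ζ.1 1 := by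
      intro y
      have h4 := hθP y y.2
      rw [hζ] at h4
      have h5 := Cfsg.Agent.Lib.BlockPC.eta_mul hp hP (ζ := ζ.1) (χ := χ.1) (y := y) (x := 1) hreg1 (Commute.one_right _)
      have h6 := Cfsg.Agent.Lib.BlockPC.eta_reg hp hP (ζ := ζ.1) (χ := χ.1) hreg1
      rw [mul_one] at h5
      rw [h5, h6] at h4
      exact mul_right_cancel₀ hχ1 h4
    have h7 : ζ.1 = fun _ => 1 := by
      by_contra hne
      haveI : Fintype P := Fintype.ofFinite _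
      have h8 := irr_inner_ne ζ.2 isIrr_trivial hne
      have h9 : ζ.1 = ζ.1 1 • (fun _ : P => (1 : ℂ)) := by
        funext y
        rw [h3 y]; simp
      rw [h9, classInner_smul_left, irr_inner_self isIrr_trivial, mul_one] at h8
      exact isIrr_one_ne_zero ζ.2 h8
    apply Subtype.ext
    rw [hζ, h7]
    exact (Cfsg.Agent.Lib.BlockPC.eta_one hχP hv).symm
  · intro θ hθ hθP
    have h3 := h2 θ hθ hθP
    have h4 : Nat.card G = Nat.card P * P.index := (Subgroup.card_mul_index P).symm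
    rw [h4, Nat.factorization_mul Nat.card_pos.ne' Subgroup.index_ne_zero_of_finite] at h3
    simp only [Finsupp.add_apply] at h3
    omega
  · haveI : Fintype P := Fintype.ofFinite _
    rw [← card_irr]
    symm
    refine Nat.card_congr (Equiv.ofBijective
      (fun ζ : IrrCharacter P => (⟨⟨_, hirr ζ⟩, (hall _).2 ⟨ζ, rfl⟩⟩ : B)) ⟨?_, ?_⟩)
    · intro ζ ξ h
      exact Cfsg.Agent.Lib.BlockPC.eta_inj hp hP (congrArg (fun b : B => b.1.1) h)
    · rintro ⟨ψ, hψ⟩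
      obtain ⟨ζ, hζ⟩ := (hall ψ).1 hψ
      exact ⟨ζ, Subtype.ext (Subtype.ext hζ.symm)⟩

end Cfsg.Agent.S0968
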