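import Cfsg.Statements.S0985
import Mathlib
-- import your own Cfsg.Agent.* helpers here

set_option autoImplicit false
open Cfsg

namespace Cfsg.Agent.S0985

theorem orbit_count {K α : Type*} [Group K] [MulAction K α] [Finite α] (a : α) (ha : ∀ g : K, g • a = a) (d : ℕ)
    (hd : ∀ b : α, b ≠ a → d ∣ (MulAction.orbit K b).ncard) : Nat.card α ≡ 1 [MOD d] := by
  classical
  haveI : Finite (Quotient (MulAction.orbitRel K α)) := Quotient.finite _
  haveI := Fintype.ofFinite (Quotient (MulAction.orbitRel K α))
  rw [Nat.card_congr (MulAction.selfEquivSigmaOrbits K α), Nat.card_sigma]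
  set ω0 : Quotient (MulAction.orbitRel K α) := Quotient.mk _ a with hω0
  rw [← Finset.add_sum_erase Finset.univ _ (Finset.mem_univ ω0)]
  have hout : ω0.out = a := by
    have h1 : (Quotient.mk _ ω0.out : Quotient (MulAction.orbitRel K α)) = Quotient.mk _ a := Quotient.out_eq ω0
    have h2 := Quotient.exact h1
    obtain ⟨g, hg⟩ := (MulAction.orbitRel_apply.1 h2)
    exact hg.symm.trans (ha g)
  have horb : MulAction.orbit K a = {a} := by
    ext b
    constructor
    · rintro ⟨g, rfl⟩
      exact ha g
    · intro hb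
      rw [Set.mem_singleton_iff] at hb
      rw [hb]; exact MulAction.mem_orbit_self a
  have h1 : Nat.card (MulAction.orbit K ω0.out) = 1 := by
    rw [hout, horb]
    exact Nat.card_unique
  rw [h1]
  have h2 : d ∣ ∑ x ∈ Finset.univ.erase ω0, Nat.card (MulAction.orbit K x.out) := by
    apply Finset.dvd_sum
    intro ω hω
    rw [Finset.mem_erase] at hω
    have hne : ω.out ≠ a := by
      intro h
      apply hω.1
      rw [hω0, ← h, Quotient.out_eq]
    have := hd ω.out hne
    rwa [← Nat.card_coe_set_eq] at this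
  obtain ⟨c, hc⟩ := h2
  rw [hc]
  exact (Nat.ModEq.symm (by
    have : 1 + 0 ≡ 1 + d * c [MOD d] := Nat.ModEq.add_left 1 ((Nat.modEq_zero_iff_dvd.2 (dvd_mul_right d c)).symm)
    exact this))

/-- If the number of Sylow p-subgroups of a finite group is not congruent to 1 modulo p^k, then there are two distinct Sylow p-subgroups P and R such that the index of P ∩ R in P is at most p^(k-1). -/
theorem result {G : Type*} [Group G] [Finite G] (p k : ℕ) [Fact p.Prime] (h : ¬ Nat.card (Sylow p G) ≡ 1 [MOD p ^ k]) : ∃ P R : Sylow p G, P ≠ R ∧ ((R : Subgroup G).subgroupOf (P : Subgroup G)).index ≤ p ^ (k - 1) := by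
  by_contra hcon
  push Not at hcon
  apply h
  obtain ⟨P⟩ := (inferInstance : Nonempty (Sylow p G))
  have hp : p.Prime := Fact.out
  refine orbit_count (K := (P : Subgroup G)) P (fun g => ?_) (p ^ k) ?_
  · exact Sylow.smul_eq_iff_mem_normalizer.2 (Subgroup.le_normalizer g.2)
  · intro R hR
    rw [← MulAction.index_stabilizer]
    have hst : MulAction.stabilizer (P : Subgroup G) R = (R : Subgroup G).subgroupOf (P : Subgroup G) := by
      ext x
      rw [MulAction.mem_stabilizer_iff, Subgroup.mem_subgroupOf]
      have h1 : (x • R = R) ↔ (x : G) ∈ Subgroup.normalizer ((R : Subgroup G) : Set G) :=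
        Sylow.smul_eq_iff_mem_normalizer (g := (x : G)) (P := R)
      rw [h1]
      constructor
      · intro hx
        have h2 : (x : G) ∈ (P : Subgroup G) ⊓ Subgroup.normalizer (R : Set G) := ⟨x.2, hx⟩
        rw [P.2.inf_normalizer_sylow R] at h2
        exact h2.2
      · intro hx
        exact Subgroup.le_normalizer hx
    rw [hst]
    have h3 := hcon P R (Ne.symm hR)
    obtain ⟨m, hm⟩ := IsPGroup.iff_card.1 P.2
    have h4 : ((R : Subgroup G).subgroupOf (P : Subgroup G)).index ∣ p ^ m := by
      rw [← hm]; exact Subgroup.index_dvd_card _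
    obtain ⟨j, hj, hj'⟩ := (Nat.dvd_prime_pow hp).1 h4
    rw [hj'] at h3 ⊢
    have h5 : k - 1 < j := (Nat.pow_lt_pow_iff_right hp.one_lt).1 h3
    exact pow_dvd_pow p (by omega)

end Cfsg.Agent.S0985
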