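import Cfsg.Statements.S0986
import Mathlib
-- import your own Cfsg.Agent.* helpers here

set_option autoImplicit false
open Cfsg

namespace Cfsg.Agent.S0986

/-- Let P and Q be distinct Sylow p-subgroups of a finite group G chosen so that the order of P ∩ Q is as large as possible among intersections of two distinct Sylow p-subgroups, and let N be the normalizer of P ∩ Q. Then N has more than one Sylow p-subgroup, any two distinct Sylow p-subgroups of N intersect exactly in P ∩ Q, and each Sylow p-subgroup of N lies in exactly one Sylow p-subgroup of G. -/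
theorem result {G : Type*} [Group G] [Finite G] (p : ℕ) [Fact p.Prime] (P Q : Sylow p G) (hPQ : P ≠ Q) (hmax : ∀ P' Q' : Sylow p G, P' ≠ Q' → Nat.card ↥((P' : Subgroup G) ⊓ (Q' : Subgroup G)) ≤ Nat.card ↥((P : Subgroup G) ⊓ (Q : Subgroup G))) : 1 < Nat.card (Sylow p ↥(Subgroup.normalizer (((P : Subgroup G) ⊓ (Q : Subgroup G) : Subgroup G) : Set G))) ∧ (∀ S T : Sylow p ↥(Subgroup.normalizer (((P : Subgroup G) ⊓ (Q : Subgroup G) : Subgroup G) : Set G)), S ≠ T → (S : Subgroup _) ⊓ (T : Subgroup _) = ((P : Subgroup G) ⊓ (Q : Subgroup G)).subgroupOf (Subgroup.normalizer (((P : Subgroup G) ⊓ (Q : Subgroup G) : Subgroup G) : Set G))) ∧ ∀ S : Sylow p ↥(Subgroup.normalizer (((P : Subgroup G) ⊓ (Q : Subgroup G) : Subgroup G) : Set G)), ∃! T : Sylow p G, (S : Subgroup _).map (Subgroup.normalizer (((P : Subgroup G) ⊓ (Q : Subgroup G) : Subgroup G) : Set G)).subtype ≤ (T : Subgroup G) := by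
  classical
  set D : Subgroup G := (P : Subgroup G) ⊓ (Q : Subgroup G) with hD
  set N := Subgroup.normalizer (D : Set G) with hN
  have hDN : D ≤ N := Subgroup.le_normalizer
  have hcardeq : ∀ R S : Sylow p G, Nat.card (R : Subgroup G) = Nat.card (S : Subgroup G) := fun R S =>
    Nat.card_congr (Sylow.equiv R S).toEquiv
  have hDP : D ≠ (P : Subgroup G) := by
    intro h
    have h1 : (P : Subgroup G) ≤ Q := by rw [← h]; exact inf_le_right
    exact hPQ (Sylow.ext (Subgroup.eq_of_le_of_card_ge h1 (hcardeq Q P).le))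
  have hDQ : D ≠ (Q : Subgroup G) := by
    intro h
    have h1 : (Q : Subgroup G) ≤ P := by rw [← h]; exact inf_le_left
    exact hPQ (Sylow.ext (Subgroup.eq_of_le_of_card_ge h1 (hcardeq P Q).le)).symm
  have grow : ∀ R : Sylow p G, D ≤ (R : Subgroup G) → D ≠ (R : Subgroup G) → Nat.card D < Nat.card ((R : Subgroup G) ⊓ N : Subgroup G) := by
    intro R hR hne
    have hle : D ≤ (R : Subgroup G) ⊓ N := le_inf hR hDN
    by_contra hcon
    have heq : D = (R : Subgroup G) ⊓ N := Subgroup.eq_of_le_of_card_ge hle (not_lt.1 hcon)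
    haveI : Group.IsNilpotent (R : Subgroup G) := R.2.isNilpotent
    have hnc := Group.normalizerCondition_of_isNilpotent (G := (R : Subgroup G)) (D.subgroupOf (R : Subgroup G)) (by
      rw [lt_top_iff_ne_top]
      intro h
      apply hne
      exact le_antisymm hR (Subgroup.subgroupOf_eq_top.1 h))
    obtain ⟨x, hx, hxn⟩ := SetLike.exists_of_lt hnc
    rw [← Subgroup.subgroupOf_normalizer_eq hR] at hx
    apply hxn
    rw [Subgroup.mem_subgroupOf]
    rw [heq]
    exact ⟨x.2, hx⟩
  have hDP' : D ≤ (P : Subgroup G) := inf_le_left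
  have hDQ' : D ≤ (Q : Subgroup G) := inf_le_right
  have hcs : ∀ H : Subgroup G, H ≤ N → Nat.card (H.subgroupOf N) = Nat.card H := fun H hH =>
    Nat.card_congr (Subgroup.subgroupOfEquivOfLe hH).toEquiv
  have hcm : ∀ H : Subgroup N, Nat.card (H.map N.subtype) = Nat.card H := fun H =>
    (Nat.card_congr (H.equivMapOfInjective N.subtype N.subtype_injective).toEquiv).symm
  have hpN : ∀ R : Sylow p G, IsPGroup p (((R : Subgroup G) ⊓ N).subgroupOf N) := by
    intro R
    exact (R.2.to_le inf_le_left).comap_subtype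
  have hbig : ∀ S : Sylow p N, Nat.card D < Nat.card (S : Subgroup N) := by
    intro S
    obtain ⟨S0, hS0⟩ := (hpN P).exists_le_sylow
    have h1 := Subgroup.card_le_of_le hS0
    rw [hcs _ inf_le_right] at h1
    have h2 : Nat.card (S0 : Subgroup N) = Nat.card (S : Subgroup N) := Nat.card_congr (Sylow.equiv S0 S).toEquiv
    have h3 := grow P hDP' hDP
    omega
  have hmax' : ∀ R S : Sylow p G, Nat.card D < Nat.card ((R : Subgroup G) ⊓ (S : Subgroup G) : Subgroup G) → R = S := by
    intro R S h
    by_contra hne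
    exact absurd (hmax R S hne) (not_le.2 h)
  have hex : ∀ S : Sylow p N, ∃ T : Sylow p G, (S : Subgroup N).map N.subtype ≤ (T : Subgroup G) := by
    intro S
    exact (S.2.map N.subtype).exists_le_sylow
  refine ⟨?_, ?_, ?_⟩
  · by_contra hcon
    have hpos : 0 < Nat.card (Sylow p N) := Nat.card_pos
    haveI : Subsingleton (Sylow p N) := (Nat.card_eq_one_iff_unique.1 (by omega)).1
    obtain ⟨S, hS⟩ := (hpN P).exists_le_sylow
    obtain ⟨S2, hS2⟩ := (hpN Q).exists_le_sylow
    rw [Subsingleton.elim S2 S] at hS2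
    obtain ⟨T, hT⟩ := hex S
    have key : ∀ R : Sylow p G, D ≤ (R : Subgroup G) → D ≠ (R : Subgroup G) → ((R : Subgroup G) ⊓ N).subgroupOf N ≤ (S : Subgroup N) → R = T := by
      intro R h1 h2 h3
      apply hmax'
      refine lt_of_lt_of_le (grow R h1 h2) (Subgroup.card_le_of_le (le_inf inf_le_left ?_))
      intro x hx
      exact hT ⟨⟨x, hx.2⟩, h3 (Subgroup.mem_subgroupOf.2 hx), rfl⟩
    exact hPQ ((key P hDP' hDP hS).trans (key Q hDQ' hDQ hS2).symm)
  · intro S T hST
    obtain ⟨S', hS'⟩ := hex S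
    obtain ⟨T', hT'⟩ := hex T
    have hne : S' ≠ T' := by
      intro h
      apply hST
      have hp1 : IsPGroup p ((S' : Subgroup G).subgroupOf N) := S'.2.comap_subtype
      have h1 : (S : Subgroup N) ≤ (S' : Subgroup G).subgroupOf N := by
        intro x hx
        exact hS' ⟨x, hx, rfl⟩
      have h2 : (T : Subgroup N) ≤ (S' : Subgroup G).subgroupOf N := by
        intro x hx
        rw [h]
        exact hT' ⟨x, hx, rfl⟩
      apply Sylow.ext
      rw [← S.3 hp1 h1, ← T.3 hp1 h2]
    symm
    haveI hDn : (D.subgroupOf N).Normal := by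
      rw [hN]; infer_instance
    have hDp : IsPGroup p (D.subgroupOf N) := (P.2.to_le hDP').comap_subtype
    have hDle : ∀ U : Sylow p N, D.subgroupOf N ≤ (U : Subgroup N) := by
      intro U
      have h1 : IsPGroup p ((U : Subgroup N) ⊔ D.subgroupOf N : Subgroup N) := U.2.to_sup_of_normal_right hDp
      have h2 := U.3 h1 le_sup_left
      rw [← h2]; exact le_sup_right
    apply Subgroup.eq_of_le_of_card_ge (le_inf (hDle S) (hDle T))
    rw [hcs _ hDN, ← hcm]
    refine le_trans (Subgroup.card_le_of_le ?_) (hmax S' T' hne)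
    apply le_inf
    · exact le_trans (Subgroup.map_mono inf_le_left) hS'
    · exact le_trans (Subgroup.map_mono inf_le_right) hT'
  · intro S
    obtain ⟨T, hT⟩ := hex S
    refine ⟨T, hT, ?_⟩
    intro T' hT'
    apply hmax'
    refine lt_of_lt_of_le (hbig S) ?_
    rw [← hcm]
    exact Subgroup.card_le_of_le (le_inf hT' hT)

end Cfsg.Agent.S0986
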