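import Cfsg.Statements.S0987
import Mathlib
import Cfsg.Agent.S0988
-- import your own Cfsg.Agent.* helpers here

set_option autoImplicit false
open Cfsg

namespace Cfsg.Agent.S0987

/-- If a finite group has order pqr for primes p < q < r, then its Sylow r-subgroups are normal. -/
theorem result {G : Type*} [Group G] [Finite G] (p q r : ℕ) (hp : p.Prime) (hq : q.Prime) [Fact r.Prime] (hpq : p < q) (hqr : q < r) (hG : Nat.card G = p * q * r) (R : Sylow r G) : (R : Subgroup G).Normal := by
  classical
  haveI := Fact.mk hp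
  haveI := Fact.mk hq
  have hr : r.Prime := Fact.out
  have hp2 := hp.two_le
  have hrpq : ¬ r ∣ p * q := by
    intro h
    rcases (Nat.Prime.dvd_mul hr).1 h with h | h
    · have := (Nat.prime_dvd_prime_iff_eq hr hp).1 h; omega
    · have := (Nat.prime_dvd_prime_iff_eq hr hq).1 h; omega
  have hqp : ¬ q ∣ p := by
    intro h
    have := (Nat.prime_dvd_prime_iff_eq hq hp).1 h; omega
  have hRc : Nat.card (R : Subgroup G) = r := by
    have := Cfsg.Agent.S0988.card_syl R (k := 1) (m := p * q) (by rw [hG]; ring) hrpq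
    rwa [pow_one] at this
  have hRi : (R : Subgroup G).index = p * q := by
    have := Subgroup.card_mul_index (R : Subgroup G)
    rw [hRc, hG] at this
    apply Nat.eq_of_mul_eq_mul_left hr.pos
    rw [this]; ring
  by_contra hnn
  have hn : Nat.card (Sylow r G) ∣ p * q := by rw [← hRi]; exact R.card_dvd_index
  have hn1 : Nat.card (Sylow r G) ≠ 1 := by
    intro h
    haveI : Subsingleton (Sylow r G) := (Nat.card_eq_one_iff_unique.1 h).1
    exact hnn R.normal_of_subsingleton
  have hnm := card_sylow_modEq_one r G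
  have hdiv : r ∣ Nat.card (Sylow r G) - 1 := (Nat.modEq_iff_dvd' Nat.card_pos).1 hnm.symm
  have hpos : 0 < Nat.card (Sylow r G) := Nat.card_pos
  have hle := Nat.le_of_dvd (by omega) hdiv
  have hneq : Nat.card (Sylow r G) = p * q := by
    obtain ⟨a, b, ha, hb, hab⟩ := Nat.dvd_mul.1 hn
    rcases (Nat.dvd_prime hp).1 ha with h | h <;> rcases (Nat.dvd_prime hq).1 hb with h' | h' <;> rw [h, h'] at hab
    · omega
    · rw [one_mul] at hab; omega
    · rw [mul_one] at hab; omega
    · exact hab.symm
  have hNi := R.card_eq_index_normalizer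
  rw [hneq] at hNi
  have hRle : (R : Subgroup G) ≤ Subgroup.normalizer ((R : Subgroup G) : Set G) := Subgroup.le_normalizer
  have hNR : (R : Subgroup G) = Subgroup.normalizer ((R : Subgroup G) : Set G) := by
    apply Subgroup.eq_of_le_of_card_ge hRle
    have h1 := Subgroup.card_mul_index (Subgroup.normalizer ((R : Subgroup G) : Set G))
    have h2 : (Subgroup.normalizer ((R : Subgroup G) : Set G)).index = p * q := hNi.symm
    rw [h2, hG] at h1
    have h3 : Nat.card (Subgroup.normalizer ((R : Subgroup G) : Set G)) = r := by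
      apply Nat.eq_of_mul_eq_mul_right (Nat.mul_pos hp.pos hq.pos)
      rw [h1]; ring
    rw [h3, hRc]
  have hcyc : IsCyclic (R : Subgroup G) := isCyclic_of_prime_card hRc
  have hNC : Subgroup.normalizer ((R : Subgroup G) : Set G) ≤ Subgroup.centralizer ((R : Subgroup G) : Set G) := by
    rw [← hNR]
    intro x hx
    rw [Subgroup.mem_centralizer_iff]
    intro y hy
    letI := IsCyclic.commGroup (α := (R : Subgroup G))
    exact congrArg Subtype.val (mul_comm (⟨y, hy⟩ : (R : Subgroup G)) ⟨x, hx⟩)
  have hc := MonoidHom.ker_transferSylow_isComplement' R hNC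
  set K := (MonoidHom.transferSylow R hNC).ker with hK
  haveI hKn : K.Normal := MonoidHom.normal_ker _
  have hKc : Nat.card K = p * q := by
    have h1 := hc.card_mul
    rw [hG, hRc] at h1
    exact Nat.eq_of_mul_eq_mul_right hr.pos h1
  obtain ⟨Q⟩ := (inferInstance : Nonempty (Sylow q K))
  have hQc : Nat.card (Q : Subgroup K) = q := by
    have := Cfsg.Agent.S0988.card_syl Q (k := 1) (m := p) (by rw [hKc]; ring) hqp
    rwa [pow_one] at this
  have hQi : (Q : Subgroup K).index = p := by
    have := Subgroup.card_mul_index (Q : Subgroup K)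
    rw [hQc, hKc] at this
    apply Nat.eq_of_mul_eq_mul_left hq.pos
    rw [this]; ring
  have hnQ : Nat.card (Sylow q K) ∣ p := by rw [← hQi]; exact Q.card_dvd_index
  have hnQ1 : Nat.card (Sylow q K) = 1 := by
    by_contra hne
    have hm := card_sylow_modEq_one q K
    have hdiv : q ∣ Nat.card (Sylow q K) - 1 := (Nat.modEq_iff_dvd' Nat.card_pos).1 hm.symm
    have hpos : 0 < Nat.card (Sylow q K) := Nat.card_pos
    have hle := Nat.le_of_dvd (by omega) hdiv
    have hle' := Nat.le_of_dvd hp.pos hnQ
    omega
  haveI : Subsingleton (Sylow q K) := (Nat.card_eq_one_iff_unique.1 hnQ1).1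
  haveI hQn : (Q : Subgroup K).Normal := Q.normal_of_subsingleton
  haveI hQch : (Q : Subgroup K).Characteristic := Q.characteristic_of_normal hQn
  set Q' : Subgroup G := (Q : Subgroup K).map K.subtype with hQ'
  haveI hQ'n : Q'.Normal := ConjAct.normal_of_characteristic_of_normal
  have hQ'c : Nat.card Q' = q := by
    rw [← hQc, hQ']
    exact (Nat.card_congr ((Q : Subgroup K).equivMapOfInjective K.subtype K.subtype_injective).toEquiv).symm
  haveI hQcyc : IsCyclic Q' := isCyclic_of_prime_card hQ'c
  -- `R` centralizes `Q'`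
  let f : (R : Subgroup G) →* MulAut Q' := (MulAut.conjNormal (H := Q')).comp (R : Subgroup G).subtype
  have hfr : Nat.card f.range ∣ r := (Subgroup.card_range_dvd f).trans (dvd_of_eq hRc)
  have hf1 : Nat.card f.range = 1 := by
    rcases (Nat.dvd_prime hr).1 hfr with h | h
    · exact h
    · exfalso
      have h1 : Nat.card f.range ∣ Nat.card (MulAut Q') := Subgroup.card_subgroup_dvd_card _
      rw [IsCyclic.card_mulAut, hQ'c, Nat.totient_prime hq, h] at h1
      have := Nat.le_of_dvd (by omega) h1
      omega
  have hcomm : ∀ x : (R : Subgroup G), ∀ y : Q', (x : G) * y = y * x := by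
    intro x y
    have h1 : f.range = ⊥ := Subgroup.card_eq_one.1 hf1
    have h2 : f x = 1 := by
      have : f x ∈ f.range := ⟨x, rfl⟩
      rw [h1] at this
      exact this
    have h3 : (f x y : G) = x * y * (x : G)⁻¹ := MulAut.conjNormal_apply _ _
    rw [h2] at h3
    have h4 : (y : G) = x * y * (x : G)⁻¹ := h3
    calc (x : G) * y = x * y * (x : G)⁻¹ * x := by group
      _ = y * x := by rw [← h4]
  have hle' : Q' ≤ (R : Subgroup G) := by
    rw [hNR]
    intro y hy
    rw [Subgroup.mem_normalizer_iff]
    intro z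
    constructor
    · intro hz
      have := hcomm ⟨z, hz⟩ ⟨y, hy⟩
      change z * y = y * z at this
      rw [← this, mul_inv_cancel_right]; exact hz
    · intro hz
      have h1 := hcomm ⟨y * z * y⁻¹, hz⟩ ⟨y, hy⟩
      change y * z * y⁻¹ * y = y * (y * z * y⁻¹) at h1
      have h2 : z = y * z * y⁻¹ := by
        apply mul_left_cancel (a := y)
        rw [← h1]; group
      rw [h2]; exact hz
  have h5 := Subgroup.card_dvd_of_le hle'
  rw [hQ'c, hRc] at h5
  have := (Nat.prime_dvd_prime_iff_eq hq hr).1 h5
  omega

end Cfsg.Agent.S0987
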