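import Cfsg.Statements.S0991
import Mathlib
-- import your own Cfsg.Agent.* helpers here

set_option autoImplicit false
open Cfsg

namespace Cfsg.Agent.S0991

/-- Embedding Theorem: if a non-abelian finite simple group has a proper subgroup of index n, then it is isomorphic to a subgroup of the alternating group of degree n. -/
theorem result {G : Type*} [Group G] [Finite G] [IsSimpleGroup G] (hG : ¬ IsMulCommutative G) (H : Subgroup G) (hH : H ≠ ⊤) : ∃ f : G →* ↥(alternatingGroup (Fin H.index)), Function.Injective f := by
  classical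
  haveI : Finite (G ⧸ H) := inferInstance
  have hcard : Nat.card (G ⧸ H) = Nat.card (Fin H.index) := by
    rw [Nat.card_fin]; rfl
  have e : G ⧸ H ≃ Fin H.index := (Finite.card_eq.1 hcard).some
  let f0 : G →* Equiv.Perm (Fin H.index) := (e.permCongrHom : Equiv.Perm (G ⧸ H) →* Equiv.Perm (Fin H.index)).comp (MulAction.toPermHom G (G ⧸ H))
  have hker : f0.ker = ⊥ := by
    rcases IsSimpleGroup.eq_bot_or_eq_top_of_normal f0.ker inferInstance with h | h
    · exact h
    · exfalso
      apply hH
      rw [eq_top_iff]
      intro g _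
      have h1 : g ∈ f0.ker := by rw [h]; trivial
      have h2 : f0 g = 1 := h1
      have h3 : MulAction.toPermHom G (G ⧸ H) g = 1 := by
        have h4 : e.permCongrHom (MulAction.toPermHom G (G ⧸ H) g) = 1 := h2
        exact (MulEquiv.map_eq_one_iff _).1 h4
      have h4 : g • ((1 : G) : G ⧸ H) = ((1 : G) : G ⧸ H) := by
        have := congrArg (fun σ : Equiv.Perm (G ⧸ H) => σ ((1 : G) : G ⧸ H)) h3
        exact this
      have h5 : ((g * 1 : G) : G ⧸ H) = ((1 : G) : G ⧸ H) := h4
      rw [mul_one, eq_comm, QuotientGroup.eq, inv_one, one_mul] at h5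
      exact h5
  have hinj : Function.Injective f0 := (MonoidHom.ker_eq_bot_iff f0).1 hker
  have hsign : ∀ g : G, f0 g ∈ alternatingGroup (Fin H.index) := by
    let s : G →* ℤˣ := Equiv.Perm.sign.comp f0
    rcases IsSimpleGroup.eq_bot_or_eq_top_of_normal s.ker inferInstance with h | h
    · exfalso
      have hs : Function.Injective s := (MonoidHom.ker_eq_bot_iff s).1 h
      apply hG
      exact ⟨⟨fun a b => hs (by rw [map_mul, map_mul, mul_comm])⟩⟩
    · intro g
      rw [Equiv.Perm.mem_alternatingGroup]
      have : g ∈ s.ker := by rw [h]; trivial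
      exact this
  exact ⟨f0.codRestrict _ hsign, fun a b hab => hinj (congrArg Subtype.val hab)⟩

end Cfsg.Agent.S0991
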