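import Cfsg.Statements.S0992
import Mathlib
import Cfsg.Agent.S0988
-- import your own Cfsg.Agent.* helpers here

set_option autoImplicit false
open Cfsg

namespace Cfsg.Agent.S0992

/-- Let G be a non-abelian finite simple group of even order not divisible by 8, and T a Sylow 2-subgroup. Then T is a Klein four-group and the centralizer of T has index 3 in the normalizer of T. -/
theorem result {G : Type*} [Group G] [Finite G] [IsSimpleGroup G] (hG : ¬ IsMulCommutative G) (h2 : Even (Nat.card G)) (h8 : ¬ 8 ∣ Nat.card G) (T : Sylow 2 G) : IsKleinFour ↥(T : Subgroup G) ∧ (Subgroup.centralizer ((T : Subgroup G) : Set G)).relIndex (Subgroup.normalizer ((T : Subgroup G) : Set G)) = 3 := by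
  classical
  -- `|T| = 2` or `4`
  have hT2 : 2 ∣ Nat.card (T : Subgroup G) := T.dvd_card_of_dvd_card h2.two_dvd
  obtain ⟨n, hn⟩ := IsPGroup.iff_card.1 T.2
  have hnle : n ≤ 2 := by
    by_contra h
    apply h8
    have h1 : 2 ^ 3 ∣ Nat.card (T : Subgroup G) := by rw [hn]; exact pow_dvd_pow 2 (by omega)
    exact (by norm_num : (8 : ℕ) = 2 ^ 3) ▸ h1.trans (Subgroup.card_subgroup_dvd_card _)
  have hn1 : 1 ≤ n := by
    by_contra h
    have : n = 0 := by omega
    rw [hn, this, pow_zero] at hT2
    omega
  have hcomm : IsMulCommutative (T : Subgroup G) := by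
    have h12 : n = 1 ∨ n = 2 := by omega
    rcases h12 with h | h
    · have hcyc : IsCyclic (T : Subgroup G) := isCyclic_of_prime_card (p := 2) (by rw [hn, h, pow_one])
      exact ⟨⟨fun a b => by letI := IsCyclic.commGroup (α := (T : Subgroup G)); exact mul_comm a b⟩⟩
    · exact IsPGroup.isMulCommutative_of_card_eq_prime_sq (p := 2) (by rw [hn, h])
  set N := Subgroup.normalizer ((T : Subgroup G) : Set G) with hN
  set C := Subgroup.centralizer ((T : Subgroup G) : Set G) with hC
  have hPC : (T : Subgroup G) ≤ C := by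
    intro x hx
    rw [hC, Subgroup.mem_centralizer_iff]
    intro y hy
    exact congrArg Subtype.val (hcomm.is_comm.comm ⟨y, hy⟩ ⟨x, hx⟩)
  have hnot : ¬ N ≤ C := by
    intro h
    have h3 := Cfsg.Agent.S0988.noTransfer T h h2.two_dvd
    apply hG
    have htop : (T : Subgroup G) = ⊤ := Subgroup.eq_top_of_card_eq _ h3.symm
    refine ⟨⟨fun a b => ?_⟩⟩
    have ha : a ∈ (T : Subgroup G) := by rw [htop]; trivial
    have hb : b ∈ (T : Subgroup G) := by rw [htop]; trivial
    exact congrArg Subtype.val (hcomm.is_comm.comm ⟨a, ha⟩ ⟨b, hb⟩)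
  have hncyc : ¬ IsCyclic (T : Subgroup G) := by
    intro hcyc
    apply hnot
    have hmin : (Nat.card G).minFac = 2 := (Nat.minFac_eq_two_iff _).2 h2.two_dvd
    exact hcyc.normalizer_le_centralizer hmin
  have hn2 : n = 2 := by
    by_contra h
    apply hncyc
    have : n = 1 := by omega
    exact isCyclic_of_prime_card (p := 2) (by rw [hn, this, pow_one])
  have hc4 : Nat.card (T : Subgroup G) = 4 := by rw [hn, hn2]; norm_num
  have hexp : Monoid.exponent (T : Subgroup G) = 2 := by
    have h1 : Monoid.exponent (T : Subgroup G) ∣ 2 ^ 2 := by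
      have := Group.exponent_dvd_nat_card (G := (T : Subgroup G))
      rwa [hn, hn2] at this
    obtain ⟨j, hj, hj'⟩ := (Nat.dvd_prime_pow Nat.prime_two).1 h1
    interval_cases j
    · exfalso
      rw [pow_zero, Monoid.exp_eq_one_iff] at hj'
      have : Nat.card (T : Subgroup G) = 1 := Nat.card_unique
      omega
    · rw [hj', pow_one]
    · exfalso
      apply hncyc
      letI : CommGroup (T : Subgroup G) := { (inferInstance : Group (T : Subgroup G)) with mul_comm := hcomm.is_comm.comm }
      exact IsCyclic.of_exponent_eq_card (by rw [hj', hc4]; norm_num)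
  have hK : IsKleinFour (T : Subgroup G) := ⟨hc4, hexp⟩
  refine ⟨hK, ?_⟩
  set φ := Subgroup.normalizerMonoidHom (T : Subgroup G) with hφ
  have hrange : Nat.card φ.range = C.relIndex N := by
    rw [← Subgroup.index_ker, hφ, Subgroup.normalizerMonoidHom_ker]
    rfl
  have hodd : ¬ 2 ∣ C.relIndex N := by
    intro h
    have h1 : C.relIndex N ∣ (T : Subgroup G).relIndex N := Subgroup.relIndex_dvd_of_le_left N hPC
    have h3 : (T : Subgroup G).relIndex N ∣ (T : Subgroup G).index := ⟨_, (Subgroup.relIndex_mul_index (Subgroup.le_normalizer)).symm⟩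
    exact T.not_dvd_index ((h.trans h1).trans h3)
  have hne1 : C.relIndex N ≠ 1 := fun h => hnot (Subgroup.relIndex_eq_one.1 h)
  -- `Aut T` embeds in `S_3`
  let ψ : MulAut (T : Subgroup G) →* Equiv.Perm {x : (T : Subgroup G) // x ≠ 1} :=
    { toFun := fun f => f.toEquiv.subtypeEquiv (fun x => (map_ne_one_iff f f.injective).symm)
      map_one' := by ext x; rfl
      map_mul' := by intro f g; ext x; rfl }
  have hψ : Function.Injective ψ := by
    intro f g hfg
    apply MulEquiv.ext
    intro x
    by_cases hx : x = 1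
    · rw [hx, map_one, map_one]
    · have := congrArg (fun e : Equiv.Perm {x : (T : Subgroup G) // x ≠ 1} => (e ⟨x, hx⟩).1) hfg
      exact this
  have hcard3 : Nat.card {x : (T : Subgroup G) // x ≠ 1} = 3 := by
    haveI := Fintype.ofFinite (T : Subgroup G)
    rw [Nat.card_eq_fintype_card, Fintype.card_subtype_compl, Fintype.card_subtype_eq, ← Nat.card_eq_fintype_card, hc4]
  have hperm : Nat.card (Equiv.Perm {x : (T : Subgroup G) // x ≠ 1}) = 6 := by
    rw [Nat.card_perm, hcard3]; rfl
  have hd6 : C.relIndex N ∣ 6 := by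
    rw [← hrange, ← hperm]
    exact (Subgroup.card_subgroup_dvd_card _).trans (Subgroup.card_dvd_of_injective ψ hψ)
  have hle := Nat.le_of_dvd (by norm_num) hd6
  generalize C.relIndex N = m at *
  interval_cases m <;> omega

end Cfsg.Agent.S0992
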