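import Cfsg.Statements.S0995
import Mathlib
-- import your own Cfsg.Agent.* helpers here

set_option autoImplicit false
open Cfsg

namespace Cfsg.Agent.S0995

theorem class_card {G : Type*} [Group G] [Finite G] (x : G) :
    Nat.card {g : G // IsConj x g} * Nat.card (Subgroup.centralizer ({x} : Set G)) = Nat.card G := by
  classical
  set C := Subgroup.centralizer ({x} : Set G) with hC
  let F : G ⧸ C → {g : G // IsConj x g} := Quotient.lift (fun g => ⟨g * x * g⁻¹, isConj_iff.2 ⟨g, rfl⟩⟩) (by
    intro a b hab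
    have h1 : a⁻¹ * b ∈ C := QuotientGroup.leftRel_apply.1 hab
    rw [hC, Subgroup.mem_centralizer_singleton_iff] at h1
    apply Subtype.ext
    change a * x * a⁻¹ = b * x * b⁻¹
    calc a * x * a⁻¹ = a * (x * (a⁻¹ * b)) * b⁻¹ := by group
      _ = a * (a⁻¹ * b * x) * b⁻¹ := by rw [h1]
      _ = _ := by group)
  have hFbij : Function.Bijective F := by
    constructor
    · intro a b
      refine Quotient.inductionOn₂' a b ?_
      intro a b hab
      have h1 : a * x * a⁻¹ = b * x * b⁻¹ := congrArg Subtype.val hab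
      apply Quotient.sound'
      rw [QuotientGroup.leftRel_apply, hC, Subgroup.mem_centralizer_singleton_iff]
      calc a⁻¹ * b * x = a⁻¹ * (b * x * b⁻¹) * b := by group
        _ = a⁻¹ * (a * x * a⁻¹) * b := by rw [h1]
        _ = _ := by group
    · rintro ⟨y, hy⟩
      obtain ⟨g, hg⟩ := isConj_iff.1 hy
      exact ⟨(g : G ⧸ C), Subtype.ext hg⟩
  rw [← Nat.card_congr (Equiv.ofBijective F hFbij)]
  exact (Subgroup.card_eq_card_quotient_mul_card_subgroup C).symm

theorem card_sub_ne_one {G : Type*} [Group G] [Finite G] (Q : Subgroup G) : Nat.card {x : Q // x ≠ 1} = Nat.card Q - 1 := by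
  classical
  haveI := Fintype.ofFinite Q
  rw [Nat.card_eq_fintype_card, Fintype.card_subtype_compl, Fintype.card_subtype_eq, ← Nat.card_eq_fintype_card]

/-- Let G be a finite perfect group containing an element z of prime order p whose centralizer is the cyclic group it generates. Let t be the number of conjugacy classes of elements of order p. Then t divides p - 1, the number of Sylow p-subgroups has the form 1 + n * p, and |G| * t = (p - 1) * p * (1 + n * p). -/
theorem result {G : Type*} [Group G] [Finite G] (hperf : commutator G = ⊤) (p : ℕ) [Fact p.Prime] (z : G) (hz : orderOf z = p) (hC : Subgroup.centralizer ({z} : Set G) = Subgroup.zpowers z) : ∃ n t : ℕ, t = Nat.card {c : ConjClasses G // ∃ g : G, ConjClasses.mk g = c ∧ orderOf g = p} ∧ t ∣ p - 1 ∧ Nat.card (Sylow p G) = 1 + n * p ∧ Nat.card G * t = (p - 1) * p * (1 + n * p) := by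
  classical
  have hp : p.Prime := Fact.out
  have hz1 : z ≠ 1 := by
    intro h; rw [h, orderOf_one] at hz; exact hp.one_lt.ne hz
  have hzp : IsPGroup p (Subgroup.zpowers z) := IsPGroup.of_card (n := 1) (by rw [Nat.card_zpowers, hz, pow_one])
  obtain ⟨P, hP⟩ := hzp.exists_le_sylow
  have hzP : z ∈ (P : Subgroup G) := hP (Subgroup.mem_zpowers z)
  have hgen : ∀ Q : Subgroup G, Nat.card Q = p → ∀ v ∈ Q, v ≠ 1 → Subgroup.zpowers v = Q := by
    intro Q hQ v hv hv1
    apply Subgroup.eq_of_le_of_card_ge (by rw [Subgroup.zpowers_le]; exact hv)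
    rw [hQ, Nat.card_zpowers]
    have h1 : orderOf v ∣ p := by rw [← hQ]; exact Subgroup.orderOf_dvd_natCard _ hv
    rcases (Nat.dvd_prime hp).1 h1 with h | h
    · exact absurd (orderOf_eq_one_iff.1 h) hv1
    · exact h.ge
  have hZc : Nat.card (Subgroup.zpowers z) = p := by rw [Nat.card_zpowers, hz]
  have hcz : ∀ g : G, z * g = g * z → g ∈ Subgroup.zpowers z := by
    intro g hg
    rw [← hC, Subgroup.mem_centralizer_iff]
    intro h hh
    rw [Set.mem_singleton_iff.1 hh]; exact hg
  have hPz : (P : Subgroup G) = Subgroup.zpowers z := by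
    haveI : Nontrivial (P : Subgroup G) := ⟨⟨⟨z, hzP⟩, 1, fun h => hz1 (congrArg Subtype.val h)⟩⟩
    haveI hnt : Nontrivial (Subgroup.center (P : Subgroup G)) := P.2.center_nontrivial
    obtain ⟨w, hw1⟩ := exists_ne (1 : Subgroup.center (P : Subgroup G))
    have hwc := Subgroup.mem_center_iff.1 w.2
    have hwz : ((w : (P : Subgroup G)) : G) ∈ Subgroup.zpowers z :=
      hcz _ (congrArg Subtype.val (hwc ⟨z, hzP⟩))
    have hw1' : ((w : (P : Subgroup G)) : G) ≠ 1 := fun h => hw1 (Subtype.ext (Subtype.ext h))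
    have hzw : z ∈ Subgroup.zpowers ((w : (P : Subgroup G)) : G) := by
      rw [hgen _ hZc _ hwz hw1']; exact Subgroup.mem_zpowers z
    apply le_antisymm _ hP
    intro g hg
    apply hcz
    obtain ⟨k, hk⟩ := Subgroup.mem_zpowers_iff.1 hzw
    have h1 : g * (w : (P : Subgroup G)) = (w : (P : Subgroup G)) * g := congrArg Subtype.val (hwc ⟨g, hg⟩)
    rw [← hk]
    exact (show Commute ((w : (P : Subgroup G)) : G) g from h1.symm).zpow_left k
  have hPc : ∀ Q : Sylow p G, Nat.card (Q : Subgroup G) = p := by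
    intro Q
    exact (Nat.card_congr (Sylow.equiv Q P).toEquiv).trans (by rw [hPz]; exact hZc)
  -- centralizers of elements of order `p`
  have hCx : ∀ x : G, orderOf x = p → Nat.card (Subgroup.centralizer ({x} : Set G)) = p ∧ ∃ Q : Sylow p G, x ∈ (Q : Subgroup G) := by
    intro x hx
    have hx1 : x ≠ 1 := by
      intro h; rw [h, orderOf_one] at hx; exact hp.one_lt.ne hx
    have hxp : IsPGroup p (Subgroup.zpowers x) := IsPGroup.of_card (n := 1) (by rw [Nat.card_zpowers, hx, pow_one])
    obtain ⟨Q, hQ⟩ := hxp.exists_le_sylow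
    have hxQ : x ∈ (Q : Subgroup G) := hQ (Subgroup.mem_zpowers x)
    refine ⟨?_, Q, hxQ⟩
    obtain ⟨g, hg⟩ := MulAction.exists_smul_eq G P Q
    have hxg : g⁻¹ * x * g ∈ (P : Subgroup G) := by
      have h0 : x ∈ ((g • P : Sylow p G) : Subgroup G) := by rw [hg]; exact hxQ
      rw [Sylow.coe_subgroup_smul, Subgroup.mem_pointwise_smul_iff_inv_smul_mem] at h0
      have h1 : (MulAut.conj g)⁻¹ • x = g⁻¹ * x * g := by
        rw [← map_inv, MulAut.smul_def, MulAut.conj_apply, inv_inv]
      rwa [h1] at h0
    have hne : g⁻¹ * x * g ≠ 1 := by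
      intro h
      apply hx1
      calc x = g * (g⁻¹ * x * g) * g⁻¹ := by group
        _ = 1 := by rw [h]; group
    have hz' : z ∈ Subgroup.zpowers (g⁻¹ * x * g) := by
      rw [hPz] at hxg
      rw [hgen _ hZc _ hxg hne]; exact Subgroup.mem_zpowers z
    have hle : Nat.card (Subgroup.centralizer ({x} : Set G)) ≤ p := by
      rw [← hZc]
      refine Nat.card_le_card_of_injective (fun c : Subgroup.centralizer ({x} : Set G) => (⟨g⁻¹ * c * g, ?_⟩ : Subgroup.zpowers z)) ?_
      · apply hcz
        obtain ⟨k, hk⟩ := Subgroup.mem_zpowers_iff.1 hz'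
        have h1 : x * (c : G) = c * x := (Subgroup.mem_centralizer_iff.1 c.2) x rfl
        rw [← hk]
        apply Commute.zpow_left
        change g⁻¹ * x * g * (g⁻¹ * c * g) = g⁻¹ * c * g * (g⁻¹ * x * g)
        calc g⁻¹ * x * g * (g⁻¹ * c * g) = g⁻¹ * (x * c) * g := by group
          _ = g⁻¹ * (c * x) * g := by rw [h1]
          _ = _ := by group
      · intro a b hab
        have h1 : g⁻¹ * (a : G) * g = g⁻¹ * b * g := congrArg Subtype.val hab
        exact Subtype.ext (mul_left_cancel (mul_right_cancel h1))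
    have hge : Subgroup.zpowers x ≤ Subgroup.centralizer ({x} : Set G) := by
      rw [Subgroup.zpowers_le, Subgroup.mem_centralizer_iff]
      intro h hh; rw [Set.mem_singleton_iff.1 hh]
    have hge' := Subgroup.card_le_of_le hge
    rw [Nat.card_zpowers, hx] at hge'
    omega
  -- count the elements of order `p` in two ways
  have hcount1 : Nat.card {g : G // orderOf g = p} = Nat.card (Sylow p G) * (p - 1) := by
    have hord : ∀ Q : Sylow p G, ∀ x ∈ (Q : Subgroup G), x ≠ 1 → orderOf x = p := by
      intro Q x hx hx1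
      have h1 : orderOf x ∣ p := (Subgroup.orderOf_dvd_natCard _ hx).trans (dvd_of_eq (hPc Q))
      rcases (Nat.dvd_prime hp).1 h1 with h | h
      · exact absurd (orderOf_eq_one_iff.1 h) hx1
      · exact h
    have e : (Σ Q : Sylow p G, {x : (Q : Subgroup G) // x ≠ 1}) ≃ {g : G // orderOf g = p} :=
      Equiv.ofBijective (fun a => ⟨a.2.1.1, hord a.1 _ a.2.1.2 (fun h => a.2.2 (Subtype.ext h))⟩) (by
        constructor
        · rintro ⟨Q, ⟨x, hx⟩, hx1⟩ ⟨R, ⟨y, hy⟩, hy1⟩ hab
          have hxy : x = y := congrArg (fun u : {g : G // orderOf g = p} => u.1) hab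
          subst hxy
          have hx1' : x ≠ 1 := fun h => hx1 (Subtype.ext h)
          have : Q = R := by
            apply Sylow.ext
            rw [← hgen _ (hPc Q) x hx hx1', ← hgen _ (hPc R) x hy hx1']
          subst this
          rfl
        · rintro ⟨x, hx⟩
          obtain ⟨Q, hQ⟩ := (hCx x hx).2
          refine ⟨⟨Q, ⟨x, hQ⟩, fun h => ?_⟩, rfl⟩
          have : x = 1 := congrArg Subtype.val h
          rw [this, orderOf_one] at hx; exact hp.one_lt.ne hx)
    haveI := Fintype.ofFinite (Sylow p G)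
    have hs : ∀ Q : Sylow p G, Nat.card {x : (Q : Subgroup G) // x ≠ 1} = p - 1 := by
      intro Q
      have h1 := card_sub_ne_one (Q : Subgroup G)
      have h2 := hPc Q
      omega
    rw [← Nat.card_congr e, Nat.card_sigma]
    simp only [hs]
    rw [Finset.sum_const, Finset.card_univ, smul_eq_mul, Nat.card_eq_fintype_card]
  set T := {c : ConjClasses G // ∃ g : G, ConjClasses.mk g = c ∧ orderOf g = p} with hT
  have hcount2 : Nat.card {g : G // orderOf g = p} * p = Nat.card T * Nat.card G := by
    haveI : Finite (ConjClasses G) := Quotient.finite _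
    haveI : Fintype T := Fintype.ofFinite T
    have hoc : ∀ g h : G, IsConj g h → orderOf g = orderOf h := by
      intro g h hgh
      obtain ⟨c, rfl⟩ := isConj_iff.1 hgh
      exact (orderOf_injective (MulAut.conj c).toMonoidHom (MulAut.conj c).injective g).symm
    have hoT : ∀ a : (Σ c : T, {g : G // ConjClasses.mk g = c.1}), orderOf a.2.1 = p := by
      intro a
      obtain ⟨g, hg, hgo⟩ := a.1.2
      exact (hoc _ _ (ConjClasses.mk_eq_mk_iff_isConj.1 (a.2.2.trans hg.symm))).trans hgo
    have e : (Σ c : T, {g : G // ConjClasses.mk g = c.1}) ≃ {g : G // orderOf g = p} :=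
      Equiv.ofBijective (fun a => ⟨a.2.1, hoT a⟩) (by
        constructor
        · rintro ⟨⟨c, hc⟩, g, hg⟩ ⟨⟨c', hc'⟩, g', hg'⟩ h
          have h1 : g = g' := congrArg (fun u : {g : G // orderOf g = p} => u.1) h
          subst h1
          have h2 : c = c' := hg.symm.trans hg'
          subst h2
          rfl
        · rintro ⟨g, hg⟩
          exact ⟨⟨⟨ConjClasses.mk g, g, rfl, hg⟩, g, rfl⟩, rfl⟩)
    have hs : ∀ c : T, Nat.card {g : G // ConjClasses.mk g = c.1} * p = Nat.card G := by
      rintro ⟨c, x, hx, hxo⟩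
      have h1 := class_card x
      rw [(hCx x hxo).1] at h1
      rw [← h1]
      congr 1
      apply Nat.card_congr
      exact Equiv.subtypeEquivRight (fun g => by
        change ConjClasses.mk g = c ↔ IsConj x g
        constructor
        · intro h
          exact (ConjClasses.mk_eq_mk_iff_isConj.1 (h.trans hx.symm)).symm
        · intro h
          exact (ConjClasses.mk_eq_mk_iff_isConj.2 h.symm).trans hx)
    rw [← Nat.card_congr e, Nat.card_sigma, Finset.sum_mul]
    simp only [hs]
    rw [Finset.sum_const, Finset.card_univ, smul_eq_mul, ← Nat.card_eq_fintype_card (α := T)]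
  have hmod := card_sylow_modEq_one p G
  have hpos : 0 < Nat.card (Sylow p G) := Nat.card_pos
  obtain ⟨n, hn⟩ : p ∣ Nat.card (Sylow p G) - 1 := (Nat.modEq_iff_dvd' hpos).1 hmod.symm
  have hns : Nat.card (Sylow p G) = 1 + n * p := by rw [mul_comm n p]; omega
  have h3 : Nat.card G * Nat.card T = (p - 1) * p * Nat.card (Sylow p G) := by
    rw [mul_comm, ← hcount2, hcount1]; ring
  refine ⟨n, Nat.card T, rfl, ?_, hns, ?_⟩
  · -- `|G| = p * e * n_p`
    have hNi := P.card_eq_index_normalizer
    have h4 := Subgroup.card_mul_index (Subgroup.normalizer ((P : Subgroup G) : Set G))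
    have h5 : (Subgroup.normalizer ((P : Subgroup G) : Set G)).index = Nat.card (Sylow p G) := hNi.symm
    have h6 : p ∣ Nat.card (Subgroup.normalizer ((P : Subgroup G) : Set G)) :=
      (dvd_of_eq (hPc P).symm).trans (Subgroup.card_dvd_of_le Subgroup.le_normalizer)
    obtain ⟨e, he⟩ := h6
    rw [h5, he] at h4
    rw [← h4] at h3
    refine ⟨e, ?_⟩
    have h7 : (p * Nat.card (Sylow p G)) * (p - 1) = (p * Nat.card (Sylow p G)) * (Nat.card T * e) := by
      calc (p * Nat.card (Sylow p G)) * (p - 1) = (p - 1) * p * Nat.card (Sylow p G) := by ring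
        _ = p * e * Nat.card (Sylow p G) * Nat.card T := h3.symm
        _ = _ := by ring
    exact Nat.eq_of_mul_eq_mul_left (Nat.mul_pos hp.pos hpos) h7
  · rw [← hns]; exact h3

end Cfsg.Agent.S0995
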