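import Cfsg.Statements.S1009
import Mathlib
-- import your own Cfsg.Agent.* helpers here

set_option autoImplicit false
open Cfsg

namespace Cfsg.Agent.S1009

open scoped Pointwise

/-- Brodkey's Theorem: if a finite group has abelian Sylow p-subgroups, then there are two Sylow p-subgroups whose intersection equals the intersection of all Sylow p-subgroups. -/
theorem result {G : Type*} [Group G] [Finite G] (p : ℕ) [Fact p.Prime] (hab : ∀ P : Sylow p G, IsMulCommutative ↥(P : Subgroup G)) : ∃ P Q : Sylow p G, (P : Subgroup G) ⊓ (Q : Subgroup G) = ⨅ R : Sylow p G, (R : Subgroup G) := by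
  classical
  obtain ⟨⟨P, Q⟩, hmin⟩ := Finite.exists_min (fun pq : Sylow p G × Sylow p G => Nat.card ((pq.1 : Subgroup G) ⊓ (pq.2 : Subgroup G) : Subgroup G))
  refine ⟨P, Q, le_antisymm ?_ (le_inf (iInf_le _ P) (iInf_le _ Q))⟩
  refine le_iInf (fun R => ?_)
  set D := (P : Subgroup G) ⊓ (Q : Subgroup G) with hD
  set N := Subgroup.normalizer (D : Set G) with hN
  have hle : ∀ S : Sylow p G, D ≤ (S : Subgroup G) → (S : Subgroup G) ≤ N := by
    intro S hDS
    refine le_trans ?_ (Subgroup.centralizer_le_normalizer _)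
    intro s hs
    rw [Subgroup.mem_centralizer_iff]
    intro d hd
    have := (hab S).is_comm.comm ⟨d, hDS hd⟩ ⟨s, hs⟩
    exact congrArg Subtype.val this
  have hPN := hle P inf_le_left
  have hQN := hle Q inf_le_right
  -- the part of `R` in `N`
  have hRp : IsPGroup p ((R : Subgroup G).subgroupOf N) := R.2.comap_of_injective N.subtype N.subtype_injective
  obtain ⟨S, hS⟩ := hRp.exists_le_sylow
  obtain ⟨x, hx⟩ := MulAction.exists_smul_eq N (P.subtype hPN) S
  have hRN : ∀ r ∈ (R : Subgroup G), r ∈ N → (x : G)⁻¹ * r * x ∈ (P : Subgroup G) := by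
    intro r hr hrN
    have h1 : (⟨r, hrN⟩ : N) ∈ (S : Subgroup N) := hS hr
    rw [← hx] at h1
    have h2 : (⟨r, hrN⟩ : N) ∈ MulAut.conj x • ((P.subtype hPN : Sylow p N) : Subgroup N) := h1
    rw [Subgroup.mem_pointwise_smul_iff_inv_smul_mem, ← map_inv] at h2
    have h3 : x⁻¹ * (⟨r, hrN⟩ : N) * x⁻¹⁻¹ ∈ ((P.subtype hPN : Sylow p N) : Subgroup N) := h2
    have h4 : (x : G)⁻¹ * r * (x : G)⁻¹⁻¹ ∈ (P : Subgroup G) := h3
    rwa [inv_inv] at h4
  have hmin' := hmin (R, (x : G) • Q)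
  have hsub : (R : Subgroup G) ⊓ (((x : G) • Q : Sylow p G) : Subgroup G) ≤ D := by
    rintro y ⟨hyR, hyQ⟩
    have hyQ' : y ∈ MulAut.conj (x : G) • (Q : Subgroup G) := hyQ
    rw [Subgroup.mem_pointwise_smul_iff_inv_smul_mem, ← map_inv] at hyQ'
    have h3 : (x : G)⁻¹ * y * (x : G)⁻¹⁻¹ ∈ (Q : Subgroup G) := hyQ'
    rw [inv_inv] at h3
    have hyN : y ∈ N := by
      have h5 : (x : G) * ((x : G)⁻¹ * y * x) * (x : G)⁻¹ ∈ N := mul_mem (mul_mem x.2 (hQN h3)) (inv_mem x.2)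
      have e : (x : G) * ((x : G)⁻¹ * y * x) * (x : G)⁻¹ = y := by group
      rwa [e] at h5
    have h6 : (x : G)⁻¹ * y * x ∈ D := ⟨hRN y hyR hyN, h3⟩
    have h7 := (Subgroup.mem_normalizer_iff.1 x.2 ((x : G)⁻¹ * y * x)).1 h6
    have e : (x : G) * ((x : G)⁻¹ * y * x) * (x : G)⁻¹ = y := by group
    rwa [e] at h7
  have heq : (R : Subgroup G) ⊓ (((x : G) • Q : Sylow p G) : Subgroup G) = D :=
    Subgroup.eq_of_le_of_card_ge hsub hmin'
  rw [← heq]
  exact inf_le_left

end Cfsg.Agent.S1009
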