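import Cfsg.Statements.S1013
import Mathlib
import Cfsg.Agent.Lib.PNilp
import Cfsg.Agent.Lib.Cores
-- import your own Cfsg.Agent.* helpers here

set_option autoImplicit false
open Cfsg

namespace Cfsg.Agent.S1013

open scoped Pointwise

/-- Let G be a transitive permutation group of prime degree p having more than one Sylow p-subgroup, and suppose a Sylow p-subgroup P has prime index in its normalizer. Then G is simple. -/
theorem result {α : Type*} [Fintype α] [DecidableEq α] {p : ℕ} [Fact p.Prime] (hα : Fintype.card α = p) (G : Subgroup (Equiv.Perm α)) [MulAction.IsPretransitive ↥G α] (P : Sylow p ↥G) (hn : 1 < Nat.card (Sylow p ↥G)) (ht : (((P : Subgroup ↥G).subgroupOf (Subgroup.normalizer ((P : Subgroup ↥G) : Set ↥G))).index).Prime) : IsSimpleGroup ↥G := by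
  classical
  have hp : p.Prime := Fact.out
  haveI hprim : MulAction.IsPreprimitive G α := MulAction.IsPreprimitive.of_prime_card (by rw [Nat.card_eq_fintype_card, hα]; exact hp)
  have htrans : ∀ M : Subgroup G, M.Normal → M ≠ ⊥ → p ∣ Nat.card M := by
    intro M hM hne
    haveI := hM
    have hfix : MulAction.fixedPoints M α ≠ Set.univ := by
      intro h
      apply hne
      rw [eq_bot_iff]
      intro m hm
      rw [Subgroup.mem_bot]
      apply Subtype.ext
      apply Equiv.Perm.ext
      intro x
      have hx : x ∈ MulAction.fixedPoints M α := by rw [h]; trivial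
      exact hx ⟨m, hm⟩
    haveI : MulAction.IsPretransitive M α := MulAction.IsQuasiPreprimitive.isPretransitive_of_normal (G := G) (N := M) hfix
    have hne' : Nonempty α := by
      rw [← Fintype.card_pos_iff, hα]; exact hp.pos
    obtain ⟨a⟩ := hne'
    have h1 := MulAction.index_stabilizer_of_transitive M a
    rw [Nat.card_eq_fintype_card, hα] at h1
    rw [← h1]
    exact Subgroup.index_dvd_card _
  have hPcard : Nat.card (P : Subgroup G) = p := by
    obtain ⟨n, hn⟩ := IsPGroup.iff_card.1 P.2
    have h1 : p ∣ Nat.card G := by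
      have hne' : Nonempty α := by
        rw [← Fintype.card_pos_iff, hα]; exact hp.pos
      obtain ⟨a⟩ := hne'
      have h1 := MulAction.index_stabilizer_of_transitive G a
      rw [Nat.card_eq_fintype_card, hα] at h1
      rw [← h1]
      exact Subgroup.index_dvd_card _
    have h2 := P.dvd_card_of_dvd_card h1
    have h3 : p ^ n ∣ p.factorial := by
      rw [← hn]
      have h4 : Nat.card (Equiv.Perm α) = p.factorial := by
        rw [Nat.card_eq_fintype_card, Fintype.card_perm, hα]
      rw [← h4]
      exact (Subgroup.card_subgroup_dvd_card (P : Subgroup G)).trans (Subgroup.card_subgroup_dvd_card G)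
    have h5 : n ≤ 1 := by
      by_contra hn2
      have h6 : p ^ 2 ∣ p.factorial := (pow_dvd_pow p (by omega)).trans h3
      obtain ⟨q, hq⟩ : ∃ q, p = q + 1 := ⟨p - 1, by have := hp.pos; omega⟩
      rw [hq, Nat.factorial_succ, ← hq, pow_two] at h6
      have h7 := Nat.dvd_of_mul_dvd_mul_left hp.pos h6
      have h8 := (Nat.Prime.dvd_factorial hp).1 h7
      omega
    interval_cases n
    · rw [hn, pow_zero] at h2
      exact absurd (Nat.dvd_one.1 h2) hp.one_lt.ne'
    · rw [hn, pow_one]
  have hPne : (P : Subgroup G) ≠ ⊥ := by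
    intro h
    rw [h, Subgroup.card_bot] at hPcard
    exact hp.one_lt.ne hPcard
  set N := Subgroup.normalizer ((P : Subgroup G) : Set G) with hN
  have hPN : (P : Subgroup G) ≤ N := Subgroup.le_normalizer
  -- every nontrivial normal subgroup contains `P`
  have hcontP : ∀ M : Subgroup G, M.Normal → M ≠ ⊥ → (P : Subgroup G) ≤ M := by
    intro M hM hne
    haveI := hM
    obtain ⟨x, hx⟩ := exists_prime_orderOf_dvd_card' p (htrans M hM hne)
    have hxp : IsPGroup p (Subgroup.zpowers (x : G)) :=
      IsPGroup.of_card (n := 1) (by rw [Nat.card_zpowers, Subgroup.orderOf_coe, hx, pow_one])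
    obtain ⟨R, hR⟩ := hxp.exists_le_sylow
    obtain ⟨g, hg⟩ := MulAction.exists_smul_eq G R P
    have hRcard : Nat.card (R : Subgroup G) = p := by
      exact (Nat.card_congr (Sylow.equiv R P).toEquiv).trans hPcard
    have hReq : Subgroup.zpowers (x : G) = R := by
      apply Subgroup.eq_of_le_of_card_ge hR
      rw [hRcard, Nat.card_zpowers, Subgroup.orderOf_coe, hx]
    have hRM : (R : Subgroup G) ≤ M := by
      rw [← hReq, Subgroup.zpowers_le]; exact x.2
    rw [← hg]
    intro y hy
    have hy' : y ∈ (MulAut.conj g • (R : Subgroup G)) := hy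
    obtain ⟨z, hz, rfl⟩ := hy'
    exact hM.conj_mem z (hRM hz) g
  haveI hnt : Nontrivial G := by
    rw [← not_subsingleton_iff_nontrivial]
    intro hs
    apply hPne
    rw [eq_bot_iff]
    intro x _
    exact Subsingleton.elim _ _
  refine ⟨fun M hM => ?_⟩
  by_cases hne : M = ⊥
  · exact Or.inl hne
  right
  haveI := hM
  have hPM := hcontP M hM hne
  have hfrat : N ⊔ M = ⊤ := Sylow.normalizer_sup_eq_top' P hPM
  have hidx : M.index = M.relIndex N := by
    rw [← Subgroup.relIndex_sup_right, hfrat, Subgroup.relIndex_top_right]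
  have hdvd : M.relIndex N ∣ (P : Subgroup G).relIndex N := Subgroup.relIndex_dvd_of_le_left N hPM
  have ht' : ((P : Subgroup G).relIndex N).Prime := ht
  rcases (Nat.dvd_prime ht').1 hdvd with h1 | h1
  · rw [h1] at hidx
    exact Subgroup.index_eq_one.1 hidx
  exfalso
  have hNM : N ⊓ M ≤ (P : Subgroup G) := by
    have h2 : (P : Subgroup G).relIndex (M ⊓ N) * (M ⊓ N).relIndex N = (P : Subgroup G).relIndex N :=
      Subgroup.relIndex_mul_relIndex _ _ _ (le_inf hPM hPN) inf_le_right
    rw [Subgroup.inf_relIndex_right, h1] at h2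
    have h3 : (P : Subgroup G).relIndex (M ⊓ N) = 1 := by
      have := ht'.pos
      exact Nat.eq_of_mul_eq_mul_right this (by rw [h2, one_mul])
    rw [inf_comm]
    exact Subgroup.relIndex_eq_one.1 h3
  have hfrob : Cfsg.Agent.Lib.PNilp.FrobCond p M := by
    intro Q hQ g hg hgo
    by_cases hQ1 : Q = ⊥
    · rw [hQ1]
      rw [Subgroup.mem_centralizer_iff]
      intro x hx
      rw [show x = 1 from hx]; simp
    suffices hg1 : g = 1 by rw [hg1]; exact one_mem _
    have hQ'p : IsPGroup p (Q.map M.subtype) := hQ.map _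
    obtain ⟨R, hR⟩ := hQ'p.exists_le_sylow
    obtain ⟨h, hh⟩ := MulAction.exists_smul_eq G R P
    have hRcard : Nat.card (R : Subgroup G) = p := by
      exact (Nat.card_congr (Sylow.equiv R P).toEquiv).trans hPcard
    have hQcard : Nat.card (Q.map M.subtype) = p := by
      have h2 : Nat.card (Q.map M.subtype) ∣ p := by rw [← hRcard]; exact Subgroup.card_dvd_of_le hR
      rcases (Nat.dvd_prime hp).1 h2 with h3 | h3
      · exfalso; apply hQ1
        rw [Subgroup.card_map_of_injective M.subtype_injective] at h3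
        exact Subgroup.card_eq_one.1 h3
      · exact h3
    have hQR : Q.map M.subtype = R := Subgroup.eq_of_le_of_card_ge hR (by rw [hQcard, hRcard])
    -- h g h⁻¹ normalizes P
    have hmem : h * (g : G) * h⁻¹ ∈ N ⊓ M := by
      refine ⟨?_, hM.conj_mem _ g.2 h⟩
      change h * (g : G) * h⁻¹ ∈ Subgroup.normalizer ((P : Subgroup G) : Set G)
      rw [Subgroup.mem_normalizer_iff]
      have hPeq : ∀ y : G, y ∈ (P : Subgroup G) ↔ h⁻¹ * y * h ∈ Q.map M.subtype := by
        intro y
        rw [hQR, ← hh]
        change y ∈ MulAut.conj h • (R : Subgroup G) ↔ _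
        rw [Subgroup.mem_pointwise_smul_iff_inv_smul_mem, ← map_inv]
        change h⁻¹ * y * h⁻¹⁻¹ ∈ _ ↔ _
        rw [inv_inv]
      have hQn : ∀ y : G, y ∈ Q.map M.subtype ↔ (g : G) * y * (g : G)⁻¹ ∈ Q.map M.subtype := by
        intro y
        constructor
        · rintro ⟨z, hz, rfl⟩
          exact ⟨g * z * g⁻¹, (Subgroup.mem_normalizer_iff.1 hg z).1 hz, rfl⟩
        · rintro ⟨z, hz, hzy⟩
          refine ⟨g⁻¹ * z * g, ?_, ?_⟩
          · have := (Subgroup.mem_normalizer_iff.1 hg (g⁻¹ * z * g)).2 (by
              have e : g * (g⁻¹ * z * g) * g⁻¹ = z := by group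
              rw [e]; exact hz)
            exact this
          · change (g : G)⁻¹ * (M.subtype z) * (g : G) = y
            rw [hzy]; group
      intro y
      rw [hPeq, hPeq, hQn]
      have e : (g : G) * (h⁻¹ * y * h) * (g : G)⁻¹ = h⁻¹ * (h * (g : G) * h⁻¹ * y * (h * (g : G) * h⁻¹)⁻¹) * h := by group
      rw [e]
    have hmP := hNM hmem
    have ho : orderOf (h * (g : G) * h⁻¹) = orderOf g := by
      have : orderOf ((MulAut.conj h) (g : G)) = orderOf (g : G) := MulEquiv.orderOf_eq _ _
      rw [← Subgroup.orderOf_coe g, ← this]; rfl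
    have ho2 : orderOf (h * (g : G) * h⁻¹) ∣ p := by
      rw [← hPcard]; exact Subgroup.orderOf_dvd_natCard _ hmP
    rw [ho] at ho2
    have := Nat.eq_one_of_dvd_coprimes hgo (dvd_refl _) ho2
    exact orderOf_eq_one_iff.1 this
  obtain ⟨k, hk⟩ := Cfsg.Agent.Lib.PNilp.pNil_iff_core.1 (Cfsg.Agent.Lib.PNilp.pNil_of_frobCond hfrob)
  have hchar : (Cfsg.pPrimeCore p M).Characteristic := Cfsg.Agent.Lib.Cores.pPrimeCore_characteristic p
  have hnorm : ((Cfsg.pPrimeCore p M).map M.subtype).Normal := by
    haveI := hchar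
    infer_instance
  have hbot : (Cfsg.pPrimeCore p M).map M.subtype = ⊥ := by
    by_contra hne2
    have h2 := htrans _ hnorm hne2
    rw [Subgroup.card_map_of_injective M.subtype_injective] at h2
    exact (Nat.Prime.coprime_iff_not_dvd hp).1 (Cfsg.Agent.Lib.Cores.pPrimeCore_coprime (G := M) p).symm h2
  have hbot' : Cfsg.pPrimeCore p M = ⊥ := (Subgroup.map_eq_bot_iff_of_injective _ M.subtype_injective).1 hbot
  rw [hbot', Subgroup.index_bot] at hk
  have hMp : IsPGroup p M := IsPGroup.of_card hk
  have hPeqM : (P : Subgroup G) = M := (P.3 hMp hPM).symm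
  haveI hPn : (P : Subgroup G).Normal := by rw [hPeqM]; exact hM
  haveI := Sylow.unique_of_normal P hPn
  have : Nat.card (Sylow p G) = 1 := Nat.card_unique
  omega

end Cfsg.Agent.S1013
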