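import Cfsg.Statements.S1014
import Mathlib
import Cfsg.Agent.S0988
import Cfsg.Agent.S0989
import Cfsg.Agent.S0990
-- import your own Cfsg.Agent.* helpers here

set_option autoImplicit false
open Cfsg

namespace Cfsg.Agent.S1014

/-- No finite simple group has order 1104 = 2^4 * 3 * 23. -/
theorem result {G : Type*} [Group G] [Finite G] [IsSimpleGroup G] : Nat.card G ≠ 1104 := by
  classical
  intro hG
  haveI : Fact (Nat.Prime 23) := ⟨by norm_num⟩
  obtain ⟨P⟩ := (inferInstance : Nonempty (Sylow 23 G))
  have hPc : Nat.card (P : Subgroup G) = 23 := by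
    have := Cfsg.Agent.S0988.card_syl P (k := 1) (m := 48) (by rw [hG]; norm_num) (by norm_num)
    rwa [pow_one] at this
  have hPi : (P : Subgroup G).index = 48 := by
    have := Subgroup.card_mul_index (P : Subgroup G)
    rw [hPc, hG] at this
    omega
  have hn : Nat.card (Sylow 23 G) ∣ 48 := by rw [← hPi]; exact P.card_dvd_index
  have hnm : Nat.card (Sylow 23 G) % 23 = 1 := card_sylow_modEq_one 23 G
  have hn1 : Nat.card (Sylow 23 G) ≠ 1 := by
    intro h
    haveI : Subsingleton (Sylow 23 G) := (Nat.card_eq_one_iff_unique.1 h).1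
    have hPn : (P : Subgroup G).Normal := P.normal_of_subsingleton
    rcases IsSimpleGroup.eq_bot_or_eq_top_of_normal _ hPn with h | h
    · rw [h, Subgroup.card_bot] at hPc; omega
    · rw [h, Subgroup.index_top] at hPi; omega
  have h24 : Nat.card (Sylow 23 G) = 24 := by
    have hle := Nat.le_of_dvd (by norm_num) hn
    generalize Nat.card (Sylow 23 G) = n at *
    interval_cases n <;> omega
  have hNi := P.card_eq_index_normalizer
  have hNc : Nat.card (Subgroup.normalizer ((P : Subgroup G) : Set G)) = 46 := by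
    have h4 := Subgroup.card_mul_index (Subgroup.normalizer ((P : Subgroup G) : Set G))
    have h5 : (Subgroup.normalizer ((P : Subgroup G) : Set G)).index = 24 := hNi.symm.trans h24
    rw [h5, hG] at h4
    omega
  haveI := Fintype.ofFinite (Sylow 23 G)
  have hFc : Fintype.card (Sylow 23 G) = 24 := by rw [← Nat.card_eq_fintype_card]; exact h24
  let f : G →* Equiv.Perm (Sylow 23 G) := MulAction.toPermHom G (Sylow 23 G)
  have hf : Function.Injective f := by
    rw [← MonoidHom.ker_eq_bot_iff]
    rcases IsSimpleGroup.eq_bot_or_eq_top_of_normal _ (MonoidHom.normal_ker f) with h | h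
    · exact h
    · exfalso
      apply hn1
      rw [Nat.card_eq_one_iff_unique]
      refine ⟨⟨fun Q R => ?_⟩, ⟨P⟩⟩
      obtain ⟨g, hg⟩ := MulAction.exists_smul_eq G Q R
      have h1 : g ∈ f.ker := by rw [h]; trivial
      have h2 : f g Q = Q := by rw [MonoidHom.mem_ker.1 h1]; rfl
      exact h2.symm.trans hg
  have halt : ∀ g : G, f g ∈ alternatingGroup (Sylow 23 G) := by
    intro g
    rw [Equiv.Perm.mem_alternatingGroup]
    let s : G →* ℤˣ := Equiv.Perm.sign.comp f
    rcases IsSimpleGroup.eq_bot_or_eq_top_of_normal _ (MonoidHom.normal_ker s) with h | h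
    · exfalso
      rw [MonoidHom.ker_eq_bot_iff] at h
      have h1 := Nat.card_le_card_of_injective s h
      rw [hG, Nat.card_eq_fintype_card, Fintype.card_units_int] at h1
      omega
    · have h1 : g ∈ s.ker := by rw [h]; trivial
      exact MonoidHom.mem_ker.1 h1
  -- the image of `P`
  have hPm : Nat.card ((P : Subgroup G).map f) = 23 :=
    (Nat.card_congr ((P : Subgroup G).equivMapOfInjective f hf).toEquiv).symm.trans hPc
  have hPmp : IsPGroup 23 ((P : Subgroup G).map f) := P.2.map f
  obtain ⟨P', hP'⟩ := hPmp.exists_le_sylow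
  have hP'c : Nat.card (P' : Subgroup (Equiv.Perm (Sylow 23 G))) = 23 := by
    have h1 : Nat.card (Equiv.Perm (Sylow 23 G)) = 23 ^ 1 * (24 * Nat.factorial 22) := by
      rw [Nat.card_eq_fintype_card, Fintype.card_perm, hFc, Nat.factorial_succ 23, Nat.factorial_succ 22]
      ring
    have := Cfsg.Agent.S0988.card_syl P' (k := 1) (m := 24 * Nat.factorial 22) h1 (by
      intro h
      rcases (Nat.Prime.dvd_mul (by norm_num)).1 h with h | h
      · omega
      · have := (Nat.Prime.dvd_factorial (by norm_num)).1 h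
        omega)
    rwa [pow_one] at this
  have hPP' : (P : Subgroup G).map f = (P' : Subgroup (Equiv.Perm (Sylow 23 G))) :=
    Subgroup.eq_of_le_of_card_ge hP' (by rw [hPm, hP'c])
  have h989 := Cfsg.Agent.S0989.result 23 (Or.inr hFc) P'
  have h990 := (Cfsg.Agent.S0990.result (by omega) 23 (by norm_num) P').2
  have hle' := (Cfsg.Agent.S0990.result (by omega) 23 (by norm_num) P').1
  rw [h989, ← Subgroup.subgroupOf_normalizer_eq hle'] at h990
  -- the image of the normalizer
  set M := (Subgroup.normalizer ((P : Subgroup G) : Set G)).map f with hM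
  have hMc : Nat.card M = 46 := by
    rw [← hNc, hM]
    exact (Nat.card_congr ((Subgroup.normalizer ((P : Subgroup G) : Set G)).equivMapOfInjective f hf).toEquiv).symm
  have hMA : M ≤ alternatingGroup (Sylow 23 G) := by
    rintro _ ⟨g, hg, rfl⟩
    exact halt g
  have hMN : M ≤ Subgroup.normalizer ((P' : Subgroup (Equiv.Perm (Sylow 23 G))) : Set (Equiv.Perm (Sylow 23 G))) := by
    rw [← hPP']
    exact Subgroup.le_normalizer_map f
  have hMs : Nat.card (M.subgroupOf (alternatingGroup (Sylow 23 G))) = 46 := by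
    rw [← hMc]; exact Nat.card_congr (Subgroup.subgroupOfEquivOfLe hMA).toEquiv
  have hdv := Subgroup.card_dvd_of_le (Subgroup.comap_mono (f := (alternatingGroup (Sylow 23 G)).subtype) hMN)
  change Nat.card (M.subgroupOf (alternatingGroup (Sylow 23 G))) ∣ Nat.card ((Subgroup.normalizer ((P' : Subgroup (Equiv.Perm (Sylow 23 G))) : Set (Equiv.Perm (Sylow 23 G)))).subgroupOf (alternatingGroup (Sylow 23 G))) at hdv
  rw [hMs] at hdv
  obtain ⟨c, hc⟩ := hdv
  rw [hc] at h990
  omega

end Cfsg.Agent.S1014
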