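import Cfsg.Statements.S1015
import Mathlib
import Cfsg.Agent.S0988
import Cfsg.Agent.S0985
-- import your own Cfsg.Agent.* helpers here

set_option autoImplicit false
open Cfsg

namespace Cfsg.Agent.S1015

theorem dvd_fact {G : Type*} [Group G] [Finite G] [IsSimpleGroup G] (H : Subgroup G) (hH : H ≠ ⊤) : Nat.card G ∣ H.index.factorial := by
  classical
  let f : G →* Equiv.Perm (G ⧸ H) := MulAction.toPermHom G (G ⧸ H)
  have hf : Function.Injective f := by
    rw [← MonoidHom.ker_eq_bot_iff]
    rcases IsSimpleGroup.eq_bot_or_eq_top_of_normal _ (MonoidHom.normal_ker f) with h | h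
    · exact h
    · exfalso
      apply hH
      rw [eq_top_iff]
      intro g _
      have h1 : g ∈ f.ker := by rw [h]; trivial
      have h2 : f g ((1 : G) : G ⧸ H) = ((1 : G) : G ⧸ H) := by rw [MonoidHom.mem_ker.1 h1]; rfl
      have h3 : ((g * 1 : G) : G ⧸ H) = ((1 : G) : G ⧸ H) := h2
      rw [eq_comm, QuotientGroup.eq] at h3
      simpa using h3
  have h1 := Subgroup.card_dvd_of_injective f hf
  rw [Nat.card_perm] at h1
  exact h1

/-- No finite simple group has order 1200 = 2^4 * 3 * 5^2. -/
theorem result {G : Type*} [Group G] [Finite G] [IsSimpleGroup G] : Nat.card G ≠ 1200 := by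
  classical
  intro hG
  haveI : Fact (Nat.Prime 5) := ⟨by norm_num⟩
  have hPc : ∀ P : Sylow 5 G, Nat.card (P : Subgroup G) = 25 := by
    intro P
    have := Cfsg.Agent.S0988.card_syl P (k := 2) (m := 48) (by rw [hG]; norm_num) (by norm_num)
    simpa using this
  obtain ⟨P⟩ := (inferInstance : Nonempty (Sylow 5 G))
  have hPi : (P : Subgroup G).index = 48 := by
    have := Subgroup.card_mul_index (P : Subgroup G)
    rw [hPc P, hG] at this
    omega
  have hn : Nat.card (Sylow 5 G) ∣ 48 := by rw [← hPi]; exact P.card_dvd_index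
  have hnm : Nat.card (Sylow 5 G) % 5 = 1 := card_sylow_modEq_one 5 G
  have hNi : Nat.card (Sylow 5 G) = (Subgroup.normalizer ((P : Subgroup G) : Set G)).index := P.card_eq_index_normalizer
  have hcases : Nat.card (Sylow 5 G) = 1 ∨ Nat.card (Sylow 5 G) = 6 ∨ Nat.card (Sylow 5 G) = 16 := by
    have hle := Nat.le_of_dvd (by norm_num) hn
    clear hNi
    generalize Nat.card (Sylow 5 G) = n at *
    interval_cases n <;> omega
  rcases hcases with h | h | h
  · haveI : Subsingleton (Sylow 5 G) := (Nat.card_eq_one_iff_unique.1 h).1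
    have hPn : (P : Subgroup G).Normal := P.normal_of_subsingleton
    rcases IsSimpleGroup.eq_bot_or_eq_top_of_normal _ hPn with h | h
    · have := hPc P; rw [h, Subgroup.card_bot] at this; omega
    · rw [h, Subgroup.index_top] at hPi; omega
  · have h1 := dvd_fact (Subgroup.normalizer ((P : Subgroup G) : Set G)) (by
      intro h2; rw [h2, Subgroup.index_top] at hNi; omega)
    rw [← hNi, h, hG] at h1
    revert h1; decide
  · obtain ⟨P, R, hPR, hidx⟩ := Cfsg.Agent.S0985.result (G := G) 5 2 (by rw [h]; decide)
    set D : Subgroup G := (P : Subgroup G) ⊓ R with hD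
    have hDc : 5 ≤ Nat.card D := by
      have h1 := Subgroup.card_mul_index ((R : Subgroup G).subgroupOf (P : Subgroup G))
      rw [hPc P] at h1
      have h2 : Nat.card ((R : Subgroup G).subgroupOf (P : Subgroup G)) = Nat.card D := by
        rw [← Subgroup.inf_subgroupOf_left]
        exact Nat.card_congr (Subgroup.subgroupOfEquivOfLe inf_le_left).toEquiv
      rw [h2] at h1
      simp only [Nat.add_one_sub_one, pow_one] at hidx
      nlinarith
    have hle : ∀ S : Sylow 5 G, D ≤ (S : Subgroup G) → (S : Subgroup G) ≤ Subgroup.normalizer (D : Set G) := by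
      intro S hS
      have hcm : IsMulCommutative (S : Subgroup G) := IsPGroup.isMulCommutative_of_card_eq_prime_sq (p := 5) (by rw [hPc S]; norm_num)
      have hc : ∀ a ∈ (S : Subgroup G), ∀ b ∈ (S : Subgroup G), a * b = b * a := fun a ha b hb =>
        congrArg Subtype.val (hcm.is_comm.comm ⟨a, ha⟩ ⟨b, hb⟩)
      intro x hx
      rw [Subgroup.mem_normalizer_iff]
      intro y
      constructor
      · intro hy
        rw [hc x hx y (hS hy), mul_inv_cancel_right]; exact hy
      · intro hy
        have h1 := hc x hx _ (hS hy)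
        have h2 : y = x * y * x⁻¹ := by
          apply mul_left_cancel (a := x)
          rw [h1]; group
        rw [h2]; exact hy
    set M := Subgroup.normalizer (D : Set G) with hM
    have hPM := hle P inf_le_left
    have hRM := hle R inf_le_right
    have hMt : M ≠ ⊤ := by
      intro h1
      have hDn : D.Normal := Subgroup.normalizer_eq_top_iff.1 h1
      have hDP := Subgroup.card_le_of_le (show D ≤ (P : Subgroup G) from inf_le_left)
      rw [hPc P] at hDP
      rcases IsSimpleGroup.eq_bot_or_eq_top_of_normal _ hDn with h | h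
      · rw [h, Subgroup.card_bot] at hDc; omega
      · rw [h, Subgroup.card_top, hG] at hDP; omega
    have hne : P.subtype hPM ≠ R.subtype hRM := fun h => hPR (Sylow.subtype_injective h)
    have hm1 : Nat.card (Sylow 5 M) ≠ 1 := by
      intro h1
      haveI : Subsingleton (Sylow 5 M) := (Nat.card_eq_one_iff_unique.1 h1).1
      exact hne (Subsingleton.elim _ _)
    have hmm : Nat.card (Sylow 5 M) % 5 = 1 := card_sylow_modEq_one 5 M
    have hmd : Nat.card (Sylow 5 M) ∣ (P.subtype hPM : Subgroup M).index := (P.subtype hPM).card_dvd_index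
    have h5 := Nat.le_of_dvd (Nat.pos_of_ne_zero Subgroup.index_ne_zero_of_finite) hmd
    have h6 := Subgroup.card_mul_index (P.subtype hPM : Subgroup M)
    have h7 : Nat.card (P.subtype hPM : Subgroup M) = 25 := by
      rw [Sylow.coe_subtype]
      exact (Nat.card_congr (Subgroup.subgroupOfEquivOfLe hPM).toEquiv).trans (hPc P)
    rw [h7] at h6
    have h8 := Subgroup.card_mul_index M
    rw [hG] at h8
    have h9 : M.index ≤ 8 := by
      have : 150 ≤ Nat.card M := by omega
      nlinarith
    have h10 := dvd_fact M hMt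
    rw [hG] at h10
    have h11 := h10.trans (Nat.factorial_dvd_factorial h9)
    revert h11; decide

end Cfsg.Agent.S1015
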