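import Cfsg.Statements.S1018
import Mathlib
-- import your own Cfsg.Agent.* helpers here

set_option autoImplicit false
open Cfsg

namespace Cfsg.Agent.S1018

/-- Let P be a Sylow p-subgroup of order p of a finite group G, and consider the action of G on the left cosets of the normalizer N of P. Then every element of order p fixes exactly one coset, and an element of N that does not centralize P fixes at most as many cosets as there are orbits of P. -/
theorem result {G : Type*} [Group G] [Finite G] (p : ℕ) [Fact p.Prime] (P : Sylow p G) (hP : Nat.card ↥(P : Subgroup G) = p) : (∀ y : G, orderOf y = p → Nat.card (MulAction.fixedBy (G ⧸ Subgroup.normalizer ((P : Subgroup G) : Set G)) y) = 1) ∧ ∀ x : G, x ∈ Subgroup.normalizer ((P : Subgroup G) : Set G) → x ∉ Subgroup.centralizer ((P : Subgroup G) : Set G) → Nat.card (MulAction.fixedBy (G ⧸ Subgroup.normalizer ((P : Subgroup G) : Set G)) x) ≤ Nat.card (MulAction.orbitRel.Quotient ↥(P : Subgroup G) (G ⧸ Subgroup.normalizer ((P : Subgroup G) : Set G))) := by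
  classical
  have hp : p.Prime := Fact.out
  set N := Subgroup.normalizer ((P : Subgroup G) : Set G) with hN
  have hgen : ∀ Q : Subgroup G, Nat.card Q = p → ∀ v ∈ Q, v ≠ 1 → Subgroup.zpowers v = Q := by
    intro Q hQ v hv hv1
    apply Subgroup.eq_of_le_of_card_ge (by rw [Subgroup.zpowers_le]; exact hv)
    rw [hQ, Nat.card_zpowers]
    have h1 : orderOf v ∣ p := by rw [← hQ]; exact Subgroup.orderOf_dvd_natCard _ hv
    rcases (Nat.dvd_prime hp).1 h1 with h | h
    · exact absurd (orderOf_eq_one_iff.1 h) hv1
    · exact h.ge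
  have hmem : ∀ (g x : G), x ∈ ((g • P : Sylow p G) : Subgroup G) ↔ g⁻¹ * x * g ∈ (P : Subgroup G) := by
    intro g x
    rw [Sylow.coe_subgroup_smul, Subgroup.mem_pointwise_smul_iff_inv_smul_mem]
    have h1 : (MulAut.conj g)⁻¹ • x = g⁻¹ * x * g := by
      rw [← map_inv, MulAut.smul_def, MulAut.conj_apply, inv_inv]
    rw [h1]
  constructor
  · intro y hy
    have hy1 : y ≠ 1 := by
      intro h; rw [h, orderOf_one] at hy; exact hp.one_lt.ne hy
    have hYp : IsPGroup p (Subgroup.zpowers y) := IsPGroup.of_card (n := 1) (by rw [Nat.card_zpowers, hy, pow_one])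
    obtain ⟨Q, hQ⟩ := hYp.exists_le_sylow
    obtain ⟨g, hg⟩ := MulAction.exists_smul_eq G P Q
    have hyg : g⁻¹ * y * g ∈ (P : Subgroup G) := by
      rw [← hmem, hg]; exact hQ (Subgroup.mem_zpowers y)
    have hset : MulAction.fixedBy (G ⧸ N) y = {(g : G ⧸ N)} := by
      ext q
      refine QuotientGroup.induction_on q ?_
      intro h
      rw [MulAction.mem_fixedBy, Set.mem_singleton_iff]
      have hiff : (y • (h : G ⧸ N) = h) ↔ h⁻¹ * y * h ∈ N := by
        change ((y * h : G) : G ⧸ N) = (h : G ⧸ N) ↔ _
        rw [eq_comm, QuotientGroup.eq, mul_assoc]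
      constructor
      · intro hfix
        rw [hiff] at hfix
        set z := h⁻¹ * y * h with hz
        have hzo : orderOf z = p := by
          rw [← hy, hz]
          have := orderOf_injective (MulAut.conj h⁻¹).toMonoidHom (MulAut.conj h⁻¹).injective y
          rw [← this]
          congr 1
          change h⁻¹ * y * h = h⁻¹ * y * h⁻¹⁻¹
          rw [inv_inv]
        have hZp : IsPGroup p (Subgroup.zpowers z) := IsPGroup.of_card (n := 1) (by rw [Nat.card_zpowers, hzo, pow_one])
        have h1 : z ∈ Subgroup.zpowers z ⊓ Subgroup.normalizer (P : Set G) := ⟨Subgroup.mem_zpowers z, hfix⟩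
        rw [hZp.inf_normalizer_sylow P] at h1
        have h2 : z ∈ (P : Subgroup G) := h1.2
        have h3 : y ∈ ((h • P : Sylow p G) : Subgroup G) := (hmem h y).2 h2
        have h4 : y ∈ ((g • P : Sylow p G) : Subgroup G) := (hmem g y).2 hyg
        have hcardS : ∀ R : Sylow p G, Nat.card (R : Subgroup G) = p := by
          intro R
          exact (Nat.card_congr (Sylow.equiv R P).toEquiv).trans hP
        have h5 : (h • P : Sylow p G) = g • P := by
          apply Sylow.ext
          rw [← hgen _ (hcardS _) y h3 hy1, ← hgen _ (hcardS _) y h4 hy1]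
        rw [QuotientGroup.eq, hN]
        have h6 : (h⁻¹ * g) • P = P := by
          rw [mul_smul, ← h5, inv_smul_smul]
        exact Sylow.smul_eq_iff_mem_normalizer.1 h6
      · intro heq
        rw [heq]
        change ((y * g : G) : G ⧸ N) = (g : G ⧸ N)
        rw [eq_comm, QuotientGroup.eq, ← mul_assoc]
        exact Subgroup.le_normalizer hyg
    rw [hset]
    exact Nat.card_unique
  · intro x hx hxC
    let f : MulAction.fixedBy (G ⧸ N) x → MulAction.orbitRel.Quotient (P : Subgroup G) (G ⧸ N) := fun a => Quotient.mk _ a.1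
    haveI : Finite (MulAction.orbitRel.Quotient (P : Subgroup G) (G ⧸ N)) := Quotient.finite _
    apply Nat.card_le_card_of_injective f
    intro a b hab
    have h1 := Quotient.exact hab
    obtain ⟨u, hu⟩ := MulAction.orbitRel_apply.1 h1
    have hu' : (u : G) • (b : G ⧸ N) = a := hu
    have ha : x • (a : G ⧸ N) = a := a.2
    have hb : x • (b : G ⧸ N) = b := b.2
    apply Subtype.ext
    by_cases hu1 : (u : G) = 1
    · rw [hu1, one_smul] at hu'
      exact hu'.symm
    · set w := x⁻¹ * (u : G)⁻¹ * x * u with hw
      have hwP : w ∈ (P : Subgroup G) := by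
        apply (P : Subgroup G).mul_mem _ u.2
        have h2 := (Subgroup.mem_normalizer_iff.1 ((Subgroup.normalizer ((P : Subgroup G) : Set G)).inv_mem hx) (u : G)⁻¹).1 ((P : Subgroup G).inv_mem u.2)
        rwa [inv_inv] at h2
      have hw1 : w ≠ 1 := by
        intro h
        apply hxC
        have hcomm : (u : G) * x = x * u := by
          have h3 : x⁻¹ * (u : G)⁻¹ * x * u = 1 := h
          calc (u : G) * x = u * x * 1 := by group
            _ = u * x * (x⁻¹ * (u : G)⁻¹ * x * u) := by rw [h3]
            _ = x * u := by group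
        rw [Subgroup.mem_centralizer_iff]
        intro v hv
        have hv' : v ∈ Subgroup.zpowers (u : G) := by rw [hgen _ hP _ u.2 hu1]; exact hv
        obtain ⟨k, rfl⟩ := Subgroup.mem_zpowers_iff.1 hv'
        exact (show Commute (u : G) x from hcomm).zpow_left k
      have hwb : w • (b : G ⧸ N) = b := by
        rw [hw, mul_smul, hu', mul_smul, ha, mul_smul, ← hu', inv_smul_smul]
        rw [inv_smul_eq_iff]; exact hb.symm
      have hstab : Subgroup.zpowers w ≤ MulAction.stabilizer G (b : G ⧸ N) := by
        rw [Subgroup.zpowers_le]; exact hwb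
      rw [hgen _ hP _ hwP hw1] at hstab
      have := hstab u.2
      rw [MulAction.mem_stabilizer_iff, hu'] at this
      exact this

end Cfsg.Agent.S1018
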