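import Cfsg.Statements.S1019
import Mathlib
-- import your own Cfsg.Agent.* helpers here

set_option autoImplicit false
open Cfsg

namespace Cfsg.Agent.S1019

/-- Let H be a subgroup of a finite group G and x an element of H. In the action of G on the left cosets of H, the number of cosets fixed by x, multiplied by the size of the conjugacy class of x, equals the index of H multiplied by the number of conjugates of x that lie in H. -/
theorem result {G : Type*} [Group G] [Finite G] (H : Subgroup G) (x : G) (hx : x ∈ H) : Nat.card (MulAction.fixedBy (G ⧸ H) x) * Nat.card {g : G // IsConj x g} = H.index * Nat.card {g : G // IsConj x g ∧ g ∈ H} := by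
  classical
  set C := Subgroup.centralizer ({x} : Set G) with hC
  -- the class as a quotient
  let F : G ⧸ C → {g : G // IsConj x g} := Quotient.lift (fun g => ⟨g * x * g⁻¹, isConj_iff.2 ⟨g, rfl⟩⟩) (by
    intro a b hab
    have h1 : a⁻¹ * b ∈ C := QuotientGroup.leftRel_apply.1 hab
    rw [hC, Subgroup.mem_centralizer_singleton_iff] at h1
    apply Subtype.ext
    change a * x * a⁻¹ = b * x * b⁻¹
    calc a * x * a⁻¹ = a * (x * (a⁻¹ * b)) * b⁻¹ := by group
      _ = a * (a⁻¹ * b * x) * b⁻¹ := by rw [h1]
      _ = _ := by group)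
  have hFmk : ∀ g : G, (F (g : G ⧸ C)).1 = g * x * g⁻¹ := fun g => rfl
  have hFbij : Function.Bijective F := by
    constructor
    · intro a b
      refine Quotient.inductionOn₂' a b ?_
      intro a b hab
      have h1 : a * x * a⁻¹ = b * x * b⁻¹ := congrArg Subtype.val hab
      apply Quotient.sound'
      rw [QuotientGroup.leftRel_apply, hC, Subgroup.mem_centralizer_singleton_iff]
      calc a⁻¹ * b * x = a⁻¹ * (b * x * b⁻¹) * b := by group
        _ = a⁻¹ * (a * x * a⁻¹) * b := by rw [h1]
        _ = _ := by group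
    · rintro ⟨y, hy⟩
      obtain ⟨g, hg⟩ := isConj_iff.1 hy
      exact ⟨(g : G ⧸ C), Subtype.ext hg⟩
  have hclass : Nat.card {g : G // IsConj x g} * Nat.card C = Nat.card G := by
    rw [← Nat.card_congr (Equiv.ofBijective F hFbij)]
    exact (Subgroup.card_eq_card_quotient_mul_card_subgroup C).symm
  -- the set `A`
  let A : Set G := {g | g⁻¹ * x * g ∈ H}
  have hA1 : Nat.card A = Nat.card H * Nat.card (MulAction.fixedBy (G ⧸ H) x) := by
    rw [← Nat.card_prod]
    have hset : A = (QuotientGroup.mk : G → G ⧸ H) ⁻¹' (MulAction.fixedBy (G ⧸ H) x) := by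
      ext g
      rw [Set.mem_preimage, MulAction.mem_fixedBy]
      change g⁻¹ * x * g ∈ H ↔ ((x * g : G) : G ⧸ H) = (g : G ⧸ H)
      rw [eq_comm, QuotientGroup.eq, mul_assoc]
    rw [hset]
    exact Nat.card_congr (QuotientGroup.preimageMkEquivSubgroupProdSet _ _)
  have hA2 : Nat.card A = Nat.card C * Nat.card {g : G // IsConj x g ∧ g ∈ H} := by
    let t : Set (G ⧸ C) := {q | (F q).1 ∈ H}
    have e1 : A ≃ ((QuotientGroup.mk : G → G ⧸ C) ⁻¹' t) :=
      { toFun := fun g => ⟨g.1⁻¹, by
          change (F ((g.1⁻¹ : G) : G ⧸ C)).1 ∈ H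
          rw [hFmk, inv_inv]; exact g.2⟩
        invFun := fun g => ⟨g.1⁻¹, by
          have h1 : (F ((g.1 : G) : G ⧸ C)).1 ∈ H := g.2
          rw [hFmk] at h1
          change g.1⁻¹⁻¹ * x * g.1⁻¹ ∈ H
          rwa [inv_inv]⟩
        left_inv := fun g => Subtype.ext (inv_inv g.1)
        right_inv := fun g => Subtype.ext (inv_inv g.1) }
    have e2 : t ≃ {g : G // IsConj x g ∧ g ∈ H} :=
      Equiv.ofBijective (fun q => ⟨(F q.1).1, (F q.1).2, q.2⟩) (by
        constructor
        · intro a b hab
          have h1 : (F a.1).1 = (F b.1).1 := congrArg (fun z : {g : G // IsConj x g ∧ g ∈ H} => z.1) hab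
          exact Subtype.ext (hFbij.1 (Subtype.ext h1))
        · rintro ⟨y, hy, hyH⟩
          obtain ⟨q, hq⟩ := hFbij.2 ⟨y, hy⟩
          refine ⟨⟨q, ?_⟩, ?_⟩
          · change (F q).1 ∈ H
            rw [hq]; exact hyH
          · apply Subtype.ext
            change (F q).1 = y
            rw [hq])
    rw [Nat.card_congr e1, Nat.card_congr (QuotientGroup.preimageMkEquivSubgroupProdSet _ _), Nat.card_prod, Nat.card_congr e2]
  have hH : H.index * Nat.card H = Nat.card G := Subgroup.index_mul_card H
  have hpos : 0 < Nat.card H * Nat.card C := Nat.mul_pos Nat.card_pos Nat.card_pos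
  apply Nat.eq_of_mul_eq_mul_left hpos
  calc Nat.card H * Nat.card C * (Nat.card (MulAction.fixedBy (G ⧸ H) x) * Nat.card {g : G // IsConj x g})
      = (Nat.card H * Nat.card (MulAction.fixedBy (G ⧸ H) x)) * (Nat.card {g : G // IsConj x g} * Nat.card C) := by ring
    _ = (Nat.card C * Nat.card {g : G // IsConj x g ∧ g ∈ H}) * (H.index * Nat.card H) := by
        rw [← hA1, hA2, hclass, hH]
    _ = _ := by ring

end Cfsg.Agent.S1019
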