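import Cfsg.Statements.S1024
import Cfsg.Agent.Lib.ChevAll
-- import your own Cfsg.Agent.* helpers here

set_option autoImplicit false
open Cfsg Cfsg.Lie Cfsg.Agent.Lib.ChevTab Cfsg.Agent.Lib.ChevAlg

namespace Cfsg.Agent.S1024

/-- `x_r(0) = 1`, and `x_r(t) = 1` forces `t = 0`: the map `t ↦ x_r(t)` is injective. -/
theorem result {F : Type*} [Field F] (D : Cfsg.Lie.ChevalleyDatum) (hD : D ∈ [Cfsg.Lie.chevG2, Cfsg.Lie.chevB2, Cfsg.Lie.chevD4, Cfsg.Lie.chevF4, Cfsg.Lie.chevE6, Cfsg.Lie.chevE7, Cfsg.Lie.chevE8]) (r : ℕ) (hr : r < D.nroots) (t : F) :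
    D.x F r t = 1 ↔ t = 0 := by
  obtain ⟨Q⟩ := exists_chev D hD F
  rw [x_eq Q.C hr]
  constructor
  · intro h
    have hn : D.nroots - 1 - r < D.nroots := by omega
    have e := X_E Q.C F hr t hn
    rw [h, if_pos rfl, Matrix.one_mulVec] at e
    have e' := congrFun e (Sum.inr ⟨r, hr⟩)
    have hne : ¬ (r = D.nroots - 1 - r) := by
      have := Q.C.even
      omega
    simp [hne, Q.C.N_neg_self r hr, M2, M3] at e'
    exact e'
  · rintro rfl
    exact X_zero Q.C F _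

end Cfsg.Agent.S1024
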