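import Cfsg.Statements.S1026
import Cfsg.Agent.Lib.ChevProd
-- import your own Cfsg.Agent.* helpers here

set_option autoImplicit false
open Cfsg

namespace Cfsg.Agent.S1026

open Cfsg.Agent.Lib.ChevAlg Cfsg.Lie in
lemma prod_val {F : Type*} [Field F] {D : Cfsg.Lie.ChevalleyDatum} (Q : ChevO D F) (L : List ℕ) (t : ℕ → F) :
    (prodL Q L t : Matrix D.Idx D.Idx F) = D.wordMat F (L.map fun r => (r, t r)) := by
  induction L with
  | nil => simp [prodL, Cfsg.Lie.ChevalleyDatum.wordMat]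
  | cons k L ih => rw [prodL_cons, List.map_cons, wordMat_cons, ← ih]; rfl

/-- Every element of `U` has a unique expression `∏_{r ∈ Φ⁺} x_r(t_r)`, the product over the positive roots in increasing index order (the coefficient family `t`, supported on the positive roots, exists and is unique); and conversely every such ordered product is the matrix of an element of `U`. -/
theorem result {F : Type*} [Field F] (D : Cfsg.Lie.ChevalleyDatum) (hD : D ∈ [Cfsg.Lie.chevG2, Cfsg.Lie.chevB2, Cfsg.Lie.chevD4, Cfsg.Lie.chevF4, Cfsg.Lie.chevE6, Cfsg.Lie.chevE7, Cfsg.Lie.chevE8]) :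
    (∀ g : GL D.Idx F, g ∈ D.posUnipotent F →
      ∃! t : ℕ → F, (∀ r, ¬ D.IsPosRoot r → t r = 0) ∧
        (g : Matrix D.Idx D.Idx F) = D.wordMat F (D.posRoots.map fun r => (r, t r))) ∧
    (∀ t : ℕ → F, ∃ g : GL D.Idx F, g ∈ D.posUnipotent F ∧
      (g : Matrix D.Idx D.Idx F) = D.wordMat F (D.posRoots.map fun r => (r, t r))) := by
  obtain ⟨Q⟩ := Cfsg.Agent.Lib.ChevAlg.exists_chevO D hD F
  rw [Cfsg.Agent.Lib.ChevAlg.posRoots_eq' Q, Cfsg.Agent.Lib.ChevAlg.posUnipotent_eq Q]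
  refine ⟨fun g hg => ?_, fun t => ?_⟩
  · obtain ⟨t, ht, e⟩ := Cfsg.Agent.Lib.ChevAlg.exists_prod Q le_rfl (Cfsg.Agent.Lib.ChevAlg.clos_pos Q) hg
    refine ⟨t, ⟨fun r hr => ht r (fun h => hr ((Cfsg.Agent.Lib.ChevAlg.isPosRoot_iff Q).2 h)), ?_⟩, ?_⟩
    · rw [e, prod_val]
    · rintro t' ⟨ht', e'⟩
      have h1 := Cfsg.Agent.Lib.ChevAlg.prodL_unique Q (Cfsg.Agent.Lib.ChevAlg.lst D (Cfsg.Agent.Lib.ChevAlg.Pos D))
        (Cfsg.Agent.Lib.ChevAlg.lst_sorted _)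
        (fun r hr => (Cfsg.Agent.Lib.ChevAlg.mem_lst (fun _ h => h.2)).1 hr) t t' (by
          apply Units.ext
          rw [← e, prod_val, e'])
      funext r
      by_cases hr : r ∈ Cfsg.Agent.Lib.ChevAlg.Pos D
      · exact (h1 r ((Cfsg.Agent.Lib.ChevAlg.mem_lst (fun _ h => h.2)).2 hr)).symm
      · rw [ht r hr, ht' r (fun h => hr ((Cfsg.Agent.Lib.ChevAlg.isPosRoot_iff Q).1 h))]
  · refine ⟨Cfsg.Agent.Lib.ChevAlg.prodL Q (Cfsg.Agent.Lib.ChevAlg.lst D (Cfsg.Agent.Lib.ChevAlg.Pos D)) t, ?_, prod_val Q _ t⟩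
    have := Cfsg.Agent.Lib.ChevAlg.prodL_mem Q (Cfsg.Agent.Lib.ChevAlg.lst D (Cfsg.Agent.Lib.ChevAlg.Pos D)) t
    rwa [Cfsg.Agent.Lib.ChevAlg.set_lst (fun _ h => h.2)] at this

end Cfsg.Agent.S1026
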