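import Cfsg.Statements.S1027
import Cfsg.Agent.Lib.ChevProd
-- import your own Cfsg.Agent.* helpers here

set_option autoImplicit false
open Cfsg

namespace Cfsg.Agent.S1027

/-- For the subgroup `U` generated by the root elements `x_r(t)` of the positive roots `r`: `|U| = q^N` over a field with `q` elements, where `N` is the number of positive roots (half the number of roots). -/
theorem result {F : Type*} [Field F] [Fintype F] (D : Cfsg.Lie.ChevalleyDatum) (hD : D ∈ [Cfsg.Lie.chevG2, Cfsg.Lie.chevB2, Cfsg.Lie.chevD4, Cfsg.Lie.chevF4, Cfsg.Lie.chevE6, Cfsg.Lie.chevE7, Cfsg.Lie.chevE8]) :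
    Nat.card (D.posUnipotent F) = Fintype.card F ^ (D.nroots / 2) := by
  obtain ⟨Q⟩ := Cfsg.Agent.Lib.ChevAlg.exists_chevO D hD F
  rw [Cfsg.Agent.Lib.ChevAlg.posUnipotent_eq Q]
  have h := Cfsg.Agent.Lib.ChevAlg.card_XS Q (Cfsg.Agent.Lib.ChevAlg.lst D (Cfsg.Agent.Lib.ChevAlg.Pos D))
    (Cfsg.Agent.Lib.ChevAlg.lst_sorted _)
    (fun r hr => (Cfsg.Agent.Lib.ChevAlg.mem_lst (fun _ h => h.2)).1 hr)
    (by rw [Cfsg.Agent.Lib.ChevAlg.set_lst (fun _ h => h.2)]; exact Cfsg.Agent.Lib.ChevAlg.clos_pos Q)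
  rw [Cfsg.Agent.Lib.ChevAlg.set_lst (fun _ h => h.2)] at h
  rw [h]
  congr 1
  have e : Cfsg.Agent.Lib.ChevAlg.lst D (Cfsg.Agent.Lib.ChevAlg.Pos D) = List.range' (D.nroots / 2) (D.nroots / 2) := by
    classical
    apply List.Perm.eq_of_pairwise' (r := (· < ·)) (Cfsg.Agent.Lib.ChevAlg.lst_sorted _) (List.pairwise_lt_range' ..)
    rw [List.perm_ext_iff_of_nodup ((Cfsg.Agent.Lib.ChevAlg.lst_sorted _).imp (fun h => h.ne)) List.nodup_range']
    intro r
    rw [Cfsg.Agent.Lib.ChevAlg.mem_lst (fun _ h => h.2), List.mem_range'_1]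
    have := Q.C.even
    constructor
    · rintro ⟨h1, h2⟩
      omega
    · rintro ⟨h1, h2⟩
      exact ⟨h1, by omega⟩
  rw [e, List.length_range']

end Cfsg.Agent.S1027
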