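import Cfsg.Statements.S1028
import Cfsg.Agent.Lib.ChevProd
-- import your own Cfsg.Agent.* helpers here

set_option autoImplicit false
open Cfsg

namespace Cfsg.Agent.S1028

/-- Elements of `U` (the subgroup generated by the root elements of the positive roots) are unipotent linear maps: `(u - 1)^n = 0` with `n = rank + nroots` the dimension of the module. -/
theorem result {F : Type*} [Field F] (D : Cfsg.Lie.ChevalleyDatum) (hD : D ∈ [Cfsg.Lie.chevG2, Cfsg.Lie.chevB2, Cfsg.Lie.chevD4, Cfsg.Lie.chevF4, Cfsg.Lie.chevE6, Cfsg.Lie.chevE7, Cfsg.Lie.chevE8]) (g : GL D.Idx F) (hg : g ∈ D.posUnipotent F) :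
    ((g : Matrix D.Idx D.Idx F) - 1) ^ (D.rank + D.nroots) = 0 := by
  obtain ⟨Q⟩ := Cfsg.Agent.Lib.ChevAlg.exists_chevO D hD F
  rw [Cfsg.Agent.Lib.ChevAlg.posUnipotent_eq Q] at hg
  have h1 := Cfsg.Agent.Lib.ChevAlg.XS_raise Q Q.O.lf (d := 1) (by norm_num) (fun r hr =>
    ⟨hr.2, Cfsg.Agent.Lib.ChevAlg.lam_pos Q.C Q.O hr.2 hr.1, by
      have := Cfsg.Agent.Lib.ChevAlg.lam_pos Q.C Q.O hr.2 hr.1
      show 1 ≤ Q.O.lam r
      omega⟩) hg
  set A := (g : Matrix D.Idx D.Idx F) - 1 with hA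
  have h2 : ∀ k : ℕ, Cfsg.Agent.Lib.ChevAlg.Raise Q.O.lf (k : ℤ) (A ^ k) := by
    intro k
    induction k with
    | zero =>
      intro i j hij
      rw [pow_zero, Matrix.one_apply] at hij
      have : i = j := by
        by_contra hc
        rw [if_neg hc] at hij
        exact hij rfl
      subst this; simp
    | succ k ih =>
      rw [pow_succ]
      push_cast
      exact Cfsg.Agent.Lib.ChevAlg.Raise.mul Q.O.lf ih h1
  have hnil : IsNilpotent A := by
    -- bound on degrees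
    obtain ⟨M, hM⟩ : ∃ M : ℤ, ∀ i j : D.Idx, Cfsg.Agent.Lib.ChevAlg.deg Q.O.lf i - Cfsg.Agent.Lib.ChevAlg.deg Q.O.lf j < M := by
      obtain ⟨M, hM⟩ := (Set.finite_range (fun p : D.Idx × D.Idx =>
        Cfsg.Agent.Lib.ChevAlg.deg Q.O.lf p.1 - Cfsg.Agent.Lib.ChevAlg.deg Q.O.lf p.2)).bddAbove
      exact ⟨M + 1, fun i j => by
        have := hM ⟨(i, j), rfl⟩
        simp only at this
        linarith⟩
    refine ⟨M.toNat, ?_⟩
    ext i j
    by_contra hc
    have h3 := h2 M.toNat i j hc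
    have h4 := hM i j
    have h5 := Int.self_le_toNat M
    linarith
  have h3 := (Matrix.isNilpotent_charpoly_sub_pow_of_isNilpotent hnil).eq_zero
  have h4 := Matrix.aeval_self_charpoly A
  rw [sub_eq_zero] at h3
  rw [h3] at h4
  simpa [Fintype.card_sum] using h4

end Cfsg.Agent.S1028
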