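import Cfsg.Statements.S1029
import Cfsg.Agent.Lib.ChevProd
-- import your own Cfsg.Agent.* helpers here

set_option autoImplicit false
open Cfsg

namespace Cfsg.Agent.S1029

open Cfsg.Agent.Lib.ChevAlg Cfsg.Lie in
lemma clos_ge {F : Type*} [Field F] {D : Cfsg.Lie.ChevalleyDatum} (Q : ChevO D F) (k : ℕ) :
    Clos Q.C {r | r ∈ Pos D ∧ D.nroots / 2 + k ≤ r} := by
  intro r hr s hs m hm
  obtain ⟨h1, h2, h3⟩ := comb_gt Q.O hr.1 hs.1 hm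
  exact ⟨h3, hr.2.trans h1.le⟩

/-- `U` is a nilpotent group (the subgroups generated by root subgroups of height at least `m` form a central series). -/
theorem result {F : Type*} [Field F] (D : Cfsg.Lie.ChevalleyDatum) (hD : D ∈ [Cfsg.Lie.chevG2, Cfsg.Lie.chevB2, Cfsg.Lie.chevD4, Cfsg.Lie.chevF4, Cfsg.Lie.chevE6, Cfsg.Lie.chevE7, Cfsg.Lie.chevE8]) : Group.IsNilpotent (D.posUnipotent F) := by
  obtain ⟨Q⟩ := Cfsg.Agent.Lib.ChevAlg.exists_chevO D hD F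
  rw [Cfsg.Agent.Lib.ChevAlg.posUnipotent_eq Q, Subgroup.nilpotent_iff_finite_descending_central_series]
  refine ⟨D.nroots, fun k => (Cfsg.Agent.Lib.ChevAlg.XS Q {r | r ∈ Cfsg.Agent.Lib.ChevAlg.Pos D ∧ D.nroots / 2 + k ≤ r}).subgroupOf _,
    ⟨?_, ?_⟩, ?_⟩
  · have : {r | r ∈ Cfsg.Agent.Lib.ChevAlg.Pos D ∧ D.nroots / 2 + 0 ≤ r} = Cfsg.Agent.Lib.ChevAlg.Pos D := by
      ext r
      exact ⟨fun h => h.1, fun h => ⟨h, h.1⟩⟩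
    simp only [this, Subgroup.subgroupOf_self]
  · intro x k hx g
    rw [Subgroup.mem_subgroupOf] at hx ⊢
    have hsub : ∀ k, {r | r ∈ Cfsg.Agent.Lib.ChevAlg.Pos D ∧ D.nroots / 2 + k ≤ r} ⊆ Cfsg.Agent.Lib.ChevAlg.Pos D :=
      fun k r hr => hr.1
    have hn : ∀ Ψ ⊆ Cfsg.Agent.Lib.ChevAlg.Pos D, Cfsg.Agent.Lib.ChevAlg.XS Q Ψ ≤ Subgroup.normalizer
        (Cfsg.Agent.Lib.ChevAlg.XS Q {r | r ∈ Cfsg.Agent.Lib.ChevAlg.Pos D ∧ D.nroots / 2 + (k + 1) ≤ r} : Set (GL D.Idx F)) := by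
      intro Ψ hΨ
      apply Cfsg.Agent.Lib.ChevAlg.XS_normalizes Q (fun r hr => (hΨ hr).2) (fun r hr => hr.1.2)
        (Cfsg.Agent.Lib.ChevAlg.noOpp_pos Q.C hΨ (hsub _))
      intro r hr s hs m hm
      obtain ⟨h1, h2, h3⟩ := Cfsg.Agent.Lib.ChevAlg.comb_gt Q.O (hΨ hr) hs.1 hm
      exact ⟨h3, hs.2.trans h2.le⟩
    refine Cfsg.Agent.Lib.ChevAlg.comm_closure
      (S := {g | ∃ r ∈ {r | r ∈ Cfsg.Agent.Lib.ChevAlg.Pos D ∧ D.nroots / 2 + k ≤ r}, ∃ t : F, g = Cfsg.Agent.Lib.ChevAlg.xG Q r t})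
      (T := {g | ∃ r ∈ Cfsg.Agent.Lib.ChevAlg.Pos D, ∃ t : F, g = Cfsg.Agent.Lib.ChevAlg.xG Q r t})
      (hn _ (hsub k)) (hn _ le_rfl) ?_ x hx g g.2
    rintro _ ⟨r, hr, t, rfl⟩ _ ⟨s, hs, u, rfl⟩
    refine Cfsg.Agent.Lib.ChevAlg.XS_mono Q ?_ (Cfsg.Agent.Lib.ChevAlg.comm_mem Q hr.1.2 hs.2
      (Cfsg.Agent.Lib.ChevAlg.noOpp_pos Q.C (hsub k) le_rfl r hr s hs) t u)
    intro m hm
    obtain ⟨h1, h2, h3⟩ := Cfsg.Agent.Lib.ChevAlg.comb_gt Q.O hr.1 hs hm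
    exact ⟨h3, by have := hr.2; omega⟩
  · have : {r | r ∈ Cfsg.Agent.Lib.ChevAlg.Pos D ∧ D.nroots / 2 + D.nroots ≤ r} = ∅ := by
      ext r
      simp only [Set.mem_ofPred_eq, Set.mem_empty_iff_false, iff_false, not_and, not_le]
      intro h
      have := h.2
      omega
    simp only [this, Cfsg.Agent.Lib.ChevAlg.XS_empty]
    exact Subgroup.bot_subgroupOf _

end Cfsg.Agent.S1029
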