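import Cfsg.Statements.S1030
import Cfsg.Agent.Lib.ChevSL2
-- import your own Cfsg.Agent.* helpers here

set_option autoImplicit false
open Cfsg

namespace Cfsg.Agent.S1030

/-- There is a homomorphism `SL₂(F) → GL` with image `⟨X_r, X_{-r}⟩` sending `[[1,t],[0,1]]` to `x_r(t)` and `[[1,0],[t,1]]` to `x_{-r}(t)`. -/
theorem result {F : Type*} [Field F] (D : Cfsg.Lie.ChevalleyDatum) (hD : D ∈ [Cfsg.Lie.chevG2, Cfsg.Lie.chevB2, Cfsg.Lie.chevD4, Cfsg.Lie.chevF4, Cfsg.Lie.chevE6, Cfsg.Lie.chevE7, Cfsg.Lie.chevE8]) (r : ℕ) (hr : r < D.nroots) :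
    ∃ φ : Matrix.SpecialLinearGroup (Fin 2) F →* GL D.Idx F,
      φ.range = D.rootSubgroup F r ⊔ D.rootSubgroup F (D.neg r) ∧
      ∀ (g : Matrix.SpecialLinearGroup (Fin 2) F) (t : F),
        ((g : Matrix (Fin 2) (Fin 2) F) = !![1, t; 0, 1] → ((φ g : GL D.Idx F) : Matrix D.Idx D.Idx F) = D.x F r t) ∧
        ((g : Matrix (Fin 2) (Fin 2) F) = !![1, 0; t, 1] → ((φ g : GL D.Idx F) : Matrix D.Idx D.Idx F) = D.x F (D.neg r) t) := by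
  obtain ⟨Q⟩ := Cfsg.Agent.Lib.ChevAlg.exists_chevO D hD F
  have R := Cfsg.Agent.Lib.ChevAlg.slRel Q ⟨r, hr⟩
  have hneg : D.neg r = D.nroots - 1 - r := Cfsg.Agent.Lib.ChevAlg.neg_eq' Q hr
  refine ⟨Cfsg.Agent.Lib.SL2Hom.hom R, ?_, fun g t => ⟨fun h => ?_, fun h => ?_⟩⟩
  · rw [Cfsg.Agent.Lib.SL2Hom.hom_range, Cfsg.Agent.Lib.ChevAlg.rootSubgroup_eq Q,
      Cfsg.Agent.Lib.ChevAlg.rootSubgroup_eq Q, hneg, ← Cfsg.Agent.Lib.ChevAlg.XS_sup, Cfsg.Agent.Lib.ChevAlg.XS]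
    congr 1
    ext g
    constructor
    · rintro (⟨t, rfl⟩ | ⟨t, rfl⟩)
      · exact ⟨r, Or.inl rfl, t, rfl⟩
      · exact ⟨D.nroots - 1 - r, Or.inr rfl, t, rfl⟩
    · rintro ⟨r', hr' | hr', t, hg⟩
      · rw [Set.mem_singleton_iff] at hr'
        rw [hr'] at hg
        exact Or.inl ⟨t, hg.symm⟩
      · rw [Set.mem_singleton_iff] at hr'
        rw [hr'] at hg
        exact Or.inr ⟨t, hg.symm⟩
  · have e : g = Cfsg.Agent.Lib.SL2Hom.U t := Subtype.ext h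
    rw [e, Cfsg.Agent.Lib.SL2Hom.hom_U, Cfsg.Agent.Lib.ChevAlg.xG_val]
  · have e : g = Cfsg.Agent.Lib.SL2Hom.V t := Subtype.ext h
    rw [e, Cfsg.Agent.Lib.SL2Hom.hom_V, Cfsg.Agent.Lib.ChevAlg.xG_val, hneg]

end Cfsg.Agent.S1030
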