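import Cfsg.Statements.S1032
import Cfsg.Agent.Lib.ChevTor
-- import your own Cfsg.Agent.* helpers here

set_option autoImplicit false
open Cfsg

namespace Cfsg.Agent.S1032

/-- For a fundamental root `p`, a root `s` and `c ≠ 0`: `h_p(c) x_s(t) h_p(c)⁻¹ = x_s(c^{A_{p,s}} t)`, stated as `h_p(c) x_s(t) = x_s(c^{A_{p,s}} t) h_p(c)`. -/
theorem result {F : Type*} [Field F] (D : Cfsg.Lie.ChevalleyDatum) (hD : D ∈ [Cfsg.Lie.chevG2, Cfsg.Lie.chevB2, Cfsg.Lie.chevD4, Cfsg.Lie.chevF4, Cfsg.Lie.chevE6, Cfsg.Lie.chevE7, Cfsg.Lie.chevE8]) (i s : ℕ) (hi : i < D.rank) (hs : s < D.nroots) (c : F) (hc : c ≠ 0) (t : F) :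
    D.hMat F (D.simple i) c * D.x F s t = D.x F s (c ^ (D.cartan i s) * t) * D.hMat F (D.simple i) c := by
  obtain ⟨Q⟩ := Cfsg.Agent.Lib.ChevAlg.exists_chevO D hD F
  rw [Cfsg.Agent.Lib.ChevAlg.hMat_eq Q (Q.C.simple_lt i hi) hc, Cfsg.Agent.Lib.ChevAlg.x_eq Q.C hs,
    Cfsg.Agent.Lib.ChevAlg.x_eq Q.C hs, Cfsg.Agent.Lib.ChevAlg.dG_X
    (Cfsg.Agent.Lib.ChevAlg.isChar_cp Q.C _ _) hs, Cfsg.Agent.Lib.ChevAlg.cp,
    Cfsg.Agent.Lib.ChevAlg.pairD_simple Q.C hi, Units.val_zpow_eq_zpow_val, Units.val_mk0]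

end Cfsg.Agent.S1032
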