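import Cfsg.Statements.S1034
import Cfsg.Agent.Lib.ChevTor
-- import your own Cfsg.Agent.* helpers here

set_option autoImplicit false
open Cfsg

namespace Cfsg.Agent.S1034

/-- Every element of `H` is a product `h_{p_1}(c_1) ⋯ h_{p_l}(c_l)` over the fundamental roots, with non-zero `c_i`. -/
theorem result {F : Type*} [Field F] (D : Cfsg.Lie.ChevalleyDatum) (hD : D ∈ [Cfsg.Lie.chevG2, Cfsg.Lie.chevB2, Cfsg.Lie.chevD4, Cfsg.Lie.chevF4, Cfsg.Lie.chevE6, Cfsg.Lie.chevE7, Cfsg.Lie.chevE8]) (g : GL D.Idx F) (hg : g ∈ D.diagonalSubgroup F) :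
    ∃ c : ℕ → F, (∀ i < D.rank, c i ≠ 0) ∧
      (g : Matrix D.Idx D.Idx F) = D.wordMat F ((List.range D.rank).flatMap fun i => D.hWord (D.simple i) (c i)) := by
  obtain ⟨Q⟩ := Cfsg.Agent.Lib.ChevAlg.exists_chevO D hD F
  obtain ⟨c, rfl⟩ := (Cfsg.Agent.Lib.ChevAlg.mem_diagonal Q).1 hg
  refine ⟨fun i => c i, fun i _ => (c i).ne_zero, ?_⟩
  rw [Cfsg.Agent.Lib.ChevAlg.tor_eq_prod Q]
  have h : ∀ k ≤ D.rank,
      ((((List.range k).map fun i => Cfsg.Agent.Lib.ChevAlg.dG D (Cfsg.Agent.Lib.ChevAlg.cp D (D.simple i) (c i))).prod :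
        GL D.Idx F) : Matrix D.Idx D.Idx F) =
      D.wordMat F ((List.range k).flatMap fun i => D.hWord (D.simple i) (c i : F)) := by
    intro k hk
    induction k with
    | zero => simp [Cfsg.Lie.ChevalleyDatum.wordMat]
    | succ k ih =>
      rw [List.range_succ, List.map_append, List.prod_append, List.flatMap_append, Cfsg.Agent.Lib.ChevAlg.wordMat_append,
        Units.val_mul, ih (by omega)]
      simp only [List.map_cons, List.map_nil, List.prod_cons, List.prod_nil, mul_one, List.flatMap_cons,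
        List.flatMap_nil, List.append_nil]
      rw [← Cfsg.Agent.Lib.ChevAlg.hG_eq Q (Q.C.simple_lt k (by omega)),
        Cfsg.Agent.Lib.ChevAlg.hG_val Q (Q.C.simple_lt k (by omega))]
      rfl
  exact h _ le_rfl

end Cfsg.Agent.S1034
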