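import Cfsg.Statements.S1039
import Cfsg.Agent.Lib.ChevCoxS
-- import your own Cfsg.Agent.* helpers here

set_option autoImplicit false
open Cfsg

namespace Cfsg.Agent.S1039

/-- `N/H ≅ W`: there is a surjective homomorphism from `N` onto the Coxeter group of the type (Mathlib's Coxeter matrix G₂, B₂, F₄, E₆, E₇, E₈, nodes numbered as the fundamental roots) with kernel `H`, mapping each `n_{p_i}` to the `i`-th simple reflection. -/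
theorem result {F : Type*} [Field F]
    (p : Cfsg.Lie.ChevalleyDatum × (Σ n : ℕ, CoxeterMatrix (Fin n)))
    (hp : p ∈ [(Cfsg.Lie.chevG2, ⟨2, CoxeterMatrix.G₂⟩), (Cfsg.Lie.chevB2, ⟨2, CoxeterMatrix.B 2⟩), (Cfsg.Lie.chevD4, ⟨4, Cfsg.Lie.coxeterD4⟩), (Cfsg.Lie.chevF4, ⟨4, CoxeterMatrix.F₄⟩),
      (Cfsg.Lie.chevE6, ⟨6, CoxeterMatrix.E₆⟩), (Cfsg.Lie.chevE7, ⟨7, CoxeterMatrix.E₇⟩), (Cfsg.Lie.chevE8, ⟨8, CoxeterMatrix.E₈⟩)]) :
    ∃ φ : ↥(p.1.monomialSubgroup F) →* p.2.2.Group, Function.Surjective φ ∧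
      φ.ker = (p.1.diagonalSubgroup F).subgroupOf (p.1.monomialSubgroup F) ∧
      ∀ (i : Fin p.2.1) (g : ↥(p.1.monomialSubgroup F)),
        ((g : GL p.1.Idx F) : Matrix p.1.Idx p.1.Idx F) = p.1.nMat F (p.1.simple i) 1 → φ g = p.2.2.simple i := by
  simp only [List.mem_cons, List.not_mem_nil, or_false] at hp
  rcases hp with rfl | rfl | rfl | rfl | rfl | rfl | rfl
  · obtain ⟨Q, -⟩ := Lib.ChevAlg.exists_chevS Cfsg.Lie.chevG2 (by simp) F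
    exact Lib.ChevAlg.exists_phi Q Lib.ChevG2.coxD (n := 2) (by decide +kernel) CoxeterMatrix.G₂ Lib.ChevAlg.coxG2_eq
  · obtain ⟨Q, -⟩ := Lib.ChevAlg.exists_chevS Cfsg.Lie.chevB2 (by simp) F
    exact Lib.ChevAlg.exists_phi Q Lib.ChevB2.coxD (n := 2) (by decide +kernel) (CoxeterMatrix.B 2) Lib.ChevAlg.coxB2_eq
  · obtain ⟨Q, -⟩ := Lib.ChevAlg.exists_chevS Cfsg.Lie.chevD4 (by simp) F
    exact Lib.ChevAlg.exists_phi Q Lib.ChevD4.coxD (n := 4) (by decide +kernel) Cfsg.Lie.coxeterD4 Lib.ChevAlg.coxD4_eq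
  · obtain ⟨Q, -⟩ := Lib.ChevAlg.exists_chevS Cfsg.Lie.chevF4 (by simp) F
    exact Lib.ChevAlg.exists_phi Q Lib.ChevF4.coxD (n := 4) (by decide +kernel) CoxeterMatrix.F₄ Lib.ChevAlg.coxF4_eq
  · obtain ⟨Q, -⟩ := Lib.ChevAlg.exists_chevS Cfsg.Lie.chevE6 (by simp) F
    exact Lib.ChevAlg.exists_phi Q Lib.ChevE6.coxD (n := 6) (by decide +kernel) CoxeterMatrix.E₆ Lib.ChevAlg.coxE6_eq
  · obtain ⟨Q, -⟩ := Lib.ChevAlg.exists_chevS Cfsg.Lie.chevE7 (by simp) F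
    exact Lib.ChevAlg.exists_phi Q Lib.ChevE7.coxD (n := 7) (by decide +kernel) CoxeterMatrix.E₇ Lib.ChevAlg.coxE7_eq
  · obtain ⟨Q, -⟩ := Lib.ChevAlg.exists_chevS Cfsg.Lie.chevE8 (by simp) F
    exact Lib.ChevAlg.exists_phi Q Lib.ChevE8.coxD (n := 8) (by decide +kernel) CoxeterMatrix.E₈ Lib.ChevAlg.coxE8_eq

end Cfsg.Agent.S1039
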