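import Cfsg.Statements.S1040
import Cfsg.Agent.Lib.ChevStr
-- import your own Cfsg.Agent.* helpers here

set_option autoImplicit false
open Cfsg

namespace Cfsg.Agent.S1040

/-- `U ∩ N = 1` and `B ∩ N = UH ∩ N = H`. -/
theorem result {F : Type*} [Field F] (D : Cfsg.Lie.ChevalleyDatum) (hD : D ∈ [Cfsg.Lie.chevG2, Cfsg.Lie.chevB2, Cfsg.Lie.chevD4, Cfsg.Lie.chevF4, Cfsg.Lie.chevE6, Cfsg.Lie.chevE7, Cfsg.Lie.chevE8]) :
    D.posUnipotent F ⊓ D.monomialSubgroup F = ⊥ ∧ D.borelSubgroup F ⊓ D.monomialSubgroup F = D.diagonalSubgroup F := by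
  obtain ⟨Q⟩ := Cfsg.Agent.Lib.ChevAlg.exists_chevO D hD F
  rw [Cfsg.Agent.Lib.ChevAlg.posUnipotent_eq Q]
  constructor
  · rw [eq_bot_iff]
    rintro g ⟨h1, h2⟩
    exact Cfsg.Agent.Lib.ChevAlg.U_inf_H Q h1
      (Cfsg.Agent.Lib.ChevAlg.borel_inf_N Q (Cfsg.Agent.Lib.ChevAlg.U_le_borel Q h1) h2)
  · apply le_antisymm
    · rintro g ⟨h1, h2⟩
      exact Cfsg.Agent.Lib.ChevAlg.borel_inf_N Q h1 h2
    · intro g hg
      exact ⟨Cfsg.Agent.Lib.ChevAlg.H_le_borel Q hg, Cfsg.Agent.Lib.ChevAlg.diagonal_le_monomial hg⟩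

end Cfsg.Agent.S1040
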