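import Cfsg.Statements.S1041
import Cfsg.Agent.Lib.ChevStr
-- import your own Cfsg.Agent.* helpers here

set_option autoImplicit false
open Cfsg

namespace Cfsg.Agent.S1041

/-- `U` and `V` generate the whole Chevalley group. -/
theorem result {F : Type*} [Field F] (D : Cfsg.Lie.ChevalleyDatum) (hD : D ∈ [Cfsg.Lie.chevG2, Cfsg.Lie.chevB2, Cfsg.Lie.chevD4, Cfsg.Lie.chevF4, Cfsg.Lie.chevE6, Cfsg.Lie.chevE7, Cfsg.Lie.chevE8]) : D.posUnipotent F ⊔ D.negUnipotent F = D.group F := by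
  obtain ⟨Q⟩ := Cfsg.Agent.Lib.ChevAlg.exists_chevO D hD F
  rw [Cfsg.Agent.Lib.ChevAlg.posUnipotent_eq Q, Cfsg.Agent.Lib.ChevAlg.negUnipotent_eq Q,
    Cfsg.Agent.Lib.ChevAlg.group_eq Q, ← Cfsg.Agent.Lib.ChevAlg.XS_sup]
  congr 1
  ext r
  constructor
  · rintro (h | h)
    · exact h.2
    · have h' : r < D.nroots / 2 := h
      show r < D.nroots
      omega
  · intro h
    have h' : r < D.nroots := h
    by_cases hr : D.nroots / 2 ≤ r
    · exact Or.inl ⟨hr, h'⟩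
    · exact Or.inr (not_le.1 hr)

end Cfsg.Agent.S1041
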