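import Cfsg.Statements.S1044
import Cfsg.Agent.Lib.ChevStr
-- import your own Cfsg.Agent.* helpers here

set_option autoImplicit false
open Cfsg

namespace Cfsg.Agent.S1044

/-- For a fundamental root `p` the set `B ∪ B n_p B` is (the carrier of) a subgroup of the general linear group. -/
theorem result {F : Type*} [Field F] (D : Cfsg.Lie.ChevalleyDatum) (hD : D ∈ [Cfsg.Lie.chevG2, Cfsg.Lie.chevB2, Cfsg.Lie.chevD4, Cfsg.Lie.chevF4, Cfsg.Lie.chevE6, Cfsg.Lie.chevE7, Cfsg.Lie.chevE8]) (i : ℕ) (hi : i < D.rank) (n : GL D.Idx F)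
    (hn : (n : Matrix D.Idx D.Idx F) = D.nMat F (D.simple i) 1) :
    ∃ P : Subgroup (GL D.Idx F), (P : Set (GL D.Idx F)) =
      (D.borelSubgroup F : Set (GL D.Idx F)) ∪ DoubleCoset.doubleCoset n (D.borelSubgroup F : Set (GL D.Idx F)) (D.borelSubgroup F) := by
  obtain ⟨Q⟩ := Cfsg.Agent.Lib.ChevAlg.exists_chevO D hD F
  have hn' : n = Cfsg.Agent.Lib.ChevAlg.nG Q (D.simple i) 1 := Units.ext (by
    rw [hn, Cfsg.Agent.Lib.ChevAlg.nG_val Q (Q.C.simple_lt i hi)])
  have hnN : n ∈ D.monomialSubgroup F := by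
    rw [hn']; exact Cfsg.Agent.Lib.ChevAlg.nG_mem_monomial Q (Q.C.simple_lt i hi)
  have hnn : n * n ∈ D.borelSubgroup F := by
    rw [hn']; exact Cfsg.Agent.Lib.ChevAlg.H_le_borel Q (Cfsg.Agent.Lib.ChevAlg.nG_sq_mem Q ⟨i, hi⟩)
  have hax : ∀ b ∈ D.borelSubgroup F, n * b * n ∈ D.borelSubgroup F ∨
      ∃ b₁ ∈ D.borelSubgroup F, ∃ b₂ ∈ D.borelSubgroup F, n * b * n = b₁ * n * b₂ := by
    intro b hb
    have := Cfsg.Agent.Lib.ChevAlg.bn_ax Q hi hnN hb
    rw [← hn'] at this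
    rcases this with ⟨b₁, h1, b₂, h2, e⟩ | h
    · left
      rw [e]
      exact Subgroup.mul_mem _ (Subgroup.mul_mem _ h1 hnn) h2
    · exact Or.inr h
  have hinv : n⁻¹ = (n * n)⁻¹ * n := by group
  refine ⟨{ carrier := (D.borelSubgroup F : Set (GL D.Idx F)) ∪ DoubleCoset.doubleCoset n (D.borelSubgroup F : Set (GL D.Idx F)) (D.borelSubgroup F)
            mul_mem' := ?_, one_mem' := Or.inl (Subgroup.one_mem _), inv_mem' := ?_ }, rfl⟩
  · rintro a b (ha | ha) (hb | hb)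
    · exact Or.inl (Subgroup.mul_mem _ ha hb)
    · rw [DoubleCoset.mem_doubleCoset] at hb
      obtain ⟨x, hx, y, hy, rfl⟩ := hb
      right
      rw [DoubleCoset.mem_doubleCoset]
      exact ⟨a * x, Subgroup.mul_mem _ ha hx, y, hy, by group⟩
    · rw [DoubleCoset.mem_doubleCoset] at ha
      obtain ⟨x, hx, y, hy, rfl⟩ := ha
      right
      rw [DoubleCoset.mem_doubleCoset]
      exact ⟨x, hx, y * b, Subgroup.mul_mem _ hy hb, by group⟩
    · rw [DoubleCoset.mem_doubleCoset] at ha hb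
      obtain ⟨x, hx, y, hy, rfl⟩ := ha
      obtain ⟨z, hz, t, ht, rfl⟩ := hb
      rcases hax (y * z) (Subgroup.mul_mem _ hy hz) with h | ⟨b₁, h1, b₂, h2, e⟩
      · left
        have e : x * n * y * (z * n * t) = x * (n * (y * z) * n) * t := by group
        rw [e]
        exact Subgroup.mul_mem _ (Subgroup.mul_mem _ hx h) ht
      · right
        rw [DoubleCoset.mem_doubleCoset]
        refine ⟨x * b₁, Subgroup.mul_mem _ hx h1, b₂ * t, Subgroup.mul_mem _ h2 ht, ?_⟩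
        have e' : x * n * y * (z * n * t) = x * (n * (y * z) * n) * t := by group
        rw [e', e]; group
  · rintro a (ha | ha)
    · exact Or.inl (Subgroup.inv_mem _ ha)
    · rw [DoubleCoset.mem_doubleCoset] at ha
      obtain ⟨x, hx, y, hy, rfl⟩ := ha
      right
      rw [DoubleCoset.mem_doubleCoset]
      refine ⟨y⁻¹ * (n * n)⁻¹, Subgroup.mul_mem _ (Subgroup.inv_mem _ hy) (Subgroup.inv_mem _ hnn), x⁻¹,
        Subgroup.inv_mem _ hx, ?_⟩
      group

end Cfsg.Agent.S1044
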