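import Cfsg.Statements.S1045
import Cfsg.Agent.Lib.ChevStr
-- import your own Cfsg.Agent.* helpers here

set_option autoImplicit false
open Cfsg

namespace Cfsg.Agent.S1045

/-- For a fundamental root `p`, the subgroup `U_p` generated by the `X_s`, `s` positive and `s ≠ p`, is normalised by `X_p` and `X_{-p}`, and `U = U_p ⊔ X_p`. -/
theorem result {F : Type*} [Field F] (D : Cfsg.Lie.ChevalleyDatum) (hD : D ∈ [Cfsg.Lie.chevG2, Cfsg.Lie.chevB2, Cfsg.Lie.chevD4, Cfsg.Lie.chevF4, Cfsg.Lie.chevE6, Cfsg.Lie.chevE7, Cfsg.Lie.chevE8]) (i : ℕ) (hi : i < D.rank) :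
    D.rootSubgroup F (D.simple i) ⊔ D.rootSubgroup F (D.neg (D.simple i)) ≤
        Subgroup.normalizer (Subgroup.closure {g : GL D.Idx F | ∃ (s : ℕ) (t : F), D.IsPosRoot s ∧ s ≠ D.simple i ∧
          (g : Matrix D.Idx D.Idx F) = D.x F s t} : Set (GL D.Idx F)) ∧
      Subgroup.closure {g : GL D.Idx F | ∃ (s : ℕ) (t : F), D.IsPosRoot s ∧ s ≠ D.simple i ∧
          (g : Matrix D.Idx D.Idx F) = D.x F s t} ⊔ D.rootSubgroup F (D.simple i) = D.posUnipotent F := by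
  obtain ⟨Q⟩ := Cfsg.Agent.Lib.ChevAlg.exists_chevO D hD F
  have hset : Subgroup.closure {g : GL D.Idx F | ∃ (s : ℕ) (t : F), D.IsPosRoot s ∧ s ≠ D.simple i ∧
      (g : Matrix D.Idx D.Idx F) = D.x F s t} = Cfsg.Agent.Lib.ChevAlg.XS Q (Cfsg.Agent.Lib.ChevAlg.PosX D i) := by
    rw [Cfsg.Agent.Lib.ChevAlg.XS]
    congr 1
    ext g
    constructor
    · rintro ⟨s, t, h1, h2, h3⟩
      exact ⟨s, ⟨(Cfsg.Agent.Lib.ChevAlg.isPosRoot_iff Q).1 h1, h2⟩, t, Cfsg.Agent.Lib.ChevAlg.eq_xG Q h3⟩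
    · rintro ⟨s, hs, t, rfl⟩
      exact ⟨s, t, (Cfsg.Agent.Lib.ChevAlg.isPosRoot_iff Q).2 hs.1, hs.2, rfl⟩
  have hp := Q.C.simple_lt i hi
  have hpos : ({D.simple i} : Set ℕ) ⊆ Cfsg.Agent.Lib.ChevAlg.Pos D := by
    intro r hr
    rw [Set.mem_singleton_iff] at hr
    rw [hr]
    exact ⟨Q.C.simple_ge i hi, hp⟩
  rw [hset, Cfsg.Agent.Lib.ChevAlg.rootSubgroup_eq Q, Cfsg.Agent.Lib.ChevAlg.rootSubgroup_eq Q,
    Cfsg.Agent.Lib.ChevAlg.posUnipotent_eq Q, Cfsg.Agent.Lib.ChevAlg.neg_eq' Q hp]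
  constructor
  · apply sup_le
    · exact Cfsg.Agent.Lib.ChevAlg.XS_normalizes_posX Q hi hpos
    · rw [Cfsg.Agent.Lib.ChevAlg.XS_le]
      intro r hr t
      rw [Set.mem_singleton_iff] at hr
      rw [hr]
      have hm := Cfsg.Agent.Lib.ChevAlg.mono_n Q hi
      have hn : ∀ (g : GL D.Idx F) (u : Fin D.nroots → Fˣ), Cfsg.Agent.Lib.ChevAlg.Mono Q g (Cfsg.Agent.Lib.ChevAlg.sr Q.C2 i) u →
          g ∈ Subgroup.normalizer (Cfsg.Agent.Lib.ChevAlg.XS Q (Cfsg.Agent.Lib.ChevAlg.PosX D i) : Set (GL D.Idx F)) := by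
        intro g u hg
        rw [Subgroup.mem_normalizer_iff]
        intro y
        refine ⟨fun hy => Cfsg.Agent.Lib.ChevAlg.n_conj_posX Q hi hg hy, fun hy => ?_⟩
        have hg' := hg.inv
        rw [Cfsg.Agent.Lib.ChevAlg.sr_inv] at hg'
        have h2 := Cfsg.Agent.Lib.ChevAlg.n_conj_posX Q hi hg' hy
        have e : g⁻¹ * (g * y * g⁻¹) * g⁻¹⁻¹ = y := by group
        rwa [e] at h2
      have e : Cfsg.Agent.Lib.ChevAlg.xG Q (D.nroots - 1 - D.simple i) t =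
          Cfsg.Agent.Lib.ChevAlg.nG Q (D.simple i) 1 * Cfsg.Agent.Lib.ChevAlg.xG Q (D.simple i) (-t) *
            (Cfsg.Agent.Lib.ChevAlg.nG Q (D.simple i) 1)⁻¹ := by
        have := (Cfsg.Agent.Lib.ChevAlg.slRel Q ⟨_, hp⟩).n_x (-t)
        rw [← mul_inv_eq_iff_eq_mul, neg_neg] at this
        exact this.symm
      rw [e]
      have h1 := hn _ _ hm
      exact Subgroup.mul_mem _ (Subgroup.mul_mem _ h1 (Cfsg.Agent.Lib.ChevAlg.XS_normalizes_posX Q hi hpos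
        (Cfsg.Agent.Lib.ChevAlg.xG_mem Q (Set.mem_singleton _) _))) (Subgroup.inv_mem _ h1)
  · rw [← Cfsg.Agent.Lib.ChevAlg.XS_sup, ← Cfsg.Agent.Lib.ChevAlg.pos_eq_union Q hi]

end Cfsg.Agent.S1045
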