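import Cfsg.Statements.S1046
import Cfsg.Agent.Lib.ChevCan
-- import your own Cfsg.Agent.* helpers here

set_option autoImplicit false
open Cfsg

namespace Cfsg.Agent.S1046

/-- Two elements of `H` conjugate in the Chevalley group are conjugate by an element of `N`. -/
theorem result {F : Type*} [Field F] (D : Cfsg.Lie.ChevalleyDatum) (hD : D ∈ [Cfsg.Lie.chevG2, Cfsg.Lie.chevB2, Cfsg.Lie.chevD4, Cfsg.Lie.chevF4, Cfsg.Lie.chevE6, Cfsg.Lie.chevE7, Cfsg.Lie.chevE8]) (h₁ h₂ g : GL D.Idx F) (h1 : h₁ ∈ D.diagonalSubgroup F) (h2 : h₂ ∈ D.diagonalSubgroup F)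
    (hg : g ∈ D.group F) (hc : g * h₁ * g⁻¹ = h₂) :
    ∃ n ∈ D.monomialSubgroup F, n * h₁ * n⁻¹ = h₂ := by
  obtain ⟨Q⟩ := Lib.ChevAlg.exists_chevO D hD F
  obtain ⟨b, hb, n, hn, w, hw, v, hm, u, hu, rfl⟩ := Lib.ChevAlg.exists_canonical Q hg
  refine ⟨n, hn, ?_⟩
  set h₃ := n * h₁ * n⁻¹ with h3def
  have h3 : h₃ ∈ D.diagonalSubgroup F := Lib.ChevAlg.diag_conj Q hn h1
  have hu' : h₁⁻¹ * u * h₁ ∈ Lib.ChevAlg.XS Q (Lib.ChevAlg.Inv w) := by
    have := (Subgroup.mem_normalizer_iff.1 (Lib.ChevAlg.diagonal_normalizes Q (fun _ h => h.1.2)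
      (Subgroup.inv_mem _ h1)) u).1 hu
    rwa [inv_inv] at this
  have e1 : (b * h₃) * n * (h₁⁻¹ * u * h₁) = (h₂ * b) * n * u := by
    rw [← hc, h3def]; group
  obtain ⟨e2, -⟩ := Lib.ChevAlg.canonical_unique Q hm (Subgroup.mul_mem _ hb (Lib.ChevAlg.H_le_borel Q h3))
    (Subgroup.mul_mem _ (Lib.ChevAlg.H_le_borel Q h2) hb) hu' hu e1
  obtain ⟨x, hx, y, hy, rfl⟩ := (Lib.ChevAlg.mem_borel Q).1 hb
  have e3 : x⁻¹ * (h₂ * x * h₂⁻¹) = h₃ * h₂⁻¹ := by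
    have e4 : x * h₃ * y = h₂ * x * y := by
      have c := Lib.ChevAlg.diagonal_comm Q hy h3
      calc x * h₃ * y = x * (h₃ * y) := by group
        _ = x * (y * h₃) := by rw [c]
        _ = x * y * h₃ := by group
        _ = h₂ * (x * y) := e2
        _ = _ := by group
    have e5 : x * h₃ = h₂ * x := mul_right_cancel e4
    rw [← e5]; group
  have e6 : h₃ * h₂⁻¹ = 1 := by
    apply Lib.ChevAlg.U_inf_H Q _ (Subgroup.mul_mem _ h3 (Subgroup.inv_mem _ h2))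
    rw [← e3]
    exact Subgroup.mul_mem _ (Subgroup.inv_mem _ hx) ((Subgroup.mem_normalizer_iff.1 (Lib.ChevAlg.diagonal_normalizes Q
      (fun _ h => h.2) h2) x).1 hx)
  exact mul_inv_eq_one.1 e6

end Cfsg.Agent.S1046
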