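import Cfsg.Statements.S1054
import Cfsg.Agent.Lib.ChevSimple
-- import your own Cfsg.Agent.* helpers here

set_option autoImplicit false
open Cfsg

namespace Cfsg.Agent.S1054

/-- The Chevalley groups of types D₄, F₄, E₆, E₇, E₈ are simple over every field. -/
theorem result {F : Type*} [Field F] (D : Cfsg.Lie.ChevalleyDatum)
    (hD : D ∈ [Cfsg.Lie.chevD4, Cfsg.Lie.chevF4, Cfsg.Lie.chevE6, Cfsg.Lie.chevE7, Cfsg.Lie.chevE8]) :
    IsSimpleGroup ↥(D.group F) ∧ ¬ IsMulCommutative ↥(D.group F) := by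
  obtain ⟨Q⟩ := Cfsg.Agent.Lib.ChevAlg.exists_chevO D (by
    simp only [List.mem_cons, List.not_mem_nil, or_false] at hD ⊢; tauto) F
  simp only [List.mem_cons, List.not_mem_nil, or_false] at hD
  rcases hD with rfl | rfl | rfl | rfl | rfl
  · exact Cfsg.Agent.Lib.ChevAlg.simple_of Q (by decide) Cfsg.Agent.Lib.ChevD4.conn
      (Cfsg.Agent.Lib.ChevAlg.perfect_of Q fun r hr => Or.inl (Cfsg.Agent.Lib.ChevD4.perf r hr))
  · exact Cfsg.Agent.Lib.ChevAlg.simple_of Q (by decide) Cfsg.Agent.Lib.ChevF4.conn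
      (Cfsg.Agent.Lib.ChevAlg.perfect_of Q fun r hr => Or.inl (Cfsg.Agent.Lib.ChevF4.perf r hr))
  · exact Cfsg.Agent.Lib.ChevAlg.simple_of Q (by decide) Cfsg.Agent.Lib.ChevE6.conn
      (Cfsg.Agent.Lib.ChevAlg.perfect_of Q fun r hr => Or.inl (Cfsg.Agent.Lib.ChevE6.perf r hr))
  · exact Cfsg.Agent.Lib.ChevAlg.simple_of Q (by decide) Cfsg.Agent.Lib.ChevE7.conn
      (Cfsg.Agent.Lib.ChevAlg.perfect_of Q fun r hr => Or.inl (Cfsg.Agent.Lib.ChevE7.perf r hr))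
  · exact Cfsg.Agent.Lib.ChevAlg.simple_of Q (by decide) Cfsg.Agent.Lib.ChevE8.conn
      (Cfsg.Agent.Lib.ChevAlg.perfect_of Q fun r hr => Or.inl (Cfsg.Agent.Lib.ChevE8.perf r hr))

end Cfsg.Agent.S1054
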