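import Cfsg.Statements.S1063
import Cfsg.Agent.Lib.ChevS
-- import your own Cfsg.Agent.* helpers here

set_option autoImplicit false
open Cfsg

namespace Cfsg.Agent.S1063

/-- `gcd(3, q-1) · |E₆(q)| = q³⁶ (q² - 1)(q⁵ - 1)(q⁶ - 1)(q⁸ - 1)(q⁹ - 1)(q¹² - 1)`. -/
theorem result {F : Type*} [Field F] [Fintype F] {q : ℕ} (hq : Fintype.card F = q) : Nat.gcd 3 (q - 1) * Nat.card ↥(Cfsg.Lie.chevE6.group F) = q ^ 36 * (q ^ 2 - 1) * (q ^ 5 - 1) * (q ^ 6 - 1) * (q ^ 8 - 1) * (q ^ 9 - 1) * (q ^ 12 - 1) := by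
  obtain ⟨Q, hS⟩ := Lib.ChevAlg.exists_chevS Cfsg.Lie.chevE6 (by simp) F
  have h := Lib.ChevAlg.card_group' Q hS Lib.ChevAlg.ordE6 (by decide +kernel) hq
  have e : Cfsg.Lie.chevE6.nroots / 2 = 36 := by decide +kernel
  rw [e] at h
  simp only [List.map_cons, List.map_nil, List.prod_cons, List.prod_nil, Nat.gcd_one_right, one_mul, mul_one] at h
  simp only [mul_assoc]
  rw [Nat.gcd_comm 3 (q - 1)]
  exact h

end Cfsg.Agent.S1063
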