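import Cfsg.Statements.S1073
import Cfsg.Agent.Lib.ChevTwG2d
-- import your own Cfsg.Agent.* helpers here

set_option autoImplicit false
open Cfsg

namespace Cfsg.Agent.S1073

/-- ²G₂(3^(2m+1)) is simple for `m ≥ 1`. -/
theorem result {K : Type*} [Field K] [Fintype K] {m : ℕ} (hm : 1 ≤ m) (hK : Fintype.card K = 3 ^ (2 * m + 1)) :
    IsSimpleGroup ↥(Cfsg.Lie.twistedG2 K (3 ^ m)) ∧ ¬ IsMulCommutative ↥(Cfsg.Lie.twistedG2 K (3 ^ m)) := by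
  obtain ⟨hc, P, hφ, hs⟩ := Lib.ChevAlg.exists_PkG2 hK
  refine Lib.ChevAlg.g2_simple_group P hφ hs ?_
  rw [hK]
  calc 3 < 3 ^ 3 := by norm_num
    _ ≤ 3 ^ (2 * m + 1) := Nat.pow_le_pow_right (by norm_num) (by omega)

end Cfsg.Agent.S1073
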