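import Cfsg.Statements.S1078
import Cfsg.Agent.Lib.ChevStG
-- import your own Cfsg.Agent.* helpers here

set_option autoImplicit false
open Cfsg

namespace Cfsg.Agent.S1078

/-- For G₂, F₄, E₈ the presented group has trivial centre (the universal and adjoint groups coincide). -/
theorem result {K : Type*} [Field K] (D : Cfsg.Lie.ChevalleyDatum) (hD : D ∈ [Cfsg.Lie.chevG2, Cfsg.Lie.chevF4, Cfsg.Lie.chevE8]) :
    Subgroup.center (D.SteinbergGroup K) = ⊥ := by
  have hD' : D ∈ [Cfsg.Lie.chevG2, Cfsg.Lie.chevB2, Cfsg.Lie.chevD4, Cfsg.Lie.chevF4, Cfsg.Lie.chevE6, Cfsg.Lie.chevE7, Cfsg.Lie.chevE8] := by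
    simp only [List.mem_cons, List.not_mem_nil, or_false] at hD ⊢; tauto
  obtain ⟨Q, -⟩ := Lib.ChevAlg.exists_chevS D hD' K
  have hG := Lib.ChevAlg.gen_of D hD'
  have key : ∀ d : List ℕ, Lib.ChevAlg.Smith D d → (∀ i : Fin D.rank, d.getD i 0 = 1) → Subgroup.center (D.SteinbergGroup K) = ⊥ := by
    intro d h hd
    rw [← Lib.ChevAlg.groupHom_ker Q hG, MonoidHom.ker_eq_bot_iff]
    have h1 := (Lib.ChevAlg.groupStF Q).injective_of_unimod hG (Lib.ChevAlg.groupRelC Q) h hd (Lib.ChevAlg.groupGen Q)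
    intro x y hxy
    apply h1
    show ((Lib.ChevAlg.groupHom Q x : ↥(D.group K)) : GL D.Idx K) = (Lib.ChevAlg.groupHom Q y : ↥(D.group K))
    rw [hxy]
  simp only [List.mem_cons, List.not_mem_nil, or_false] at hD
  rcases hD with rfl | rfl | rfl
  · exact key _ Lib.ChevAlg.ordG2.smith (by decide)
  · exact key _ Lib.ChevAlg.ordF4.smith (by decide)
  · exact key _ Lib.ChevAlg.ordE8.smith (by decide)

end Cfsg.Agent.S1078
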