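import Cfsg.Statements.S1080
import Cfsg.Agent.Lib.ChevStr
-- import your own Cfsg.Agent.* helpers here

set_option autoImplicit false
open Cfsg

namespace Cfsg.Agent.S1080

open Cfsg.Agent.Lib.ChevAlg Cfsg.Lie in
lemma map_xG {F : Type*} [Field F] {D : Cfsg.Lie.ChevalleyDatum} (Q : ChevO D F) (f : F ≃+* F) {r : ℕ} (hr : r < D.nroots)
    (t : F) : Matrix.GeneralLinearGroup.map (f : F →+* F) (xG Q r t) = xG Q r (f t) := by
  apply Units.ext
  rw [xG_valX Q hr]
  have h := X_map Q.C F (f : F →+* F) r t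
  rw [← xG_valX Q hr] at h
  exact h

open Cfsg.Agent.Lib.ChevAlg Cfsg.Lie in
lemma map_mem {F : Type*} [Field F] {D : Cfsg.Lie.ChevalleyDatum} (Q : ChevO D F) (f : F ≃+* F) {g : GL D.Idx F}
    (hg : g ∈ D.group F) : Matrix.GeneralLinearGroup.map (f : F →+* F) g ∈ D.group F := by
  have h : D.group F ≤ (D.group F).comap (Matrix.GeneralLinearGroup.map (f : F →+* F)) := by
    conv_lhs => rw [group_eq Q]
    rw [XS_le]
    intro r hr t
    rw [Subgroup.mem_comap, map_xG Q f hr]
    exact xG_mem_group Q r _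
  exact h hg

/-- Field automorphisms: for every field automorphism `f` there is a group automorphism sending each `x_r(t)` to `x_r(f t)`. -/
theorem result {F : Type*} [Field F] (D : Cfsg.Lie.ChevalleyDatum) (hD : D ∈ [Cfsg.Lie.chevG2, Cfsg.Lie.chevB2, Cfsg.Lie.chevD4, Cfsg.Lie.chevF4, Cfsg.Lie.chevE6, Cfsg.Lie.chevE7, Cfsg.Lie.chevE8]) (f : F ≃+* F) :
    ∃ α : ↥(D.group F) ≃* ↥(D.group F), ∀ (g : ↥(D.group F)) (r : ℕ) (t : F), r < D.nroots →
      ((g : GL D.Idx F) : Matrix D.Idx D.Idx F) = D.x F r t → ((α g : GL D.Idx F) : Matrix D.Idx D.Idx F) = D.x F r (f t) := by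
  obtain ⟨Q⟩ := Cfsg.Agent.Lib.ChevAlg.exists_chevO D hD F
  have hinv : ∀ (f : F ≃+* F) (g : GL D.Idx F), Matrix.GeneralLinearGroup.map (f.symm : F →+* F)
      (Matrix.GeneralLinearGroup.map (f : F →+* F) g) = g := by
    intro f g
    apply Units.ext
    ext i j
    exact f.symm_apply_apply _
  refine ⟨{ toFun := fun g => ⟨_, map_mem Q f g.2⟩
            invFun := fun g => ⟨_, map_mem Q f.symm g.2⟩
            left_inv := fun g => Subtype.ext (hinv f g)
            right_inv := fun g => Subtype.ext (hinv f.symm g)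
            map_mul' := fun g h => Subtype.ext (map_mul _ _ _) }, ?_⟩
  intro g r t hr hg
  have e : (g : GL D.Idx F) = Cfsg.Agent.Lib.ChevAlg.xG Q r t := Cfsg.Agent.Lib.ChevAlg.eq_xG Q hg
  have h2 := map_xG Q f hr t
  rw [← e] at h2
  have h3 := congrArg (fun y : GL D.Idx F => (y : Matrix D.Idx D.Idx F)) h2
  exact h3

end Cfsg.Agent.S1080
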