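import Cfsg.Statements.S1081
import Cfsg.Agent.Lib.ChevGrZ
-- import your own Cfsg.Agent.* helpers here

set_option autoImplicit false
open Cfsg

namespace Cfsg.Agent.S1081

/-- Graph automorphisms: for E₆ with ρ = (p₁ p₆)(p₃ p₅) and for D₄ with ρ the 3-cycle on the outer nodes there is a group automorphism sending `x_p(t) ↦ x_{ρ(p)}(t)` and `x_{-p}(t) ↦ x_{-ρ(p)}(t)` for every fundamental root `p`. -/
theorem result {F : Type*} [Field F] (p : Cfsg.Lie.ChevalleyDatum × List ℕ)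
    (hp : p ∈ [(Cfsg.Lie.chevE6, [5, 1, 4, 3, 2, 0]), (Cfsg.Lie.chevD4, [2, 1, 3, 0]), (Cfsg.Lie.chevD4, [3, 1, 0, 2])]) :
    ∃ α : ↥(p.1.group F) ≃* ↥(p.1.group F), ∀ (g : ↥(p.1.group F)) (i : ℕ) (t : F), i < p.1.rank →
      (((g : GL p.1.Idx F) : Matrix p.1.Idx p.1.Idx F) = p.1.x F (p.1.simple i) t →
        ((α g : GL p.1.Idx F) : Matrix p.1.Idx p.1.Idx F) = p.1.x F (p.1.simple (p.2.getD i 0)) t) ∧
      (((g : GL p.1.Idx F) : Matrix p.1.Idx p.1.Idx F) = p.1.x F (p.1.neg (p.1.simple i)) t →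
        ((α g : GL p.1.Idx F) : Matrix p.1.Idx p.1.Idx F) = p.1.x F (p.1.neg (p.1.simple (p.2.getD i 0))) t) := by
  simp only [List.mem_cons, List.not_mem_nil, or_false] at hp
  rcases hp with rfl | rfl | rfl
  · obtain ⟨Q, -⟩ := Lib.ChevAlg.exists_chevS Cfsg.Lie.chevE6 (by simp) F
    obtain ⟨γ, hγ⟩ := Lib.ChevAlg.auto_E6 Q
    refine ⟨γ, fun g i t hi => ?_⟩
    have h1 : ∀ i < Cfsg.Lie.chevE6.rank, Lib.ChevAlg.gE6.eps (Cfsg.Lie.chevE6.simple i) = 1 := by decide +kernel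
    have h2 : ∀ i < Cfsg.Lie.chevE6.rank, Lib.ChevAlg.gE6.ρ (Cfsg.Lie.chevE6.simple i) = Cfsg.Lie.chevE6.simple ([5, 1, 4, 3, 2, 0].getD i 0) := by
      decide +kernel
    have h3 : ∀ i < Cfsg.Lie.chevE6.rank, Lib.ChevAlg.gE6.lam (Cfsg.Lie.chevE6.simple i) = 1 := by decide +kernel
    have h4 := Lib.ChevAlg.auto_mat Q Lib.ChevAlg.gE6_ok hγ g hi t (h1 i hi) (h2 i hi) (h3 i hi)
    rwa [pow_one] at h4
  · obtain ⟨Q, -⟩ := Lib.ChevAlg.exists_chevS Cfsg.Lie.chevD4 (by simp) F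
    obtain ⟨γ, hγ⟩ := Lib.ChevAlg.auto_D4a Q
    refine ⟨γ, fun g i t hi => ?_⟩
    have h1 : ∀ i < Cfsg.Lie.chevD4.rank, Lib.ChevAlg.gD4a.eps (Cfsg.Lie.chevD4.simple i) = 1 := by decide +kernel
    have h2 : ∀ i < Cfsg.Lie.chevD4.rank, Lib.ChevAlg.gD4a.ρ (Cfsg.Lie.chevD4.simple i) = Cfsg.Lie.chevD4.simple ([2, 1, 3, 0].getD i 0) := by
      decide +kernel
    have h3 : ∀ i < Cfsg.Lie.chevD4.rank, Lib.ChevAlg.gD4a.lam (Cfsg.Lie.chevD4.simple i) = 1 := by decide +kernel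
    have h4 := Lib.ChevAlg.auto_mat Q Lib.ChevAlg.gD4a_ok hγ g hi t (h1 i hi) (h2 i hi) (h3 i hi)
    rwa [pow_one] at h4
  · obtain ⟨Q, -⟩ := Lib.ChevAlg.exists_chevS Cfsg.Lie.chevD4 (by simp) F
    obtain ⟨γ, hγ⟩ := Lib.ChevAlg.auto_D4b Q
    refine ⟨γ, fun g i t hi => ?_⟩
    have h1 : ∀ i < Cfsg.Lie.chevD4.rank, Lib.ChevAlg.gD4b.eps (Cfsg.Lie.chevD4.simple i) = 1 := by decide +kernel
    have h2 : ∀ i < Cfsg.Lie.chevD4.rank, Lib.ChevAlg.gD4b.ρ (Cfsg.Lie.chevD4.simple i) = Cfsg.Lie.chevD4.simple ([3, 1, 0, 2].getD i 0) := by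
      decide +kernel
    have h3 : ∀ i < Cfsg.Lie.chevD4.rank, Lib.ChevAlg.gD4b.lam (Cfsg.Lie.chevD4.simple i) = 1 := by decide +kernel
    have h4 := Lib.ChevAlg.auto_mat Q Lib.ChevAlg.gD4b_ok hγ g hi t (h1 i hi) (h2 i hi) (h3 i hi)
    rwa [pow_one] at h4

end Cfsg.Agent.S1081
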