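import Cfsg.Statements.S1094
import Cfsg.Agent.Lib.ChevCoxS
-- import your own Cfsg.Agent.* helpers here

set_option autoImplicit false
open Cfsg

namespace Cfsg.Agent.S1094

/-- The Coxeter element `s₁ s₂ ⋯ s_l` of the Coxeter group of type B₂, G₂, D₄, F₄, E₆, E₇, E₈ has order `h = 2N/l` = 4, 6, 6, 12, 12, 18, 30. -/
theorem result (p : (Σ n : ℕ, CoxeterMatrix (Fin n)) × ℕ)
    (hp : p ∈ [(⟨2, CoxeterMatrix.B 2⟩, 4), (⟨2, CoxeterMatrix.G₂⟩, 6), (⟨4, Cfsg.Lie.coxeterD4⟩, 6), (⟨4, CoxeterMatrix.F₄⟩, 12),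
      (⟨6, CoxeterMatrix.E₆⟩, 12), (⟨7, CoxeterMatrix.E₇⟩, 18), (⟨8, CoxeterMatrix.E₈⟩, 30)]) :
    orderOf ((List.finRange p.1.1).map p.1.2.simple).prod = p.2 := by
  simp only [List.mem_cons, List.not_mem_nil, or_false] at hp
  rcases hp with rfl | rfl | rfl | rfl | rfl | rfl | rfl
  · obtain ⟨Q, -⟩ := Lib.ChevAlg.exists_chevS Cfsg.Lie.chevB2 (by simp) ℚ
    exact Lib.ChevAlg.cox_element Q Lib.ChevB2.coxD (n := 2) (by decide +kernel) (CoxeterMatrix.B 2) Lib.ChevAlg.coxB2_eq Lib.ChevB2.coxWord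
  · obtain ⟨Q, -⟩ := Lib.ChevAlg.exists_chevS Cfsg.Lie.chevG2 (by simp) ℚ
    exact Lib.ChevAlg.cox_element Q Lib.ChevG2.coxD (n := 2) (by decide +kernel) CoxeterMatrix.G₂ Lib.ChevAlg.coxG2_eq Lib.ChevG2.coxWord
  · obtain ⟨Q, -⟩ := Lib.ChevAlg.exists_chevS Cfsg.Lie.chevD4 (by simp) ℚ
    exact Lib.ChevAlg.cox_element Q Lib.ChevD4.coxD (n := 4) (by decide +kernel) Cfsg.Lie.coxeterD4 Lib.ChevAlg.coxD4_eq Lib.ChevD4.coxWord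
  · obtain ⟨Q, -⟩ := Lib.ChevAlg.exists_chevS Cfsg.Lie.chevF4 (by simp) ℚ
    exact Lib.ChevAlg.cox_element Q Lib.ChevF4.coxD (n := 4) (by decide +kernel) CoxeterMatrix.F₄ Lib.ChevAlg.coxF4_eq Lib.ChevF4.coxWord
  · obtain ⟨Q, -⟩ := Lib.ChevAlg.exists_chevS Cfsg.Lie.chevE6 (by simp) ℚ
    exact Lib.ChevAlg.cox_element Q Lib.ChevE6.coxD (n := 6) (by decide +kernel) CoxeterMatrix.E₆ Lib.ChevAlg.coxE6_eq Lib.ChevE6.coxWord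
  · obtain ⟨Q, -⟩ := Lib.ChevAlg.exists_chevS Cfsg.Lie.chevE7 (by simp) ℚ
    exact Lib.ChevAlg.cox_element Q Lib.ChevE7.coxD (n := 7) (by decide +kernel) CoxeterMatrix.E₇ Lib.ChevAlg.coxE7_eq Lib.ChevE7.coxWord
  · obtain ⟨Q, -⟩ := Lib.ChevAlg.exists_chevS Cfsg.Lie.chevE8 (by simp) ℚ
    exact Lib.ChevAlg.cox_element Q Lib.ChevE8.coxD (n := 8) (by decide +kernel) CoxeterMatrix.E₈ Lib.ChevAlg.coxE8_eq Lib.ChevE8.coxWord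

end Cfsg.Agent.S1094
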