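import Cfsg.Statements.S1096
import Cfsg.Agent.Lib.ChevTor
-- import your own Cfsg.Agent.* helpers here

set_option autoImplicit false
open Cfsg

namespace Cfsg.Agent.S1096

/-- `n_p h_{p_j}(t) n_p⁻¹ = h_{w_p(p_j)}(t)` for fundamental `p`, `p_j` and `t ≠ 0`, stated as `n_p h_{p_j}(t) = h_{w_p(p_j)}(t) n_p`. -/
theorem result {F : Type*} [Field F] (D : Cfsg.Lie.ChevalleyDatum) (hD : D ∈ [Cfsg.Lie.chevG2, Cfsg.Lie.chevB2, Cfsg.Lie.chevD4, Cfsg.Lie.chevF4, Cfsg.Lie.chevE6, Cfsg.Lie.chevE7, Cfsg.Lie.chevE8]) (i j : ℕ) (hi : i < D.rank) (hj : j < D.rank) (t : F) (ht : t ≠ 0) :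
    D.nMat F (D.simple i) 1 * D.hMat F (D.simple j) t = D.hMat F (D.reflectRoot i (D.simple j)) t * D.nMat F (D.simple i) 1 := by
  obtain ⟨Q⟩ := Cfsg.Agent.Lib.ChevAlg.exists_chevO D hD F
  have hp := Q.C.simple_lt i hi
  have hq := Q.C.simple_lt j hj
  rw [Cfsg.Agent.Lib.ChevAlg.hMat_eq Q hq ht, Cfsg.Agent.Lib.ChevAlg.hMat_eq Q (Q.C2.ref_lt i hi _ hq) ht,
    ← Cfsg.Agent.Lib.ChevAlg.nG_val Q hp, ← Units.val_mul, ← Units.val_mul]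
  congr 1
  rw [← mul_inv_eq_iff_eq_mul, (Cfsg.Agent.Lib.ChevAlg.mono_n Q hi).conj_dG]
  apply Cfsg.Agent.Lib.ChevAlg.dG_congr
  intro s hs
  rw [dif_pos hs, Cfsg.Agent.Lib.ChevAlg.sr_inv, Cfsg.Agent.Lib.ChevAlg.sr_val Q.C2 hi, Cfsg.Agent.Lib.ChevAlg.cp,
    Cfsg.Agent.Lib.ChevAlg.cp]
  congr 1
  have := Cfsg.Agent.Lib.ChevAlg.pairD_ref Q.C2 hi (Q.C2.ref_lt i hi _ hq) hs
  rw [Cfsg.Agent.Lib.ChevAlg.ref_ref Q.C2 hi hq] at this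
  exact this

end Cfsg.Agent.S1096
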