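import Cfsg.Statements.S1097
import Cfsg.Agent.Lib.ChevStF
-- import your own Cfsg.Agent.* helpers here

set_option autoImplicit false
open Cfsg

namespace Cfsg.Agent.S1097

/-- Any homomorphism from the presented group to the Chevalley group with `x̄_r(t) ↦ x_r(t)` has kernel contained in `H̄ = ⟨h̄_p(t) : p fundamental, t ≠ 0⟩`. -/
theorem result {K : Type*} [Field K] (D : Cfsg.Lie.ChevalleyDatum) (hD : D ∈ [Cfsg.Lie.chevG2, Cfsg.Lie.chevB2, Cfsg.Lie.chevD4, Cfsg.Lie.chevF4, Cfsg.Lie.chevE6, Cfsg.Lie.chevE7, Cfsg.Lie.chevE8]) (θ : D.SteinbergGroup K →* ↥(D.group K))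
    (hθ : ∀ (r : ℕ) (t : K), r < D.nroots → ((θ (D.stGen K r t) : GL D.Idx K) : Matrix D.Idx D.Idx K) = D.x K r t) :
    θ.ker ≤ Subgroup.closure {h | ∃ (i : ℕ) (t : K), i < D.rank ∧ t ≠ 0 ∧ h = PresentedGroup.mk (D.steinbergRels K) (D.stH (D.simple i) t)} := by
  obtain ⟨Q, -⟩ := Lib.ChevAlg.exists_chevS D hD K
  have hθ' : ∀ r < D.nroots, ∀ t : K, θ (D.stGen K r t) = Lib.ChevAlg.xg Q r t := fun r hr t =>
    Subtype.ext (Units.ext (hθ r t hr))
  have hX := Lib.ChevAlg.stF_mk Q (rels := D.steinbergRels K) Set.subset_union_left θ hθ'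
  intro g hg
  have h1 := hX.ker_le_HM (Lib.ChevAlg.gen_of D hD) (Lib.ChevAlg.gen_mk Q _) (g := g) (by
    show ((θ g : ↥(D.group K)) : GL D.Idx K) = 1
    rw [MonoidHom.mem_ker.1 hg]; rfl)
  have h2 : ∀ (i : ℕ) (t : K), i < D.rank → PresentedGroup.mk (D.steinbergRels K) (D.stH (D.simple i) t) =
      Lib.ChevAlg.hM D (D.stGen K) (D.simple i) t := by
    intro i t hi
    rw [Cfsg.Lie.ChevalleyDatum.stH, Cfsg.Lie.ChevalleyDatum.stWord, map_list_prod, List.map_map,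
      ← Lib.ChevAlg.wM_hWord Q (Q.C.simple_lt i hi)]
    rfl
  refine Subgroup.closure_mono ?_ h1
  rintro _ ⟨i, t, hi, ht, rfl⟩
  exact ⟨i, t, hi, ht, (h2 i t hi).symm⟩

end Cfsg.Agent.S1097
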