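import Cfsg.Statements.S1098
import Cfsg.Agent.Lib.ChevGrZ
-- import your own Cfsg.Agent.* helpers here

set_option autoImplicit false
open Cfsg

namespace Cfsg.Agent.S1098

/-- Graph automorphisms in characteristic 2 (K perfect): for B₂ (a short, b long) `x_a(t) ↦ x_b(t²)`, `x_b(t) ↦ x_a(t)`, and for F₄ (p₁, p₂ short, p₃, p₄ long) `x_{p₁}(t) ↦ x_{p₄}(t²)`, `x_{p₂}(t) ↦ x_{p₃}(t²)`, `x_{p₃}(t) ↦ x_{p₂}(t)`, `x_{p₄}(t) ↦ x_{p₁}(t)`, likewise on the negatives, extend to an automorphism of the group. -/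
theorem result {K : Type*} [Field K] [CharP K 2] (hperf : ∀ x : K, ∃ y : K, y ^ 2 = x)
    (p : Cfsg.Lie.ChevalleyDatum × List (ℕ × ℕ))
    (hp : p ∈ [(Cfsg.Lie.chevB2, [(1, 2), (0, 1)]), (Cfsg.Lie.chevF4, [(3, 2), (2, 2), (1, 1), (0, 1)])]) :
    ∃ α : ↥(p.1.group K) ≃* ↥(p.1.group K), ∀ (g : ↥(p.1.group K)) (i : ℕ) (t : K), i < p.1.rank →
      (((g : GL p.1.Idx K) : Matrix p.1.Idx p.1.Idx K) = p.1.x K (p.1.simple i) t →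
        ((α g : GL p.1.Idx K) : Matrix p.1.Idx p.1.Idx K) = p.1.x K (p.1.simple (p.2.getD i (0, 1)).1) (t ^ (p.2.getD i (0, 1)).2)) ∧
      (((g : GL p.1.Idx K) : Matrix p.1.Idx p.1.Idx K) = p.1.x K (p.1.neg (p.1.simple i)) t →
        ((α g : GL p.1.Idx K) : Matrix p.1.Idx p.1.Idx K) = p.1.x K (p.1.neg (p.1.simple (p.2.getD i (0, 1)).1)) (t ^ (p.2.getD i (0, 1)).2)) := by
  simp only [List.mem_cons, List.not_mem_nil, or_false] at hp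
  rcases hp with rfl | rfl
  · obtain ⟨Q, -⟩ := Lib.ChevAlg.exists_chevS Cfsg.Lie.chevB2 (by simp) K
    obtain ⟨γ, hγ⟩ := Lib.ChevAlg.auto_B2 hperf Q
    refine ⟨γ, fun g i t hi => ?_⟩
    have h1 : ∀ i < Cfsg.Lie.chevB2.rank, Lib.ChevAlg.gB2.eps (Cfsg.Lie.chevB2.simple i) = 1 := by decide +kernel
    have h2 : ∀ i < Cfsg.Lie.chevB2.rank, Lib.ChevAlg.gB2.ρ (Cfsg.Lie.chevB2.simple i) = Cfsg.Lie.chevB2.simple ([(1, 2), (0, 1)].getD i (0, 1)).1 := by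
      decide +kernel
    have h3 : ∀ i < Cfsg.Lie.chevB2.rank, Lib.ChevAlg.gB2.lam (Cfsg.Lie.chevB2.simple i) = ([(1, 2), (0, 1)].getD i (0, 1)).2 := by decide +kernel
    exact Lib.ChevAlg.auto_mat Q Lib.ChevAlg.gB2_ok hγ g hi t (h1 i hi) (h2 i hi) (h3 i hi)
  · obtain ⟨Q, -⟩ := Lib.ChevAlg.exists_chevS Cfsg.Lie.chevF4 (by simp) K
    obtain ⟨γ, hγ⟩ := Lib.ChevAlg.auto_F4 hperf Q
    refine ⟨γ, fun g i t hi => ?_⟩
    have h1 : ∀ i < Cfsg.Lie.chevF4.rank, Lib.ChevAlg.gF4.eps (Cfsg.Lie.chevF4.simple i) = 1 := by decide +kernel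
    have h2 : ∀ i < Cfsg.Lie.chevF4.rank, Lib.ChevAlg.gF4.ρ (Cfsg.Lie.chevF4.simple i) = Cfsg.Lie.chevF4.simple ([(3, 2), (2, 2), (1, 1), (0, 1)].getD i (0, 1)).1 := by
      decide +kernel
    have h3 : ∀ i < Cfsg.Lie.chevF4.rank, Lib.ChevAlg.gF4.lam (Cfsg.Lie.chevF4.simple i) = ([(3, 2), (2, 2), (1, 1), (0, 1)].getD i (0, 1)).2 := by decide +kernel
    exact Lib.ChevAlg.auto_mat Q Lib.ChevAlg.gF4_ok hγ g hi t (h1 i hi) (h2 i hi) (h3 i hi)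

end Cfsg.Agent.S1098
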