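import Cfsg.Statements.S1099
import Cfsg.Agent.Lib.ChevGrZ
-- import your own Cfsg.Agent.* helpers here

set_option autoImplicit false
open Cfsg

namespace Cfsg.Agent.S1099

/-- Graph automorphism of G₂ in characteristic 3 (K perfect): `x_a(t) ↦ x_b(t³)`, `x_b(t) ↦ x_a(t)`, `x_{-a}(t) ↦ x_{-b}(t³)`, `x_{-b}(t) ↦ x_{-a}(t)` extend to an automorphism of the group. -/
theorem result {K : Type*} [Field K] [CharP K 3] (hperf : ∀ x : K, ∃ y : K, y ^ 3 = x) :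
    ∃ α : ↥(Cfsg.Lie.chevG2.group K) ≃* ↥(Cfsg.Lie.chevG2.group K), ∀ (g : ↥(Cfsg.Lie.chevG2.group K)) (t : K),
      (((g : GL Cfsg.Lie.chevG2.Idx K) : Matrix _ _ K) = Cfsg.Lie.chevG2.x K Cfsg.Lie.g2a t →
        ((α g : GL Cfsg.Lie.chevG2.Idx K) : Matrix _ _ K) = Cfsg.Lie.chevG2.x K Cfsg.Lie.g2b (t ^ 3)) ∧
      (((g : GL Cfsg.Lie.chevG2.Idx K) : Matrix _ _ K) = Cfsg.Lie.chevG2.x K Cfsg.Lie.g2b t →
        ((α g : GL Cfsg.Lie.chevG2.Idx K) : Matrix _ _ K) = Cfsg.Lie.chevG2.x K Cfsg.Lie.g2a t) ∧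
      (((g : GL Cfsg.Lie.chevG2.Idx K) : Matrix _ _ K) = Cfsg.Lie.chevG2.x K Cfsg.Lie.g2ma t →
        ((α g : GL Cfsg.Lie.chevG2.Idx K) : Matrix _ _ K) = Cfsg.Lie.chevG2.x K Cfsg.Lie.g2mb (t ^ 3)) ∧
      (((g : GL Cfsg.Lie.chevG2.Idx K) : Matrix _ _ K) = Cfsg.Lie.chevG2.x K Cfsg.Lie.g2mb t →
        ((α g : GL Cfsg.Lie.chevG2.Idx K) : Matrix _ _ K) = Cfsg.Lie.chevG2.x K Cfsg.Lie.g2ma t) := by
  obtain ⟨Q, -⟩ := Lib.ChevAlg.exists_chevS Cfsg.Lie.chevG2 (by simp) K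
  obtain ⟨γ, hγ⟩ := Lib.ChevAlg.auto_G2 hperf Q
  have e1 : Cfsg.Lie.g2a = Cfsg.Lie.chevG2.simple 0 := by decide +kernel
  have e2 : Cfsg.Lie.g2b = Cfsg.Lie.chevG2.simple 1 := by decide +kernel
  have e3 : Cfsg.Lie.g2ma = Cfsg.Lie.chevG2.neg (Cfsg.Lie.chevG2.simple 0) := by decide +kernel
  have e4 : Cfsg.Lie.g2mb = Cfsg.Lie.chevG2.neg (Cfsg.Lie.chevG2.simple 1) := by decide +kernel
  refine ⟨γ, fun g t => ?_⟩
  have h0 := Lib.ChevAlg.auto_mat Q Lib.ChevAlg.gG2_ok hγ g (i := 0) (by decide) t (by decide +kernel) (j := 1) (e := 3) (by decide +kernel) (by decide +kernel)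
  have h1 := Lib.ChevAlg.auto_mat Q Lib.ChevAlg.gG2_ok hγ g (i := 1) (by decide) t (by decide +kernel) (j := 0) (e := 1) (by decide +kernel) (by decide +kernel)
  rw [pow_one] at h1
  rw [e1, e2, e3, e4]
  exact ⟨h0.1, h1.1, h0.2, h1.2⟩

end Cfsg.Agent.S1099
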