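import Cfsg.Statements.S1100
import Cfsg.Agent.Lib.ChevCan
-- import your own Cfsg.Agent.* helpers here

set_option autoImplicit false
open Cfsg

namespace Cfsg.Agent.S1100

/-- Canonical form `g = b n_w u` (`b ∈ B`, `u ∈ U_w⁻ = ⟨X_r : r > 0, n_w X_r n_w⁻¹ ≤ V⟩`): such a decomposition exists for every element of the group; the coset `n_w H` is determined by `g`; and for a fixed representative `n_w` the factors `b`, `u` are unique. -/
theorem result {F : Type*} [Field F] (D : Cfsg.Lie.ChevalleyDatum) (hD : D ∈ [Cfsg.Lie.chevG2, Cfsg.Lie.chevB2, Cfsg.Lie.chevD4, Cfsg.Lie.chevF4, Cfsg.Lie.chevE6, Cfsg.Lie.chevE7, Cfsg.Lie.chevE8]) :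
    (∀ g ∈ D.group F, ∃ b ∈ D.borelSubgroup F, ∃ n ∈ D.monomialSubgroup F,
      ∃ u ∈ Subgroup.closure {x : GL D.Idx F | ∃ (r : ℕ) (t : F), D.IsPosRoot r ∧
            (D.rootSubgroup F r).map (MulAut.conj n).toMonoidHom ≤ D.negUnipotent F ∧ (x : Matrix D.Idx D.Idx F) = D.x F r t},
        g = b * n * u) ∧
    (∀ (b b' n n' u u' : GL D.Idx F), b ∈ D.borelSubgroup F → b' ∈ D.borelSubgroup F →
      n ∈ D.monomialSubgroup F → n' ∈ D.monomialSubgroup F →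
      u ∈ Subgroup.closure {x : GL D.Idx F | ∃ (r : ℕ) (t : F), D.IsPosRoot r ∧
            (D.rootSubgroup F r).map (MulAut.conj n).toMonoidHom ≤ D.negUnipotent F ∧ (x : Matrix D.Idx D.Idx F) = D.x F r t} →
      u' ∈ Subgroup.closure {x : GL D.Idx F | ∃ (r : ℕ) (t : F), D.IsPosRoot r ∧
            (D.rootSubgroup F r).map (MulAut.conj n').toMonoidHom ≤ D.negUnipotent F ∧ (x : Matrix D.Idx D.Idx F) = D.x F r t} →
      b * n * u = b' * n' * u' → n⁻¹ * n' ∈ D.diagonalSubgroup F ∧ (n = n' → b = b' ∧ u = u')) := by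
  obtain ⟨Q⟩ := Lib.ChevAlg.exists_chevO D hD F
  constructor
  · intro g hg
    obtain ⟨b, hb, n, hn, w, hw, v, hm, u, hu, e⟩ := Lib.ChevAlg.exists_canonical Q hg
    refine ⟨b, hb, n, hn, u, ?_, e⟩
    rw [Lib.ChevAlg.closure_eq_inv Q hm]
    exact hu
  · intro b b' n n' u u' hb hb' hn hn' hu hu' h
    obtain ⟨w, hw, v, hm⟩ := Lib.ChevAlg.monomial_mono Q hn
    obtain ⟨w', hw', v', hm'⟩ := Lib.ChevAlg.monomial_mono Q hn'
    rw [Lib.ChevAlg.closure_eq_inv Q hm] at hu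
    rw [Lib.ChevAlg.closure_eq_inv Q hm'] at hu'
    have hB := fun (w : Equiv.Perm (Fin D.nroots)) (y : GL D.Idx F) (hy : y ∈ Lib.ChevAlg.XS Q (Lib.ChevAlg.Inv w)) =>
      Lib.ChevAlg.U_le_borel Q (Lib.ChevAlg.XS_mono Q (Lib.ChevAlg.inv_sub w) hy)
    refine ⟨Lib.ChevAlg.bruhat_unique Q hn hn' hb (hB _ _ hu) hb' (hB _ _ hu') h, ?_⟩
    rintro rfl
    have := hm.unique Q hm'
    subst this
    exact Lib.ChevAlg.canonical_unique Q hm hb hb' hu hu' h

end Cfsg.Agent.S1100
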