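import Cfsg.Statements.S1124
import Cfsg.Agent.Lib.RankOneB

set_option autoImplicit false
open scoped Pointwise
open Cfsg

namespace Cfsg.Agent.S1124

open Cfsg.Agent.Lib.RankOne Cfsg.Agent.Lib
open scoped Pointwise

/-- Let `t` be an element of order 2 of a finite group normalising a subgroup `X` of odd order, `Y = C_X(t)` and `Z` the set of elements of `X` inverted by `t`. Then `(y, z) ↦ y z` is a bijection `Y × Z → X`, so `|X| = |Y| |Z|`, and the subgroup generated by `Z` is normal in `X`. -/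
theorem result {M : Type*} [Group M] [Finite M]
    (t : M) (ht : orderOf t = 2) (X : Subgroup M) (hodd : Odd (Nat.card X))
    (hnorm : ∀ x ∈ X, t * x * t⁻¹ ∈ X) :
    (∀ x ∈ X, ∃! p : M × M, p.1 ∈ X ⊓ Subgroup.centralizer {t} ∧ p.2 ∈ Cfsg.invertedBy X t ∧ x = p.1 * p.2) ∧
      Nat.card X = Nat.card ↥(X ⊓ Subgroup.centralizer {t}) * Nat.card (Cfsg.invertedBy X t) ∧
      ∀ x ∈ X, MulAut.conj x • Subgroup.closure (Cfsg.invertedBy X t) = Subgroup.closure (Cfsg.invertedBy X t) := by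
  have ht2 := Invol.mul_self ht
  refine ⟨?_, card_yz ht2 hodd hnorm, ?_⟩
  · intro x hx
    obtain ⟨y, hy, z, hz, e⟩ := exists_yz ht2 hodd hnorm hx
    refine ⟨(y, z), ⟨hy, hz, e⟩, ?_⟩
    rintro ⟨y', z'⟩ ⟨hy', hz', e'⟩
    obtain ⟨h1, h2⟩ := yz_unique ht2 hodd hy' hy hz' hz (e'.symm.trans e)
    exact Prod.ext h1 h2
  · intro x hx
    apply le_antisymm
    · intro c hc
      rw [Subgroup.mem_pointwise_smul_iff_inv_smul_mem] at hc
      have h1 := conj_closure_le ht2 hodd hnorm hx hc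
      rw [← map_inv, MulAut.smul_def, MulAut.conj_apply] at h1
      rwa [show x * (x⁻¹ * c * x⁻¹⁻¹) * x⁻¹ = c by group] at h1
    · intro c hc
      rw [Subgroup.mem_pointwise_smul_iff_inv_smul_mem, ← map_inv, MulAut.smul_def, MulAut.conj_apply]
      exact conj_closure_le ht2 hodd hnorm (X.inv_mem hx) hc

end Cfsg.Agent.S1124
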