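import Cfsg.Statements.S1137
import Cfsg.Agent.Lib.SuzTwoF

set_option autoImplicit false
open Cfsg

namespace Cfsg.Agent.S1137

open Cfsg.Agent.Lib.SuzTwoD Cfsg.Agent.Lib.SuzTwoF

/-- In a Suzuki 2-group `P` (a finite non-abelian 2-group with more than one involution admitting a cyclic group of automorphisms regular on its involutions) the involutions are exactly the non-identity central elements, and `Z(P)` is elementary abelian. -/
theorem result {P : Type*} [Group P] (hP : Cfsg.IsSuzukiTwoGroup P) :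
    (∀ x : P, (x ≠ 1 ∧ x * x = 1) ↔ (x ∈ Subgroup.center P ∧ x ≠ 1)) ∧
      ∀ z ∈ Subgroup.center P, z * z = 1 := by
  obtain ⟨hfin, h2, hna, htwo, K, hK, hreg⟩ := hP
  haveI := hK
  letI : CommGroup K := IsCyclic.commGroup
  have hreg' : ∀ x y : P, x ≠ 1 → x * x = 1 → y ≠ 1 → y * y = 1 → ∃! a : K, K.subtype a x = y := hreg
  have h1 := center_elem (fun a b : K => mul_comm a b) K.subtype h2 hreg' hna htwo
  refine ⟨fun x => ⟨?_, ?_⟩, h1⟩
  · rintro ⟨hx1, hx⟩
    exact ⟨invol_central K.subtype h2 hreg' hx1 hx, hx1⟩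
  · rintro ⟨hx, hx1⟩
    exact ⟨hx1, h1 x hx⟩
end Cfsg.Agent.S1137
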