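import Cfsg.Statements.S1139
import Cfsg.Agent.Lib.SuzTwoG

set_option autoImplicit false
open Cfsg

namespace Cfsg.Agent.S1139

open Cfsg.Agent.Lib.SuzTwoC Cfsg.Agent.Lib.SuzTwoD Cfsg.Agent.Lib.SuzTwoF Cfsg.Agent.Lib.SuzTwoG

/-- A Suzuki 2-group `P` with `|P| = |Z(P)|²` is of type A: for some finite field `F` with `|F| = |Z(P)|` and some field automorphism `φ ≠ 1` of odd order, `P` is isomorphic to the group of lower unitriangular matrices with rows `(1,0,0)`, `(x,1,0)`, `(y, φ x, 1)`. -/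
theorem result {P : Type*} [Group P] (hP : Cfsg.IsSuzukiTwoGroup P)
    (hcard : Nat.card P = Nat.card (Subgroup.center P) ^ 2) :
    ∃ (F : Type) (_ : Field F) (_ : Fintype F) (φ : F ≃+* F), Fintype.card F = Nat.card (Subgroup.center P) ∧
      φ ≠ RingEquiv.refl F ∧ Odd (orderOf φ) ∧ Nonempty (P ≃* Cfsg.suzukiTypeA F (φ : F →+* F)) := by
  obtain ⟨hfin, h2, hna, htwo, K, hK, hreg⟩ := hP
  haveI := hK
  letI : CommGroup K := IsCyclic.commGroup
  have hreg' : ∀ x y : P, x ≠ 1 → x * x = 1 → y ≠ 1 → y * y = 1 → ∃! a : K, K.subtype a x = y := hreg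
  have h1 := center_elem (fun a b : K => mul_comm a b) K.subtype h2 hreg' hna htwo
  obtain ⟨V, hVn, hVc, hV2, hcV⟩ := exists_V K.subtype h2 hreg' (by
    obtain ⟨x, y, hxy, hx1, -⟩ := htwo
    exact ⟨x, hx1⟩)
  have hVZ : V = Subgroup.center P := by
    apply le_antisymm
    · exact fun v hv => Subgroup.mem_center_iff.mpr fun g => (hVc v hv g).symm
    · exact fun z hz => (hV2 z).mp (h1 z hz)
  haveI : Finite (MulAut P) := Finite.of_injective (fun g : MulAut P => (g : P → P)) DFunLike.coe_injective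
  haveI : Finite K := inferInstance
  subst hVZ
  obtain ⟨F, iF, iFt, φ, hcF, hφ, hinj, hiso⟩ := typeA_main (fun a b : K => mul_comm a b) K.subtype (Subgroup.center P)
    hVc hV2 hcV hcard Nat.card_pos (fpf K.subtype h2 hreg') h2 hna
  exact ⟨F, iF, iFt, φ, hcF, hφ, odd_order φ hinj, hiso⟩
end Cfsg.Agent.S1139
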