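import Cfsg.Statements.S1147
import Cfsg.Agent.Lib.ZassSuzC
import Cfsg.Agent.Lib.SuzTwoC

set_option autoImplicit false
open Cfsg

namespace Cfsg.Agent.S1147

open MulAction Cfsg.Agent.Lib.Zass Cfsg.Agent.Lib.ZassChar Cfsg.Agent.Lib.ZassInv Cfsg.Agent.Lib.ZassEven in
theorem aux {G Ω : Type*} [Group G] [Finite G] [MulAction G Ω] [Fintype Ω]
    (hZ : Cfsg.IsZassenhausGroup G Ω) [IsSimpleGroup G] {a b : Ω} (hab : a ≠ b)
    (U : Subgroup G) (hUle : U ≤ stabilizer G a)
    (hUn : ∀ h ∈ stabilizer G a, ∀ u ∈ U, h * u * h⁻¹ ∈ U)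
    (hHcard : Nat.card U + 1 = Fintype.card Ω) (hHfix : ∀ u ∈ U, u ≠ 1 → ∀ c : Ω, u • c = c → c = a)
    (hodd : Odd (Nat.card (stabilizer G a ⊓ stabilizer G b : Subgroup G)))
    (hU2 : IsPGroup 2 U) (hUna : ∃ u v : U, u * v ≠ v * u) (k : ℕ)
    (hek : Nat.card (stabilizer G a ⊓ stabilizer G b : Subgroup G) + 1 = 2 ^ k) (hcU : Nat.card U = (2 ^ k) ^ 2) :
    ∃ (F : Type) (_ : Field F) (_ : Fintype F) (φ : F ≃+* F), Fintype.card F = 2 ^ k ∧
        Nonempty (U ≃* Cfsg.suzukiTypeA F (φ : F →+* F)) := by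
  classical
  haveI : Fintype G := Fintype.ofFinite G
  have hG := perfect' hZ hab
  have hn := Cfsg.Agent.Lib.ZassSuzB.odd_card U hHcard hU2 hUna
  obtain ⟨t, hta, htb⟩ := exists_swap hZ hab
  have hEc := (inverts hZ hab hodd hG hta htb).1
  let θ : (stabilizer G a ⊓ stabilizer G b : Subgroup G) →* MulAut U :=
    { toFun := fun x =>
        { toFun := fun u => ⟨x * u * (x : G)⁻¹, hUn x x.2.1 u u.2⟩
          invFun := fun u => ⟨(x : G)⁻¹ * u * x, by
            have := hUn (x : G)⁻¹ (inv_mem x.2.1) u u.2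
            rwa [inv_inv] at this⟩
          left_inv := fun u => Subtype.ext (by show (x : G)⁻¹ * (x * u * (x : G)⁻¹) * x = u; group)
          right_inv := fun u => Subtype.ext (by show x * ((x : G)⁻¹ * u * x) * (x : G)⁻¹ = u; group)
          map_mul' := fun u v => Subtype.ext (by
            show x * (u * v : G) * (x : G)⁻¹ = (x * u * (x : G)⁻¹) * (x * v * (x : G)⁻¹); group) }
      map_one' := by
        ext u
        show (1 : G) * u * (1 : G)⁻¹ = u
        group
      map_mul' := fun x y => by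
        ext u
        show (x * y : G) * u * (x * y : G)⁻¹ = x * (y * u * (y : G)⁻¹) * (x : G)⁻¹
        group }
  have hcen : ∀ v : U, v * v = 1 → ∀ g : U, v * g = g * v := by
    intro v hv g
    by_cases hv1 : v = 1
    · rw [hv1, one_mul, mul_one]
    · have hv2 : orderOf (v : G) = 2 := by
        rw [Subgroup.orderOf_coe]
        exact orderOf_eq_prime (by rw [pow_two]; exact hv) hv1
      exact Subtype.ext (invol_central hZ hab U hUle hHcard hHfix hodd hG hv2 v.2 g.2).symm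
  let V : Subgroup U :=
    { carrier := {u | u * u = 1}
      one_mem' := one_mul 1
      mul_mem' := by
        intro u v hu hv
        have h1 : u * u = 1 := hu
        have h2 : v * v = 1 := hv
        show (u * v) * (u * v) = 1
        calc (u * v) * (u * v) = u * (v * u) * v := by group
          _ = u * (u * v) * v := by rw [hcen u h1 v]
          _ = (u * u) * (v * v) := by group
          _ = 1 := by rw [h1, h2, one_mul]
      inv_mem' := by
        intro u hu
        have h1 : u * u = 1 := hu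
        show u⁻¹ * u⁻¹ = 1
        rw [← mul_inv_rev, h1, inv_one] }
  have hV2 : ∀ x : U, x * x = 1 ↔ x ∈ V := fun x => Iff.rfl
  haveI hVn : V.Normal := ⟨fun v hv g => by
    have h1 := hcen v hv g
    rw [← h1, mul_inv_cancel_right]
    exact hv⟩
  have hcV : Nat.card V = Nat.card (stabilizer G a ⊓ stabilizer G b : Subgroup G) + 1 := by
    rw [← Cfsg.Agent.Lib.ZassSuz.card_invol_H hZ hab U hUle hHcard hHfix hodd hG hn]
    have h1 : Nat.card V = Nat.card {u : U // u * u = 1} := rfl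
    rw [h1, ← card_ne_add_one (P := fun u : U => u * u = 1) (y := 1) (one_mul 1)]
    congr 1
    apply Nat.card_congr
    exact Equiv.subtypeEquivRight fun u => ⟨fun h => by
        rw [Subgroup.orderOf_coe]
        exact orderOf_eq_prime (by rw [pow_two]; exact h.1) h.2,
      fun h => ⟨Subtype.ext (invol_mul h), fun h1 => invol_ne h (congrArg Subtype.val h1)⟩⟩
  obtain ⟨F, iF, iFt, φ, hcF, -, -, hiso⟩ := Cfsg.Agent.Lib.SuzTwoC.typeA_main (P := U)
    (A := (stabilizer G a ⊓ stabilizer G b : Subgroup G))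
    (fun x y => Subtype.ext (hEc x x.2 y y.2)) θ V (fun v hv g => hcen v hv g) hV2 hcV (by rw [hcU, hcV, hek])
    Nat.card_pos (by
      intro x hx u hu
      have h1 : (x : G) * u * (x : G)⁻¹ = u := congrArg Subtype.val hu
      have h2 : (x : G) * u = u * x := by
        calc (x : G) * u = (x : G) * u * (x : G)⁻¹ * x := by group
          _ = u * x := by rw [h1]
      exact Subtype.ext (comm_eq_one hZ hab U hUle hHfix (fun h => hx (Subtype.ext h)) x.2.1 x.2.2 u.2 h2)) hU2 hUna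
  exact ⟨F, iF, iFt, φ, by rw [hcF, hcV, hek], hiso⟩

/-- Let a finite simple Zassenhaus group `G` on `Ω` have a normal subgroup `U` of `G_a`, regular on `Ω` minus `a`, which is a non-abelian 2-group. Then `|Ω| = 2^(2n) + 1` with `n` odd, `n > 1`, a two-point stabiliser `G_a ⊓ G_b` is cyclic of order `2^n - 1`, and `U` is isomorphic to the type-A group over a field with `2^n` elements for some field automorphism `φ`. -/
theorem result {G Ω : Type*} [Group G] [Finite G] [MulAction G Ω] [Finite Ω]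
    (hZ : Cfsg.IsZassenhausGroup G Ω) [IsSimpleGroup G] {a b : Ω} (hab : a ≠ b)
    (U : Subgroup G) (hUle : U ≤ MulAction.stabilizer G a)
    (hUn : ∀ h ∈ MulAction.stabilizer G a, ∀ u ∈ U, h * u * h⁻¹ ∈ U)
    (hreg : ∀ c d : Ω, c ≠ a → d ≠ a → ∃! u : U, (u : G) • c = d)
    (hU2 : IsPGroup 2 U) (hUna : ∃ u ∈ U, ∃ v ∈ U, u * v ≠ v * u) :
    ∃ n : ℕ, Odd n ∧ 1 < n ∧ Nat.card Ω = 2 ^ (2 * n) + 1 ∧
      IsCyclic ↥(MulAction.stabilizer G a ⊓ MulAction.stabilizer G b) ∧
      Nat.card ↥(MulAction.stabilizer G a ⊓ MulAction.stabilizer G b) = 2 ^ n - 1 ∧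
      ∃ (F : Type) (_ : Field F) (_ : Fintype F) (φ : F ≃+* F), Fintype.card F = 2 ^ n ∧
        Nonempty (U ≃* Cfsg.suzukiTypeA F (φ : F →+* F)) := by
  haveI := Fintype.ofFinite Ω
  obtain ⟨h1, h2⟩ := Cfsg.Agent.Lib.ZassAb.of_regular hab U hUle hreg
  have hUna' : ∃ u v : U, u * v ≠ v * u := by
    obtain ⟨u, hu, v, hv, huv⟩ := hUna
    exact ⟨⟨u, hu⟩, ⟨v, hv⟩, fun h => huv (congrArg Subtype.val h)⟩
  have hodd : Odd (Nat.card (MulAction.stabilizer G a ⊓ MulAction.stabilizer G b : Subgroup G)) := by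
    by_contra h
    rw [Nat.not_odd_iff_even] at h
    obtain ⟨u, v, huv⟩ := hUna'
    exact huv (Subtype.ext (Cfsg.Agent.Lib.ZassEven.H_comm hZ hab U hUle h1 h2 h u.2 v.2))
  obtain ⟨k, hk2, hko, hek, hcU⟩ := Cfsg.Agent.Lib.ZassSuzC.core' hZ hab U hUle h1 h2 hodd
    (Cfsg.Agent.Lib.ZassInv.perfect' hZ hab) hU2 hUna'
  refine ⟨k, hko, hk2, ?_, (Cfsg.Agent.Lib.ZassEvenB.simple_cyclic hZ hab).1, by omega, ?_⟩
  · rw [Nat.card_eq_fintype_card, ← h1, hcU, ← pow_mul, mul_comm]
  · exact aux hZ hab U hUle hUn h1 h2 hodd hU2 hUna' k hek hcU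
end Cfsg.Agent.S1147
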