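import Cfsg.Statements.S1163
import Mathlib
import Cfsg.Agent.H8.SuzLie
import Cfsg.Agent.H8.SuzBorel

set_option autoImplicit false
open Cfsg

namespace Cfsg.Agent.S1163

/-- For the Suzuki group Sz(q), q = 2^(2m+1) ≥ 8, realised as the elements g of Sp₄(F) with g* = g^θ (θ the 2^(m+1)-th power map, so that θ² is squaring): `|Sz(q)| = q² (q - 1) (q² + 1)`, and there is a Sylow 2-subgroup `S` whose normaliser `H` has order `q²(q-1)` and index `q² + 1`, the action of `Sz(q)` on the cosets of `H` is doubly transitive, and `S` acts regularly on the cosets other than `H` itself. -/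
theorem result {F : Type*} [Field F] [Fintype F] {m : ℕ} (hm : 1 ≤ m) (hF : Fintype.card F = 2 ^ (2 * m + 1)) :
    Nat.card ↥(Cfsg.Lie.Sz F (2 ^ (m + 1))) = (2 ^ (2 * m + 1)) ^ 2 * (2 ^ (2 * m + 1) - 1) * ((2 ^ (2 * m + 1)) ^ 2 + 1) ∧
    ∃ S : Sylow 2 ↥(Cfsg.Lie.Sz F (2 ^ (m + 1))),
      Nat.card (Subgroup.normalizer ((S : Subgroup ↥(Cfsg.Lie.Sz F (2 ^ (m + 1)))) : Set ↥(Cfsg.Lie.Sz F (2 ^ (m + 1))))) = (2 ^ (2 * m + 1)) ^ 2 * (2 ^ (2 * m + 1) - 1) ∧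
      (Subgroup.normalizer ((S : Subgroup ↥(Cfsg.Lie.Sz F (2 ^ (m + 1)))) : Set ↥(Cfsg.Lie.Sz F (2 ^ (m + 1))))).index = (2 ^ (2 * m + 1)) ^ 2 + 1 ∧
      MulAction.IsMultiplyPretransitive ↥(Cfsg.Lie.Sz F (2 ^ (m + 1))) (↥(Cfsg.Lie.Sz F (2 ^ (m + 1))) ⧸ Subgroup.normalizer ((S : Subgroup ↥(Cfsg.Lie.Sz F (2 ^ (m + 1)))) : Set ↥(Cfsg.Lie.Sz F (2 ^ (m + 1))))) 2 ∧
      ∀ x y : ↥(Cfsg.Lie.Sz F (2 ^ (m + 1))) ⧸ Subgroup.normalizer ((S : Subgroup ↥(Cfsg.Lie.Sz F (2 ^ (m + 1)))) : Set ↥(Cfsg.Lie.Sz F (2 ^ (m + 1)))),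
        x ≠ (QuotientGroup.mk 1) → y ≠ (QuotientGroup.mk 1) → ∃! s : ↥(S : Subgroup ↥(Cfsg.Lie.Sz F (2 ^ (m + 1)))), (s : ↥(Cfsg.Lie.Sz F (2 ^ (m + 1)))) • x = y := by
  obtain ⟨D⟩ := Cfsg.Agent.H8.Suz.exists_dat hm hF
  obtain ⟨e⟩ := D.LieSz_equiv
  have : Fact (Nat.Prime 2) := ⟨Nat.prime_two⟩
  letI act : MulAction (Lie.Sz F (2 ^ (m + 1))) (Cfsg.Agent.H8.Suz.Dat.Om F m) :=
    MulAction.compHom (Cfsg.Agent.H8.Suz.Dat.Om F m) e.toMonoidHom
  have hact : ∀ (g : Lie.Sz F (2 ^ (m + 1))) (p : Cfsg.Agent.H8.Suz.Dat.Om F m), g • p = e g • p := fun _ _ => rfl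
  have hcard : Nat.card ↥(Cfsg.Lie.Sz F (2 ^ (m + 1))) = (2 ^ (2 * m + 1)) ^ 2 * (2 ^ (2 * m + 1) - 1) * ((2 ^ (2 * m + 1)) ^ 2 + 1) := by
    rw [Nat.card_congr e.toEquiv, D.card_Sz]; ring
  -- the Sylow subgroup
  have hScard : Nat.card (D.U.comap e.toMonoidHom) = (2 ^ (2 * m + 1)) ^ 2 := by
    rw [← D.card_U]
    exact Nat.card_congr (Equiv.ofBijective (fun x : D.U.comap e.toMonoidHom => (⟨e x.1, x.2⟩ : D.U)) ⟨by
      intro x y hxy; exact Subtype.ext (e.injective (congrArg Subtype.val hxy)), by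
      rintro ⟨y, hy⟩; exact ⟨⟨e.symm y, by show e (e.symm y) ∈ D.U; simpa using hy⟩, Subtype.ext (by simp)⟩⟩)
  have hp : IsPGroup 2 (D.U.comap e.toMonoidHom) := IsPGroup.of_card (n := 2 * (2 * m + 1)) (by
    rw [hScard, ← pow_mul, mul_comm])
  have hidx : ¬ 2 ∣ (D.U.comap e.toMonoidHom).index := by
    rw [Subgroup.index_comap_of_surjective _ e.surjective, D.U_index, Nat.prime_two.dvd_mul, not_or]
    exact ⟨D.odd_q2, D.odd_q1⟩
  let S : Sylow 2 (Lie.Sz F (2 ^ (m + 1))) := hp.toSylow hidx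
  have hS : (S : Subgroup (Lie.Sz F (2 ^ (m + 1)))) = D.U.comap e.toMonoidHom := rfl
  have hN : Subgroup.normalizer ((S : Subgroup (Lie.Sz F (2 ^ (m + 1)))) : Set _) = D.B.comap e.toMonoidHom := by
    rw [hS, ← D.normalizer_U]
    ext g
    rw [Subgroup.mem_comap, Subgroup.mem_normalizer_iff, Subgroup.mem_normalizer_iff]
    constructor
    · intro h x
      have := h (e.symm x)
      simpa using this
    · intro h x
      have := h (e x)
      simpa using this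
  have hNcard : Nat.card (Subgroup.normalizer ((S : Subgroup (Lie.Sz F (2 ^ (m + 1)))) : Set (Lie.Sz F (2 ^ (m + 1))))) =
      (2 ^ (2 * m + 1)) ^ 2 * (2 ^ (2 * m + 1) - 1) := by
    rw [hN, ← D.card_B]
    exact Nat.card_congr (Equiv.ofBijective (fun x : D.B.comap e.toMonoidHom => (⟨e x.1, x.2⟩ : D.B)) ⟨by
      intro x y hxy; exact Subtype.ext (e.injective (congrArg Subtype.val hxy)), by
      rintro ⟨y, hy⟩; exact ⟨⟨e.symm y, by show e (e.symm y) ∈ D.B; simpa using hy⟩, Subtype.ext (by simp)⟩⟩)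
  have hact2 := D.two_trans
  have h2 : MulAction.IsMultiplyPretransitive (Lie.Sz F (2 ^ (m + 1))) (Cfsg.Agent.H8.Suz.Dat.Om F m) 2 := by
    rw [MulAction.is_two_pretransitive_iff] at hact2 ⊢
    intro a b c d hab hcd
    obtain ⟨g, h1, h2⟩ := hact2 hab hcd
    exact ⟨e.symm g, by rw [hact, e.apply_symm_apply, h1], by rw [hact, e.apply_symm_apply, h2]⟩
  have hreg : ∀ x y : Cfsg.Agent.H8.Suz.Dat.Om F m, x ≠ D.inf → y ≠ D.inf →
      ∃! s : (S : Subgroup (Lie.Sz F (2 ^ (m + 1)))), (s : Lie.Sz F (2 ^ (m + 1))) • x = y := by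
    intro x y hx hy
    rcases D.cases_pt x with h | ⟨x1, x2, rfl⟩
    · exact absurd h hx
    rcases D.cases_pt y with h | ⟨y1, y2, rfl⟩
    · exact absurd h hy
    have hchar := D.char
    refine ⟨⟨e.symm (D.tt (y1 - x1) (y2 - x2 - D.θ (y1 - x1) * x1)), by
      show e (e.symm _) ∈ D.U
      rw [e.apply_symm_apply]; exact ⟨_, _, rfl⟩⟩, ?_, ?_⟩
    · show e (e.symm _) • D.pt x1 x2 = _
      rw [e.apply_symm_apply, D.tt_pt]
      congr 1 <;> ring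
    · rintro ⟨s, a, b, hs⟩ h
      apply Subtype.ext
      apply e.injective
      show e s = e (e.symm _)
      rw [e.apply_symm_apply]
      have hs' : e s = D.tt a b := hs
      have h' : e s • D.pt x1 x2 = D.pt y1 y2 := h
      rw [hs', D.tt_pt] at h'
      obtain ⟨h1, h2⟩ := D.pt_inj h'
      rw [hs']
      have ha : a = y1 - x1 := by rw [← h1]; ring
      subst ha
      congr 1
      rw [← h2]; ring
  have key := Cfsg.Agent.H8.Suz.coset_action D.inf (Subgroup.normalizer ((S : Subgroup (Lie.Sz F (2 ^ (m + 1)))) : Set (Lie.Sz F (2 ^ (m + 1)))))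
    (fun g => by rw [hN]; exact Iff.rfl) h2 (S : Subgroup (Lie.Sz F (2 ^ (m + 1)))) hreg
  refine ⟨hcard, S, hNcard, ?_, key.1, key.2⟩
  have h := (Subgroup.normalizer ((S : Subgroup (Lie.Sz F (2 ^ (m + 1)))) : Set (Lie.Sz F (2 ^ (m + 1))))).card_mul_index
  rw [hNcard, hcard] at h
  have hpos : 0 < (2 ^ (2 * m + 1)) ^ 2 * (2 ^ (2 * m + 1) - 1) := by
    rw [← D.card_B]; exact Nat.card_pos
  exact Nat.eq_of_mul_eq_mul_left hpos h

end Cfsg.Agent.S1163
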