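import Cfsg.Statements.S1176
import Cfsg.Agent.Lib.WCl
import Cfsg.Agent.Lib.Invol

set_option autoImplicit false
open Cfsg
open Cfsg.Agent.Lib.WCl Cfsg.Agent.Lib.SylRel

namespace Cfsg.Agent.S1176

open scoped commutatorElement
open Cfsg.Agent.Lib.StrongEmb

/-- Let x₀ be an involution of the finite group G and D its conjugacy class. Assume (a) for each x ∈ D the subgroup W(x) generated by the members of D commuting with x is a 2-group of nilpotency class at most 2, and (b) the product of two distinct commuting members of D again lies in D. Then for all x, y ∈ D, if xy has even order greater than 2, its order is 4. -/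
theorem result {G : Type*} [Group G] [Finite G] (x₀ : G) (hx₀ : orderOf x₀ = 2) (ha : ∀ x : G, IsConj x₀ x → IsPGroup 2 ↥(Subgroup.closure {y : G | IsConj x₀ y ∧ Commute y x}) ∧ ⁅⁅Subgroup.closure {y : G | IsConj x₀ y ∧ Commute y x}, Subgroup.closure {y : G | IsConj x₀ y ∧ Commute y x}⁆, Subgroup.closure {y : G | IsConj x₀ y ∧ Commute y x}⁆ = ⊥) (hb : ∀ x y : G, IsConj x₀ x → IsConj x₀ y → x ≠ y → Commute x y → IsConj x₀ (x * y)) (x y : G) (hx : IsConj x₀ x) (hy : IsConj x₀ y) (heven : Even (orderOf (x * y))) (hgt : 2 < orderOf (x * y)) : orderOf (x * y) = 4 := by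
  have hx2 : x * x = 1 := by
    have h1 : orderOf x = 2 := by
      obtain ⟨c, hc⟩ := isConj_iff.1 hx
      rw [← hc, ← hx₀]; exact orderOf_conj' c x₀
    rw [← pow_two, ← h1, pow_orderOf_eq_one]
  have hy2 : y * y = 1 := by
    have h1 : orderOf y = 2 := by
      obtain ⟨c, hc⟩ := isConj_iff.1 hy
      rw [← hc, ← hx₀]; exact orderOf_conj' c x₀
    rw [← pow_two, ← h1, pow_orderOf_eq_one]
  have hxi : x⁻¹ = x := inv_eq_of_mul_eq_one_right hx2
  have hyi : y⁻¹ = y := inv_eq_of_mul_eq_one_right hy2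
  obtain ⟨m, hm⟩ := heven
  have hpos : 0 < orderOf (x * y) := orderOf_pos _
  set c := x * y with hc
  set z := c ^ m with hz
  have hxc : x * c * x⁻¹ = c⁻¹ := by rw [hc, mul_inv_rev, hxi, hyi, ← mul_assoc, hx2, one_mul]
  have hxcn : ∀ k : ℕ, x * c ^ k * x⁻¹ = (c ^ k)⁻¹ := fun k => by rw [← conj_pow, hxc, inv_pow]
  have hz1 : z ≠ 1 := by
    intro h
    have := orderOf_dvd_of_pow_eq_one h
    have h2 := Nat.le_of_dvd (by omega) this
    omega
  have hz2 : z * z = 1 := by rw [hz, ← pow_add, ← hm, pow_orderOf_eq_one]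
  have hzi : z⁻¹ = z := inv_eq_of_mul_eq_one_right hz2
  have hxz : x * z = z * x := by
    have := hxcn m
    rw [← hz, hzi] at this
    exact mul_inv_eq_iff_eq_mul.1 this
  have hcz : Commute c z := Commute.self_pow c m
  have hyz : y * z = z * y := by
    have e : y = x * c := by rw [hc, ← mul_assoc, hx2, one_mul]
    rw [e, mul_assoc, hcz.eq, ← mul_assoc, hxz, mul_assoc]
  have hconj_y : ∀ k : ℕ, IsConj x₀ (c ^ (2 * k) * x) := by
    intro k
    have : c ^ (2 * k) * x = c ^ k * x * (c ^ k)⁻¹ := by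
      rw [mul_assoc, ← hxcn k, two_mul, pow_add]
      have : x * (x * c ^ k * x⁻¹) = c ^ k * x := by
        rw [← mul_assoc, ← mul_assoc, hx2, one_mul, hxi]
      rw [this, mul_assoc]
    rw [this]
    exact hx.trans (isConj_iff.2 ⟨_, rfl⟩)
  have hconj_x : ∀ k : ℕ, IsConj x₀ (c ^ (2 * k + 1) * x) := by
    intro k
    have h1 : IsConj x₀ (x * y * x⁻¹) := hy.trans (isConj_iff.2 ⟨_, rfl⟩)
    have : c ^ (2 * k + 1) * x = c ^ k * (x * y * x⁻¹) * (c ^ k)⁻¹ := by
      rw [← hc, hxi]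
      have e1 : c ^ k * (c * x) * (c ^ k)⁻¹ = c ^ k * c * (x * (c ^ k)⁻¹) := by group
      have e2 : x * (c ^ k)⁻¹ = c ^ k * x := by
        rw [← hxcn k, ← mul_assoc, ← mul_assoc, hx2, one_mul, hxi]
      rw [e1, e2, ← mul_assoc, ← pow_succ, ← pow_add]
      congr 2
      ring
    rw [this]
    exact h1.trans (isConj_iff.2 ⟨_, rfl⟩)
  have hzx : IsConj x₀ (z * x) := by
    rcases Nat.even_or_odd' m with ⟨k, hk | hk⟩
    · rw [hz, hk]; exact hconj_y k
    · rw [hz, hk]; exact hconj_x k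
  have hzD : IsConj x₀ z := by
    have := hb x (z * x) hx hzx (by
      intro h
      apply hz1
      exact mul_right_cancel (h.symm.trans (one_mul x).symm)) (by
      show x * (z * x) = z * x * x
      rw [← mul_assoc, hxz])
    rwa [← mul_assoc, hxz, mul_assoc, hx2, mul_one] at this
  obtain ⟨hP, hcl⟩ := ha z hzD
  set V := Subgroup.closure {y : G | IsConj x₀ y ∧ Commute y z} with hV
  have hxV : x ∈ V := Subgroup.subset_closure ⟨hx, hxz⟩
  have hyV : y ∈ V := Subgroup.subset_closure ⟨hy, hyz⟩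
  have h4 : ⁅⁅x, y⁆, x⁆ = 1 := by
    have : ⁅⁅x, y⁆, x⁆ ∈ (⁅⁅V, V⁆, V⁆ : Subgroup G) := Subgroup.commutator_mem_commutator (Subgroup.commutator_mem_commutator hxV hyV) hxV
    rw [hcl, Subgroup.mem_bot] at this
    exact this
  have h5 : ⁅x, y⁆ = c ^ 2 := by rw [commutatorElement_def, hxi, hyi, pow_two, hc, ← mul_assoc]
  rw [h5, commutatorElement_eq_one_iff_mul_comm] at h4
  have h6 := hxcn 2
  rw [← h4, mul_assoc, mul_inv_cancel, mul_one] at h6
  have h7 : c ^ 4 = 1 := by
    have e : c ^ 4 = c ^ 2 * c ^ 2 := by rw [← pow_add]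
    rw [e]; nth_rewrite 1 [h6]; exact inv_mul_cancel _
  have h8 := orderOf_dvd_of_pow_eq_one h7
  have h9 := Nat.le_of_dvd (by norm_num) h8
  have h10 : orderOf c = 2 * m := by omega
  interval_cases h : orderOf c <;> omega

end Cfsg.Agent.S1176
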