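import Cfsg.Statements.S1177
import Cfsg.Agent.Lib.WCl
import Cfsg.Agent.Lib.ThompsonJ

set_option autoImplicit false
open Cfsg
open Cfsg.Agent.Lib.WCl Cfsg.Agent.Lib.SylRel

namespace Cfsg.Agent.S1177

theorem exists_fixed_coset {G : Type*} [Group G] [Finite G] {p : ℕ} [Fact p.Prime] {B A A1 : Subgroup G}
    (hB : IsPGroup p B) (hA : IsPGroup p A) (hle : A1 ≤ A) (hne : A1 ≠ A)
    (hBA : ∀ b ∈ B, ∀ a ∈ A, b * a * b⁻¹ ∈ A) (hBA1 : ∀ b ∈ B, ∀ a ∈ A1, b * a * b⁻¹ ∈ A1)
    (hcomm : ∀ a ∈ A, ∀ b ∈ A, a * b = b * a) :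
    ∃ a ∈ A, a ∉ A1 ∧ ∀ b ∈ B, a⁻¹ * (b * a * b⁻¹) ∈ A1 := by
  classical
  let φ : B →* MulAut A :=
    { toFun := fun b =>
        { toFun := fun a => ⟨b * a * b⁻¹, hBA b b.2 a a.2⟩
          invFun := fun a => ⟨b⁻¹ * a * b, by simpa using hBA b⁻¹ (B.inv_mem b.2) a a.2⟩
          left_inv := fun a => by ext; simp [mul_assoc]
          right_inv := fun a => by ext; simp [mul_assoc]
          map_mul' := fun a c => by ext; simp [mul_assoc] }
      map_one' := by ext a; simp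
      map_mul' := fun a c => by ext x; simp [mul_assoc] }
  letI : MulAction B A := MulAction.compHom A φ
  have hsm : ∀ (b : B) (a : A), ((b • a : A) : G) = (b : G) * (a : G) * (b : G)⁻¹ := fun b a => rfl
  let s : Setoid A := QuotientGroup.leftRel (A1.subgroupOf A)
  letI : MulAction B (A ⧸ A1.subgroupOf A) :=
    { smul := fun b => Quotient.map' (fun a => b • a) (by
        intro a c hac
        rw [QuotientGroup.leftRel_apply] at hac ⊢
        have h1 : ((a : G)⁻¹ * c) ∈ A1 := hac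
        have h2 := hBA1 b b.2 _ h1
        show ((b • a : A) : G)⁻¹ * ((b • c : A) : G) ∈ A1
        rw [hsm, hsm]
        have e : ((b : G) * a * (b : G)⁻¹)⁻¹ * (b * c * (b : G)⁻¹) = b * ((a : G)⁻¹ * c) * (b : G)⁻¹ := by group
        rwa [e])
      one_smul := fun x => by
        induction x using QuotientGroup.induction_on with
        | H a => exact congrArg QuotientGroup.mk (one_smul B a)
      mul_smul := fun b c x => by
        induction x using QuotientGroup.induction_on with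
        | H a => exact congrArg QuotientGroup.mk (mul_smul b c a) }
  have hmk : ∀ (b : B) (a : A), b • (QuotientGroup.mk a : A ⧸ A1.subgroupOf A) = QuotientGroup.mk (b • a) := fun b a => rfl
  have hcard := hB.card_modEq_card_fixedPoints (A ⧸ A1.subgroupOf A)
  have h1 : (QuotientGroup.mk (1 : A) : A ⧸ A1.subgroupOf A) ∈ MulAction.fixedPoints B (A ⧸ A1.subgroupOf A) := by
    intro b
    rw [hmk]
    congr 1
    ext; rw [hsm]; simp
  have hdvd : p ∣ Nat.card (A ⧸ A1.subgroupOf A) := by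
    have h2 : Nat.card (A ⧸ A1.subgroupOf A) ≠ 1 := by
      intro h
      apply hne
      have h3 : A1.relIndex A = 1 := h
      exact le_antisymm hle (Subgroup.relIndex_eq_one.1 h3)
    obtain ⟨e, he⟩ := hA.index (A1.subgroupOf A)
    rw [← Subgroup.index_eq_card, he] at h2 ⊢
    rcases Nat.eq_zero_or_pos e with rfl | h
    · rw [pow_zero] at h2; exact absurd rfl h2
    · exact dvd_pow_self _ h.ne'
  have h2 : p ∣ Nat.card (MulAction.fixedPoints B (A ⧸ A1.subgroupOf A)) := by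
    have := (Nat.modEq_zero_iff_dvd.2 hdvd)
    exact Nat.modEq_zero_iff_dvd.1 (hcard.symm.trans this)
  have h3 : 1 < Nat.card (MulAction.fixedPoints B (A ⧸ A1.subgroupOf A)) := by
    haveI : Nonempty (MulAction.fixedPoints B (A ⧸ A1.subgroupOf A)) := ⟨⟨_, h1⟩⟩
    exact (Fact.out : p.Prime).one_lt.trans_le (Nat.le_of_dvd Nat.card_pos h2)
  haveI := Finite.one_lt_card_iff_nontrivial.1 h3
  obtain ⟨x, hx⟩ := exists_ne (⟨_, h1⟩ : MulAction.fixedPoints B (A ⧸ A1.subgroupOf A))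
  obtain ⟨x, hxf⟩ := x
  obtain ⟨a, rfl⟩ := QuotientGroup.mk_surjective x
  refine ⟨a, a.2, ?_, ?_⟩
  · intro ha
    apply hx
    apply Subtype.ext
    show (QuotientGroup.mk a : A ⧸ A1.subgroupOf A) = QuotientGroup.mk 1
    rw [eq_comm, QuotientGroup.eq, inv_one, one_mul]
    exact ha
  · intro b hb
    have := hxf ⟨b, hb⟩
    rw [hmk, eq_comm, QuotientGroup.eq] at this
    exact this

/-- Let A be a nontrivial elementary abelian 2-subgroup of a finite group G which is a T.I. set (each conjugate of A meets A trivially or equals A) and which does not commute elementwise with any conjugate of A other than A itself. Then for every a ∈ A, a ≠ 1, every conjugate of A contained in C_G(a) is equal to A (A is weakly closed in C_G(a)). -/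
theorem result {G : Type*} [Group G] [Finite G] (A : Subgroup G) (hA : Cfsg.IsElementaryAbelian 2 A) (hA1 : A ≠ ⊥) (hTI : ∀ g : G, A.map (MulAut.conj g).toMonoidHom ⊓ A = ⊥ ∨ A.map (MulAut.conj g).toMonoidHom = A) (hb : ∀ g : G, (∀ a ∈ A, ∀ b ∈ A.map (MulAut.conj g).toMonoidHom, a * b = b * a) → A.map (MulAut.conj g).toMonoidHom = A) (a : G) (ha : a ∈ A) (ha1 : a ≠ 1) (g : G) (hg : A.map (MulAut.conj g).toMonoidHom ≤ Subgroup.centralizer ({a} : Set G)) : A.map (MulAut.conj g).toMonoidHom = A := by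
  haveI : Fact (Nat.Prime 2) := ⟨Nat.prime_two⟩
  have hAp : IsPGroup 2 A := fun x => ⟨1, by
    have := hA.2 x x.2
    exact Subtype.ext (by simpa using this)⟩
  have hAc : ∀ x ∈ A, ∀ y ∈ A, x * y = y * x := by
    intro x hx y hy
    have := hA.1.1.1 ⟨x, hx⟩ ⟨y, hy⟩
    exact congrArg Subtype.val this
  -- TI for two conjugates
  have hTI2 : ∀ g h : G, ∀ x : G, x ≠ 1 → x ∈ A.map (MulAut.conj g).toMonoidHom → x ∈ A.map (MulAut.conj h).toMonoidHom →
      A.map (MulAut.conj g).toMonoidHom = A.map (MulAut.conj h).toMonoidHom := by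
    intro g h x hx hg hh
    rcases hTI (h⁻¹ * g) with h1 | h1
    · exfalso
      rw [mem_map_conj] at hg hh
      have : h⁻¹ * x * h ∈ (⊥ : Subgroup G) := by
        rw [← h1]
        refine ⟨?_, hh⟩
        show _ ∈ A.map _
        rw [mem_map_conj]
        have e : (h⁻¹ * g)⁻¹ * (h⁻¹ * x * h) * (h⁻¹ * g) = g⁻¹ * x * g := by group
        rw [e]; exact hg
      rw [Subgroup.mem_bot] at this
      apply hx
      have e : x = h * (h⁻¹ * x * h) * h⁻¹ := by group
      rw [e, this]; group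
    · rw [← map_conj_mul] at h1
      have := congrArg (fun K : Subgroup G => K.map (MulAut.conj h).toMonoidHom) h1
      simp only [map_conj_mul] at this
      rwa [mul_inv_cancel_left] at this
  have hb2 : ∀ g h : G, (∀ a ∈ A.map (MulAut.conj h).toMonoidHom, ∀ b ∈ A.map (MulAut.conj g).toMonoidHom, a * b = b * a) →
      A.map (MulAut.conj g).toMonoidHom = A.map (MulAut.conj h).toMonoidHom := by
    intro g h hh
    have h1 := hb (h⁻¹ * g) (by
      intro a ha b hb'
      rw [mem_map_conj] at hb'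
      have h2 := hh (h * a * h⁻¹) ⟨a, ha, rfl⟩ (h * b * h⁻¹) (by
        rw [mem_map_conj]
        have e : (h⁻¹ * g)⁻¹ * b * (h⁻¹ * g) = g⁻¹ * (h * b * h⁻¹) * g := by group
        rwa [e] at hb')
      have e1 : h * a * h⁻¹ * (h * b * h⁻¹) = h * (a * b) * h⁻¹ := by group
      have e2 : h * b * h⁻¹ * (h * a * h⁻¹) = h * (b * a) * h⁻¹ := by group
      rw [e1, e2] at h2
      exact mul_left_cancel (mul_right_cancel h2))
    have := congrArg (fun K : Subgroup G => K.map (MulAut.conj h).toMonoidHom) h1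
    simp only [map_conj_mul] at this
    rwa [mul_inv_cancel_left] at this
  set B := A.map (MulAut.conj g).toMonoidHom with hBdef
  have hBp : IsPGroup 2 B := hAp.map _
  have hBc : ∀ x ∈ B, ∀ y ∈ B, x * y = y * x := by
    rintro _ ⟨x, hx, rfl⟩ _ ⟨y, hy, rfl⟩
    show g * x * g⁻¹ * (g * y * g⁻¹) = g * y * g⁻¹ * (g * x * g⁻¹)
    have e1 : g * x * g⁻¹ * (g * y * g⁻¹) = g * (x * y) * g⁻¹ := by group
    have e2 : g * y * g⁻¹ * (g * x * g⁻¹) = g * (y * x) * g⁻¹ := by group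
    rw [e1, e2, hAc x hx y hy]
  have hBN : ∀ b ∈ B, ∀ x ∈ A, b * x * b⁻¹ ∈ A := by
    intro b hb' x hx
    have h1 : A.map (MulAut.conj b).toMonoidHom = A.map (MulAut.conj 1).toMonoidHom := by
      refine hTI2 b 1 a ha1 ?_ (by rw [map_conj_one]; exact ha)
      rw [mem_map_conj]
      have := Subgroup.mem_centralizer_singleton_iff.1 (hg hb')
      rw [mul_assoc, ← this, inv_mul_cancel_left]; exact ha
    rw [map_conj_one] at h1
    rw [← h1]
    exact ⟨x, hx, rfl⟩
  by_contra hne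
  let A1 : Subgroup G := A ⊓ Subgroup.centralizer (B : Set G)
  have hA1 : ∀ x, x ∈ A1 ↔ x ∈ A ∧ ∀ b ∈ B, b * x = x * b := fun x => by
    show x ∈ A ∧ x ∈ Subgroup.centralizer (B : Set G) ↔ _
    rw [Subgroup.mem_centralizer_iff]; rfl
  have hA1ne : A1 ≠ A := by
    intro h
    apply hne
    apply hb
    intro x hx b hb'
    rw [← h] at hx
    exact (((hA1 x).1 hx).2 b hb').symm
  have hBA1 : ∀ b ∈ B, ∀ x ∈ A1, b * x * b⁻¹ ∈ A1 := by
    intro b hb' x hx
    rw [((hA1 x).1 hx).2 b hb', mul_assoc, mul_inv_cancel, mul_one]; exact hx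
  obtain ⟨a', ha', hna', hfix⟩ := exists_fixed_coset hBp hAp (inf_le_left : A1 ≤ A) hA1ne hBN hBA1 hAc
  -- B^{a'} commutes with B
  have h1 : A.map (MulAut.conj (a' * g)).toMonoidHom = B := by
    refine hb2 _ g ?_
    intro b1 hb1 b2 hb2'
    rw [← map_conj_mul] at hb2'
    obtain ⟨b, hb', rfl⟩ := hb2'
    show b1 * (a' * b * a'⁻¹) = a' * b * a'⁻¹ * b1
    have h3 := hfix b hb'
    have h3' := (hA1 _).1 (A1.inv_mem h3)
    have e : a' * b * a'⁻¹ = a' * ((a'⁻¹ * (b * a' * b⁻¹))⁻¹) * a'⁻¹ * b := by group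
    have e2 : a' * ((a'⁻¹ * (b * a' * b⁻¹))⁻¹) * a'⁻¹ = (a'⁻¹ * (b * a' * b⁻¹))⁻¹ := by
      rw [hAc a' ha' _ h3'.1, mul_assoc, mul_inv_cancel, mul_one]
    rw [e, e2]
    have h6 := h3'.2 b1 hb1
    generalize (a'⁻¹ * (b * a' * b⁻¹))⁻¹ = w at h6
    rw [← mul_assoc, h6, mul_assoc, hBc b1 hb1 b hb', mul_assoc]
  have h2 : ∀ b ∈ B, a' * b * a'⁻¹ ∈ B := by
    intro b hb'
    rw [← h1, ← map_conj_mul]
    exact ⟨b, hb', rfl⟩
  apply hna'
  refine (hA1 a').2 ⟨ha', fun b hb' => ?_⟩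
  have h3 : b * a' * b⁻¹ * a'⁻¹ ∈ A := A.mul_mem (hBN b hb' a' ha') (A.inv_mem ha')
  have h4 : b * a' * b⁻¹ * a'⁻¹ ∈ B := by
    have := B.mul_mem hb' (h2 b⁻¹ (B.inv_mem hb'))
    have e : b * (a' * b⁻¹ * a'⁻¹) = b * a' * b⁻¹ * a'⁻¹ := by group
    rwa [e] at this
  by_cases h5 : b * a' * b⁻¹ * a'⁻¹ = 1
  · have : b * a' * b⁻¹ = a' := by rw [mul_inv_eq_one] at h5; exact h5
    exact mul_inv_eq_iff_eq_mul.1 this
  · exfalso
    apply hne
    have := hTI2 g 1 _ h5 h4 (by rw [map_conj_one]; exact h3)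
    rwa [map_conj_one] at this

end Cfsg.Agent.S1177
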