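import Cfsg.Statements.S1178
import Cfsg.Agent.Lib.WCl

set_option autoImplicit false
open Cfsg
open Cfsg.Agent.Lib.WCl Cfsg.Agent.Lib.SylRel

namespace Cfsg.Agent.S1178

/-- Let A be a subgroup of a Sylow 2-subgroup S of the finite group G which is weakly closed in S. If a conjugate g A g⁻¹ commutes elementwise with A, then g A g⁻¹ = A. -/
theorem result {G : Type*} [Group G] [Finite G] (S : Sylow 2 G) (A : Subgroup G) (hW : Cfsg.IsWeaklyClosed A (S : Subgroup G)) (g : G) (hc : ∀ a ∈ A, ∀ b ∈ A.map (MulAut.conj g).toMonoidHom, a * b = b * a) : A.map (MulAut.conj g).toMonoidHom = A := by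
  haveI : Fact (Nat.Prime 2) := ⟨Nat.prime_two⟩
  have hp := isPGroup_of_wc hW
  have hN : A ≤ Subgroup.normalizer ((A.map (MulAut.conj g).toMonoidHom : Subgroup G) : Set G) := by
    intro a ha
    rw [Subgroup.mem_normalizer_iff]
    have key : ∀ c : G, c ∈ A → ∀ b ∈ A.map (MulAut.conj g).toMonoidHom, c * b * c⁻¹ = b := fun c hc' b hb => by
      rw [hc c hc' b hb, mul_assoc, mul_inv_cancel, mul_one]
    intro b
    constructor
    · intro hb; rw [key a ha b hb]; exact hb
    · intro hb
      have := key a⁻¹ (A.inv_mem ha) _ hb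
      have e : a⁻¹ * (a * b * a⁻¹) * a⁻¹⁻¹ = b := by group
      rw [e] at this
      rw [this]; exact hb
  have hQ : IsPGroup 2 (A ⊔ A.map (MulAut.conj g).toMonoidHom : Subgroup G) :=
    IsPGroup.to_sup_of_normal_right' hp (hp.map _) hN
  exact wc_eq' hW hQ le_sup_left le_sup_right

end Cfsg.Agent.S1178
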