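import Cfsg.Statements.S1181
import Cfsg.Agent.Lib.IsoInv

set_option autoImplicit false
open Cfsg
open Cfsg.Agent.Lib.IsoInv Cfsg.Agent.Lib.Invol

namespace Cfsg.Agent.S1181

/-- Let z be an isolated involution of the finite group G and N a normal subgroup with z ∉ N. Then the centralizer of zN in G/N is the image of C_G(z), and zN is an isolated involution of G/N. -/
theorem result {G : Type*} [Group G] [Finite G] (z : G) (hz : Cfsg.IsIsolatedInvolution z) (N : Subgroup G) [N.Normal] (hzN : z ∉ N) : Subgroup.centralizer ({(QuotientGroup.mk z : G ⧸ N)} : Set (G ⧸ N)) = (Subgroup.centralizer ({z} : Set G)).map (QuotientGroup.mk' N) ∧ Cfsg.IsIsolatedInvolution (QuotientGroup.mk z : G ⧸ N) := by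
  have hz2 := mul_self hz.1
  have key : ∀ g : G, (g * z * g⁻¹)⁻¹ * z ∈ N → ∃ c ∈ Subgroup.centralizer ({z} : Set G), (QuotientGroup.mk c : G ⧸ N) = QuotientGroup.mk g := by
    intro g hg
    have hg2 : g * z * g⁻¹ ∈ N ⊔ Subgroup.zpowers z := by
      have h1 : (g * z * g⁻¹) = z * ((g * z * g⁻¹)⁻¹ * z)⁻¹ := by group
      rw [h1]
      exact Subgroup.mul_mem _ (Subgroup.mem_sup_right (Subgroup.mem_zpowers z)) (Subgroup.mem_sup_left (N.inv_mem hg))
    obtain ⟨h, hh, hhz⟩ := conj_in hz (H := N ⊔ Subgroup.zpowers z) (Subgroup.mem_sup_right (Subgroup.mem_zpowers z)) hg2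
    obtain ⟨n, hn, _, ⟨i, rfl⟩, rfl⟩ := (Cfsg.Agent.Lib.Basic.mem_sup_iff_left (by
      rw [Subgroup.normalizer_eq_top]; exact le_top)).1 hh
    have h2 : n * z * n⁻¹ = g * z * g⁻¹ := by rw [← hhz]; group
    refine ⟨n⁻¹ * g, mem_centralizer_iff_conj.2 h2.symm, ?_⟩
    rw [QuotientGroup.eq]
    have := ‹N.Normal›.conj_mem n hn g⁻¹
    have e : (n⁻¹ * g)⁻¹ * g = g⁻¹ * n * g⁻¹⁻¹ := by group
    rw [e]; exact this
  constructor
  · apply le_antisymm
    · intro y hy
      obtain ⟨g, rfl⟩ := QuotientGroup.mk_surjective y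
      have h1 : (QuotientGroup.mk (g * z * g⁻¹) : G ⧸ N) = QuotientGroup.mk z := by
        have := Subgroup.mem_centralizer_singleton_iff.1 hy
        rw [QuotientGroup.mk_mul, QuotientGroup.mk_mul, this, mul_assoc, QuotientGroup.mk_inv, mul_inv_cancel, mul_one]
      obtain ⟨c, hc, hcg⟩ := key g (QuotientGroup.eq.1 h1)
      exact ⟨c, hc, hcg⟩
    · rintro _ ⟨c, hc, rfl⟩
      have hc' := Subgroup.mem_centralizer_singleton_iff.1 (show c ∈ Subgroup.centralizer ({z} : Set G) from hc)
      rw [Subgroup.mem_centralizer_singleton_iff]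
      show (QuotientGroup.mk c : G ⧸ N) * QuotientGroup.mk z = QuotientGroup.mk z * QuotientGroup.mk c
      rw [← QuotientGroup.mk_mul, hc', QuotientGroup.mk_mul]
  · constructor
    · refine orderOf_eq_two ?_ ?_
      · rw [← QuotientGroup.mk_mul, hz2, QuotientGroup.mk_one]
      · intro h; exact hzN ((QuotientGroup.eq_one_iff z).1 h)
    · intro y hy
      obtain ⟨g, rfl⟩ := QuotientGroup.mk_surjective y
      -- `r = z y`, `r² ∈ N`
      have hodd := odd hz g
      set y := g * z * g⁻¹ with hyd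
      have hy2 : y * y = 1 := mul_self (by rw [hyd, orderOf_conj, hz.1])
      have h1 : (QuotientGroup.mk z : G ⧸ N) * QuotientGroup.mk y = QuotientGroup.mk y * QuotientGroup.mk z := hy
      have h2 : (z * y) * (z * y) ∈ N := by
        rw [← QuotientGroup.eq_one_iff, QuotientGroup.mk_mul, QuotientGroup.mk_mul]
        calc (QuotientGroup.mk z : G ⧸ N) * QuotientGroup.mk y * (QuotientGroup.mk z * QuotientGroup.mk y)
            = QuotientGroup.mk z * (QuotientGroup.mk y * QuotientGroup.mk z) * QuotientGroup.mk y := by group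
          _ = QuotientGroup.mk z * (QuotientGroup.mk z * QuotientGroup.mk y) * QuotientGroup.mk y := by rw [h1]
          _ = QuotientGroup.mk ((z * z) * (y * y)) := by simp only [QuotientGroup.mk_mul, mul_assoc]
          _ = 1 := by rw [hz2, hy2, mul_one, QuotientGroup.mk_one]
      have h3 : z * y ∈ N := by
        obtain ⟨m, hm⟩ := hodd
        have h4 : z * y = ((z * y) * (z * y)) ^ (m + 1) := by
          rw [← pow_two, ← pow_mul]
          have e : 2 * (m + 1) = (2 * m + 1) + 1 := by ring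
          rw [e, pow_succ, ← hm, pow_orderOf_eq_one, one_mul]
        rw [h4]; exact N.pow_mem h2 _
      have h4 : (QuotientGroup.mk y : G ⧸ N) = QuotientGroup.mk z := by
        rw [eq_comm, QuotientGroup.eq, inv_eq hz2]; exact h3
      exact h4

end Cfsg.Agent.S1181
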