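import Cfsg.Statements.S1182
import Cfsg.Agent.Lib.IsoInv

set_option autoImplicit false
open Cfsg
open Cfsg.Agent.Lib.IsoInv Cfsg.Agent.Lib.Invol

namespace Cfsg.Agent.S1182

/-- Let z be an isolated involution of the finite group G and H a subgroup normalized by z. If x, y ∈ H both commute with z and y = h x h⁻¹ for some h ∈ H, then y = c x c⁻¹ for some c ∈ H commuting with z. -/
theorem result {G : Type*} [Group G] [Finite G] (z : G) (hz : Cfsg.IsIsolatedInvolution z) (H : Subgroup G) (hzH : z ∈ Subgroup.normalizer (H : Set G)) (x y : G) (hx : x ∈ H) (hy : y ∈ H) (hxz : Commute x z) (hyz : Commute y z) (h : G) (hh : h ∈ H) (hconj : h * x * h⁻¹ = y) : ∃ c ∈ H, Commute c z ∧ c * x * c⁻¹ = y := by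
  have h1 : Commute x (h⁻¹ * z * h⁻¹⁻¹) := by
    have h2 : y * z = z * y := hyz.eq
    rw [← hconj] at h2
    show x * (h⁻¹ * z * h⁻¹⁻¹) = h⁻¹ * z * h⁻¹⁻¹ * x
    calc x * (h⁻¹ * z * h⁻¹⁻¹) = h⁻¹ * (h * x * h⁻¹ * z) * h := by group
      _ = h⁻¹ * (z * (h * x * h⁻¹)) * h := by rw [h2]
      _ = _ := by group
  obtain ⟨k, hk⟩ := exists_pow hz h⁻¹
  set r := z * (h⁻¹ * z * h⁻¹⁻¹) with hr
  have hrH : r ∈ H := by
    have h3 := (Subgroup.mem_normalizer_iff.1 hzH h⁻¹).1 (H.inv_mem hh)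
    have e : r = z * h⁻¹ * z⁻¹ * h := by
      rw [hr, inv_eq (mul_self hz.1)]; group
    rw [e]; exact H.mul_mem h3 hh
  have hxr : Commute x (r ^ k) := (hxz.mul_right h1).zpow_right k
  refine ⟨h * r ^ k, H.mul_mem hh (H.zpow_mem hrH k), ?_, ?_⟩
  · show h * r ^ k * z = z * (h * r ^ k)
    calc h * r ^ k * z = h * (r ^ k * z * (r ^ k)⁻¹) * r ^ k := by group
      _ = h * (h⁻¹ * z * h⁻¹⁻¹) * r ^ k := by rw [hk]
      _ = _ := by group
  · rw [← hconj]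
    calc h * r ^ k * x * (h * r ^ k)⁻¹ = h * (r ^ k * x) * (r ^ k)⁻¹ * h⁻¹ := by group
      _ = h * (x * r ^ k) * (r ^ k)⁻¹ * h⁻¹ := by rw [hxr.eq]
      _ = _ := by group

end Cfsg.Agent.S1182
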