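import Cfsg.Statements.S1183
import Cfsg.Agent.Lib.IsoInv
import Cfsg.Agent.Lib.Resid

set_option autoImplicit false
open Cfsg
open Cfsg.Agent.Lib.IsoInv Cfsg.Agent.Lib.Invol Cfsg.Agent.Lib.PNilp Cfsg.Agent.Lib.Resid

namespace Cfsg.Agent.S1183

open scoped commutatorElement

theorem pResidual_eq_top_iff {G : Type*} [Group G] [Finite G] {p : ℕ} [Fact p.Prime] (P : Sylow p G) :
    pResidual p G = ⊤ ↔ (P : Subgroup G).focalSubgroup = P := by
  constructor
  · intro h
    apply le_antisymm (P : Subgroup G).focalSubgroup_le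
    have := inf_pResidual_le_focal P
    rwa [h, inf_top_eq] at this
  · intro h
    by_contra hne
    have hn : (pResidual p G).Normal := pResidual_normal p
    have hq : IsPGroup p (G ⧸ pResidual p G) := quotient_pResidual
    have hnt : Nontrivial (G ⧸ pResidual p G) := by
      by_contra hcon
      rw [not_nontrivial_iff_subsingleton] at hcon
      apply hne
      rw [eq_top_iff]
      intro x _
      exact (QuotientGroup.eq_one_iff x).1 (Subsingleton.elim _ _)
    have hnil : Group.IsNilpotent (G ⧸ pResidual p G) := hq.isNilpotent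
    have h1 : commutator (G ⧸ pResidual p G) = ⊤ := by
      rw [eq_top_iff]
      have h2 : (P : Subgroup G).map (QuotientGroup.mk' (pResidual p G)) = ⊤ := by
        have h3 := congrArg (Subgroup.map (QuotientGroup.mk' (pResidual p G))) (sylow_sup_pResidual P)
        rw [Subgroup.map_sup, QuotientGroup.map_mk'_self, sup_bot_eq, ← MonoidHom.range_eq_map,
          MonoidHom.range_eq_top.2 (QuotientGroup.mk'_surjective _)] at h3
        exact h3
      rw [← h2, ← h]
      refine (Subgroup.map_mono (P : Subgroup G).focalSubgroup_le_commutator).trans ?_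
      rw [commutator_def, Subgroup.map_commutator, commutator_def]
      exact Subgroup.commutator_mono le_top le_top
    have hsol : Group.IsSolvable (G ⧸ pResidual p G) := inferInstance
    exact absurd h1 (Group.IsSolvable.commutator_lt_top_of_nontrivial (G ⧸ pResidual p G)).ne

/-- Let z be an isolated involution of the finite group G and C = C_G(z). Then the subgroup of G generated by its elements of odd order is all of G if and only if the subgroup of C generated by its elements of odd order is all of C. -/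
theorem result {G : Type*} [Group G] [Finite G] (z : G) (hz : Cfsg.IsIsolatedInvolution z) : Cfsg.pResidual 2 G = ⊤ ↔ Cfsg.pResidual 2 ↥(Subgroup.centralizer ({z} : Set G)) = ⊤ := by
  obtain ⟨S, hzS, hSC⟩ := exists_sylow hz
  set C := Subgroup.centralizer ({z} : Set G) with hC
  rw [pResidual_eq_top_iff S, pResidual_eq_top_iff (S.subtype hSC)]
  have hmem : ∀ s : C, s ∈ ((S.subtype hSC : Sylow 2 C) : Subgroup C) ↔ (s : G) ∈ (S : Subgroup G) := fun s => Iff.rfl
  constructor
  · intro h
    apply le_antisymm (Subgroup.focalSubgroup_le _)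
    intro s hs
    rw [hmem, ← h, Subgroup.focalSubgroup_def] at hs
    have key : Subgroup.closure {g : G | g ∈ (S : Subgroup G) ∧ ∃ x ∈ (S : Subgroup G), ∃ u : G, g = ⁅x, u⁆} ≤
        (((S.subtype hSC : Sylow 2 C) : Subgroup C).focalSubgroup).map C.subtype := by
      rw [Subgroup.closure_le]
      rintro _ ⟨hg, x, hx, u, rfl⟩
      have h1 : u * x⁻¹ * u⁻¹ ∈ (S : Subgroup G) := by
        have : u * x⁻¹ * u⁻¹ = x⁻¹ * ⁅x, u⁆ := by rw [commutatorElement_def]; group
        rw [this]; exact S.mul_mem (S.inv_mem hx) hg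
      obtain ⟨c, hc, hcx⟩ := centralizer_control hz (x := x⁻¹) (y := u * x⁻¹ * u⁻¹) (h := u)
        (Subgroup.mem_centralizer_singleton_iff.1 (hSC (S.inv_mem hx))) (Subgroup.mem_centralizer_singleton_iff.1 (hSC h1)) rfl
      have hcC : c ∈ C := Subgroup.mem_centralizer_singleton_iff.2 hc.eq
      have e : ⁅x, u⁆ = ⁅x, c⁆ := by
        rw [commutatorElement_def, commutatorElement_def]
        calc x * u * x⁻¹ * u⁻¹ = x * (u * x⁻¹ * u⁻¹) := by group
          _ = x * (c * x⁻¹ * c⁻¹) := by rw [hcx]
          _ = _ := by group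
      refine ⟨⁅(⟨x, hSC hx⟩ : C), ⟨c, hcC⟩⁆, ?_, ?_⟩
      · rw [Subgroup.focalSubgroup_def]
        refine Subgroup.subset_closure ⟨?_, ⟨x, hSC hx⟩, hx, ⟨c, hcC⟩, rfl⟩
        rw [hmem]
        have : ((⁅(⟨x, hSC hx⟩ : C), ⟨c, hcC⟩⁆ : C) : G) = ⁅x, c⁆ := rfl
        rw [this, ← e]; exact hg
      · exact e.symm
    obtain ⟨s', hs', hss⟩ := key hs
    have : s' = s := Subtype.ext hss
    rwa [this] at hs'
  · intro h
    apply le_antisymm (Subgroup.focalSubgroup_le _)
    intro s hs
    have hs' : (⟨s, hSC hs⟩ : C) ∈ ((S.subtype hSC : Sylow 2 C) : Subgroup C) := hs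
    rw [← h, Subgroup.focalSubgroup_def] at hs'
    have key : Subgroup.closure {g : C | g ∈ ((S.subtype hSC : Sylow 2 C) : Subgroup C) ∧ ∃ x ∈ ((S.subtype hSC : Sylow 2 C) : Subgroup C), ∃ u : C, g = ⁅x, u⁆} ≤
        ((S : Subgroup G).focalSubgroup).comap C.subtype := by
      rw [Subgroup.closure_le]
      rintro _ ⟨hg, x, hx, u, rfl⟩
      show ((⁅x, u⁆ : C) : G) ∈ (S : Subgroup G).focalSubgroup
      rw [Subgroup.focalSubgroup_def]
      exact Subgroup.subset_closure ⟨hg, x, hx, u, rfl⟩
    exact key hs'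

end Cfsg.Agent.S1183
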