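import Cfsg.Statements.S1184
import Cfsg.Agent.Lib.IsoInv

set_option autoImplicit false
open Cfsg
open Cfsg.Agent.Lib.IsoInv Cfsg.Agent.Lib.Invol

namespace Cfsg.Agent.S1184

/-- Let z be an isolated involution of the finite group G. If s and t are distinct conjugates of z, then st does not commute with z. -/
theorem result {G : Type*} [Group G] [Finite G] (z : G) (hz : Cfsg.IsIsolatedInvolution z) (g h : G) (hne : g * z * g⁻¹ ≠ h * z * h⁻¹) : ¬ Commute (g * z * g⁻¹ * (h * z * h⁻¹)) z := by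
  intro hc
  apply hne
  set x := g * z * g⁻¹ with hx
  set y := h * z * h⁻¹ with hy
  have hx2 : x * x = 1 := mul_self (by rw [hx, orderOf_conj, hz.1])
  have hy2 : y * y = 1 := mul_self (by rw [hy, orderOf_conj, hz.1])
  have hxi := conj_iso hz g
  have hodd : Odd (orderOf (x * y)) := by
    have := odd hxi (h * g⁻¹)
    rw [← hx] at this
    have e : h * g⁻¹ * x * (h * g⁻¹)⁻¹ = y := by rw [hx, hy]; group
    rwa [e] at this
  clear_value x y
  -- `x` inverts `x y`, `z` centralizes it
  set H := Subgroup.normalizer ((Subgroup.zpowers (x * y) : Subgroup G) : Set G) with hH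
  have hxinv : x * (x * y) * x⁻¹ = (x * y)⁻¹ := by
    rw [mul_inv_rev, inv_eq hx2, inv_eq hy2, ← mul_assoc, hx2, one_mul]
  have hxH : x ∈ H := by
    have key : ∀ w ∈ Subgroup.zpowers (x * y), x * w * x⁻¹ = w⁻¹ := by
      rintro _ ⟨k, rfl⟩
      exact inv_zpow_of hxinv k
    rw [hH, Subgroup.mem_normalizer_iff]
    intro w
    constructor
    · intro hw; rw [key w hw]; exact Subgroup.inv_mem _ hw
    · intro hw
      have h1 := key _ hw
      have e : x * (x * w * x⁻¹) * x⁻¹ = w := by
        rw [inv_eq hx2]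
        calc x * (x * w * x) * x = (x * x) * w * (x * x) := by group
          _ = w := by rw [hx2, one_mul, mul_one]
      rw [e] at h1
      rw [h1]; exact Subgroup.inv_mem _ hw
  have hzH : z ∈ H := by
    rw [hH, Subgroup.mem_normalizer_iff]
    have key : ∀ w ∈ Subgroup.zpowers (x * y), z * w * z⁻¹ = w := by
      rintro _ ⟨k, rfl⟩
      have h1 := (hc.symm.zpow_right k).eq
      show z * (x * y) ^ k * z⁻¹ = (x * y) ^ k
      rw [h1, mul_inv_cancel_right]
    intro w
    constructor
    · intro hw; rw [key w hw]; exact hw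
    · intro hw
      have h1 := key _ hw
      have h2 : z * w * z⁻¹ = w := by
        have := congrArg (fun t => z⁻¹ * t * z) h1
        simpa [mul_assoc] using this
      rw [h2] at hw; exact hw
  obtain ⟨d, hd, hdz⟩ := conj_in hz hzH (show g * z * g⁻¹ ∈ H from hx ▸ hxH)
  have h3 : x * (x * y) * x⁻¹ = x * y := by
    -- `x = d z d⁻¹` and `d⁻¹ (x y) d ∈ ⟨x y⟩`
    have h4 : d⁻¹ * (x * y) * d ∈ Subgroup.zpowers (x * y) := (Subgroup.mem_normalizer_iff''.1 hd _).1 (Subgroup.mem_zpowers _)
    obtain ⟨k, hk⟩ := h4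
    have hk' : (x * y) ^ k = d⁻¹ * (x * y) * d := hk
    have h5 := (hc.symm.zpow_right k).eq
    rw [hk'] at h5
    have h6 : x = d * z * d⁻¹ := by rw [hdz, hx]
    calc x * (x * y) * x⁻¹ = (d * z * d⁻¹) * (x * y) * (d * z * d⁻¹)⁻¹ := by rw [← h6]
      _ = d * (z * (d⁻¹ * (x * y) * d)) * z⁻¹ * d⁻¹ := by group
      _ = d * (d⁻¹ * (x * y) * d * z) * z⁻¹ * d⁻¹ := by rw [h5]
      _ = x * y := by group
  rw [hxinv] at h3
  have h4 : (x * y) * (x * y) = 1 := by
    nth_rewrite 1 [← h3]; rw [inv_mul_cancel]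
  have h5 : x * y = 1 := sqrt_unique (b := 1) hodd (by rw [orderOf_one]; exact odd_one) (by rw [h4, mul_one])
  calc x = x * (y * y) := by rw [hy2, mul_one]
    _ = (x * y) * y := by group
    _ = y := by rw [h5, one_mul]

end Cfsg.Agent.S1184
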