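import Cfsg.Statements.S1186
import Cfsg.Agent.Lib.IsoInv

set_option autoImplicit false
open Cfsg
open Cfsg.Agent.Lib.IsoInv Cfsg.Agent.Lib.Invol

namespace Cfsg.Agent.S1186

/-- Let z be an isolated involution of the finite group G, C = C_G(z), K the set of elements of odd order inverted by z, and s an involution of C. Then |G| = |C| · |C_K(sz)| · |C_K(s)|. -/
theorem result {G : Type*} [Group G] [Finite G] (z : G) (hz : Cfsg.IsIsolatedInvolution z) (s : G) (hs : orderOf s = 2) (hsz : Commute s z) : Nat.card G = Nat.card (Subgroup.centralizer ({z} : Set G)) * Nat.card {k : G // Odd (orderOf k) ∧ z * k * z⁻¹ = k⁻¹ ∧ Commute k (s * z)} * Nat.card {k : G // Odd (orderOf k) ∧ z * k * z⁻¹ = k⁻¹ ∧ Commute k s} := by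
  have hz2 := mul_self hz.1
  have hs2 := mul_self hs
  set C := Subgroup.centralizer ({z} : Set G) with hC
  have hGC : Nat.card G = Nat.card (G ⧸ C) * Nat.card C := Subgroup.card_eq_card_quotient_mul_card_subgroup C
  by_cases hsz1 : s = z
  · subst hsz1
    have h1 : Nat.card {k : G // Odd (orderOf k) ∧ s * k * s⁻¹ = k⁻¹ ∧ Commute k s} = 1 := by
      rw [Nat.card_eq_one_iff_unique]
      constructor
      · constructor
        rintro ⟨k, hk1, hk2, hk3⟩ ⟨l, hl1, hl2, hl3⟩
        have key : ∀ k : G, Odd (orderOf k) → s * k * s⁻¹ = k⁻¹ → Commute k s → k = 1 := by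
          intro k hk1 hk2 hk3
          rw [← hk3.eq, mul_inv_cancel_right] at hk2
          refine sqrt_unique (b := 1) hk1 (by rw [orderOf_one]; exact odd_one) ?_
          nth_rewrite 1 [hk2]
          rw [inv_mul_cancel, mul_one]
        exact Subtype.ext ((key k hk1 hk2 hk3).trans (key l hl1 hl2 hl3).symm)
      · exact ⟨1, by rw [orderOf_one]; exact odd_one, by group, Commute.one_left _⟩
    rw [h1, mul_one, hGC, mul_comm]
    congr 1
    let f : {k : G // Odd (orderOf k) ∧ s * k * s⁻¹ = k⁻¹ ∧ Commute k (s * s)} → G ⧸ C := fun k => QuotientGroup.mk (k : G)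
    refine (Nat.card_congr (Equiv.ofBijective f ⟨?_, ?_⟩)).symm
    · rintro ⟨k, hk1, hk2, hk3⟩ ⟨l, hl1, hl2, hl3⟩ h
      have h2 := QuotientGroup.eq.1 h
      exact Subtype.ext (k_unique hz2 ⟨hk1, hk2⟩ ⟨hl1, hl2⟩ (mem_centralizer_iff_conj.1 h2).symm)
    · intro y
      obtain ⟨g, rfl⟩ := QuotientGroup.mk_surjective y
      obtain ⟨k, hk, h1⟩ := exists_k hz g
      refine ⟨⟨k, hk.1, hk.2, by rw [hs2]; exact Commute.one_right _⟩, ?_⟩
      exact QuotientGroup.eq.2 (mem_centralizer_iff_conj.2 h1.symm)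
  -- the involution `s z`
  have hszc : s * z = z * s := hsz.eq
  have hsz2 : (s * z) * (s * z) = 1 := by
    calc (s * z) * (s * z) = s * (z * s) * z := by group
      _ = (s * s) * (z * z) := by rw [← hszc]; group
      _ = 1 := by rw [hs2, hz2, mul_one]
  have hszne : s * z ≠ 1 := by
    intro h
    apply hsz1
    calc s = s * (z * z) := by rw [hz2, mul_one]
      _ = (s * z) * z := by group
      _ = z := by rw [h, one_mul]
  have hszo : orderOf (s * z) = 2 := orderOf_eq_two hsz2 hszne
  rw [hGC, mul_comm (Nat.card (G ⧸ C)), mul_assoc]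
  congr 1
  rw [← Nat.card_prod]
  let A := {k : G // Odd (orderOf k) ∧ z * k * z⁻¹ = k⁻¹ ∧ Commute k (s * z)}
  let B := {k : G // Odd (orderOf k) ∧ z * k * z⁻¹ = k⁻¹ ∧ Commute k s}
  let f : A × B → G ⧸ C := fun x => QuotientGroup.mk ((x.2 : G) * (x.1 : G))
  -- the key formula
  have key : ∀ (b a : G), z * b * z⁻¹ = b⁻¹ → Commute b (s * z) → z * a * z⁻¹ = a⁻¹ → Commute a s →
      (a * b) * z * (a * b)⁻¹ * s = (a * (b * b) * a⁻¹) * (a * (z * s) * a⁻¹) := by
    intro b a hb1 hb2 ha1 ha2
    have h1 : b * z * b⁻¹ = b * b * z := conj_eq_of_inv hz2 hb1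
    have h2 : a⁻¹ * s = s * a⁻¹ := (ha2.inv_left).eq
    calc (a * b) * z * (a * b)⁻¹ * s = a * (b * z * b⁻¹) * (a⁻¹ * s) := by group
      _ = a * (b * b * z) * (s * a⁻¹) := by rw [h1, h2]
      _ = _ := by group
  refine (Nat.card_congr (Equiv.ofBijective f ⟨?_, ?_⟩)).symm
  · rintro ⟨⟨b, hb0, hb1, hb2⟩, ⟨a, ha0, ha1, ha2⟩⟩ ⟨⟨b', hb0', hb1', hb2'⟩, ⟨a', ha0', ha1', ha2'⟩⟩ h
    have h2 := mem_centralizer_iff_conj.1 (QuotientGroup.eq.1 h)
    have h3 := key b a hb1 hb2 ha1 ha2
    have h4 := key b' a' hb1' hb2' ha1' ha2'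
    rw [← h2, h4] at h3
    -- odd part and `2`-part
    have hcomm : ∀ (b a : G), Commute b (s * z) → Commute (a * (b * b) * a⁻¹) (a * (z * s) * a⁻¹) := by
      intro b a hb
      rw [← hszc]
      have : (b * b) * (s * z) = (s * z) * (b * b) := (hb.mul_left hb).eq
      show a * (b * b) * a⁻¹ * (a * (s * z) * a⁻¹) = a * (s * z) * a⁻¹ * (a * (b * b) * a⁻¹)
      calc a * (b * b) * a⁻¹ * (a * (s * z) * a⁻¹) = a * ((b * b) * (s * z)) * a⁻¹ := by group
        _ = a * ((s * z) * (b * b)) * a⁻¹ := by rw [this]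
        _ = _ := by group
    have hoddb : ∀ (b a : G), Odd (orderOf b) → Odd (orderOf (a * (b * b) * a⁻¹)) := by
      intro b a hb
      rw [orderOf_conj, ← pow_two]
      exact hb.of_dvd_nat (orderOf_pow_dvd 2)
    have hinv : ∀ a : G, (a * (z * s) * a⁻¹) * (a * (z * s) * a⁻¹) = 1 := by
      intro a
      have : (z * s) * (z * s) = 1 := by rw [← hszc]; exact hsz2
      calc (a * (z * s) * a⁻¹) * (a * (z * s) * a⁻¹) = a * ((z * s) * (z * s)) * a⁻¹ := by group
        _ = 1 := by rw [this]; group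
    have hsplit : ∀ (v i v' i' : G), Odd (orderOf v) → Odd (orderOf v') → i * i = 1 → i' * i' = 1 → Commute v i → Commute v' i' → v * i = v' * i' → v = v' ∧ i = i' := by
      intro v i v' i' hv hv' hi hi' hc hc' e
      have h5 : v * v = v' * v' := by
        have : (v * i) * (v * i) = (v' * i') * (v' * i') := by rw [e]
        rwa [show (v * i) * (v * i) = (v * v) * (i * i) from by
            calc (v * i) * (v * i) = v * (i * v) * i := by group
              _ = v * (v * i) * i := by rw [hc.eq]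
              _ = _ := by group,
          show (v' * i') * (v' * i') = (v' * v') * (i' * i') from by
            calc (v' * i') * (v' * i') = v' * (i' * v') * i' := by group
              _ = v' * (v' * i') * i' := by rw [hc'.eq]
              _ = _ := by group, hi, hi', mul_one, mul_one] at this
      have h6 := sqrt_unique hv hv' h5
      refine ⟨h6, ?_⟩
      rw [h6] at e
      exact mul_left_cancel e
    obtain ⟨h5, h6⟩ := hsplit _ _ _ _ (hoddb b' a' hb0') (hoddb b a hb0) (hinv a') (hinv a) (hcomm b' a' hb2') (hcomm b a hb2) h3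
    have h7 : a' * z * a'⁻¹ = a * z * a⁻¹ := by
      have e1 : a' * (z * s) * a'⁻¹ = (a' * z * a'⁻¹) * s := by
        have := (ha2'.inv_left).eq
        calc a' * (z * s) * a'⁻¹ = a' * z * (s * a'⁻¹) := by group
          _ = a' * z * (a'⁻¹ * s) := by rw [this]
          _ = _ := by group
      have e2 : a * (z * s) * a⁻¹ = (a * z * a⁻¹) * s := by
        have := (ha2.inv_left).eq
        calc a * (z * s) * a⁻¹ = a * z * (s * a⁻¹) := by group
          _ = a * z * (a⁻¹ * s) := by rw [this]
          _ = _ := by group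
      rw [e1, e2] at h6
      exact mul_right_cancel h6
    have h8 : a' = a := k_unique hz2 ⟨ha0', ha1'⟩ ⟨ha0, ha1⟩ h7
    subst h8
    have h9 : b' * b' = b * b := by
      have := congrArg (fun t => a'⁻¹ * t * a') h5
      simpa [mul_assoc] using this
    have h10 := sqrt_unique hb0' hb0 h9
    subst h10
    rfl
  · intro y
    obtain ⟨g, rfl⟩ := QuotientGroup.mk_surjective y
    -- `y = g z g⁻¹`
    set y := g * z * g⁻¹ with hy
    have hyo : orderOf y = 2 := by rw [hy, orderOf_conj, hz.1]
    have hy2 := mul_self hyo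
    have hyi := conj_iso hz g
    rw [← hy] at hyi
    -- `(y s)²` has odd order
    have hodd2 : Odd (orderOf ((y * s) * (y * s))) := by
      have := odd hyi s
      have e : y * (s * y * s⁻¹) = (y * s) * (y * s) := by rw [inv_eq hs2]; group
      rwa [e] at this
    obtain ⟨m, hm⟩ := hodd2
    -- `i = (y s)^(2m+1)`
    set i := (y * s) ^ (2 * m + 1) with hi
    have hi2 : i * i = 1 := by
      rw [hi, ← pow_add]
      have e : 2 * m + 1 + (2 * m + 1) = 2 * (2 * m + 1) := by ring
      rw [e, pow_mul, pow_two, ← hm, pow_orderOf_eq_one]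
    have hii : Commute i (y * s) := (Commute.refl _).pow_left _
    have hsinv : s * (y * s) * s⁻¹ = (y * s)⁻¹ := by
      rw [mul_inv_rev, inv_eq hs2, inv_eq hy2]
      calc s * (y * s) * s = s * y * (s * s) := by group
        _ = s * y := by rw [hs2, mul_one]
    have hsi : Commute s i := by
      have h1 : s * i * s⁻¹ = i := by
        rw [hi, ← conj_pow, hsinv, inv_pow, ← hi, inv_eq hi2]
      show s * i = i * s
      calc s * i = (s * i * s⁻¹) * s := by group
        _ = i * s := by rw [h1]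
    have hyi' : Commute y i := by
      have h1 : Commute (y * s) i := hii.symm
      have := h1.mul_left hsi
      have e : y * s * s = y := by rw [mul_assoc, hs2, mul_one]
      rwa [e] at this
    -- `v = (y s) i` of odd order
    set v := (y * s) * i with hv
    have hvodd : Odd (orderOf v) := by
      have h1 : v ^ (2 * m + 1) = 1 := by
        rw [hv, hii.symm.mul_pow, ← hi, pow_succ, pow_mul, pow_two, hi2, one_pow, one_mul, hi2]
      exact Odd.of_dvd_nat (show Odd (2 * m + 1) from ⟨m, rfl⟩) (orderOf_dvd_of_pow_eq_one h1)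
    obtain ⟨k, hk⟩ := sqrt_odd hvodd
    set u := v ^ k with hu
    have hvi : Commute v i := by rw [hv]; exact hii.symm.mul_left (Commute.refl i)
    have hui : Commute u i := hvi.zpow_left k
    have huodd : Odd (orderOf u) := odd_zpow hvodd k
    have hsv : s * v * s⁻¹ = v⁻¹ := by
      have : s * v * s⁻¹ = (s * (y * s) * s⁻¹) * (s * i * s⁻¹) := by rw [hv]; group
      rw [this, hsinv, hsi.eq, mul_inv_cancel_right, hv, mul_inv_rev (y * s) i, inv_eq hi2]
      exact (hii.inv_right.eq).symm
    have hsu : s * u * s⁻¹ = u⁻¹ := inv_zpow_of hsv k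
    -- `y = u (i s) u⁻¹`
    set y' := i * s with hy'
    have hyu : u * y' * u⁻¹ = y := by
      have h1 : y' * u⁻¹ = u * y' := by
        have h2 : s * u⁻¹ = u * s := by
          have := congrArg (fun t => t⁻¹) hsu
          have h3 : s * u⁻¹ * s⁻¹ = u := by
            have e : (s * u * s⁻¹)⁻¹ = s * u⁻¹ * s⁻¹ := by group
            rw [← e, hsu, inv_inv]
          calc s * u⁻¹ = (s * u⁻¹ * s⁻¹) * s := by group
            _ = u * s := by rw [h3]
        calc i * s * u⁻¹ = i * (s * u⁻¹) := by group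
          _ = i * (u * s) := by rw [h2]
          _ = (i * u) * s := by group
          _ = (u * i) * s := by rw [hui.eq]
          _ = _ := by rw [mul_assoc]
      calc u * y' * u⁻¹ = u * (y' * u⁻¹) := by group
        _ = (u * u) * y' := by rw [h1]; group
        _ = v * y' := by rw [hk]
        _ = y * s * (i * i) * s := by rw [hv, hy']; group
        _ = y * (s * s) := by rw [hi2]; group
        _ = y := by rw [hs2, mul_one]
    -- `y'` is a conjugate of `z` commuting with `s`
    have hy's : Commute y' s := hsi.symm.mul_left (Commute.refl s)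
    have hy'z : (u⁻¹ * g) * z * (u⁻¹ * g)⁻¹ = y' := by
      calc (u⁻¹ * g) * z * (u⁻¹ * g)⁻¹ = u⁻¹ * y * u := by rw [hy]; group
        _ = u⁻¹ * (u * y' * u⁻¹) * u := by rw [hyu]
        _ = _ := by group
    -- choose `a`
    obtain ⟨a, ha, haz⟩ := exists_k hz (u⁻¹ * g)
    rw [hy'z] at haz
    have has : Commute a s := by
      -- `s a s⁻¹` has the same property
      have h1 : s * a * s⁻¹ = a := by
        refine k_unique hz2 ⟨by rw [orderOf_conj]; exact ha.1, ?_⟩ ha ?_
        · calc z * (s * a * s⁻¹) * z⁻¹ = (z * s) * a * (z * s)⁻¹ := by group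
            _ = (s * z) * a * (s * z)⁻¹ := by rw [hszc]
            _ = s * (z * a * z⁻¹) * s⁻¹ := by group
            _ = (s * a * s⁻¹)⁻¹ := by rw [ha.2]; group
        · rw [haz]
          have h2 : s⁻¹ * z * s = z := by rw [mul_assoc, ← hszc]; group
          calc s * a * s⁻¹ * z * (s * a * s⁻¹)⁻¹ = s * a * (s⁻¹ * z * s) * a⁻¹ * s⁻¹ := by group
            _ = s * (a * z * a⁻¹) * s⁻¹ := by rw [h2]; group
            _ = s * y' * s⁻¹ := by rw [haz]
            _ = y' * s * s⁻¹ := by rw [hy's.eq]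
            _ = y' := by group
      show a * s = s * a
      calc a * s = (s * a * s⁻¹) * s := by rw [h1]
        _ = s * a := by group
    -- `b = a⁻¹ u a`
    set b := a⁻¹ * u * a with hb
    have hbodd : Odd (orderOf b) := by
      have := orderOf_conj a⁻¹ u
      rw [inv_inv] at this
      rw [hb, this]; exact huodd
    have hbs : s * b * s⁻¹ = b⁻¹ := by
      have h1 : s * a⁻¹ = a⁻¹ * s := (has.inv_left).eq.symm
      calc s * b * s⁻¹ = (s * a⁻¹) * u * (s * a⁻¹)⁻¹ := by rw [hb]; group
        _ = (a⁻¹ * s) * u * (a⁻¹ * s)⁻¹ := by rw [h1]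
        _ = a⁻¹ * (s * u * s⁻¹) * a := by group
        _ = b⁻¹ := by rw [hsu, hb]; group
    have haia : a⁻¹ * i * a = z * s := by
      have h1 : i = y' * s := by rw [hy', mul_assoc, hs2, mul_one]
      calc a⁻¹ * i * a = a⁻¹ * (a * z * a⁻¹) * (s * a) := by rw [h1, haz]; group
        _ = a⁻¹ * (a * z * a⁻¹) * (a * s) := by rw [has.eq]
        _ = z * s := by group
    have hbzs : Commute b (z * s) := by
      rw [← haia]
      show a⁻¹ * u * a * (a⁻¹ * i * a) = a⁻¹ * i * a * (a⁻¹ * u * a)
      calc a⁻¹ * u * a * (a⁻¹ * i * a) = a⁻¹ * (u * i) * a := by group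
        _ = a⁻¹ * (i * u) * a := by rw [hui.eq]
        _ = _ := by group
    have hbz : z * b * z⁻¹ = b⁻¹ := by
      have h1 : z = (z * s) * s := by rw [mul_assoc, hs2, mul_one]
      calc z * b * z⁻¹ = ((z * s) * s) * b * ((z * s) * s)⁻¹ := by rw [← h1]
        _ = (z * s) * (s * b * s⁻¹) * (z * s)⁻¹ := by group
        _ = (z * s) * b⁻¹ * (z * s)⁻¹ := by rw [hbs]
        _ = b⁻¹ * (z * s) * (z * s)⁻¹ := by rw [hbzs.inv_left.eq]
        _ = b⁻¹ := by group
    refine ⟨⟨⟨b, hbodd, hbz, by rw [hszc]; exact hbzs⟩, ⟨a, ha.1, ha.2, has⟩⟩, ?_⟩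
    show (QuotientGroup.mk (a * b) : G ⧸ C) = QuotientGroup.mk g
    apply QuotientGroup.eq.2
    rw [mem_centralizer_iff_conj]
    calc g * z * g⁻¹ = u * y' * u⁻¹ := by rw [hyu]
      _ = u * (a * z * a⁻¹) * u⁻¹ := by rw [haz]
      _ = (a * b) * z * (a * b)⁻¹ := by rw [hb]; group

end Cfsg.Agent.S1186
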