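import Cfsg.Statements.S1224
import Cfsg.Agent.Lib.SEmb

set_option autoImplicit false
open Cfsg
open Cfsg.Agent.Lib.SEmb Cfsg.Agent.Lib.StrongEmb

namespace Cfsg.Agent.S1224

/-- Let H be a strongly embedded subgroup of the finite group G and x ≠ y two cosets in G/H. Then the number of involutions i of G with i • x = y equals the number of involutions lying in H. -/
theorem result {G : Type*} [Group G] [Finite G] (H : Subgroup G) (hH : Cfsg.IsStronglyEmbedded H) (x y : G ⧸ H) (hxy : x ≠ y) : Nat.card {i : G // orderOf i = 2 ∧ i • x = y} = Nat.card {t : G // orderOf t = 2 ∧ t ∈ H} := by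
  have h := isStronglyEmbedded_iff.1 hH
  obtain ⟨a, rfl⟩ := QuotientGroup.mk_surjective x
  have e1 : Nat.card {t : G // orderOf t = 2 ∧ t ∈ H} = Nat.card (Sw H (a⁻¹ • y)) := by
    refine (card_sw h ?_).symm
    intro e
    apply hxy
    have := congrArg (fun z => a • z) e
    simp only [smul_inv_smul] at this
    rw [this]
    show (QuotientGroup.mk a : G ⧸ H) = QuotientGroup.mk (a * 1)
    rw [mul_one]
  rw [e1]
  have ha : a • (QuotientGroup.mk 1 : G ⧸ H) = QuotientGroup.mk a := by
    show (QuotientGroup.mk (a * 1) : G ⧸ H) = QuotientGroup.mk a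
    rw [mul_one]
  refine Nat.card_congr ⟨fun i => ⟨a⁻¹ * i * a, ?_, ?_⟩, fun i => ⟨a * i * a⁻¹, ?_, ?_⟩, ?_, ?_⟩
  · have := orderOf_conj' a⁻¹ (i : G)
    rw [inv_inv] at this
    rw [this, i.2.1]
  · rw [mul_smul, mul_smul, ha, i.2.2]
  · rw [orderOf_conj', i.2.1]
  · rw [← ha, mul_smul, mul_smul, inv_smul_smul, i.2.2, smul_inv_smul]
  · intro i; apply Subtype.ext; show a * (a⁻¹ * i * a) * a⁻¹ = i; group
  · intro i; apply Subtype.ext; show a⁻¹ * (a * i * a⁻¹) * a = i; group

end Cfsg.Agent.S1224
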