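import Cfsg.Statements.S1227
import Cfsg.Agent.Lib.SEmbElem

set_option autoImplicit false
open Cfsg
open Cfsg.Agent.Lib.SEmb Cfsg.Agent.Lib.SEmbElem Cfsg.Agent.Lib.Invol

namespace Cfsg.Agent.S1227

theorem D_eq {G : Type*} [Group G] [Finite G] {T : Sylow 2 G} {u : G} (hu : orderOf u = 2) :
    Subgroup.normalizer ((T : Subgroup G) : Set G) ⊓ (Subgroup.normalizer ((T : Subgroup G) : Set G)).map (MulAut.conj u).toMonoidHom =
      Dz T (u • o T) := by
  ext d
  constructor
  · rintro ⟨h1, e, he, rfl⟩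
    refine ⟨h1, ?_⟩
    show (u * e * u⁻¹) • (u • o T) = u • o T
    rw [mul_smul, inv_smul_smul, mul_smul, mem_Nz_iff.1 he]
  · rintro ⟨h1, h2⟩
    refine ⟨h1, u⁻¹ * d * u, ?_, ?_⟩
    · show u⁻¹ * d * u ∈ Nz T
      rw [mem_Nz_iff, mul_smul, mul_smul, show d • u • o T = u • o T from h2, inv_smul_smul]
    · show u * (u⁻¹ * d * u) * u⁻¹ = d
      group

/-- Let G be a finite group with a Sylow 2-subgroup T that is neither cyclic nor normal, such that the centralizer of every involution is an elementary abelian 2-group; put H = N_G(T), let u be an involution outside H and D = H ∩ uHu⁻¹. Then u inverts every element of D, |H| = |T|·(|T| − 1), and D is a complement to T in H. -/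
theorem result {G : Type*} [Group G] [Finite G] (T : Sylow 2 G) (hnc : ¬ IsCyclic (T : Subgroup G)) (hnn : ¬ (T : Subgroup G).Normal) (hC : ∀ t : G, orderOf t = 2 → IsMulCommutative (Subgroup.centralizer ({t} : Set G)) ∧ ∀ c ∈ Subgroup.centralizer ({t} : Set G), c ^ 2 = 1) (u : G) (hu : orderOf u = 2) (huH : u ∉ Subgroup.normalizer ((T : Subgroup G) : Set G)) : (∀ d ∈ Subgroup.normalizer ((T : Subgroup G) : Set G) ⊓ (Subgroup.normalizer ((T : Subgroup G) : Set G)).map (MulAut.conj u).toMonoidHom, u * d * u⁻¹ = d⁻¹) ∧ Nat.card (Subgroup.normalizer ((T : Subgroup G) : Set G)) = Nat.card T * (Nat.card T - 1) ∧ Subgroup.IsComplement' ((Subgroup.normalizer ((T : Subgroup G) : Set G) ⊓ (Subgroup.normalizer ((T : Subgroup G) : Set G)).map (MulAut.conj u).toMonoidHom).subgroupOf (Subgroup.normalizer ((T : Subgroup G) : Set G))) ((T : Subgroup G).subgroupOf (Subgroup.normalizer ((T : Subgroup G) : Set G))) := by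
  have h : Hyp T := ⟨hnc, hnn, hC⟩
  have hz : u • o T ≠ o T := fun h1 => huH (mem_Nz_iff.2 h1)
  have hc := h.card_Dz hz
  have h4 := h.four_le
  have hH := h.card_H
  rw [D_eq hu]
  refine ⟨fun d hd => h.inv_Dz hz hu rfl hd, hH, ?_⟩
  have hDle : Dz T (u • o T) ≤ Subgroup.normalizer ((T : Subgroup G) : Set G) := fun d hd => hd.1
  refine Subgroup.isComplement'_of_card_mul_and_disjoint ?_ ?_
  · rw [Nat.card_congr (Subgroup.subgroupOfEquivOfLe hDle).toEquiv,
      Nat.card_congr (Subgroup.subgroupOfEquivOfLe Subgroup.le_normalizer).toEquiv]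
    show _ = Nat.card (Nz T)
    rw [hH]
    have : Nat.card T - 1 = Nat.card (Dz T (u • o T)) := by omega
    rw [this, mul_comm]
  · rw [disjoint_iff, eq_bot_iff]
    rintro ⟨x, hx⟩ ⟨h1, h2⟩
    exact Subgroup.mem_bot.2 (Subtype.ext (h.T_inf hz h1 h2))

end Cfsg.Agent.S1227
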