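import Cfsg.Statements.S1228
import Cfsg.Agent.Lib.SEmbElem

set_option autoImplicit false
open Cfsg
open Cfsg.Agent.Lib.SEmb Cfsg.Agent.Lib.SEmbElem Cfsg.Agent.Lib.Invol

namespace Cfsg.Agent.S1228

theorem D_eq {G : Type*} [Group G] [Finite G] {T : Sylow 2 G} {u : G} (hu : orderOf u = 2) :
    Subgroup.normalizer ((T : Subgroup G) : Set G) ⊓ (Subgroup.normalizer ((T : Subgroup G) : Set G)).map (MulAut.conj u).toMonoidHom =
      Dz T (u • o T) := by
  ext d
  constructor
  · rintro ⟨h1, e, he, rfl⟩
    refine ⟨h1, ?_⟩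
    show (u * e * u⁻¹) • (u • o T) = u • o T
    rw [mul_smul, inv_smul_smul, mul_smul, mem_Nz_iff.1 he]
  · rintro ⟨h1, h2⟩
    refine ⟨h1, u⁻¹ * d * u, ?_, ?_⟩
    · show u⁻¹ * d * u ∈ Nz T
      rw [mem_Nz_iff, mul_smul, mul_smul, show d • u • o T = u • o T from h2, inv_smul_smul]
    · show u * (u⁻¹ * d * u) * u⁻¹ = d
      group

/-- Let G be a finite group with a Sylow 2-subgroup T that is neither cyclic nor normal, such that the centralizer of every involution is an elementary abelian 2-group; put H = N_G(T), let u be an involution outside H and D = H ∩ uHu⁻¹. Then N_G(D) = D ⊔ ⟨u⟩, and a coset gH is fixed by every element of D exactly when gH = H or gH = uH. -/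
theorem result {G : Type*} [Group G] [Finite G] (T : Sylow 2 G) (hnc : ¬ IsCyclic (T : Subgroup G)) (hnn : ¬ (T : Subgroup G).Normal) (hC : ∀ t : G, orderOf t = 2 → IsMulCommutative (Subgroup.centralizer ({t} : Set G)) ∧ ∀ c ∈ Subgroup.centralizer ({t} : Set G), c ^ 2 = 1) (u : G) (hu : orderOf u = 2) (huH : u ∉ Subgroup.normalizer ((T : Subgroup G) : Set G)) : Subgroup.normalizer ((Subgroup.normalizer ((T : Subgroup G) : Set G) ⊓ (Subgroup.normalizer ((T : Subgroup G) : Set G)).map (MulAut.conj u).toMonoidHom : Subgroup G) : Set G) = (Subgroup.normalizer ((T : Subgroup G) : Set G) ⊓ (Subgroup.normalizer ((T : Subgroup G) : Set G)).map (MulAut.conj u).toMonoidHom) ⊔ Subgroup.zpowers u ∧ ∀ g : G, ((∀ d ∈ Subgroup.normalizer ((T : Subgroup G) : Set G) ⊓ (Subgroup.normalizer ((T : Subgroup G) : Set G)).map (MulAut.conj u).toMonoidHom, d • (QuotientGroup.mk g : G ⧸ Subgroup.normalizer ((T : Subgroup G) : Set G)) = QuotientGroup.mk g) ↔ (QuotientGroup.mk g : G ⧸ Subgroup.normalizer ((T : Subgroup G) : Set G)) = QuotientGroup.mk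 1 ∨ (QuotientGroup.mk g : G ⧸ Subgroup.normalizer ((T : Subgroup G) : Set G)) = QuotientGroup.mk u) := by
  have h : Hyp T := ⟨hnc, hnn, hC⟩
  have hz : u • o T ≠ o T := fun h1 => huH (mem_Nz_iff.2 h1)
  have hc := h.card_Dz hz
  have h4 := h.four_le
  rw [D_eq hu]
  have huo : (QuotientGroup.mk u : G ⧸ Nz T) = u • o T := by
    show _ = (QuotientGroup.mk (u * 1) : G ⧸ Nz T)
    rw [mul_one]
  -- a nontrivial element
  obtain ⟨d, hd, hd1⟩ : ∃ d ∈ Dz T (u • o T), d ≠ 1 := by
    have : Nontrivial (Dz T (u • o T)) := (Finite.one_lt_card_iff_nontrivial).1 (by omega)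
    obtain ⟨d, hd⟩ := exists_ne (1 : Dz T (u • o T))
    exact ⟨d, d.2, fun e => hd (Subtype.ext e)⟩
  have hfix : ∀ z : G ⧸ Nz T, (∀ d ∈ Dz T (u • o T), d • z = z) ↔ z = o T ∨ z = u • o T := by
    intro z
    constructor
    · intro hz1
      by_contra hcon
      push Not at hcon
      exact hd1 (h.three hz hcon.1 (Ne.symm hcon.2) hd ⟨hd.1, hz1 d hd⟩)
    · rintro (rfl | rfl) d hd
      · exact mem_Nz_iff.1 hd.1
      · exact hd.2
  constructor
  · apply le_antisymm
    · intro g hg
      -- `g o` is fixed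
      have h1 : g • o T = o T ∨ g • o T = u • o T := by
        rw [← hfix]
        intro e he
        have h2 := (Subgroup.mem_normalizer_iff''.1 hg e).1 he
        have h3 := mem_Nz_iff.1 h2.1
        rw [mul_smul, mul_smul] at h3
        have := congrArg (fun x => g • x) h3
        simpa only [smul_inv_smul] using this
      have key : ∀ g ∈ Nz T, g ∈ Subgroup.normalizer (Dz T (u • o T) : Set G) → g ∈ Dz T (u • o T) := by
        intro g hgN hg
        obtain ⟨t, ht, e, he, rfl⟩ := h.decomp hz hgN
        have h2 : t * d * t⁻¹ ∈ Dz T (u • o T) := by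
          have h3 := (Subgroup.mem_normalizer_iff.1 hg (e⁻¹ * d * e)).1
            ((Dz T _).mul_mem ((Dz T _).mul_mem ((Dz T _).inv_mem he) hd) he)
          have e1 : t * e * (e⁻¹ * d * e) * (t * e)⁻¹ = t * d * t⁻¹ := by group
          rwa [e1] at h3
        have h3 : t * d * t⁻¹ * d⁻¹ ∈ (T : Subgroup G) := by
          have h4 := (Subgroup.mem_normalizer_iff.1 hd.1 t⁻¹).1 (T.inv_mem ht)
          have h5 := T.mul_mem ht h4
          have e : t * (d * t⁻¹ * d⁻¹) = t * d * t⁻¹ * d⁻¹ := by group
          rwa [e] at h5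
        have h4 := h.T_inf hz ((Dz T _).mul_mem h2 ((Dz T _).inv_mem hd)) h3
        have h5 : t = 1 := by
          by_contra ht1
          apply hd1
          apply h.T_inf hz hd
          apply h.mem_of_commute ht ht1
          have h6 := mul_inv_eq_one.1 h4
          show d * t = t * d
          calc d * t = (t * d * t⁻¹) * t := by rw [h6]
            _ = t * d := by group
        rw [h5, one_mul]; exact he
      have huN : u ∈ Subgroup.normalizer (Dz T (u • o T) : Set G) := by
        rw [Subgroup.mem_normalizer_iff]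
        intro e
        refine ⟨fun he => conj_Dz hu rfl he, fun he => ?_⟩
        have := conj_Dz hu rfl he
        have e1 : u * (u * e * u⁻¹) * u⁻¹ = e := by
          have hu2 := mul_self hu
          rw [inv_eq hu2]
          calc u * (u * e * u) * u = (u * u) * e * (u * u) := by group
            _ = e := by rw [hu2, one_mul, mul_one]
        rwa [e1] at this
      rcases h1 with h1 | h1
      · exact Subgroup.mem_sup_left (key g (mem_Nz_iff.2 h1) hg)
      · have h2 : u⁻¹ * g ∈ Nz T := by rw [mem_Nz_iff, mul_smul, h1, inv_smul_smul]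
        have h3 := key _ h2 (Subgroup.mul_mem _ (Subgroup.inv_mem _ huN) hg)
        have := Subgroup.mul_mem _ (Subgroup.mem_sup_right (S := Dz T (u • o T)) (Subgroup.mem_zpowers u)) (Subgroup.mem_sup_left h3)
        rwa [mul_inv_cancel_left] at this
    · refine sup_le Subgroup.le_normalizer ?_
      rw [Subgroup.zpowers_le, Subgroup.mem_normalizer_iff]
      intro e
      refine ⟨fun he => conj_Dz hu rfl he, fun he => ?_⟩
      have := conj_Dz hu rfl he
      have e1 : u * (u * e * u⁻¹) * u⁻¹ = e := by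
        have hu2 := mul_self hu
        rw [inv_eq hu2]
        calc u * (u * e * u) * u = (u * u) * e * (u * u) := by group
          _ = e := by rw [hu2, one_mul, mul_one]
      rwa [e1] at this
  · intro g
    rw [huo]
    exact hfix _

end Cfsg.Agent.S1228
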