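import Cfsg.Statements.S1229
import Cfsg.Agent.Lib.SEmbElem

set_option autoImplicit false
open Cfsg
open Cfsg.Agent.Lib.SEmb Cfsg.Agent.Lib.SEmbElem Cfsg.Agent.Lib.Invol

namespace Cfsg.Agent.S1229

/-- Let G be a finite group with a Sylow 2-subgroup T that is neither cyclic nor normal, such that the centralizer of every involution is an elementary abelian 2-group; put H = N_G(T) and X = G/H. Then G is triply transitive on X, an element fixing three distinct points of X is the identity, and T acts regularly on X minus the point H. -/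
theorem result {G : Type*} [Group G] [Finite G] (T : Sylow 2 G) (hnc : ¬ IsCyclic (T : Subgroup G)) (hnn : ¬ (T : Subgroup G).Normal) (hC : ∀ t : G, orderOf t = 2 → IsMulCommutative (Subgroup.centralizer ({t} : Set G)) ∧ ∀ c ∈ Subgroup.centralizer ({t} : Set G), c ^ 2 = 1) : (∀ x₁ x₂ x₃ y₁ y₂ y₃ : G ⧸ Subgroup.normalizer ((T : Subgroup G) : Set G), x₁ ≠ x₂ → x₁ ≠ x₃ → x₂ ≠ x₃ → y₁ ≠ y₂ → y₁ ≠ y₃ → y₂ ≠ y₃ → ∃ g : G, g • x₁ = y₁ ∧ g • x₂ = y₂ ∧ g • x₃ = y₃) ∧ (∀ g : G, ∀ x₁ x₂ x₃ : G ⧸ Subgroup.normalizer ((T : Subgroup G) : Set G), x₁ ≠ x₂ → x₁ ≠ x₃ → x₂ ≠ x₃ → g • x₁ = x₁ → g • x₂ = x₂ → g • x₃ = x₃ → g = 1) ∧ (∀ x y : G ⧸ Subgroup.normalizer ((T : Subgroup G) : Set G), x ≠ QuotientGroup.mk 1 → y ≠ QuotientGroup.mk 1 → ∃! t : G, t ∈ T ∧ t • x = y) := by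
  have h : Hyp T := ⟨hnc, hnn, hC⟩
  have hcomp : ∀ x : G ⧸ Nz T, ∃ g : G, g • x = o T := by
    intro x
    obtain ⟨a, rfl⟩ := QuotientGroup.mk_surjective x
    refine ⟨a⁻¹, ?_⟩
    show (QuotientGroup.mk (a⁻¹ * a) : G ⧸ Nz T) = _
    rw [inv_mul_cancel]
  refine ⟨?_, ?_, ?_⟩
  · intro x₁ x₂ x₃ y₁ y₂ y₃ h12 h13 h23 k12 k13 k23
    obtain ⟨a, ha⟩ := hcomp x₁
    obtain ⟨b, hb⟩ := hcomp y₁
    have hinj : ∀ (g : G) {x y : G ⧸ Nz T}, x ≠ y → g • x ≠ g • y := fun g x y hxy e => hxy (smul_left_cancel g e)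
    have a2 : a • x₂ ≠ o T := by rw [← ha]; exact hinj a (Ne.symm h12)
    have a3 : a • x₃ ≠ o T := by rw [← ha]; exact hinj a (Ne.symm h13)
    have b2 : b • y₂ ≠ o T := by rw [← hb]; exact hinj b (Ne.symm k12)
    have b3 : b • y₃ ≠ o T := by rw [← hb]; exact hinj b (Ne.symm k13)
    obtain ⟨t, ht, ht2⟩ := h.T_trans a2 b2
    have hto := mem_Nz_iff.1 (Subgroup.le_normalizer ht : t ∈ Nz T)
    have c3 : t • a • x₃ ≠ o T := by
      intro e
      exact hinj t a3 (e.trans hto.symm)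
    have c32 : t • a • x₃ ≠ b • y₂ := by
      intro e
      exact hinj t (hinj a (Ne.symm h23)) (e.trans ht2.symm)
    obtain ⟨d, hd, hd3⟩ := h.D_trans (z := b • y₂) b2 c3 c32 b3 (hinj b (Ne.symm k23))
    refine ⟨b⁻¹ * d * t * a, ?_, ?_, ?_⟩
    · rw [mul_smul, mul_smul, mul_smul, ha, hto, mem_Nz_iff.1 hd.1, ← hb, inv_smul_smul]
    · rw [mul_smul, mul_smul, mul_smul, ht2, show d • b • y₂ = b • y₂ from hd.2, inv_smul_smul]
    · rw [mul_smul, mul_smul, mul_smul, hd3, inv_smul_smul]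
  · intro g x₁ x₂ x₃ h12 h13 h23 e1 e2 e3
    obtain ⟨a, ha⟩ := hcomp x₁
    have hinj : ∀ (g : G) {x y : G ⧸ Nz T}, x ≠ y → g • x ≠ g • y := fun g x y hxy e => hxy (smul_left_cancel g e)
    have a2 : a • x₂ ≠ o T := by rw [← ha]; exact hinj a (Ne.symm h12)
    have a3 : a • x₃ ≠ o T := by rw [← ha]; exact hinj a (Ne.symm h13)
    have key : ∀ {x : G ⧸ Nz T}, g • x = x → (a * g * a⁻¹) • (a • x) = a • x := by
      intro x hx
      rw [mul_smul, inv_smul_smul, mul_smul, hx]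
    have hN : a * g * a⁻¹ ∈ Nz T := by rw [mem_Nz_iff, ← ha, key e1]
    have h1 := h.three a2 a3 (hinj a h23) ⟨hN, key e2⟩ ⟨hN, key e3⟩
    have h2 := congrArg (fun z => a⁻¹ * z * a) h1
    simpa [mul_assoc] using h2
  · intro x y hx hy
    obtain ⟨t, ht, htx⟩ := h.T_trans hx hy
    refine ⟨t, ⟨ht, htx⟩, ?_⟩
    rintro s ⟨hs, hsx⟩
    have h5 : (t⁻¹ * s) • x = x := by rw [mul_smul, hsx, ← htx, inv_smul_smul]
    have h6 := h.T_free hx (T.mul_mem (T.inv_mem ht) hs) h5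
    exact (inv_mul_eq_one.1 h6).symm

end Cfsg.Agent.S1229
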