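import Cfsg.Statements.S1241
import Mathlib

set_option autoImplicit false
open Cfsg
open Cfsg

namespace Cfsg.Agent.S1241

/-- Let G be a finite group, p a prime, H a subgroup of index prime to p, K a subgroup of H normal in H with H/K commutative, and g ∈ H ∖ K an element of p-power order such that for all integers m and all a ∈ G with a g^m a⁻¹ ∈ H one has a g^m a⁻¹ ∈ g^m K. Then g ∉ G'. -/
theorem result {G : Type*} [Group G] [Finite G] {p : ℕ} [Fact p.Prime] (H K : Subgroup G) (hHK : K ≤ H) (hKn : (K.subgroupOf H).Normal) (hab : ∀ x ∈ H, ∀ y ∈ H, x * y * x⁻¹ * y⁻¹ ∈ K) (hidx : Nat.Coprime p H.index) (g : G) (hgH : g ∈ H) (hgK : g ∉ K) (hgp : ∃ k : ℕ, orderOf g = p ^ k) (hctrl : ∀ (m : ℤ) (a : G), a * g ^ m * a⁻¹ ∈ H → (a * g ^ m * a⁻¹) * (g ^ m)⁻¹ ∈ K) : g ∉ commutator G := by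
  intro hg
  haveI := hKn
  letI : CommGroup (H ⧸ K.subgroupOf H) := { (inferInstance : Group (H ⧸ K.subgroupOf H)) with
    mul_comm := by
      intro a b
      obtain ⟨a, rfl⟩ := QuotientGroup.mk_surjective a
      obtain ⟨b, rfl⟩ := QuotientGroup.mk_surjective b
      show ((a * b : H) : H ⧸ K.subgroupOf H) = ((b * a : H) : H ⧸ K.subgroupOf H)
      refine QuotientGroup.eq.2 (Subgroup.mem_subgroupOf.2 ?_)
      have h1 := hab _ (H.inv_mem b.2) _ (H.inv_mem a.2)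
      have h2 : (((a * b)⁻¹ * (b * a) : H) : G) = (b : G)⁻¹ * (a : G)⁻¹ * ((b : G)⁻¹)⁻¹ * ((a : G)⁻¹)⁻¹ := by
        show ((a : G) * b)⁻¹ * ((b : G) * a) = _
        group
      rw [h2]; exact h1 }
  obtain ⟨ϕ, hϕ⟩ : ∃ ϕ : H →* H ⧸ K.subgroupOf H, ϕ = QuotientGroup.mk' (K.subgroupOf H) := ⟨_, rfl⟩
  have hϕ1 : ∀ h : H, (h : G) ∈ K → ϕ h = 1 := by
    intro h hh
    rw [hϕ]; exact (QuotientGroup.eq_one_iff h).2 (Subgroup.mem_subgroupOf.2 hh)
  obtain ⟨γ, hγ⟩ : ∃ γ, γ = ϕ ⟨g, hgH⟩ := ⟨_, rfl⟩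
  have h0 : MonoidHom.transfer ϕ g = 1 := by
    have h1 := Abelianization.commutator_subset_ker (MonoidHom.transfer ϕ)
    exact h1 hg
  have key : MonoidHom.transfer ϕ g = γ ^ H.index := by
    classical
    letI := H.fintypeQuotientOfFiniteIndex
    rw [MonoidHom.transfer_eq_prod_quotient_orbitRel_zpowers_quot, Subgroup.index_eq_sum_minimalPeriod H g, ← Finset.prod_pow_eq_pow_sum]
    refine Finset.prod_congr rfl fun q _ => ?_
    have h1 := hctrl (Function.minimalPeriod (g • ·) q.out : ℕ) (q.out.out)⁻¹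
    rw [zpow_natCast, inv_inv] at h1
    have h2 := QuotientGroup.out_conj_pow_minimalPeriod_mem H g q.out
    have h3 := h1 h2
    rw [hγ, ← map_pow, ← mul_inv_eq_one, ← map_inv, ← map_mul]
    exact hϕ1 _ h3
  rw [key] at h0
  obtain ⟨k, hk⟩ := hgp
  have h1 : γ ^ (p ^ k) = 1 := by
    rw [hγ, ← map_pow]
    have : (⟨g, hgH⟩ : H) ^ p ^ k = 1 := Subtype.ext (by
      show g ^ p ^ k = 1
      rw [← hk, pow_orderOf_eq_one])
    rw [this, map_one]
  have h2 : γ = 1 := by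
    have h3 : Nat.Coprime H.index (p ^ k) := Nat.Coprime.pow_right k hidx.symm
    exact orderOf_eq_one_iff.1 (Nat.eq_one_of_dvd_coprimes h3 (orderOf_dvd_of_pow_eq_one h0) (orderOf_dvd_of_pow_eq_one h1))
  apply hgK
  rw [hγ, hϕ] at h2
  exact Subgroup.mem_subgroupOf.1 ((QuotientGroup.eq_one_iff _).1 h2)

end Cfsg.Agent.S1241
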