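import Cfsg.Statements.S1243
import Cfsg.Agent.Lib.WCl

set_option autoImplicit false
open Cfsg
open Cfsg.Agent.Lib.WCl Cfsg.Agent.Lib.SylRel

namespace Cfsg.Agent.S1243

/-- Let T be a Sylow p-subgroup of the finite group G and W ≤ T a subgroup weakly closed in T. If d and g d g⁻¹ both centralize W, then g d g⁻¹ = h d h⁻¹ for some h ∈ N_G(W). -/
theorem result {G : Type*} [Group G] [Finite G] {p : ℕ} [Fact p.Prime] (T : Sylow p G) (W : Subgroup G) (hW : Cfsg.IsWeaklyClosed W (T : Subgroup G)) (d g : G) (hd : d ∈ Subgroup.centralizer (W : Set G)) (hgd : g * d * g⁻¹ ∈ Subgroup.centralizer (W : Set G)) : ∃ h ∈ Subgroup.normalizer (W : Set G), h * d * h⁻¹ = g * d * g⁻¹ := by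
  obtain ⟨c, hc, h1⟩ := wc_conj hW (C := Subgroup.centralizer ({g * d * g⁻¹} : Set G)) (g := g)
    (fun w hw => Subgroup.mem_centralizer_singleton_iff.2 (by
      exact Subgroup.mem_centralizer_iff.1 hgd w hw)) (by
      rintro _ ⟨w, hw, rfl⟩
      refine Subgroup.mem_centralizer_singleton_iff.2 ?_
      have := Subgroup.mem_centralizer_iff.1 hd w hw
      show g * w * g⁻¹ * (g * d * g⁻¹) = g * d * g⁻¹ * (g * w * g⁻¹)
      have e1 : g * w * g⁻¹ * (g * d * g⁻¹) = g * (w * d) * g⁻¹ := by group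
      have e2 : g * d * g⁻¹ * (g * w * g⁻¹) = g * (d * w) * g⁻¹ := by group
      rw [e1, e2, this])
  refine ⟨c * g, ?_, ?_⟩
  · have h2 : W.map (MulAut.conj (1:G)).toMonoidHom = W.map (MulAut.conj (c * g)).toMonoidHom := by
      rw [h1, map_conj_one]
    have := map_conj_eq_iff.1 h2
    rwa [inv_one, one_mul] at this
  · have := Subgroup.mem_centralizer_singleton_iff.1 hc
    have e : c * g * d * (c * g)⁻¹ = c * (g * d * g⁻¹) * c⁻¹ := by group
    rw [e, this, mul_assoc, mul_inv_cancel, mul_one]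

end Cfsg.Agent.S1243
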