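import Cfsg.Statements.S1246
import Mathlib
import Cfsg.Agent.Lib.H3Loc
import Cfsg.Agent.Lib.BlockMax
import Cfsg.Agent.Lib.MinAct

set_option autoImplicit false
open Cfsg

namespace Cfsg.Agent.S1246

open Subgroup Cfsg.Agent.Lib.Cores

theorem cst_iff {X : Type*} [Group X] [Finite X] {p : ℕ} [Fact p.Prime] :
    IsPGroup p (Cfsg.generalizedFittingSubgroup X) ↔ centralizer (Cfsg.pCore p X : Set X) ≤ Cfsg.pCore p X := by
  rw [show (centralizer (Cfsg.pCore p X : Set X) ≤ Cfsg.pCore p X) ↔ Cfsg.generalizedFittingSubgroup X = Cfsg.pCore p X from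
    Cfsg.Agent.Lib.H3Loc.gf_eq_pCore_iff.symm]
  constructor
  · intro h
    apply le_antisymm
    · exact le_pCore Cfsg.Agent.Lib.Components.generalizedFitting_normal h
    · exact (pCore_le_fitting p).trans le_sup_right
  · intro h
    rw [h]
    exact pCore_isPGroup p

theorem step {G : Type*} [Group G] [Finite G] {p : ℕ} [Fact p.Prime] {V W : Subgroup G} (hVW : V ≤ W)
    (hWV : W ≤ normalizer (V : Set G)) (hW : IsPGroup p W)
    (h : centralizer (Cfsg.pCore p (centralizer (V : Set G)) : Set (centralizer (V : Set G))) ≤ Cfsg.pCore p (centralizer (V : Set G))) :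
    centralizer (Cfsg.pCore p (centralizer (W : Set G)) : Set (centralizer (W : Set G))) ≤ Cfsg.pCore p (centralizer (W : Set G)) := by
  obtain ⟨X, hX⟩ : ∃ X : Subgroup G, X = centralizer (V : Set G) := ⟨_, rfl⟩
  obtain ⟨Y, hY⟩ : ∃ Y : Subgroup G, Y = centralizer (W : Set G) := ⟨_, rfl⟩
  rw [← hX] at h
  rw [← hY]
  have hYX : Y ≤ X := by rw [hX, hY]; exact centralizer_le hVW
  set R : Subgroup G := (Cfsg.pCore p X).map X.subtype with hR
  have hRp : IsPGroup p R := (pCore_isPGroup p).map _
  have hNX : normalizer (X : Set G) ≤ normalizer (R : Set G) := by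
    haveI : (Cfsg.pCore p X).Characteristic := pCore_characteristic p
    exact Cfsg.Agent.Lib.MinAct.normalizer_le_normalizer_char (Cfsg.pCore p X)
  have hXR : X ≤ normalizer (R : Set G) := le_normalizer.trans hNX
  have hWX : W ≤ normalizer (X : Set G) := by
    rw [hX]
    refine hWV.trans ?_
    have kk : ∀ n ∈ normalizer (V : Set G), ∀ x ∈ centralizer (V : Set G), n * x * n⁻¹ ∈ centralizer (V : Set G) := by
      intro n hn x hx
      rw [mem_centralizer_iff]
      intro v hv
      rw [mem_normalizer_iff] at hn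
      have h1 : n⁻¹ * v * n ∈ V := (hn _).2 (by rwa [show n * (n⁻¹ * v * n) * n⁻¹ = v by group])
      have h2 := mem_centralizer_iff.1 hx _ h1
      calc v * (n * x * n⁻¹) = n * ((n⁻¹ * v * n) * x) * n⁻¹ := by group
        _ = n * x * n⁻¹ * v := by rw [h2]; group
    intro n hn
    rw [mem_normalizer_iff]
    intro x
    constructor
    · exact kk n hn x
    · intro h1
      have := kk n⁻¹ (inv_mem hn) _ h1
      rwa [show n⁻¹ * (n * x * n⁻¹) * n⁻¹⁻¹ = x by group] at this
  have hWR : W ≤ normalizer (R : Set G) := hWX.trans hNX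
  set P : Subgroup G := W ⊔ R with hP
  have hPp : IsPGroup p P := hW.to_sup_of_normal_right' hRp hWR
  have hYW : Y ≤ normalizer (W : Set G) := by rw [hY]; exact centralizer_le_normalizer _
  have hYP : Y ≤ normalizer (P : Set G) :=
    (le_inf hYW (hYX.trans hXR)).trans (normalizer_inf_normalizer_le_normalizer_sup W R)
  have key : ∀ x : Y, x ∈ centralizer (Cfsg.pCore p Y : Set Y) → ¬ p ∣ orderOf x → x = 1 := by
    intro x hx hxo
    have hxo' : ¬ p ∣ orderOf (x : G) := by rwa [Subgroup.orderOf_coe]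
    have hxP := hYP x.2
    have hxW : (x : G) ∈ centralizer (W : Set G) := by rw [← hY]; exact x.2
    have hKn : (P.subgroupOf Y).Normal := normal_subgroupOf_of_le_normalizer hYP
    have hK : P.subgroupOf Y ≤ Cfsg.pCore p Y := le_pCore hKn hPp.comap_subtype
    have h1 : (x : G) ∈ centralizer (P : Set G) := by
      refine Cfsg.Agent.Lib.BlockMax.cent_of_cent_cent hPp (B := W) le_sup_left hxo' hxP hxW ?_
      intro c hcP hcW
      have hcY : c ∈ Y := by rw [hY]; exact hcW
      have h2 : (⟨c, hcY⟩ : Y) ∈ Cfsg.pCore p Y := hK hcP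
      have h3 := mem_centralizer_iff.1 hx _ h2
      exact (congrArg Subtype.val h3).symm
    have h4 : (⟨x, hYX x.2⟩ : X) ∈ centralizer (Cfsg.pCore p X : Set X) := by
      rw [mem_centralizer_iff]
      intro r hr
      apply Subtype.ext
      exact mem_centralizer_iff.1 h1 r (le_sup_right (a := W) (mem_map_of_mem X.subtype hr))
    obtain ⟨k, hk⟩ := pCore_isPGroup p ⟨_, h h4⟩
    have h5 : (x : G) ^ (p ^ k) = 1 := congrArg (fun z => ((z : Cfsg.pCore p X) : X).1) hk
    have h6 := orderOf_dvd_of_pow_eq_one h5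
    apply Subtype.ext
    apply orderOf_eq_one_iff.1
    exact Nat.eq_one_of_dvd_coprimes (Nat.Coprime.pow_left k ((Nat.Prime.coprime_iff_not_dvd Fact.out).2 hxo')) h6 dvd_rfl
  have hZn : (centralizer (Cfsg.pCore p Y : Set Y)).Normal := by
    haveI := pCore_normal (G := Y) p
    infer_instance
  refine le_pCore hZn ?_
  rintro ⟨z, hz⟩
  obtain ⟨a, m, hm, ham⟩ := Nat.exists_eq_pow_mul_and_not_dvd (orderOf_pos z).ne' p (Fact.out : p.Prime).ne_one
  refine ⟨a, Subtype.ext ?_⟩
  show z ^ (p ^ a) = 1
  apply key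
  · exact pow_mem hz _
  · have hpa : 0 < p ^ a := pow_pos (Fact.out : p.Prime).pos a
    rw [orderOf_pow' _ hpa.ne', ham, Nat.gcd_eq_right (dvd_mul_right _ _), Nat.mul_div_cancel_left _ hpa]
    exact hm

theorem chain {G : Type*} [Group G] [Finite G] {p : ℕ} [Fact p.Prime] {U : Subgroup G} (hU : IsPGroup p U) (n : ℕ) :
    ∀ V : Subgroup G, V ≤ U → Nat.card U - Nat.card V ≤ n →
    centralizer (Cfsg.pCore p (centralizer (V : Set G)) : Set (centralizer (V : Set G))) ≤ Cfsg.pCore p (centralizer (V : Set G)) →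
    centralizer (Cfsg.pCore p (centralizer (U : Set G)) : Set (centralizer (U : Set G))) ≤ Cfsg.pCore p (centralizer (U : Set G)) := by
  induction n with
  | zero =>
    intro V hVU hn h
    have : V = U := Subgroup.eq_of_le_of_card_ge hVU (by omega)
    rw [← this]; exact h
  | succ n ih =>
    intro V hVU hn h
    rcases hVU.eq_or_lt with rfl | hlt
    · exact h
    · have h1 : V < U ⊓ normalizer (V : Set G) := by
        haveI := hU.isNilpotent
        exact Cfsg.Agent.Lib.PNilp.lt_inf_normalizer hU.isNilpotent hlt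
      have h2 : Nat.card V < Nat.card (U ⊓ normalizer (V : Set G) : Subgroup G) := by
        apply lt_of_le_of_ne (Nat.le_of_dvd Nat.card_pos (Subgroup.card_dvd_of_le h1.le))
        intro he
        exact h1.ne (Subgroup.eq_of_le_of_card_ge h1.le he.ge)
      refine ih (U ⊓ normalizer (V : Set G)) inf_le_left (by omega) ?_
      exact step h1.le inf_le_right (hU.to_le inf_le_left) h

/-- Let V ≤ U be p-subgroups of the finite group G. If the generalized Fitting subgroup of C_G(V) is a p-group, then so is that of C_G(U). -/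
theorem result {G : Type*} [Group G] [Finite G] {p : ℕ} [Fact p.Prime] (U V : Subgroup G) (hVU : V ≤ U) (hU : IsPGroup p U) (hV : IsPGroup p ↥(Cfsg.generalizedFittingSubgroup ↥(Subgroup.centralizer (V : Set G)))) : IsPGroup p ↥(Cfsg.generalizedFittingSubgroup ↥(Subgroup.centralizer (U : Set G))) := by
  rw [cst_iff] at hV ⊢
  exact chain hU _ V hVU le_rfl hV

end Cfsg.Agent.S1246
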