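import Cfsg.Statements.S1258
import Mathlib
import Cfsg.Agent.Lib.Components

set_option autoImplicit false
open Cfsg

namespace Cfsg.Agent.S1258

open Subgroup Cfsg.Agent.Lib.Components

/-- If the central quotient of a finite group X is non-abelian simple, then X = X' Z(X) and the commutator subgroup X' is quasisimple. -/
theorem result {X : Type*} [Group X] [Finite X] (hs : IsSimpleGroup (X ⧸ Subgroup.center X)) (hna : ¬ IsMulCommutative (X ⧸ Subgroup.center X)) : commutator X ⊔ Subgroup.center X = ⊤ ∧ Cfsg.IsQuasisimple ↥(commutator X) := by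
  have h1 : commutator X ⊔ center X = ⊤ := by
    have h2 : ((commutator X).map (QuotientGroup.mk' (center X))).Normal :=
      Normal.map inferInstance _ (QuotientGroup.mk'_surjective _)
    rcases hs.eq_bot_or_eq_top_of_normal _ h2 with h3 | h3
    · exfalso
      apply hna
      rw [Subgroup.map_eq_bot_iff, QuotientGroup.ker_mk'] at h3
      refine ⟨⟨fun a b => ?_⟩⟩
      induction a using QuotientGroup.induction_on with | H a => ?_
      induction b using QuotientGroup.induction_on with | H b => ?_
      change ((a * b : X) : X ⧸ center X) = ((b * a : X) : X ⧸ center X)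
      rw [QuotientGroup.eq]
      have h4 : b⁻¹ * a⁻¹ * b * a ∈ commutator X := by
        have := Subgroup.commutator_mem_commutator (Subgroup.mem_top b⁻¹) (Subgroup.mem_top a⁻¹)
        rw [commutatorElement_def, ← commutator_def] at this
        simpa using this
      have h5 := h3 h4
      have h6 : (a * b)⁻¹ * (b * a) = b⁻¹ * a⁻¹ * b * a := by group
      rw [h6]; exact h5
    · have := congrArg (Subgroup.comap (QuotientGroup.mk' (center X))) h3
      rw [Subgroup.comap_map_eq, QuotientGroup.ker_mk', Subgroup.comap_top] at this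
      exact this
  refine ⟨h1, ?_⟩
  have hD : ⁅commutator X, commutator X⁆ = commutator X := by
    apply le_antisymm (commutator_le_left _ _)
    exact commutator_le_of_sup_center h1 le_rfl
  have hDb : commutator X ≠ ⊥ := by
    intro h2
    rw [h2, bot_sup_eq] at h1
    have h3 := hs.toNontrivial
    rw [QuotientGroup.nontrivial_iff] at h3
    exact h3 h1
  rw [quasisimple_iff]
  refine ⟨(nontrivial_iff_ne_bot _).2 hDb, (Subgroup.isPerfect_iff.2 hD).commutator_eq_top, fun N hN => ?_⟩
  -- N' normal in X
  have hN1 : (N.map (commutator X).subtype).Normal := by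
    rw [← normalizer_eq_top_iff, ← top_le_iff, ← h1]
    refine sup_le ?_ ?_
    · have := (normalizer_eq_top_iff.2 hN)
      intro d hd
      rw [mem_normalizer_iff]
      intro h
      constructor
      · rintro ⟨y, hy, rfl⟩
        exact ⟨⟨d, hd⟩ * y * ⟨d, hd⟩⁻¹, hN.conj_mem y hy _, rfl⟩
      · rintro ⟨y, hy, hyh⟩
        refine ⟨⟨d, hd⟩⁻¹ * y * ⟨d, hd⟩, ?_, ?_⟩
        · have := hN.conj_mem y hy ⟨d, hd⟩⁻¹
          rwa [inv_inv] at this
        · have e : (commutator X).subtype (⟨d, hd⟩⁻¹ * y * ⟨d, hd⟩) = d⁻¹ * (y : X) * d := rfl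
          rw [e]
          have e2 : (y : X) = d * h * d⁻¹ := hyh
          rw [e2]; group
    · exact center_le_centralizer _ |>.trans (centralizer_le_normalizer _)
  have h2 : ((N.map (commutator X).subtype).map (QuotientGroup.mk' (center X))).Normal :=
      Normal.map hN1 _ (QuotientGroup.mk'_surjective _)
  rcases hs.eq_bot_or_eq_top_of_normal _ h2 with h3 | h3
  · right
    rw [Subgroup.map_eq_bot_iff, QuotientGroup.ker_mk'] at h3
    intro x hx
    rw [mem_center_iff]
    intro y
    exact Subtype.ext (mem_center_iff.1 (h3 ⟨x, hx, rfl⟩) y)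
  · left
    have h4 := congrArg (Subgroup.comap (QuotientGroup.mk' (center X))) h3
    rw [Subgroup.comap_map_eq, QuotientGroup.ker_mk', Subgroup.comap_top] at h4
    have h5 : commutator X ≤ N.map (commutator X).subtype :=
      commutator_le_of_sup_center h4 (commutator_le_left _ _)
    rw [eq_top_iff]
    intro x _
    obtain ⟨y, hy, hyx⟩ := h5 x.2
    have : y = x := Subtype.ext hyx
    rw [← this]; exact hy

end Cfsg.Agent.S1258
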