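import Cfsg.Statements.S1263
import Mathlib
import Cfsg.Agent.Lib.Components

set_option autoImplicit false
open Cfsg

namespace Cfsg.Agent.S1263

open Subgroup Cfsg.Agent.Lib.Components

/-- For a finite group G, Z(E(G)) is the subgroup generated by the centres Z(L) of the components L of G (all viewed as subgroups of G). -/
theorem result {G : Type*} [Group G] [Finite G] : (Subgroup.center ↥(Cfsg.layer G)).map (Cfsg.layer G).subtype = ⨆ L : {K : Subgroup G // Cfsg.IsComponent K}, (Subgroup.center ↥(L : Subgroup G)).map (L : Subgroup G).subtype := by
  rw [map_center_eq]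
  apply le_antisymm
  · apply center_layer_le
    intro K hK
    rw [← map_center_eq]
    exact le_iSup (fun L : {K : Subgroup G // Cfsg.IsComponent K} => (Subgroup.center ↥(L : Subgroup G)).map (L : Subgroup G).subtype) ⟨K, hK⟩
  · refine iSup_le ?_
    rintro ⟨K, hK⟩
    rw [map_center_eq]
    refine le_inf (inf_le_left.trans (component_le_layer hK)) ?_
    rintro k ⟨hk, hk'⟩
    have : Cfsg.layer G ≤ centralizer ({k} : Set G) := by
      refine sSup_le fun L hL => ?_
      intro y hy
      rw [mem_centralizer_singleton_iff]
      by_cases hLK : L = K
      · subst hLK; exact mem_centralizer_iff.1 hk' y hy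
      · have h1 := component_commute_of_ne hK hL (Ne.symm hLK)
        rw [commutator_eq_bot_iff_le_centralizer] at h1
        exact mem_centralizer_iff.1 (h1 hk) y hy
    rw [mem_centralizer_iff]
    intro y hy
    exact mem_centralizer_singleton_iff.1 (this hy)

end Cfsg.Agent.S1263
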