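import Cfsg.Statements.S1264
import Mathlib
import Cfsg.Agent.Lib.Components

set_option autoImplicit false
open Cfsg

namespace Cfsg.Agent.S1264

open Subgroup Cfsg.Agent.Lib.Components Cfsg.Agent.Lib.Cores

/-- Let G be finite, C = C_G(F(G)) the centralizer of the Fitting subgroup, and N a solvable subgroup of C normalized by C. Then N ≤ Z(F(G)). -/
theorem result {G : Type*} [Group G] [Finite G] (N : Subgroup G) (hN : N ≤ Subgroup.centralizer (Cfsg.fittingSubgroup G : Set G)) (hnorm : Subgroup.centralizer (Cfsg.fittingSubgroup G : Set G) ≤ Subgroup.normalizer (N : Set G)) (hsolv : Group.IsSolvable ↥N) : N ≤ (Subgroup.center ↥(Cfsg.fittingSubgroup G)).map (Cfsg.fittingSubgroup G).subtype := by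
  rw [map_center_eq]
  set F := Cfsg.fittingSubgroup G with hF
  set C := centralizer (F : Set G) with hC
  have hFn : F.Normal := fitting_normal
  have hCn : C.Normal := inferInstance
  -- terms of the derived series of N
  by_contra hcon
  have hcon' : ¬ N ≤ F := fun h => hcon (le_inf h hN)
  let D : ℕ → Subgroup G := fun n => (derivedSeries N n).map N.subtype
  have hD0 : D 0 = N := by
    simp only [D, derivedSeries_zero]
    rw [← MonoidHom.range_eq_map, range_subtype]
  obtain ⟨m, hm⟩ := (Group.isSolvable_def N).1 hsolv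
  have hDm : D m ≤ F := by simp only [D, hm, Subgroup.map_bot]; exact bot_le
  classical
  have hex : ∃ k, D k ≤ F := ⟨m, hDm⟩
  obtain ⟨k, hk, hkmin⟩ : ∃ k, D k ≤ F ∧ ∀ j < k, ¬ D j ≤ F :=
    ⟨Nat.find hex, Nat.find_spec hex, fun j hj => Nat.find_min hex hj⟩
  have hk0 : k ≠ 0 := by
    rintro rfl; rw [hD0] at hk; exact hcon' hk
  obtain ⟨j, rfl⟩ := Nat.exists_eq_succ_of_ne_zero hk0
  have hj := hkmin j (Nat.lt_succ_self j)
  have hDs : ⁅D j, D j⁆ = D (j + 1) := by
    simp only [D, derivedSeries_succ, map_commutator]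
  have hDN : D j ≤ N := map_subtype_le _
  -- D j is subnormal
  have hNsub : N.IsSubnormal := by
    refine IsSubnormal.step N C hN hCn.isSubnormal ?_
    exact normal_subgroupOf_of_le_normalizer hnorm
  have hDsub : (D j).IsSubnormal := isSubnormal_of_characteristic hNsub inferInstance
  -- D j nilpotent
  have hnil : Group.IsNilpotent (D j) := by
    rw [Subgroup.nilpotent_iff_lowerCentralSeries]
    refine ⟨2, ?_⟩
    rw [Subgroup.lowerCentralSeries_succ, commutator_eq_bot_iff_le_centralizer]
    intro x hx
    rw [mem_centralizer_iff]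
    intro y _
    have hx' : (x : G) ∈ F := by
      apply hk
      rw [← hDs]
      rw [Subgroup.top_lowerCentralSeries_one] at hx
      have : (x : G) ∈ (commutator (D j)).map (D j).subtype := ⟨x, hx, rfl⟩
      rwa [Subgroup.map_subtype_commutator] at this
    have hy : (y : G) ∈ C := hN (hDN y.2)
    exact Subtype.ext (mem_centralizer_iff.1 hy x hx').symm
  exact hj (subnormal_nilpotent_le_fitting hDsub hnil)

end Cfsg.Agent.S1264
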