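import Cfsg.Statements.S1273
import Mathlib
import Cfsg.Agent.Lib.PComp

set_option autoImplicit false
open Cfsg

namespace Cfsg.Agent.S1273

open Subgroup Cfsg.Agent.Lib.Components Cfsg.Agent.Lib.PComp

/-- Let K be a p-component of the finite group X and N a normal subgroup of K whose index in K is prime to p. Then N = K. -/
theorem result {X : Type*} [Group X] [Finite X] (p : ℕ) [Fact p.Prime] (K : Subgroup X) (hK : Cfsg.IsPComponent p K) (N : Subgroup ↥K) [N.Normal] (hidx : (N.index).Coprime p) : N = ⊤ := by
  have h1 : opp p (⊤ : Subgroup K) ≤ N := by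
    refine opp_le_of_relIndex_coprime ((inferInstance : N.Normal).isSubnormal.subgroupOf) ?_
    rwa [relIndex_top_right]
  have h2 : (opp p (⊤ : Subgroup K)).map K.subtype = K := by
    rw [opp_map_subtype, pComponent_opp p hK]
  rw [eq_top_iff]
  refine le_trans ?_ h1
  intro x _
  have h3 : (x : X) ∈ (opp p (⊤ : Subgroup K)).map K.subtype := by rw [h2]; exact x.2
  obtain ⟨y, hy, hyx⟩ := h3
  have : y = x := Subtype.ext hyx
  rw [← this]; exact hy

end Cfsg.Agent.S1273
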