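import Cfsg.Statements.S1275
import Mathlib
import Cfsg.Agent.Lib.PComp

set_option autoImplicit false
open Cfsg

namespace Cfsg.Agent.S1275

open Subgroup Cfsg.Agent.Lib.Components Cfsg.Agent.Lib.PComp

theorem quasisimple_mod_core {X : Type*} [Group X] [Finite X] (p : ℕ) [Fact p.Prime] (K : Subgroup X)
    (hK : Cfsg.IsPComponent p K) : Cfsg.IsQuasisimple (↥K ⧸ Cfsg.pPrimeCore p ↥K) := by
  -- the map K → Kbar has kernel O(X) ∩ K = O(K)
  let f : K →* K.map (QuotientGroup.mk' (Cfsg.pPrimeCore p X)) :=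
    (QuotientGroup.mk' (Cfsg.pPrimeCore p X)).subgroupMap K
  have hf : Function.Surjective f := MonoidHom.subgroupMap_surjective _ _
  have hker : f.ker = Cfsg.pPrimeCore p K := by
    apply Subgroup.map_injective K.subtype_injective
    rw [pPrimeCore_subnormal_map p hK.1]
    ext x
    constructor
    · rintro ⟨y, hy, rfl⟩
      refine ⟨?_, y.2⟩
      have h1 : f y = 1 := hy
      have h2 : QuotientGroup.mk' (Cfsg.pPrimeCore p X) (y : X) = 1 := congrArg Subtype.val h1
      exact (QuotientGroup.eq_one_iff _).1 h2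
    · rintro ⟨hx1, hx2⟩
      refine ⟨⟨x, hx2⟩, ?_, rfl⟩
      change f ⟨x, hx2⟩ = 1
      exact Subtype.ext ((QuotientGroup.eq_one_iff _).2 hx1)
  have e : K ⧸ f.ker ≃* K.map (QuotientGroup.mk' (Cfsg.pPrimeCore p X)) :=
    QuotientGroup.quotientKerEquivOfSurjective f hf
  have e2 : K ⧸ f.ker ≃* K ⧸ Cfsg.pPrimeCore p K := QuotientGroup.quotientMulEquivOfEq hker
  exact quasisimple_of_equiv (e.symm.trans e2) hK.2.1.2

/-- For a 2-component K of a finite group X, the quotient of K by its core O(K) is quasisimple. -/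
theorem result {X : Type*} [Group X] [Finite X] (K : Subgroup X) (hK : Cfsg.IsPComponent 2 K) : Cfsg.IsQuasisimple (↥K ⧸ Cfsg.oddCore ↥K) := by
  exact quasisimple_mod_core 2 K hK

end Cfsg.Agent.S1275
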