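import Cfsg.Statements.S1276
import Mathlib
import Cfsg.Agent.S1275

set_option autoImplicit false
open Cfsg

namespace Cfsg.Agent.S1276

open Subgroup Cfsg.Agent.Lib.Components Cfsg.Agent.Lib.PComp
open scoped commutatorElement

/-- Let K be a 2-component of the finite group X. Then K is quasisimple if and only if ⁅K, O(K)⁆ = 1. -/
theorem result {X : Type*} [Group X] [Finite X] (K : Subgroup X) (hK : Cfsg.IsPComponent 2 K) : Cfsg.IsQuasisimple ↥K ↔ ⁅K, ((Cfsg.oddCore ↥K).map K.subtype)⁆ = ⊥ := by
  have hQ := Cfsg.Agent.S1275.result K hK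
  have hn : (Cfsg.oddCore K).Normal := Cfsg.pPrimeCore_normal 2 K
  constructor
  · intro h
    have h1 : Cfsg.oddCore K ≤ center K := by
      rcases quasisimple_normal h _ hn with h1 | h1
      · exfalso
        have := quasisimple_nontrivial hQ
        rw [QuotientGroup.nontrivial_iff] at this
        exact this h1
      · exact h1
    rw [commutator_eq_bot_iff_le_centralizer]
    intro x hx
    rw [mem_centralizer_iff]
    rintro _ ⟨y, hy, rfl⟩
    have h2 := mem_center_iff.1 (h1 hy) ⟨x, hx⟩
    exact (congrArg Subtype.val h2).symm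
  · intro h
    have hcen : Cfsg.oddCore K ≤ center K := by
      intro y hy
      rw [mem_center_iff]
      intro x
      rw [commutator_eq_bot_iff_le_centralizer] at h
      exact Subtype.ext (mem_centralizer_iff.1 (h x.2) (y : X) ⟨y, hy, rfl⟩).symm
    have hperf : commutator K = ⊤ := (Subgroup.isPerfect_iff.2 (pComponent_commutator 2 hK)).commutator_eq_top
    have hKb : K ≠ ⊥ := by
      rintro rfl
      have := component_ne_bot hK.2.1
      rw [Subgroup.map_bot] at this
      exact this rfl
    rw [quasisimple_iff]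
    refine ⟨(nontrivial_iff_ne_bot _).2 hKb, hperf, fun N hN => ?_⟩
    have h2 : (N.map (QuotientGroup.mk' (Cfsg.oddCore K))).Normal :=
      Normal.map hN _ (QuotientGroup.mk'_surjective _)
    rcases quasisimple_normal hQ _ h2 with h3 | h3
    · left
      have h4 := congrArg (Subgroup.comap (QuotientGroup.mk' (Cfsg.oddCore K))) h3
      rw [Subgroup.comap_map_eq, QuotientGroup.ker_mk', Subgroup.comap_top] at h4
      have h5 : N ⊔ center K = ⊤ := by
        rw [eq_top_iff, ← h4]
        exact sup_le_sup le_rfl hcen
      have h6 : commutator K ≤ N := commutator_le_of_sup_center h5 (commutator_le_left _ _)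
      rw [hperf] at h6
      exact top_le_iff.1 h6
    · right
      -- [N, K] ≤ O(K) ≤ Z(K)
      have h4 : ⁅N, (⊤ : Subgroup K)⁆ ≤ Cfsg.oddCore K := by
        rw [commutator_le]
        intro a ha b _
        rw [← QuotientGroup.eq_one_iff]
        have h5 := mem_center_iff.1 (h3 ⟨a, ha, rfl⟩) (b : K ⧸ Cfsg.oddCore K)
        have h6 : ⁅(a : K ⧸ Cfsg.oddCore K), (b : K ⧸ Cfsg.oddCore K)⁆ = 1 := by
          rw [commutatorElement_eq_one_iff_mul_comm]
          exact h5.symm
        exact h6
      have h5 : ⁅⁅N, (⊤ : Subgroup K)⁆, (⊤ : Subgroup K)⁆ = ⊥ := by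
        rw [commutator_top_right_eq_bot_iff_le_center]
        exact h4.trans hcen
      have h6 : ⁅(⊤ : Subgroup K), N⁆ = ⊥ := by
        apply commutator_eq_bot_of_perfect
        · rw [← _root_.commutator_def, hperf]
        · rw [commutator_comm (⊤ : Subgroup K) N]; exact h5
      rwa [commutator_top_left_eq_bot_iff_le_center] at h6

end Cfsg.Agent.S1276
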