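import Cfsg.Statements.S1277
import Mathlib
import Cfsg.Agent.Lib.PComp

set_option autoImplicit false
open Cfsg

namespace Cfsg.Agent.S1277

open Subgroup Cfsg.Agent.Lib.Components Cfsg.Agent.Lib.PComp

/-- the image of a component is trivial or a component -/
theorem map_component {X : Type*} [Group X] {K : Subgroup X} (hK : Cfsg.IsComponent K) (N : Subgroup X)
    [N.Normal] : K.map (QuotientGroup.mk' N) = ⊥ ∨ Cfsg.IsComponent (K.map (QuotientGroup.mk' N)) := by
  by_cases h : K.map (QuotientGroup.mk' N) = ⊥
  · exact Or.inl h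
  · right
    have h1 : Nontrivial (K.map (QuotientGroup.mk' N)) := (nontrivial_iff_ne_bot _).2 h
    exact ⟨hK.1.map (QuotientGroup.mk'_surjective N),
      quasisimple_of_surjective hK.2 ((QuotientGroup.mk' N).subgroupMap K) (MonoidHom.subgroupMap_surjective _ _)⟩

/-- For a finite group X with core O(X): the image of E(X) in X / O(X) is all of E(X / O(X)) if and only if every 2-component of X is a component, i.e. L_{2'}(X) ≤ E(X). -/
theorem result {X : Type*} [Group X] [Finite X] : (Cfsg.layer X).map (QuotientGroup.mk' (Cfsg.oddCore X)) = Cfsg.layer (X ⧸ Cfsg.oddCore X) ↔ Cfsg.pLayer 2 X ≤ Cfsg.layer X := by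
  haveI : Fact (Nat.Prime 2) := ⟨Nat.prime_two⟩
  constructor
  · intro h
    refine sSup_le fun K hK => ?_
    -- Kbar is the image of a component
    have h1 : ∃ L : Subgroup X, Cfsg.IsComponent L ∧
        L.map (QuotientGroup.mk' (Cfsg.pPrimeCore 2 X)) = K.map (QuotientGroup.mk' (Cfsg.pPrimeCore 2 X)) := by
      by_contra hcon
      push Not at hcon
      have h2 : Cfsg.layer (X ⧸ Cfsg.oddCore X) ≤ centralizer (K.map (QuotientGroup.mk' (Cfsg.pPrimeCore 2 X)) : Set (X ⧸ Cfsg.oddCore X)) := by
        rw [← h, Subgroup.map_le_iff_le_comap]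
        refine sSup_le fun L hL => ?_
        rw [← Subgroup.map_le_iff_le_comap]
        rcases map_component hL (Cfsg.oddCore X) with h3 | h3
        · rw [h3]; exact bot_le
        · rw [← commutator_eq_bot_iff_le_centralizer]
          exact component_commute_of_ne h3 hK.2.1 (hcon L hL)
      have h3 := (component_le_layer hK.2.1).trans h2
      rw [← commutator_eq_bot_iff_le_centralizer, component_commutator hK.2.1] at h3
      exact component_ne_bot hK.2.1 h3
    obtain ⟨L, hL, hLK⟩ := h1
    have h2 := opp_comap_le_of_map_eq 2 hL.1 hLK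
    rw [← pComponent_eq_opp 2 hK] at h2
    exact h2.trans (component_le_layer hL)
  · intro h
    apply le_antisymm
    · rw [Subgroup.map_le_iff_le_comap]
      refine sSup_le fun L hL => ?_
      rw [← Subgroup.map_le_iff_le_comap]
      rcases map_component hL (Cfsg.oddCore X) with h3 | h3
      · rw [h3]; exact bot_le
      · exact component_le_layer h3
    · rw [← map_pLayer 2]
      exact Subgroup.map_mono h

end Cfsg.Agent.S1277
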