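import Cfsg.Statements.S1278
import Mathlib
import Cfsg.Agent.Lib.PComp

set_option autoImplicit false
open Cfsg

namespace Cfsg.Agent.S1278

open Subgroup Cfsg.Agent.Lib.Components Cfsg.Agent.Lib.PComp

/-- Let K ≠ L be 2-components of the finite group X. Then ⁅K, L⁆ ≤ O(K) ⊓ O(L), and if K is quasisimple then ⁅K, L⁆ = 1. -/
theorem result {X : Type*} [Group X] [Finite X] (K L : Subgroup X) (hK : Cfsg.IsPComponent 2 K) (hL : Cfsg.IsPComponent 2 L) (hne : K ≠ L) : ⁅K, L⁆ ≤ ((Cfsg.oddCore ↥K).map K.subtype) ⊓ ((Cfsg.oddCore ↥L).map L.subtype) ∧ (Cfsg.IsQuasisimple ↥K → ⁅K, L⁆ = ⊥) := by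
  haveI : Fact (Nat.Prime 2) := ⟨Nat.prime_two⟩
  have hne' : K.map (QuotientGroup.mk' (Cfsg.pPrimeCore 2 X)) ≠ L.map (QuotientGroup.mk' (Cfsg.pPrimeCore 2 X)) :=
    fun h => hne (pComponent_eq_of_map_eq 2 hK hL h)
  have hcomm := component_commute_of_ne hK.2.1 hL.2.1 hne'
  have h1 : ⁅K, L⁆ ≤ Cfsg.pPrimeCore 2 X := by
    rw [← map_commutator, Subgroup.map_eq_bot_iff, QuotientGroup.ker_mk'] at hcomm
    exact hcomm
  have hKL : L ≤ normalizer (K : Set X) := (pComponent_le_pLayer 2 hL).trans (pLayer_le_normalizer 2 hK)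
  have hLK : K ≤ normalizer (L : Set X) := (pComponent_le_pLayer 2 hK).trans (pLayer_le_normalizer 2 hL)
  have h2 : ⁅K, L⁆ ≤ K := by rwa [← le_normalizer_iff_commutator_le_left]
  have h3 : ⁅K, L⁆ ≤ L := by rwa [← le_normalizer_iff_commutator_le_right]
  refine ⟨?_, ?_⟩
  · rw [pPrimeCore_subnormal_map 2 hK.1, pPrimeCore_subnormal_map 2 hL.1]
    exact le_inf (le_inf h1 h2) (le_inf h1 h3)
  · intro hq
    have hKc : Cfsg.IsComponent K := ⟨hK.1, hq⟩
    rcases component_le_or_commute hKc hL.1 with h4 | h4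
    · exfalso
      exact hne' (component_eq_of_le hK.2.1 hL.2.1 (Subgroup.map_mono h4))
    · exact h4

end Cfsg.Agent.S1278
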