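import Cfsg.Statements.S1289
import Mathlib
import Cfsg.Agent.Lib.PComp

set_option autoImplicit false
open Cfsg

namespace Cfsg.Agent.S1289

open Subgroup Cfsg.Agent.Lib.Components Cfsg.Agent.Lib.PComp

/-- A p-component K of the finite group X is subnormal, perfect, of order divisible by p, and minimal among the subnormal perfect subgroups of X of order divisible by p. -/
theorem result {X : Type*} [Group X] [Finite X] (p : ℕ) [Fact p.Prime] (K : Subgroup X) (hK : Cfsg.IsPComponent p K) : K.IsSubnormal ∧ ⁅K, K⁆ = K ∧ p ∣ Nat.card ↥K ∧ ∀ H : Subgroup X, H ≤ K → H.IsSubnormal → ⁅H, H⁆ = H → p ∣ Nat.card ↥H → H = K := by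
  refine ⟨hK.1, pComponent_commutator p hK, ?_, ?_⟩
  · have h1 := dvd_card_component_bar p hK.2.1
    exact h1.trans (card_map_dvd _ _)
  · intro H hHK hHs hHp hHd
    have h1 : (H.map (QuotientGroup.mk' (Cfsg.pPrimeCore p X))) ≤ K.map (QuotientGroup.mk' (Cfsg.pPrimeCore p X)) :=
      Subgroup.map_mono hHK
    have h2 : (H.map (QuotientGroup.mk' (Cfsg.pPrimeCore p X))).IsSubnormal :=
      hHs.map (QuotientGroup.mk'_surjective _)
    rcases quasisimple_subnormal hK.2.1.2 ((H.map (QuotientGroup.mk' (Cfsg.pPrimeCore p X))).subgroupOf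
      (K.map (QuotientGroup.mk' (Cfsg.pPrimeCore p X)))) h2.subgroupOf with h3 | h3
    · rw [subgroupOf_eq_top] at h3
      exact hK.2.2 H hHs hHK (le_antisymm h1 h3)
    · exfalso
      have h4 : ⁅H.map (QuotientGroup.mk' (Cfsg.pPrimeCore p X)), H.map (QuotientGroup.mk' (Cfsg.pPrimeCore p X))⁆ = ⊥ := by
        rw [commutator_eq_bot_iff_le_centralizer]
        intro x hx
        rw [mem_centralizer_iff]
        intro y hy
        have h5 := mem_center_iff.1 (h3 (show (⟨x, h1 hx⟩ : ↥(K.map (QuotientGroup.mk' (Cfsg.pPrimeCore p X)))) ∈ _ from hx)) ⟨y, h1 hy⟩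
        exact congrArg Subtype.val h5
      rw [← map_commutator, hHp, Subgroup.map_eq_bot_iff, QuotientGroup.ker_mk'] at h4
      have h6 := Nat.Coprime.coprime_dvd_left (card_dvd_of_le h4) (Cfsg.Agent.Lib.Cores.pPrimeCore_coprime (G := X) p)
      have h7 : p ∣ 1 := by
        rw [← h6]; exact Nat.dvd_gcd hHd dvd_rfl
      exact (Fact.out : p.Prime).one_lt.ne' (Nat.dvd_one.1 h7)

end Cfsg.Agent.S1289
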