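import Cfsg.Statements.S1300
import Mathlib
import Cfsg.Agent.Lib.H3LocG

set_option autoImplicit false
open Cfsg

namespace Cfsg.Agent.S1300

/-- For a finite group G, balance in the sense of commuting involutions is the same as 1-balance for the prime 2. -/
theorem result {G : Type*} [Group G] [Finite G] : Cfsg.IsBalanced G ↔ Cfsg.IsKBalanced 2 1 G := by
  exact Cfsg.Agent.Lib.H3LocG.s1300

end Cfsg.Agent.S1300
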