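import Cfsg.Statements.S1304
import Mathlib

set_option autoImplicit false
open Cfsg

namespace Cfsg.Agent.S1304

open scoped commutatorElement

/-- Let X be a perfect group and α an automorphism of X with α(x) x⁻¹ central for every x. Then α is the identity. -/
theorem result {X : Type*} [Group X] (hperf : commutator X = ⊤) (α : X ≃* X) (h : ∀ x : X, α x * x⁻¹ ∈ Subgroup.center X) : ∀ x : X, α x = x := by
  have hle : commutator X ≤ MonoidHom.eqLocus α.toMonoidHom (MonoidHom.id X) := by
    rw [commutator_def, Subgroup.commutator_le]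
    intro a _ b _
    change α ⁅a, b⁆ = ⁅a, b⁆
    obtain ⟨z, hz, hza⟩ : ∃ z, z ∈ Subgroup.center X ∧ α a = z * a := ⟨_, h a, by group⟩
    obtain ⟨w, hw, hwb⟩ : ∃ z, z ∈ Subgroup.center X ∧ α b = z * b := ⟨_, h b, by group⟩
    rw [Subgroup.mem_center_iff] at hz hw
    rw [map_commutatorElement, hza, hwb, commutatorElement_def, commutatorElement_def]
    calc z * a * (w * b) * (z * a)⁻¹ * (w * b)⁻¹
        = z * a * (w * (b * a⁻¹ * z⁻¹ * b⁻¹)) * w⁻¹ := by group
      _ = (z * (a * b * a⁻¹)) * z⁻¹ * b⁻¹ := by rw [← hw]; group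
      _ = a * b * a⁻¹ * b⁻¹ := by rw [← hz]; group
  intro x
  exact hle (by rw [hperf]; trivial : x ∈ commutator X)

end Cfsg.Agent.S1304
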