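import Cfsg.Statements.S1316
import Mathlib
import Cfsg.Agent.Lib.Components

set_option autoImplicit false
open Cfsg

namespace Cfsg.Agent.S1316

open Subgroup Cfsg.Agent.Lib.Components Cfsg.Agent.Lib.Cores

/-- For a finite group X, E(X) equals the intersection of the derived series of F*(X) (its last term). -/
theorem result {X : Type*} [Group X] [Finite X] : (⨅ n : ℕ, (derivedSeries ↥(Cfsg.generalizedFittingSubgroup X) n).map (Cfsg.generalizedFittingSubgroup X).subtype) = Cfsg.layer X := by
  set F := Cfsg.generalizedFittingSubgroup X with hF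
  have hE : Cfsg.layer X ≤ F := layer_le_generalizedFitting
  have hEn : ((Cfsg.layer X).subgroupOf F).Normal := inferInstance
  have hperf : ⁅(Cfsg.layer X).subgroupOf F, (Cfsg.layer X).subgroupOf F⁆ = (Cfsg.layer X).subgroupOf F := by
    apply Subgroup.map_injective F.subtype_injective
    rw [map_commutator, map_subgroupOf_eq_of_le hE, layer_commutator]
  apply le_antisymm
  · -- solvable quotient
    have hs : Group.IsSolvable (F ⧸ (Cfsg.layer X).subgroupOf F) := by
      have hnil := fitting_nilpotent (G := X)
      have hFF : Cfsg.fittingSubgroup X ≤ F := fitting_le_generalizedFitting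
      let f : Cfsg.fittingSubgroup X →* F ⧸ (Cfsg.layer X).subgroupOf F :=
        (QuotientGroup.mk' _).comp (Subgroup.inclusion hFF)
      have hf : Function.Surjective f := by
        intro y
        induction y using QuotientGroup.induction_on with | H y => ?_
        have hy : (y : X) ∈ Cfsg.layer X ⊔ Cfsg.fittingSubgroup X := y.2
        obtain ⟨e, he, z, hz, hez⟩ := (mem_sup_of_normal_left).1 hy
        refine ⟨⟨z, hz⟩, ?_⟩
        change ((⟨z, hFF hz⟩ : F) : F ⧸ (Cfsg.layer X).subgroupOf F) = (y : F ⧸ (Cfsg.layer X).subgroupOf F)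
        rw [QuotientGroup.eq, mem_subgroupOf]
        change z⁻¹ * (y : X) ∈ Cfsg.layer X
        rw [← hez]
        have h3 := (layer_normal (G := X)).conj_mem e he z⁻¹
        have e2 : z⁻¹ * (e * z) = z⁻¹ * e * z⁻¹⁻¹ := by group
        rw [e2]; exact h3
      exact Group.isSolvable_of_surjective hf
    obtain ⟨n, hn⟩ := (Group.isSolvable_def _).1 hs
    refine (iInf_le _ n).trans ?_
    have h1 : (derivedSeries F n).map (QuotientGroup.mk' ((Cfsg.layer X).subgroupOf F)) ≤ ⊥ := by
      rw [← hn]
      exact map_derivedSeries_le_derivedSeries _ _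
    rw [le_bot_iff, Subgroup.map_eq_bot_iff, QuotientGroup.ker_mk'] at h1
    rw [Subgroup.map_le_iff_le_comap]
    exact h1
  · refine le_iInf fun n => ?_
    have h1 : (Cfsg.layer X).subgroupOf F ≤ derivedSeries F n := by
      induction n with
      | zero => exact le_top
      | succ n ih =>
        rw [derivedSeries_succ, ← hperf]
        exact commutator_mono ih ih
    have h2 := Subgroup.map_mono (f := F.subtype) h1
    rwa [map_subgroupOf_eq_of_le hE] at h2

end Cfsg.Agent.S1316
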