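import Cfsg.Statements.S1317
import Mathlib
import Cfsg.Agent.Lib.Components

set_option autoImplicit false
open Cfsg

namespace Cfsg.Agent.S1317

open Subgroup Cfsg.Agent.Lib.Components Cfsg.Agent.Lib.Cores

/-- For a finite group X, the centre of the layer E(X) is F(X) ∩ E(X). -/
theorem result {X : Type*} [Group X] [Finite X] : (Subgroup.center ↥(Cfsg.layer X)).map (Cfsg.layer X).subtype = Cfsg.fittingSubgroup X ⊓ Cfsg.layer X := by
  rw [map_center_eq]
  apply le_antisymm
  · refine le_inf ?_ inf_le_left
    have hn : (Cfsg.layer X ⊓ centralizer (Cfsg.layer X : Set X)).Normal := inferInstance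
    refine subnormal_nilpotent_le_fitting hn.isSubnormal ?_
    have hc : IsMulCommutative (Cfsg.layer X ⊓ centralizer (Cfsg.layer X : Set X) : Subgroup X) :=
      ⟨⟨fun a b => Subtype.ext (mem_centralizer_iff.1 b.2.2 a a.2.1)⟩⟩
    have : Group.IsNilpotent (Cfsg.layer X ⊓ centralizer (Cfsg.layer X : Set X) : Subgroup X) := by
      rw [Subgroup.nilpotent_iff_lowerCentralSeries]
      refine ⟨1, ?_⟩
      rw [Subgroup.top_lowerCentralSeries_one, commutator_def, commutator_eq_bot_iff_le_centralizer]
      intro x _
      rw [mem_centralizer_iff]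
      intro y _
      exact hc.is_comm.comm y x
    exact this
  · refine le_inf inf_le_right ?_
    refine inf_le_left.trans ?_
    rw [← commutator_eq_bot_iff_le_centralizer, commutator_comm]
    exact layer_commute_fitting

end Cfsg.Agent.S1317
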