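import Cfsg.Statements.S1319
import Mathlib
import Cfsg.Agent.Lib.Components

set_option autoImplicit false
open Cfsg

namespace Cfsg.Agent.S1319

open Subgroup Cfsg.Agent.Lib.Components Cfsg.Agent.Lib.Cores

/-- Let A be a subnormal subgroup of the finite group X with E(A) = A. Then A ≤ E(X) and A is normal in E(X). -/
theorem result {X : Type*} [Group X] [Finite X] (A : Subgroup X) (hsn : A.IsSubnormal) (hA : Cfsg.layer ↥A = ⊤) : A ≤ Cfsg.layer X ∧ (A.subgroupOf (Cfsg.layer X)).Normal := by
  have h1 : A = sSup {K : Subgroup X | Cfsg.IsComponent K ∧ K ≤ A} := by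
    apply le_antisymm
    · have h2 : (⊤ : Subgroup A) ≤ (sSup {K : Subgroup X | Cfsg.IsComponent K ∧ K ≤ A}).subgroupOf A := by
        rw [← hA]
        refine sSup_le fun K hK => ?_
        intro x hx
        rw [mem_subgroupOf]
        have h3 : K.map A.subtype ≤ sSup {K : Subgroup X | Cfsg.IsComponent K ∧ K ≤ A} :=
          le_sSup ⟨component_map_subtype hsn hK, map_subtype_le K⟩
        exact h3 ⟨x, hx, rfl⟩
      intro x hx
      exact h2 (mem_top (⟨x, hx⟩ : A))
    · exact sSup_le fun K hK => hK.2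
  have h2 : A ≤ Cfsg.layer X := by
    rw [h1]
    exact sSup_le fun K hK => component_le_layer hK.1
  refine ⟨h2, normal_subgroupOf_of_le_normalizer ?_⟩
  intro x hx
  rw [Subgroup.mem_normalizer_iff_map_conj_eq]
  have key : ∀ y ∈ Cfsg.layer X, A.map (MulAut.conj y).toMonoidHom ≤ A := by
    intro y hy
    rw [Subgroup.map_le_iff_le_comap]
    conv_lhs => rw [h1]
    refine sSup_le fun K hK => ?_
    rw [← Subgroup.map_le_iff_le_comap]
    have h3 := layer_le_normalizer_component hK.1 hy
    rw [Subgroup.mem_normalizer_iff_map_conj_eq] at h3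
    exact (le_of_eq h3).trans hK.2
  apply le_antisymm (key x hx)
  intro a ha
  have h4 := key x⁻¹ ((Cfsg.layer X).inv_mem hx) ⟨a, ha, rfl⟩
  refine ⟨_, h4, ?_⟩
  simp [mul_assoc]

end Cfsg.Agent.S1319
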