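import Cfsg.Statements.S1321
import Mathlib
import Cfsg.Agent.Lib.Components

set_option autoImplicit false
open Cfsg

namespace Cfsg.Agent.S1321

open Subgroup Cfsg.Agent.Lib.Components Cfsg.Agent.Lib.Cores

/-- Let X be finite and U ≤ X. Then E(X) is generated by C_{E(X)}(U) together with ⁅E(X), U⁆ (indeed it is their product, ⁅E(X), U⁆ being normal in E(X)). -/
theorem result {X : Type*} [Group X] [Finite X] (U : Subgroup X) : Cfsg.layer X = (Cfsg.layer X ⊓ Subgroup.centralizer (U : Set X)) ⊔ ⁅Cfsg.layer X, U⁆ ∧ ⁅Cfsg.layer X, U⁆ ≤ Cfsg.layer X := by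
  have hM : ⁅Cfsg.layer X, U⁆ ≤ Cfsg.layer X := commutator_le_left _ _
  refine ⟨le_antisymm ?_ (sup_le inf_le_left hM), hM⟩
  refine sSup_le fun K hK => ?_
  -- M = [E,U] is subnormal
  have hMn : (⁅Cfsg.layer X, U⁆.subgroupOf (Cfsg.layer X)).Normal :=
    normal_subgroupOf_of_le_normalizer (normalizer_commutator_ge_left _ _)
  have hMs : (⁅Cfsg.layer X, U⁆).IsSubnormal :=
    IsSubnormal.step _ (Cfsg.layer X) hM layer_normal.isSubnormal hMn
  rcases component_le_or_commute hK hMs with h | h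
  · exact h.trans le_sup_right
  · have h1 : ⁅K, U⁆ ≤ ⁅Cfsg.layer X, U⁆ := commutator_mono (component_le_layer hK) le_rfl
    have h' : ⁅⁅Cfsg.layer X, U⁆, K⁆ = ⊥ := by rw [commutator_comm]; exact h
    have h2 : ⁅⁅K, U⁆, K⁆ = ⊥ := by
      rw [eq_bot_iff, ← h']
      exact commutator_mono h1 le_rfl
    have h3 := commutator_eq_bot_of_perfect (component_commutator hK) h2
    rw [commutator_eq_bot_iff_le_centralizer] at h3
    exact (le_inf (component_le_layer hK) h3).trans le_sup_left

end Cfsg.Agent.S1321
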