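import Cfsg.Statements.S1326
import Mathlib
import Cfsg.Agent.Lib.Components

set_option autoImplicit false
open Cfsg

namespace Cfsg.Agent.S1326

open Subgroup Cfsg.Agent.Lib.Components Cfsg.Agent.Lib.Cores

/-- For a finite group X: the Fitting subgroup contains its centralizer if and only if the layer of X is trivial. -/
theorem result {X : Type*} [Group X] [Finite X] : Subgroup.centralizer (Cfsg.fittingSubgroup X : Set X) ≤ Cfsg.fittingSubgroup X ↔ Cfsg.layer X = ⊥ := by
  have hnil := fitting_nilpotent (G := X)
  constructor
  · intro h
    have h1 : Cfsg.layer X ≤ centralizer (Cfsg.fittingSubgroup X : Set X) := by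
      rw [← commutator_eq_bot_iff_le_centralizer]; exact layer_commute_fitting
    have h2 := h1.trans h
    have h3 : Group.IsSolvable (Cfsg.layer X) :=
      Group.isSolvable_of_isSolvable_injective (inclusion_injective h2)
    by_contra hne
    have h4 := layer_isPerfect (G := X)
    have h5 : Nontrivial (Cfsg.layer X) := (nontrivial_iff_ne_bot _).2 hne
    exact Group.IsPerfect.not_isSolvable _ h3
  · intro h
    have h1 := centralizer_generalizedFitting_le (G := X)
    have h2 : Cfsg.generalizedFittingSubgroup X = Cfsg.fittingSubgroup X := by
      unfold Cfsg.generalizedFittingSubgroup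
      rw [h, bot_sup_eq]
    rwa [h2] at h1

end Cfsg.Agent.S1326
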