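import Cfsg.Statements.S1441
import Cfsg.Agent.Lib.Coprime

set_option autoImplicit false
open Cfsg

namespace Cfsg.Agent.S1441

/-- Let G be a finite group, H a solvable subgroup and A a subgroup normalizing H. Suppose there is a chain H = H₀ ≥ H₁ ≥ ⋯ ≥ H_n = 1 of subgroups normal in H and normalized by A such that A acts trivially on each factor H_{i-1}/H_i (that is, [H_{i-1}, A] ≤ H_i). Then every prime dividing the index of C_A(H) in A divides the order of H. -/
theorem result {G : Type*} [Group G] [Finite G] (H A : Subgroup G) (hH : Group.IsSolvable H) (hA : (A ≤ Subgroup.normalizer (H : Set G)))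
    (n : ℕ) (c : Fin (n + 1) → Subgroup G) (hc0 : c 0 = H) (hcn : c (Fin.last n) = ⊥) (hanti : Antitone c)
    (hcN : ∀ i, H ≤ Subgroup.normalizer ((c i : Subgroup G) : Set G)) (hcA : ∀ i, A ≤ Subgroup.normalizer ((c i : Subgroup G) : Set G))
    (htriv : ∀ i : Fin n, ⁅c i.castSucc, A⁆ ≤ c i.succ) :
    ∀ p : ℕ, p.Prime → p ∣ (A ⊓ Subgroup.centralizer (H : Set G)).relIndex A → p ∣ Nat.card H := by
  intro p hp hd
  by_contra hpH
  haveI : Fact p.Prime := ⟨hp⟩
  obtain ⟨S⟩ : Nonempty (Sylow p A) := inferInstance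
  set T : Subgroup G := (S : Subgroup A).map A.subtype with hT
  have hTA : T ≤ A := Subgroup.map_subtype_le _
  have hTp : IsPGroup p T := S.2.map _
  have hTH : T ≤ Subgroup.normalizer (H : Set G) := hTA.trans hA
  have hcop : (Nat.card T).Coprime (Nat.card H) := by
    obtain ⟨k, hk⟩ := IsPGroup.iff_card.1 hTp
    rw [hk]
    exact Nat.Coprime.pow_left k ((Nat.Prime.coprime_iff_not_dvd hp).2 hpH)
  have hcc := Cfsg.Agent.Lib.Coprime.commutator_commutator_eq hTH hcop (Or.inr hH)
  have key : ∀ i : ℕ, ∀ hi : i < n + 1, ⁅H, T⁆ ≤ c ⟨i, hi⟩ := by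
    intro i
    induction i with
    | zero =>
      intro hi
      have h1 : c ⟨0, hi⟩ = H := hc0
      rw [h1]
      exact Cfsg.Agent.Lib.Coprime.commutator_le_of_normalizes hTH
    | succ i ih =>
      intro hi
      rw [← hcc]
      exact (Subgroup.commutator_mono (ih (by omega)) hTA).trans (htriv ⟨i, by omega⟩)
  have h1 : ⁅H, T⁆ = ⊥ := by
    rw [eq_bot_iff]
    have h2 := key n (Nat.lt_succ_self n)
    have h3 : c ⟨n, Nat.lt_succ_self n⟩ = ⊥ := hcn
    rwa [h3] at h2
  have h2 : T ≤ Subgroup.centralizer (H : Set G) := by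
    rw [Subgroup.commutator_comm, Subgroup.commutator_eq_bot_iff_le_centralizer] at h1
    exact h1
  have h3 : (S : Subgroup A) ≤ (A ⊓ Subgroup.centralizer (H : Set G)).subgroupOf A := by
    intro s hs
    rw [Subgroup.mem_subgroupOf]
    exact ⟨s.2, h2 ⟨s, hs, rfl⟩⟩
  exact S.not_dvd_index (hd.trans (Subgroup.index_dvd_of_le h3))

end Cfsg.Agent.S1441
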