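import Cfsg.Statements.S1442
import Cfsg.Agent.Lib.MinAct
import Cfsg.Agent.Lib.PNilp

set_option autoImplicit false
open Cfsg

namespace Cfsg.Agent.S1442

open Subgroup Lib.Coprime Lib.CoprimeB

theorem aux {G : Type*} [Group G] [Finite G] (H A : Subgroup G) (hH : Group.IsNilpotent H) (hA : (A ≤ Subgroup.normalizer (H : Set G))) (hcop : (Nat.card A).Coprime (Nat.card H))
    (hC : H ⊓ Subgroup.centralizer (((H ⊓ Subgroup.centralizer (A : Set G)) : Subgroup G) : Set G) ≤ (H ⊓ Subgroup.centralizer (A : Set G))) :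
    A ≤ Subgroup.centralizer (H : Set G) := by
  set C := H ⊓ centralizer (A : Set G) with hCdef
  by_cases hCH : C = H
  · have h1 : H ≤ centralizer (A : Set G) := by rw [← hCH]; exact inf_le_right
    rwa [← commutator_eq_bot_iff_le_centralizer, commutator_comm, commutator_eq_bot_iff_le_centralizer] at h1
  exfalso
  have hlt : C < H := lt_of_le_of_ne inf_le_left hCH
  have hlt2 := Lib.PNilp.lt_inf_normalizer hH hlt
  set N := H ⊓ normalizer (C : Set G) with hN
  have hAC : A ≤ normalizer (C : Set G) := by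
    intro a ha
    apply H2.PUtil.mem_normalizer_of_conj_mem
    intro c hc
    have h1 : a * c = c * a := mem_centralizer_iff.1 hc.2 a ha
    have h2 : a * c * a⁻¹ = c := by rw [h1]; group
    rw [h2]; exact hc
  have hAN : A ≤ normalizer (N : Set G) := by
    intro a ha
    apply H2.PUtil.mem_normalizer_of_conj_mem
    rintro n ⟨hn1, hn2⟩
    refine ⟨(mem_normalizer_iff.1 (hA ha) n).1 hn1, ?_⟩
    exact (normalizer (C : Set G)).mul_mem ((normalizer (C : Set G)).mul_mem (hAC ha) hn2) ((normalizer (C : Set G)).inv_mem (hAC ha))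
  -- [A,N,C] = 1
  have h1 : ⁅⁅N, C⁆, A⁆ = ⊥ := by
    have h2 : ⁅N, C⁆ ≤ C := by
      rw [commutator_comm]; exact commutator_le_of_normalizes inf_le_right
    have h3 : ⁅C, A⁆ = ⊥ := by
      rw [commutator_eq_bot_iff_le_centralizer]; exact inf_le_right
    rw [eq_bot_iff, ← h3]
    exact commutator_mono h2 le_rfl
  have h2 : ⁅⁅C, A⁆, N⁆ = ⊥ := by
    have h3 : ⁅C, A⁆ = ⊥ := by
      rw [commutator_eq_bot_iff_le_centralizer]; exact inf_le_right
    rw [h3]; exact commutator_bot_left _
  have h3 := three_subgroups h1 h2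
  -- ⁅⁅A,N⁆,C⁆ = ⊥
  have h4 : ⁅N, A⁆ ≤ C := by
    have h5 : ⁅N, A⁆ ≤ H := (commutator_le_of_normalizes hAN).trans inf_le_left
    refine le_trans (le_inf h5 ?_) hC
    rw [commutator_comm A N, commutator_eq_bot_iff_le_centralizer] at h3
    exact h3
  have hcopN : (Nat.card A).Coprime (Nat.card N) := Nat.Coprime.coprime_dvd_right (card_dvd_of_le inf_le_left) hcop
  have hsolN : Group.IsSolvable N := by
    have : Group.IsSolvable H := inferInstance
    exact solvable_of_solvable_injective (inclusion_injective (inf_le_left : N ≤ H))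
  have h5 : ⁅N, A⁆ = ⊥ := by
    rw [← commutator_commutator_eq hAN hcopN (Or.inr hsolN), commutator_eq_bot_iff_le_centralizer]
    exact h4.trans inf_le_right
  have h6 : N ≤ C := by
    rw [commutator_eq_bot_iff_le_centralizer] at h5
    exact le_inf inf_le_left h5
  exact hlt2.not_ge h6

/-- Let G be a finite group, H a nilpotent subgroup and A a subgroup normalizing H with the orders of A and H coprime. Put C = H ∩ C_G(A). If H ∩ C_G(C) ≤ C then A centralizes H. -/
theorem result {G : Type*} [Group G] [Finite G] (H A : Subgroup G) (hH : Group.IsNilpotent H) (hA : (A ≤ Subgroup.normalizer (H : Set G))) (hcop : (Nat.card A).Coprime (Nat.card H))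
    (hC : H ⊓ Subgroup.centralizer (((H ⊓ Subgroup.centralizer (A : Set G)) : Subgroup G) : Set G) ≤ (H ⊓ Subgroup.centralizer (A : Set G))) :
    A ≤ Subgroup.centralizer (H : Set G) := by
  exact aux H A hH hA hcop hC

end Cfsg.Agent.S1442
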