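import Cfsg.Statements.S1443
import Cfsg.Agent.Lib.MinAct
import Cfsg.Agent.S1442

set_option autoImplicit false
open Cfsg

namespace Cfsg.Agent.S1443

open Subgroup Lib.Coprime Lib.CoprimeB

/-- Let G be a finite group, p an odd prime, H a p-subgroup, E an elementary abelian subgroup of H, and A a subgroup of order coprime to p normalizing H. If A centralizes every element of order p in H ∩ C_G(E), then A centralizes H. -/
theorem result {G : Type*} [Group G] [Finite G] (p : ℕ) [Fact p.Prime] (hp : p ≠ 2) (H E A : Subgroup G) (hH : IsPGroup p H) (hE : E ≤ H) (hEe : Cfsg.IsElementaryAbelian p E)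
    (hA : (A ≤ Subgroup.normalizer (H : Set G))) (hcop : (Nat.card A).Coprime p)
    (hfix : ∀ x ∈ (H ⊓ Subgroup.centralizer (E : Set G)), orderOf x = p → A ≤ Subgroup.centralizer ({x} : Set G)) :
    A ≤ Subgroup.centralizer (H : Set G) := by
  have hp' : p.Prime := Fact.out
  set D := H ⊓ centralizer (E : Set G) with hD
  have hEc : E ≤ centralizer (E : Set G) := le_centralizer_iff_isMulCommutative.2 hEe.1
  have hED : E ≤ D := le_inf hE hEc
  have hordp : ∀ x : G, x ^ p = 1 → x ≠ 1 → orderOf x = p := fun x h1 h2 => orderOf_eq_prime h1 h2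
  have hfix' : ∀ x ∈ D, x ^ p = 1 → ∀ a ∈ A, a * x = x * a := by
    intro x hx hxp a ha
    by_cases hx1 : x = 1
    · rw [hx1, one_mul, mul_one]
    · exact mem_centralizer_singleton_iff.1 (hfix x hx (hordp x hxp hx1) ha)
  have hAE : A ≤ centralizer (E : Set G) := by
    intro a ha
    rw [mem_centralizer_iff]
    intro x hx
    exact (hfix' x (hED hx) (hEe.2 x hx) a ha).symm
  have hAD : A ≤ normalizer (D : Set G) := by
    intro a ha
    apply H2.PUtil.mem_normalizer_of_conj_mem
    rintro n ⟨hn1, hn2⟩
    refine ⟨(mem_normalizer_iff.1 (hA ha) n).1 hn1, ?_⟩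
    exact (centralizer (E : Set G)).mul_mem ((centralizer (E : Set G)).mul_mem (hAE ha) hn2) ((centralizer (E : Set G)).inv_mem (hAE ha))
  have hDA := Lib.MinAct.trivial_of_order_p hp (hH.to_le (inf_le_left : D ≤ H)) hAD hcop hfix'
  rw [commutator_eq_bot_iff_le_centralizer] at hDA
  have hnil : Group.IsNilpotent H := hH.isNilpotent
  have hDC : D ≤ H ⊓ centralizer (A : Set G) := le_inf inf_le_left hDA
  apply S1442.aux H A hnil hA (Lib.MinAct.coprime_of_pgroup hH hcop)
  refine le_trans ?_ hDC
  refine le_inf inf_le_left ?_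
  exact inf_le_right.trans (centralizer_le (hED.trans hDC))

end Cfsg.Agent.S1443
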