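import Cfsg.Statements.S1447
import Cfsg.Agent.H2.MetaAct
import Cfsg.Agent.H2.RankThree
import Cfsg.Agent.Lib.MinAct

set_option autoImplicit false
open Cfsg

namespace Cfsg.Agent.S1447

open Subgroup Cfsg.Agent.Lib Cfsg.Agent.H2 Cfsg.Agent.H2.MetaAct Cfsg.Agent.H2.RankThree
open scoped commutatorElement

/-- conjugation action -/
def conjAct {G : Type*} [Group G] (A D : Subgroup G) (h : A ≤ normalizer (D : Set G)) : A →* MulAut D where
  toFun a :=
    { toFun := fun d => ⟨a * d * (a : G)⁻¹, (mem_normalizer_iff.1 (h a.2) d).1 d.2⟩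
      invFun := fun d => ⟨(a : G)⁻¹ * d * a, by
        have := (mem_normalizer_iff.1 (inv_mem (h a.2)) d).1 d.2
        rwa [inv_inv] at this⟩
      left_inv := fun d => Subtype.ext (by show (a : G)⁻¹ * (a * d * (a : G)⁻¹) * a = d; group)
      right_inv := fun d => Subtype.ext (by show a * ((a : G)⁻¹ * d * a) * (a : G)⁻¹ = d; group)
      map_mul' := fun x y => Subtype.ext (by show a * ((x : G) * y) * (a : G)⁻¹ = (a * x * (a : G)⁻¹) * (a * y * (a : G)⁻¹); group) }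
  map_one' := by ext d; simp
  map_mul' a b := by
    ext d
    show ((a : G) * b) * d * ((a : G) * b)⁻¹ = a * (b * d * (b : G)⁻¹) * (a : G)⁻¹
    group

theorem D_comm {G : Type*} [Group G] [Finite G] (p : ℕ) [Fact p.Prime] (hp : p ≠ 2) (D A : Subgroup G) (hD : IsPGroup p D) (hDm : Cfsg.IsMetacyclic D)
    (hA : A ≤ normalizer (D : Set G)) (hcop : (Nat.card A).Coprime p) (hDA : ⁅D, A⁆ = D) : ∀ x ∈ D, ∀ y ∈ D, x * y = y * x := by
  have h := comm_of_gen hp (X := A) hcop (Nat.card D) D le_rfl hD hDm (conjAct A D hA) (by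
    intro S hS hSx
    have h1 : ⁅D, A⁆ ≤ S.map D.subtype := by
      rw [Subgroup.commutator_le]
      intro d hd a ha
      have h2 := hSx ⟨a, ha⟩ ⟨d, hd⟩
      refine ⟨_, S.inv_mem h2, ?_⟩
      show (a * d * a⁻¹ * d⁻¹)⁻¹ = ⁅d, a⁆
      rw [_root_.commutatorElement_def]; group
    rw [hDA] at h1
    rw [eq_top_iff]
    intro x _
    obtain ⟨y, hy, e⟩ := h1 x.2
    have : y = x := Subtype.ext e
    rwa [← this])
  intro x hx y hy
  exact congrArg Subtype.val (h ⟨x, hx⟩ ⟨y, hy⟩)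

theorem exp_ext {G : Type*} [Group G] [Finite G] (p : ℕ) [Fact p.Prime] (hp : p ≠ 2) (R U : Subgroup G) (hR : IsPGroup p R) (hUR : U ≤ R)
    (hRU : R ≤ normalizer (U : Set G)) (hU1 : ∀ x ∈ U, ∀ y ∈ U, x * y = y * x) (hUp : ∀ x ∈ U, x ^ p = 1) (hUc : Nat.card U = p ^ 2)
    {c : G} (hc : c ∈ R) (hcp : c ^ p = 1) : ∀ x ∈ U ⊔ zpowers c, x ^ p = 1 := by
  have hpp : p.Prime := Fact.out
  have hUn : ∀ r ∈ R, ∀ u ∈ U, r * u * r⁻¹ ∈ U := fun r hr u hu => (mem_normalizer_iff.1 (hRU hr) u).1 hu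
  -- `[U, R]` has order at most `p`, so is centralized by `R`
  have hcr : ∀ u ∈ U, ∀ r ∈ R, ∀ s ∈ R, Commute ⁅u, r⁆ s := by
    have hnil : Group.IsNilpotent R := hR.isNilpotent
    have hUb : U ≠ ⊥ := by
      rintro rfl
      rw [Subgroup.card_bot] at hUc
      exact absurd hUc.symm (Nat.one_lt_pow (by norm_num) hpp.one_lt).ne'
    have h1 : ⁅U, R⁆ ≠ U := PUtil.commutator_ne hnil hUR hUb
    have h2 : ⁅U, R⁆ ≤ U := by
      rw [Subgroup.commutator_le]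
      intro u hu r hr
      have := U.mul_mem hu (hUn r hr _ (U.inv_mem hu))
      have e : u * (r * u⁻¹ * r⁻¹) = ⁅u, r⁆ := by rw [_root_.commutatorElement_def]; group
      rwa [e] at this
    have h3 := Soft.lt_card (lt_of_le_of_ne h2 h1)
    have h5 : IsPGroup p (⁅U, R⁆ : Subgroup G) := hR.to_le (h2.trans hUR)
    have h4 : ⁅⁅U, R⁆, R⁆ = ⊥ := by
      by_cases hb : ⁅U, R⁆ = ⊥
      · rw [hb]; exact Subgroup.commutator_bot_left _
      have hnorm : R ≤ normalizer ((⁅U, R⁆ : Subgroup G) : Set G) := Coprime.le_normalizer_commutator_right R U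
      have h6 : ⁅⁅U, R⁆, R⁆ ≠ ⁅U, R⁆ := PUtil.commutator_ne hnil (h2.trans hUR) hb
      have h7 : ⁅⁅U, R⁆, R⁆ ≤ ⁅U, R⁆ := Coprime.commutator_le_of_normalizes hnorm
      obtain ⟨n, hn⟩ := IsPGroup.iff_card.1 h5
      rw [hUc, hn] at h3
      have h8 := (Nat.pow_lt_pow_iff_right hpp.one_lt).1 h3
      have h9 := Soft.lt_card (lt_of_le_of_ne h7 h6)
      have h10 : IsPGroup p (⁅⁅U, R⁆, R⁆ : Subgroup G) := hR.to_le (h7.trans (h2.trans hUR))
      obtain ⟨m, hm⟩ := IsPGroup.iff_card.1 h10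
      rw [hn, hm] at h9
      have h11 := (Nat.pow_lt_pow_iff_right hpp.one_lt).1 h9
      have h12 : m = 0 := by omega
      rw [h12, pow_zero] at hm
      exact Subgroup.card_eq_one.1 hm
    intro u hu r hr s hs
    have h6 : ⁅⁅u, r⁆, s⁆ ∈ ⁅⁅U, R⁆, R⁆ := Subgroup.commutator_mem_commutator (Subgroup.commutator_mem_commutator hu hr) hs
    rw [h4, mem_bot] at h6
    exact _root_.commutatorElement_eq_one_iff_commute.1 h6
  intro x hx
  have hN : zpowers c ≤ normalizer (U : Set G) := zpowers_le.2 (hRU hc)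
  rw [← SetLike.mem_coe, Subgroup.coe_mul_of_right_le_normalizer_left U _ hN] at hx
  obtain ⟨u, hu, _, ⟨i, rfl⟩, rfl⟩ := hx
  have hci : c ^ i ∈ R := R.zpow_mem hc i
  have hcomm := hcr u hu _ hci
  -- `c^i u = u c^i [c^i,u]..`
  have e1 : c ^ i * u = u * c ^ i * ⁅u, c ^ i⁆⁻¹ := by
    have h1 : Commute ⁅u, c ^ i⁆ (c ^ i * u) := hcomm _ (R.mul_mem hci (hUR hu))
    have h2 : ⁅u, c ^ i⁆ * (c ^ i * u) = u * c ^ i := by rw [_root_.commutatorElement_def]; group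
    rw [← h2, h1.eq, mul_inv_cancel_right]
  have h3 := PGrpA.mul_pow_of_comm e1 ((hcomm u (hUR hu)).inv_left) ((hcomm _ hci).inv_left) p
  show (u * c ^ i) ^ p = 1
  rw [h3, hUp u hu, one_mul, ← zpow_natCast (c ^ i), ← zpow_mul, mul_comm i, zpow_mul, zpow_natCast, hcp, one_zpow, one_mul]
  obtain ⟨k, hk⟩ := PGrpA.odd_dvd_choose_two hpp hp (dvd_refl p)
  rw [hk, pow_mul]
  have h4 : ⁅u, c ^ i⁆ ∈ U := by
    have := U.mul_mem hu (hUn _ hci _ (U.inv_mem hu))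
    have e : u * (c ^ i * u⁻¹ * (c ^ i)⁻¹) = ⁅u, c ^ i⁆ := by rw [_root_.commutatorElement_def]; group
    rwa [e] at this
  rw [hUp _ (U.inv_mem h4), one_pow]

/-- the nonabelian case -/
theorem cyc {G : Type*} [Group G] [Finite G] (p : ℕ) [Fact p.Prime] (hp : p ≠ 2) (R A : Subgroup G) (hR : IsPGroup p R) (hRm : Cfsg.IsMetacyclic R)
    (hA : (A ≤ Subgroup.normalizer (R : Set G))) (D C : Subgroup G) (hDC : D ⊔ C = R) (hinf : D ⊓ C = ⊥)
    (hDn : R ≤ normalizer (D : Set G)) (hD1 : ∀ x ∈ D, ∀ y ∈ D, x * y = y * x) (hDb : D ≠ ⊥) (hCb : C ≠ ⊥) :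
    IsCyclic D ∧ IsCyclic C := by
  have hpp : p.Prime := Fact.out
  have hDR : D ≤ R := by rw [← hDC]; exact le_sup_left
  have hCR : C ≤ R := by rw [← hDC]; exact le_sup_right
  have hsq : ∀ H : Subgroup G, H ≤ R → (∀ x ∈ H, x ^ p = 1) → Nat.card H ≤ p ^ 2 := by
    intro H hH hHp
    have := card_le_sq (p := p) hRm (H.subgroupOf R) (fun x hx => Subtype.ext (hHp x hx))
    rwa [Nat.card_congr (Subgroup.subgroupOfEquivOfLe hH).toEquiv] at this
  have hord : ∀ H : Subgroup G, H ≤ R → H ≠ ⊥ → ∃ h ∈ H, h ≠ 1 ∧ h ^ p = 1 := by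
    intro H hH hHb
    obtain ⟨n, hn⟩ := IsPGroup.iff_card.1 (hR.to_le hH)
    have hdvd : p ∣ Nat.card H := by
      rcases n with _ | n
      · rw [pow_zero] at hn
        exact absurd (Subgroup.card_eq_one.1 hn) hHb
      · rw [hn]; exact dvd_pow_self p (by omega)
    obtain ⟨y, hy⟩ := exists_prime_orderOf_dvd_card' p hdvd
    refine ⟨y, y.2, ?_, ?_⟩
    · intro h
      have : y = 1 := Subtype.ext h
      rw [this, _root_.orderOf_one] at hy
      exact hpp.one_lt.ne hy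
    · have := _root_.pow_orderOf_eq_one y
      rw [hy] at this
      exact congrArg Subtype.val this
  -- `Ω₁(D)`
  let Ω : Subgroup G :=
    { carrier := {x | x ∈ D ∧ x ^ p = 1}
      one_mem' := ⟨D.one_mem, one_pow p⟩
      mul_mem' := fun {a b} ha hb => ⟨D.mul_mem ha.1 hb.1, by
        rw [(show Commute a b from hD1 a ha.1 b hb.1).mul_pow, ha.2, hb.2, one_mul]⟩
      inv_mem' := fun {a} ha => ⟨D.inv_mem ha.1, by rw [inv_pow, ha.2, inv_one]⟩ }
  have hΩD : Ω ≤ D := fun x hx => hx.1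
  have hΩn : R ≤ normalizer (Ω : Set G) := by
    have key : ∀ r ∈ R, ∀ x ∈ Ω, r * x * r⁻¹ ∈ Ω := fun r hr x hx =>
      ⟨(mem_normalizer_iff.1 (hDn hr) x).1 hx.1, by rw [conj_pow, hx.2]; group⟩
    intro r hr
    rw [mem_normalizer_iff]
    intro x
    refine ⟨key r hr x, fun h => ?_⟩
    have := key r⁻¹ (R.inv_mem hr) _ h
    have e : r⁻¹ * (r * x * r⁻¹) * r⁻¹⁻¹ = x := by group
    rwa [e] at this
  have hΩc : Nat.card Ω ≤ p ^ 2 := hsq Ω (hΩD.trans hDR) (fun x hx => hx.2)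
  obtain ⟨c, hc, hc1, hcp⟩ := hord C hCR hCb
  have hcD : c ∉ D := fun h => hc1 (by
    have : c ∈ D ⊓ C := ⟨h, hc⟩
    rw [hinf] at this
    exact this)
  have hΩne : Nat.card Ω ≠ p ^ 2 := by
    intro h
    have h1 := exp_ext p hp R Ω hR (hΩD.trans hDR) hΩn (fun x hx y hy => hD1 x hx.1 y hy.1) (fun x hx => hx.2) h (hCR hc) hcp
    have h2 := hsq _ (sup_le (hΩD.trans hDR) (zpowers_le.2 (hCR hc))) h1
    have h3 : Ω < Ω ⊔ zpowers c := lt_of_le_of_ne le_sup_left (fun e => hcD (hΩD (by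
      rw [e]; exact le_sup_right (a := Ω) (mem_zpowers c))))
    have h4 := Soft.lt_card h3
    omega
  have hΩp : Nat.card Ω ≤ p := by
    obtain ⟨n, hn⟩ := IsPGroup.iff_card.1 (hR.to_le (hΩD.trans hDR))
    rw [hn] at hΩc hΩne ⊢
    have h1 := (Nat.pow_le_pow_iff_right hpp.one_lt).1 hΩc
    have h2 : n ≠ 2 := fun h => hΩne (by rw [h])
    calc p ^ n ≤ p ^ 1 := Nat.pow_le_pow_right hpp.pos (by omega)
      _ = p := pow_one p
  have hDcyc : IsCyclic D := by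
    apply PGrpC.isCyclic_of_unique hp (hR.to_le hDR)
    intro x y hx hy
    have hxΩ : (x : G) ∈ Ω := ⟨x.2, by
      have := _root_.pow_orderOf_eq_one x
      rw [hx] at this
      exact congrArg Subtype.val this⟩
    have hyΩ : (y : G) ∈ Ω := ⟨y.2, by
      have := _root_.pow_orderOf_eq_one y
      rw [hy] at this
      exact congrArg Subtype.val this⟩
    have h3 : zpowers (y : G) = Ω := by
      apply Subgroup.eq_of_le_of_card_ge (zpowers_le.2 hyΩ)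
      rw [Nat.card_zpowers, Subgroup.orderOf_coe, hy]
      exact hΩp
    rw [← h3] at hxΩ
    obtain ⟨k, hk⟩ := mem_zpowers_iff.1 hxΩ
    exact mem_zpowers_iff.2 ⟨k, Subtype.ext (by push_cast; exact hk)⟩
  refine ⟨hDcyc, ?_⟩
  by_contra hCc
  have hCtop : ¬ IsCyclic (⊤ : Subgroup C) := fun h => hCc (isCyclic_of_surjective (Subgroup.topEquiv : (⊤ : Subgroup C) ≃* C) Subgroup.topEquiv.surjective)
  obtain ⟨F, -, -, hF, hFc⟩ := PGrpE.exists_normal_rank_two hp (hR.to_le hCR) (⊤ : Subgroup C) hCtop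
  obtain ⟨hF1, hFp⟩ := ThompsonJ.ea_iff.1 hF
  obtain ⟨d, hd, hd1, hdp⟩ := hord D hDR hDb
  -- `Ω₁(D)` is centralized by `R`
  have hΩcen : ∀ r ∈ R, Commute d r := by
    have hnil : Group.IsNilpotent R := hR.isNilpotent
    have hΩb : Ω ≠ ⊥ := by
      intro h
      have : d ∈ Ω := ⟨hd, hdp⟩
      rw [h] at this
      exact hd1 this
    have h6 : ⁅Ω, R⁆ ≠ Ω := PUtil.commutator_ne hnil (hΩD.trans hDR) hΩb
    have h7 : ⁅Ω, R⁆ ≤ Ω := Coprime.commutator_le_of_normalizes hΩn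
    have h9 := Soft.lt_card (lt_of_le_of_ne h7 h6)
    have h10 : IsPGroup p (⁅Ω, R⁆ : Subgroup G) := hR.to_le (h7.trans (hΩD.trans hDR))
    obtain ⟨m, hm⟩ := IsPGroup.iff_card.1 h10
    have h12 : m = 0 := by
      by_contra hm0
      have : p ^ 1 ≤ p ^ m := Nat.pow_le_pow_right hpp.pos (by omega)
      rw [pow_one] at this
      omega
    rw [h12, pow_zero] at hm
    have h13 := Subgroup.card_eq_one.1 hm
    intro r hr
    have h14 : ⁅d, r⁆ ∈ ⁅Ω, R⁆ := Subgroup.commutator_mem_commutator ⟨hd, hdp⟩ hr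
    rw [h13, mem_bot] at h14
    exact _root_.commutatorElement_eq_one_iff_commute.1 h14
  have hFG : ∀ x ∈ F.map C.subtype, x ^ p = 1 := by
    rintro _ ⟨x, hx, rfl⟩
    exact congrArg Subtype.val (hFp x hx)
  have hFG1 : ∀ x ∈ F.map C.subtype, ∀ y ∈ F.map C.subtype, x * y = y * x := by
    rintro _ ⟨x, hx, rfl⟩ _ ⟨y, hy, rfl⟩
    exact congrArg Subtype.val (hF1 x hx y hy)
  have hFC : F.map C.subtype ≤ C := map_subtype_le _
  have hFcG : Nat.card (F.map C.subtype) = p ^ 2 := by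
    rw [Nat.card_congr (F.equivMapOfInjective _ C.subtype_injective).symm.toEquiv, hFc]
  have h1 := (ea_sup (p := p) (A := F.map C.subtype) (B := zpowers d) hFG1 hFG (by
      rintro _ ⟨i, rfl⟩ _ ⟨j, rfl⟩
      show d ^ i * d ^ j = d ^ j * d ^ i
      rw [← zpow_add, ← zpow_add, add_comm]) (by
      rintro _ ⟨i, rfl⟩
      show (d ^ i) ^ p = 1
      rw [← zpow_natCast, ← zpow_mul, mul_comm, zpow_mul, zpow_natCast, hdp, one_zpow]) (by
      rintro e he _ ⟨i, rfl⟩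
      exact (((hΩcen e (hCR (hFC he))).symm).zpow_right i).eq)).2
  have h2 := hsq _ (sup_le (hFC.trans hCR) (zpowers_le.2 (hDR hd))) h1
  have h3 : F.map C.subtype < F.map C.subtype ⊔ zpowers d := lt_of_le_of_ne le_sup_left (fun e => hd1 (by
    have h4 : d ∈ F.map C.subtype := by rw [e]; exact le_sup_right (a := F.map C.subtype) (mem_zpowers d)
    have h5 : d ∈ D ⊓ C := ⟨hd, hFC h4⟩
    rw [hinf] at h5
    exact h5))
  have h4 := Soft.lt_card h3
  omega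

/-- Let G be a finite group, p an odd prime, R a metacyclic p-subgroup and A a subgroup of order coprime to p normalizing R. Then [R, A] is abelian; R is generated by [R, A] and R ∩ C_G(A), which meet trivially; and if R is non-abelian and A does not centralize R, then [R, A] and R ∩ C_G(A) are nontrivial cyclic groups and [R, R] ≤ [R, A]. -/
theorem result {G : Type*} [Group G] [Finite G] (p : ℕ) [Fact p.Prime] (hp : p ≠ 2) (R A : Subgroup G) (hR : IsPGroup p R) (hRm : Cfsg.IsMetacyclic R)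
    (hA : (A ≤ Subgroup.normalizer (R : Set G))) (hcop : (Nat.card A).Coprime p) :
    IsMulCommutative ↥⁅R, A⁆ ∧ ⁅R, A⁆ ⊔ (R ⊓ Subgroup.centralizer (A : Set G)) = R ∧ ⁅R, A⁆ ⊓ (R ⊓ Subgroup.centralizer (A : Set G)) = ⊥ ∧
      (¬ IsMulCommutative R → ¬ A ≤ Subgroup.centralizer (R : Set G) →
        ⁅R, A⁆ ≠ ⊥ ∧ IsCyclic ↥⁅R, A⁆ ∧ (R ⊓ Subgroup.centralizer (A : Set G)) ≠ ⊥ ∧ IsCyclic ↥(R ⊓ Subgroup.centralizer (A : Set G)) ∧ ⁅R, R⁆ ≤ ⁅R, A⁆) := by
  have hpp : p.Prime := Fact.out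
  obtain ⟨n, hn⟩ := IsPGroup.iff_card.1 hR
  have hcop' : (Nat.card A).Coprime (Nat.card R) := by rw [hn]; exact Nat.Coprime.pow_right n hcop
  have hs : Group.IsSolvable R := CoprimeB.isSolvable_of_isPGroup hR
  have hDR : ⁅R, A⁆ ≤ R := Coprime.commutator_le_of_normalizes hA
  have hDD : ⁅⁅R, A⁆, A⁆ = ⁅R, A⁆ := Coprime.commutator_commutator_eq hA hcop' (Or.inr hs)
  have hDp : IsPGroup p (⁅R, A⁆ : Subgroup G) := hR.to_le hDR
  have hDm : Cfsg.IsMetacyclic ↥⁅R, A⁆ := meta_equiv (Subgroup.subgroupOfEquivOfLe hDR) (meta_sub hRm _)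
  have hAD : A ≤ normalizer ((⁅R, A⁆ : Subgroup G) : Set G) := Coprime.le_normalizer_commutator_right A R
  have hRD : R ≤ normalizer ((⁅R, A⁆ : Subgroup G) : Set G) := Coprime.le_normalizer_commutator_left A R
  have hD1 := D_comm p hp ⁅R, A⁆ A hDp hDm hAD hcop hDD
  have hsup : ⁅R, A⁆ ⊔ (R ⊓ centralizer (A : Set G)) = R := Coprime.commutator_sup_centralizer hA hcop' (Or.inr hs)
  have hinf : ⁅R, A⁆ ⊓ (R ⊓ centralizer (A : Set G)) = ⊥ := by
    obtain ⟨m, hm⟩ := IsPGroup.iff_card.1 hDp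
    have h1 := MinAct.inf_centralizer_le_commutator hAD (by rw [hm]; exact Nat.Coprime.pow_right m hcop) hDD
    have h2 : ⁅(⁅R, A⁆ : Subgroup G), ⁅R, A⁆⁆ = ⊥ := by
      rw [eq_bot_iff, Subgroup.commutator_le]
      intro x hx y hy
      rw [mem_bot, _root_.commutatorElement_eq_one_iff_mul_comm]
      exact hD1 x hx y hy
    rw [h2] at h1
    rw [eq_bot_iff]
    exact le_trans (le_inf inf_le_left (inf_le_right.trans inf_le_right)) h1
  refine ⟨PUtil.isMulCommutative_iff.2 hD1, hsup, hinf, fun hna hnc => ?_⟩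
  have hDb : ⁅R, A⁆ ≠ ⊥ := by
    intro h
    rw [Subgroup.commutator_eq_bot_iff_le_centralizer] at h
    exact hnc (le_centralizer_iff.1 h)
  have hCb : R ⊓ centralizer (A : Set G) ≠ ⊥ := by
    intro h
    rw [h, sup_bot_eq] at hsup
    apply hna
    rw [PUtil.isMulCommutative_iff]
    rw [hsup] at hD1
    exact hD1
  obtain ⟨h1, h2⟩ := cyc p hp R A hR hRm hA _ _ hsup hinf hRD hD1 hDb hCb
  refine ⟨hDb, h1, hCb, h2, ?_⟩
  have hCcomm := (IsCyclic.commGroup (α := (R ⊓ centralizer (A : Set G) : Subgroup G))).mul_comm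
  have hrep : ∀ r ∈ R, ∃ d ∈ ⁅R, A⁆, ∃ c ∈ R ⊓ centralizer (A : Set G), r = d * c := by
    intro r hr
    have h3 : R ⊓ centralizer (A : Set G) ≤ normalizer ((⁅R, A⁆ : Subgroup G) : Set G) := inf_le_left.trans hRD
    rw [← hsup, ← SetLike.mem_coe, Subgroup.coe_mul_of_right_le_normalizer_left _ _ h3] at hr
    obtain ⟨d, hd, c, hc, rfl⟩ := hr
    exact ⟨d, hd, c, hc, rfl⟩
  rw [Subgroup.commutator_le]
  intro x hx y hy
  obtain ⟨d, hd, c, hc, rfl⟩ := hrep x hx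
  obtain ⟨d', hd', c', hc', rfl⟩ := hrep y hy
  have hcc : c * c' = c' * c := congrArg Subtype.val (hCcomm ⟨c, hc⟩ ⟨c', hc'⟩)
  have k1 : d * (c * d' * c⁻¹) ∈ ⁅R, A⁆ := (⁅R, A⁆).mul_mem hd ((mem_normalizer_iff.1 (hRD hc.1) d').1 hd')
  have k2 : d' * (c' * d * c'⁻¹) ∈ ⁅R, A⁆ := (⁅R, A⁆).mul_mem hd' ((mem_normalizer_iff.1 (hRD hc'.1) d).1 hd)
  have k3 := (⁅R, A⁆).mul_mem k1 ((⁅R, A⁆).inv_mem k2)
  have e : ⁅d * c, d' * c'⁆ = d * (c * d' * c⁻¹) * (d' * (c' * d * c'⁻¹))⁻¹ := by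
    rw [_root_.commutatorElement_def]
    calc d * c * (d' * c') * (d * c)⁻¹ * (d' * c')⁻¹ = d * (c * d' * c⁻¹) * (c * c') * c⁻¹ * d⁻¹ * c'⁻¹ * d'⁻¹ := by group
      _ = d * (c * d' * c⁻¹) * (c' * c) * c⁻¹ * d⁻¹ * c'⁻¹ * d'⁻¹ := by rw [hcc]
      _ = _ := by group
  rw [e]
  exact k3

end Cfsg.Agent.S1447
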