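import Cfsg.Statements.S1448
import Cfsg.Agent.H2.RankTwoPD
import Cfsg.Agent.S1447

set_option autoImplicit false
open Cfsg

namespace Cfsg.Agent.S1448

open Cfsg.Agent Cfsg.Agent.H2 Cfsg.Agent.Lib Cfsg.Agent.H2.RankTwoP Cfsg.Agent.H2.RankTwoPC Cfsg.Agent.H2.RankTwoPD Subgroup
open scoped commutatorElement

theorem conj_zpow_mem {G : Type*} [Group G] [Finite G] {N : Subgroup G} {a : G} (h : ∀ x ∈ N, a * x * a⁻¹ ∈ N) : zpowers a ≤ normalizer (N : Set G) := by
  rw [zpowers_le]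
  exact PUtil.mem_normalizer_of_conj_mem h

theorem split {G : Type*} [Group G] [Finite G] {p : ℕ} [Fact p.Prime] (hp : p ≠ 2) {R A : Subgroup G} (hR : IsPGroup p R)
    (hA : A ≤ normalizer (R : Set G)) (hcop : (Nat.card A).Coprime p) {M : Subgroup R} (hM : AI M) (hMm : Cfsg.IsMetacyclic M) (a : A) :
    Split (TwoDimB.cj hA a) M := by
  have hMle : M.map R.subtype ≤ R := map_subtype_le _
  have hMp : IsPGroup p (M.map R.subtype) := (hR.to_subgroup M).map _
  have hinv : ∀ x ∈ M.map R.subtype, (a : G) * x * (a : G)⁻¹ ∈ M.map R.subtype := by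
    rintro _ ⟨x, hx, rfl⟩
    exact ⟨TwoDimB.cj hA a x, hM _ x hx, rfl⟩
  have hN := conj_zpow_mem hinv
  have hcop' : (Nat.card (zpowers (a : G))).Coprime p := by
    refine Nat.Coprime.coprime_dvd_left ?_ hcop
    exact Subgroup.card_dvd_of_le (zpowers_le.2 a.2)
  have hmeta : Cfsg.IsMetacyclic (M.map R.subtype) := MetaAct.meta_equiv (M.equivMapOfInjective _ R.subtype_injective) hMm
  obtain ⟨h1, h2, -, -⟩ := S1447.result p hp (M.map R.subtype) (zpowers (a : G)) hMp hmeta hN hcop'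
  set D : Subgroup G := ⁅M.map R.subtype, zpowers (a : G)⁆ with hD
  set F : Subgroup G := M.map R.subtype ⊓ centralizer (zpowers (a : G) : Set G) with hF
  have hDM : D ≤ M.map R.subtype := by
    calc D ≤ D ⊔ F := le_sup_left
      _ = _ := h2
  have hDa : zpowers (a : G) ≤ normalizer (D : Set G) := Coprime.le_normalizer_commutator_right _ _
  have hDMn : M.map R.subtype ≤ normalizer (D : Set G) := Coprime.le_normalizer_commutator_left _ _
  have hDc := PUtil.isMulCommutative_iff.1 h1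
  refine ⟨D.subgroupOf R, F.subgroupOf R, ?_, ?_, ?_, ?_, ?_, ?_, ?_⟩
  · intro x hx
    obtain ⟨y, hy, hyx⟩ := hDM hx
    have : y = x := Subtype.ext hyx
    rw [← this]; exact hy
  · intro x hx
    obtain ⟨y, hy, hyx⟩ := hx.1
    have : y = x := Subtype.ext hyx
    rw [← this]; exact hy
  · intro x hx y hy
    exact Subtype.ext (hDc _ hx _ hy)
  · intro x hx
    have h3 := (mem_normalizer_iff.1 (hDa (mem_zpowers (a : G))) (x : G)).1 hx
    exact h3
  · intro x hx
    apply Subtype.ext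
    rw [TwoDimB.cj_apply]
    have h3 : (a : G) * (x : G) = x * a := mem_centralizer_iff.1 hx.2 (a : G) (mem_zpowers _)
    rw [h3]; group
  · intro m hm
    show ((m⁻¹ * TwoDimB.cj hA a m : R) : G) ∈ D
    have h3 : ((m⁻¹ * TwoDimB.cj hA a m : R) : G) = ⁅(m : G)⁻¹, (a : G)⁆ := by
      rw [_root_.commutatorElement_def, Subgroup.coe_mul, TwoDimB.cj_apply]
      show (m : G)⁻¹ * _ = _
      group
    rw [h3]
    exact commutator_mem_commutator ⟨m⁻¹, inv_mem hm, rfl⟩ (mem_zpowers _)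
  · intro m hm
    have h3 : (m : G) ∈ D ⊔ F := by rw [h2]; exact ⟨m, hm, rfl⟩
    have h4 : F ≤ normalizer (D : Set G) := inf_le_left.trans hDMn
    rw [← SetLike.mem_coe, Subgroup.coe_mul_of_right_le_normalizer_left _ _ h4] at h3
    obtain ⟨d, hd, f, hf, hdf⟩ := h3
    refine ⟨⟨d, hMle (hDM hd)⟩, hd, ⟨f, hMle hf.1⟩, hf, ?_⟩
    exact Subtype.ext hdf.symm

theorem gt_three {G : Type*} [Group G] [Finite G] {p : ℕ} [Fact p.Prime] (hp : p ≠ 2) {R A : Subgroup G} (hR : IsPGroup p R) (hR1 : R ≠ ⊥)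
    (hr : Cfsg.PRankLE p 2 R) (hA : A ≤ normalizer (R : Set G)) (hcop : (Nat.card A).Coprime p) (hAodd : Odd (Nat.card A)) (hRA : ⁅R, A⁆ = R) : 3 < p := by
  have hpp : p.Prime := Fact.out
  by_contra hle
  have hp3 : p = 3 := by have := hpp.two_le; omega
  subst hp3
  have hcen : A ≤ centralizer (R : Set G) := by
    intro a ha
    rw [← TwoDimB.cj_eq_one hA ⟨a, ha⟩]
    by_contra hne
    have h1 : orderOf (TwoDimB.cj hA ⟨a, ha⟩) ≠ 1 := fun h => hne (_root_.orderOf_eq_one_iff.1 h)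
    obtain ⟨q, hq, hqd⟩ := Nat.exists_prime_and_dvd h1
    have h3 : orderOf (TwoDimB.cj hA ⟨a, ha⟩) ∣ Nat.card A := (orderOf_map_dvd _ _).trans (_root_.orderOf_dvd_natCard _)
    have h4 := hqd.trans h3
    have hq3 : q ≠ 3 := by
      rintro rfl
      exact (Nat.Prime.coprime_iff_not_dvd hq).1 hcop.symm h4
    have hq2 : q ≠ 2 := by
      rintro rfl
      obtain ⟨t, ht⟩ := hAodd
      omega
    obtain ⟨m, hm⟩ := hqd
    have hm0 : m ≠ 0 := by
      rintro rfl
      rw [mul_zero] at hm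
      exact (orderOf_pos (TwoDimB.cj hA ⟨a, ha⟩)).ne' hm
    have h5 : orderOf ((TwoDimB.cj hA ⟨a, ha⟩) ^ m) = q := by
      rw [orderOf_pow_of_dvd hm0 ⟨q, by rw [hm, mul_comm]⟩, hm, Nat.mul_div_cancel _ (Nat.pos_of_ne_zero hm0)]
    have h6 := TwoDimB.prime_dvd hp hR hr _ hq hq3 h5
    have h7 : q ∣ 2 ^ 3 := h6
    have h8 := hq.dvd_of_dvd_pow h7
    exact hq2 ((Nat.prime_dvd_prime_iff_eq hq Nat.prime_two).1 h8)
  have h1 : ⁅R, A⁆ = ⊥ := by
    rw [Subgroup.commutator_eq_bot_iff_le_centralizer]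
    exact le_centralizer_iff.1 hcen
  exact hR1 (hRA ▸ h1)

/-- the structure of the group -/
theorem structure_top {G : Type*} [Group G] [Finite G] {p : ℕ} [Fact p.Prime] (hp : p ≠ 2) {R A : Subgroup G} 
    (hA : A ≤ normalizer (R : Set G)) (hcop : (Nat.card A).Coprime p) (hAodd : Odd (Nat.card A)) (hRA : ⁅R, A⁆ = R) (h : Hyp p R) :
    O1 p R ⊔ centralizer (O1 p R : Set R) = ⊤ := by
  haveI hn : (Z1 p R).Normal := (ai_Z1 h).normal
  by_contra hne
  have hK : ∃ g, g ∉ K0 p R := by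
    by_contra hcon
    push Not at hcon
    apply hne
    rw [eq_top_iff]
    intro g _
    exact K0_le h (hcon g)
  have F := facts h hK
  have hm : ∀ (a : A) (x : R), x⁻¹ * TwoDimB.cj hA a x ∈ centralizer (EE p R : Set R) := by
    intro a
    refine RankTwoPD.main h hK _ ?_ (split hp h.hR hA hcop (ai_EE h).centralizer F.f4 a)
    exact Odd.of_dvd_nat hAodd ((orderOf_map_dvd _ _).trans (_root_.orderOf_dvd_natCard _))
  have h1 : R ≤ (centralizer (EE p R : Set R)).map R.subtype := by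
    conv_lhs => rw [← hRA]
    rw [Subgroup.commutator_le]
    intro r hr a ha
    refine ⟨_, hm ⟨a, ha⟩ (⟨r, hr⟩⁻¹), ?_⟩
    show ((⟨r, hr⟩ : R)⁻¹⁻¹ : R) * ((TwoDimB.cj hA ⟨a, ha⟩ (⟨r, hr⟩⁻¹) : R) : G) = _
    rw [TwoDimB.cj_apply, _root_.commutatorElement_def]
    show ((r⁻¹)⁻¹ : G) * (a * r⁻¹ * a⁻¹) = _
    group
  have h2 : O1 p R ≤ EE p R := by
    intro x hx
    refine F.f3 x ?_ ((mem_O1 h).1 hx)
    obtain ⟨y, hy, hyx⟩ := h1 x.2
    have : y = x := Subtype.ext hyx
    rw [← this]; exact hy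
  have h3 := Nat.card_le_card_of_injective _ (Subgroup.inclusion_injective h2)
  rw [F.cE, card_O1 h] at h3
  have := (Nat.pow_le_pow_iff_right (Fact.out : p.Prime).one_lt).1 h3
  omega

/-- Let G be a finite group, p an odd prime, R a nontrivial p-subgroup with no elementary abelian subgroup of order p ^ 3, and A a subgroup of odd order coprime to p normalizing R with [R, A] = R. Then 3 < p, and either R is abelian or R is generated by two elementwise-commuting subgroups R₁, R₂ with R₁ non-abelian of order p ^ 3 and exponent p, R₂ cyclic, and the elements of R₂ of order dividing p generating exactly [R₁, R₁]. -/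
theorem result {G : Type*} [Group G] [Finite G] (p : ℕ) [Fact p.Prime] (hp : p ≠ 2) (R A : Subgroup G) (hR : IsPGroup p R) (hR1 : R ≠ ⊥) (hr : Cfsg.PRankLE p 2 R)
    (hA : (A ≤ Subgroup.normalizer (R : Set G))) (hcop : (Nat.card A).Coprime p) (hAodd : Odd (Nat.card A)) (hRA : ⁅R, A⁆ = R) :
    3 < p ∧ (IsMulCommutative R ∨ ∃ R₁ R₂ : Subgroup G, R₁ ⊔ R₂ = R ∧ (∀ a ∈ R₁, ∀ b ∈ R₂, a * b = b * a) ∧
        ¬ IsMulCommutative R₁ ∧ Nat.card R₁ = p ^ 3 ∧ Monoid.exponent R₁ = p ∧ IsCyclic R₂ ∧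
        Subgroup.closure {x : G | x ∈ R₂ ∧ x ^ p = 1} = ⁅R₁, R₁⁆) := by
  have hpp : p.Prime := Fact.out
  have hp3 := gt_three hp hR hR1 hr hA hcop hAodd hRA
  refine ⟨hp3, ?_⟩
  by_cases hab : IsMulCommutative R
  · exact Or.inl hab
  right
  have h : Hyp p R := ⟨hp3, hR, hr, fun hm => hab (by
    have h1 := (S1447.result p hp R A hR hm hA hcop).1
    rwa [hRA] at h1)⟩
  have htop := structure_top hp hA hcop hAodd hRA h
  have hCZ : ∀ x ∈ centralizer (O1 p R : Set R), x ^ p = 1 → x ∈ Z1 p R := by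
    intro x hx hxp
    rw [mem_Z1]
    exact ⟨(mem_O1 h).2 hxp, fun y hy => mem_centralizer_iff.1 hx y hy⟩
  have hZC : ∀ x ∈ Z1 p R, x ∈ centralizer (O1 p R : Set R) := by
    intro x hx
    rw [mem_centralizer_iff]
    exact fun y hy => (mem_Z1.1 hx).2 y hy
  obtain ⟨x, hx, y, hy, hxy⟩ := O1_nc h
  refine ⟨(O1 p R).map R.subtype, (centralizer (O1 p R : Set R)).map R.subtype, ?_, ?_, ?_, ?_, ?_, ?_, ?_⟩
  · rw [← Subgroup.map_sup, htop, ← MonoidHom.range_eq_map, Subgroup.range_subtype]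
  · rintro _ ⟨a, ha, rfl⟩ _ ⟨b, hb, rfl⟩
    exact congrArg Subtype.val (mem_centralizer_iff.1 hb a ha)
  · intro hc
    rw [PUtil.isMulCommutative_iff] at hc
    exact hxy (Subtype.ext (hc _ ⟨x, hx, rfl⟩ _ ⟨y, hy, rfl⟩))
  · rw [Nat.card_congr ((O1 p R).equivMapOfInjective _ R.subtype_injective).symm.toEquiv, card_O1 h]
  · have h1 : Monoid.exponent ((O1 p R).map R.subtype) ∣ p := by
      apply Monoid.exponent_dvd_of_forall_pow_eq_one
      rintro ⟨_, a, ha, rfl⟩
      apply Subtype.ext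
      show ((a : G)) ^ p = 1
      exact congrArg Subtype.val ((mem_O1 h).1 ha)
    rcases (Nat.dvd_prime hpp).1 h1 with h2 | h2
    · exfalso
      rw [Monoid.exp_eq_one_iff] at h2
      apply hxy
      have h3 := Subsingleton.elim (⟨_, x, hx, rfl⟩ : (O1 p R).map R.subtype) ⟨_, y, hy, rfl⟩
      have h4 : x = y := Subtype.ext (congrArg (fun z : (O1 p R).map R.subtype => (z : G)) h3)
      rw [h4]
    · exact h2
  · have hcyc : IsCyclic (centralizer (O1 p R : Set R)) := by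
      refine PGrpC.isCyclic_of_unique hp (h.hR.to_subgroup _) (fun a b ha hb => ?_)
      have hpw : ∀ c : (centralizer (O1 p R : Set R)), orderOf c = p → (c : R) ^ p = 1 := by
        intro c hc
        have h5 : (c : R) ^ orderOf c = 1 := congrArg Subtype.val (pow_orderOf_eq_one c)
        rwa [hc] at h5
      have ha' : (a : R) ∈ Z1 p R := hCZ a a.2 (hpw a ha)
      have hb' : (b : R) ∈ Z1 p R := hCZ b b.2 (hpw b hb)
      have hb1 : (b : R) ≠ 1 := by
        intro hb1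
        have : b = 1 := Subtype.ext hb1
        rw [this, _root_.orderOf_one] at hb
        exact hpp.one_lt.ne hb
      obtain ⟨n, hn⟩ := mem_pow h hb' hb1 ha'
      refine ⟨(n : ℤ), ?_⟩
      apply Subtype.ext
      show ((b : R)) ^ (n : ℤ) = a
      rw [hn, zpow_natCast]
    exact isCyclic_of_surjective (((centralizer (O1 p R : Set R)).equivMapOfInjective _ R.subtype_injective).toMonoidHom) (MulEquiv.surjective _)
  · have hZ : ⁅O1 p R, O1 p R⁆ = Z1 p R := by
      apply le_antisymm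
      · rw [Subgroup.commutator_le]
        exact fun a ha b hb => comm_Z1 h ha hb
      · intro w hw
        obtain ⟨n, rfl⟩ := mem_pow h (comm_Z1 h hx hy) (fun e => hxy (_root_.commutatorElement_eq_one_iff_mul_comm.1 e)) hw
        exact pow_mem (commutator_mem_commutator hx hy) n
    rw [← Subgroup.map_commutator, hZ]
    apply le_antisymm
    · rw [closure_le]
      rintro _ ⟨⟨c, hc, rfl⟩, hcp⟩
      exact ⟨c, hCZ c hc (Subtype.ext hcp), rfl⟩
    · rintro _ ⟨z, hz, rfl⟩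
      apply Subgroup.subset_closure
      refine ⟨⟨z, hZC z hz, rfl⟩, ?_⟩
      exact congrArg Subtype.val ((mem_O1 h).1 (mem_Z1.1 hz).1)

end Cfsg.Agent.S1448
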