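import Cfsg.Statements.S1449
import Cfsg.Agent.H2.TwoDimB

set_option autoImplicit false
open Cfsg

namespace Cfsg.Agent.S1449

open Cfsg.Agent Cfsg.Agent.H2 Cfsg.Agent.H2.TwoDimB Subgroup
open scoped commutatorElement

/-- Let G be a finite group, p an odd prime, R a p-subgroup with no elementary abelian subgroup of order p ^ 3, and A a solvable subgroup of odd order normalizing R with A ∩ C_G(R) = 1. Then the derived subgroup [A, A] is a p-group. -/
theorem result {G : Type*} [Group G] [Finite G] (p : ℕ) [Fact p.Prime] (hp : p ≠ 2) (R A : Subgroup G) (hR : IsPGroup p R) (hr : Cfsg.PRankLE p 2 R)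
    (hA : (A ≤ Subgroup.normalizer (R : Set G))) (hAs : Group.IsSolvable A) (hAodd : Odd (Nat.card A)) (hfaith : A ⊓ Subgroup.centralizer (R : Set G) = ⊥) :
    IsPGroup p ↥⁅A, A⁆ := by
  have h1 : ∀ x ∈ commutator A, ∃ k : ℕ, x ^ p ^ k = 1 := by
    intro x hx
    obtain ⟨k, hk⟩ := TwoDimB.comm_pow hAs hAodd hp hR hr (cj hA) x hx
    refine ⟨k, ?_⟩
    rw [← map_pow, cj_eq_one] at hk
    apply Subtype.ext
    have h2 : ((x ^ p ^ k : A) : G) ∈ A ⊓ centralizer (R : Set G) := ⟨(x ^ p ^ k).2, hk⟩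
    rw [hfaith, mem_bot] at h2
    exact h2
  rintro ⟨x, hx⟩
  rw [← Subgroup.map_subtype_commutator] at hx
  obtain ⟨y, hy, rfl⟩ := hx
  obtain ⟨k, hk⟩ := h1 y hy
  refine ⟨k, Subtype.ext ?_⟩
  show (A.subtype y) ^ p ^ k = 1
  rw [← map_pow, hk, map_one]

end Cfsg.Agent.S1449
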