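import Cfsg.Statements.S1451
import Cfsg.Agent.H2.FitCommB

set_option autoImplicit false
open Cfsg

namespace Cfsg.Agent.S1451

open Cfsg.Agent Cfsg.Agent.H2 Cfsg.Agent.Lib Subgroup
open scoped commutatorElement

/-- Let G be a solvable group of odd order such that G, or its Fitting subgroup, has no elementary abelian subgroup of order q ^ 3 for any prime q. Then G' is nilpotent; for every Sylow subgroup S of G, every characteristic subgroup T of S with T ≤ [S, S] is normal in G; and for every prime p, G has a characteristic subgroup that is a Hall subgroup for the set of primes greater than p. -/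
theorem result {G : Type*} [Group G] [Finite G] [Group.IsSolvable G] (hodd : Odd (Nat.card G)) (hr : Cfsg.RankLE 2 G ∨ Cfsg.RankLE 2 (Cfsg.fittingSubgroup G)) :
    Group.IsNilpotent ↥(commutator G) ∧
      (∀ (q : ℕ) [Fact q.Prime] (S : Sylow q G) (T : Subgroup ↥(S : Subgroup G)), T.Characteristic → T.map (S : Subgroup G).subtype ≤ ⁅(S : Subgroup G), (S : Subgroup G)⁆ →
        (T.map (S : Subgroup G).subtype).Normal) ∧
      ∀ p : ℕ, ∃ N : Subgroup G, N.Characteristic ∧ Cfsg.IsPiHall {q | q.Prime ∧ p < q} N := by
  have hrF : Cfsg.RankLE 2 (Cfsg.fittingSubgroup G) := by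
    rcases hr with h | h
    · exact fun s hs => FitCommB.rank_inj (Subgroup.subtype _) (Subgroup.subtype_injective _) (h s hs)
    · exact h
  have hrc : ∀ s : ℕ, s.Prime → Cfsg.PRankLE s 2 (Cfsg.pCore s G) := by
    intro s hs
    haveI : Fact s.Prime := ⟨hs⟩
    exact FitCommB.rank_le (Cores.pCore_le_fitting s) (hrF s hs)
  have hF : commutator G ≤ Cfsg.fittingSubgroup G :=
    FitComm.main (D := commutator G) (fun s hs x hx => FitCommB.acts inferInstance hodd hs (hrc s hs) x hx)
  refine ⟨?_, fun q _ S T hT hT1 => FitCommB.char_normal hF q S T hT hT1, fun p => FitCommB.tower inferInstance hodd hrc hF p⟩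
  exact Cores.isNilpotent_of_le hF Cores.fitting_nilpotent

end Cfsg.Agent.S1451
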