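import Cfsg.Statements.S1454
import Cfsg.Agent.S1448
import Cfsg.Agent.H2.NarrowCore

set_option autoImplicit false
open Cfsg

namespace Cfsg.Agent.S1454

open Cfsg.Agent Cfsg.Agent.H2 Cfsg.Agent.Lib Cfsg.Agent.H2.RankTwoP Cfsg.Agent.H2.RankTwoPC Cfsg.Agent.H2.RankTwoPD Subgroup
open scoped commutatorElement

theorem core_of_comm {A : Type*} [Group A] [Finite A] {p : ℕ} [Fact p.Prime] (h : ∀ x ∈ commutator A, ∃ k : ℕ, x ^ p ^ k = 1) :
    commutator A ≤ Cfsg.pCore p A ∧ ((Cfsg.pCore p A).index).Coprime p := by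
  have hpp : p.Prime := Fact.out
  have h1 : commutator A ≤ Cfsg.pCore p A := by
    apply Cores.le_pCore (inferInstance : (commutator A).Normal)
    rintro ⟨x, hx⟩
    obtain ⟨k, hk⟩ := h x hx
    exact ⟨k, Subtype.ext hk⟩
  refine ⟨h1, ?_⟩
  obtain ⟨S⟩ : Nonempty (Sylow p A) := inferInstance
  have h5 : (S : Subgroup A).Normal := by
    refine ⟨fun s hs g => ?_⟩
    have h6 : ⁅g, s⁆ ∈ (S : Subgroup A) := Cores.pCore_le_sylow S (h1 (by
      rw [_root_.commutator_def]
      exact commutator_mem_commutator (mem_top _) (mem_top _)))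
    have h7 : g * s * g⁻¹ = ⁅g, s⁆ * s := by rw [_root_.commutatorElement_def]; group
    rw [h7]
    exact mul_mem h6 hs
  have h6 : Cfsg.pCore p A = S := le_antisymm (Cores.pCore_le_sylow S) (Cores.le_pCore h5 S.isPGroup')
  rw [h6, Nat.coprime_comm, hpp.coprime_iff_not_dvd]
  exact S.not_dvd_index

theorem cj_inj {G : Type*} [Group G] {R A : Subgroup G} (hA : A ≤ normalizer (R : Set G)) (hfaith : A ⊓ centralizer (R : Set G) = ⊥) {a : A}
    (h : TwoDimB.cj hA a = 1) : a = 1 := by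
  rw [TwoDimB.cj_eq_one] at h
  have h1 : (a : G) ∈ A ⊓ centralizer (R : Set G) := ⟨a.2, h⟩
  rw [hfaith, mem_bot] at h1
  exact Subtype.ext h1

theorem cyclic_C {R : Type*} [Group R] [Finite R] {p : ℕ} [Fact p.Prime] (h : Hyp p R) : IsCyclic (centralizer (O1 p R : Set R)) := by
  have hpp : p.Prime := Fact.out
  have hp : p ≠ 2 := by have := h.h3; omega
  have hCZ : ∀ x ∈ centralizer (O1 p R : Set R), x ^ p = 1 → x ∈ Z1 p R := by
    intro x hx hxp
    rw [mem_Z1]
    exact ⟨(mem_O1 h).2 hxp, fun y hy => mem_centralizer_iff.1 hx y hy⟩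
  refine PGrpC.isCyclic_of_unique hp (h.hR.to_subgroup _) (fun a b ha hb => ?_)
  have hpw : ∀ c : (centralizer (O1 p R : Set R)), orderOf c = p → (c : R) ^ p = 1 := by
    intro c hc
    have h5 : (c : R) ^ orderOf c = 1 := congrArg Subtype.val (pow_orderOf_eq_one c)
    rwa [hc] at h5
  have ha' : (a : R) ∈ Z1 p R := hCZ a a.2 (hpw a ha)
  have hb' : (b : R) ∈ Z1 p R := hCZ b b.2 (hpw b hb)
  have hb1 : (b : R) ≠ 1 := by
    intro hb1
    have : b = 1 := Subtype.ext hb1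
    rw [this, _root_.orderOf_one] at hb
    exact hpp.one_lt.ne hb
  obtain ⟨n, hn⟩ := mem_pow h hb' hb1 ha'
  refine ⟨(n : ℤ), ?_⟩
  apply Subtype.ext
  show ((b : R)) ^ (n : ℤ) = a
  rw [hn, zpow_natCast]

theorem fix_C {R : Type*} [Group R] [Finite R] {p : ℕ} [Fact p.Prime] (h : Hyp p R) {q : ℕ} (hq : q.Prime) (hqp : ¬ q ∣ p * (p - 1)) {ψ : MulAut R}
    (hψ : ψ ^ q = 1) : ∀ c ∈ centralizer (O1 p R : Set R), ψ c = c := by
  have hpp : p.Prime := Fact.out
  haveI := cyclic_C h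
  have hinv : ∀ x : zpowers ψ, ∀ e ∈ centralizer (O1 p R : Set R), (zpowers ψ).subtype x e ∈ centralizer (O1 p R : Set R) :=
    fun x e he => (ai_O1 h).centralizer x e he
  let f := MaschkeAb.restr (zpowers ψ).subtype (centralizer (O1 p R : Set R)) hinv ⟨ψ, mem_zpowers ψ⟩
  have hfq : f ^ q = 1 := by
    show (MaschkeAb.restr (zpowers ψ).subtype (centralizer (O1 p R : Set R)) hinv ⟨ψ, mem_zpowers ψ⟩) ^ q = 1
    rw [← map_pow]
    have : (⟨ψ, mem_zpowers ψ⟩ : zpowers ψ) ^ q = 1 := Subtype.ext hψ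
    rw [this, map_one]
  have hf : f = 1 := by
    by_contra hne
    haveI : Fact q.Prime := ⟨hq⟩
    have h1 := _root_.orderOf_eq_prime hfq hne
    have h2 := _root_.orderOf_dvd_natCard f
    rw [h1, IsCyclic.card_mulAut] at h2
    obtain ⟨m, hm⟩ := IsPGroup.iff_card.1 (h.hR.to_subgroup (centralizer (O1 p R : Set R)))
    rw [hm] at h2
    rcases Nat.eq_zero_or_pos m with h0 | h0
    · rw [h0, pow_zero, Nat.totient_one] at h2
      exact hq.one_lt.ne' (Nat.dvd_one.1 h2)
    · rw [Nat.totient_prime_pow hpp h0] at h2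
      rcases hq.dvd_mul.1 h2 with h3 | h3
      · exact hqp (Dvd.dvd.mul_right (hq.dvd_of_dvd_pow h3) _)
      · exact hqp (Dvd.dvd.mul_left h3 _)
  intro c hc
  have h1 := congrArg (fun g : MulAut (centralizer (O1 p R : Set R)) => ((g ⟨c, hc⟩ : centralizer (O1 p R : Set R)) : R)) hf
  exact h1

/-- Let G be a finite group, p an odd prime, R a narrow p-subgroup and A a solvable subgroup of odd order normalizing R with A ∩ C_G(R) = 1. Then [A, A] ≤ O_p(A) and the index of O_p(A) in A is coprime to p; if R has an elementary abelian subgroup of order p ^ 3 then the order of every element of A of order coprime to p divides p − 1; and if the order of A is a prime not dividing p(p − 1), then 2·#A divides p + 1, and if in addition [R, A] = R and R is non-abelian then #R = p ^ 3. -/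
theorem result {G : Type*} [Group G] [Finite G] (p : ℕ) [Fact p.Prime] (hp : p ≠ 2) (R A : Subgroup G) (hR : IsPGroup p R) (hRn : Cfsg.IsNarrow p R)
    (hA : (A ≤ Subgroup.normalizer (R : Set G))) (hAs : Group.IsSolvable A) (hAodd : Odd (Nat.card A)) (hfaith : A ⊓ Subgroup.centralizer (R : Set G) = ⊥) :
    (commutator ↥A ≤ Cfsg.pCore p ↥A ∧ ((Cfsg.pCore p ↥A).index).Coprime p) ∧
      (¬ Cfsg.PRankLE p 2 R → ∀ a ∈ A, (orderOf a).Coprime p → orderOf a ∣ p - 1) ∧
      ((Nat.card A).Prime → ¬ Nat.card A ∣ p * (p - 1) →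
        2 * Nat.card A ∣ p + 1 ∧ (⁅R, A⁆ = R → ¬ IsMulCommutative R → Nat.card R = p ^ 3)) := by
  have hpp : p.Prime := Fact.out
  have hinj : ∀ a : A, TwoDimB.cj hA a = 1 → a = 1 := fun a h => cj_inj hA hfaith h
  have hcomm : ∀ x ∈ commutator A, ∃ k : ℕ, x ^ p ^ k = 1 := by
    intro x hx
    have h1 : ∃ k : ℕ, (TwoDimB.cj hA x) ^ p ^ k = 1 := by
      by_cases hrk : Cfsg.PRankLE p 2 R
      · exact TwoDimB.comm_pow hAs hAodd hp hR hrk (TwoDimB.cj hA) x hx
      · obtain ⟨E, hE1, hE2, hE3⟩ := NarrowCore.of_narrow hR hrk hRn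
        exact (NarrowAct.narrow_act hp hR hrk E hE1 hE2 hE3 (TwoDimB.cj hA)).1 x hx
    obtain ⟨k, hk⟩ := h1
    exact ⟨k, hinj _ (by rw [map_pow]; exact hk)⟩
  have h2 : ¬ Cfsg.PRankLE p 2 R → ∀ a ∈ A, (orderOf a).Coprime p → orderOf a ∣ p - 1 := by
    intro hrk a ha hcop
    obtain ⟨E, hE1, hE2, hE3⟩ := NarrowCore.of_narrow hR hrk hRn
    obtain ⟨k, hk⟩ := (NarrowAct.narrow_act hp hR hrk E hE1 hE2 hE3 (TwoDimB.cj hA)).2 ⟨a, ha⟩
    rw [← map_pow] at hk
    have h3 : a ^ ((p - 1) * p ^ k) = 1 := congrArg Subtype.val (hinj _ hk)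
    have h4 := _root_.orderOf_dvd_of_pow_eq_one h3
    exact (Nat.Coprime.pow_right k hcop).dvd_of_dvd_mul_right h4
  refine ⟨core_of_comm hcomm, h2, ?_⟩
  intro hq hqp
  have hqA : Nat.card A ≠ p := by
    intro h; apply hqp; rw [h]; exact dvd_mul_right _ _
  have hcop : (Nat.card A).Coprime p := (Nat.coprime_primes hq hpp).2 hqA
  haveI : Fact (Nat.card A).Prime := ⟨hq⟩
  obtain ⟨a, ha⟩ := exists_prime_orderOf_dvd_card' (G := A) (Nat.card A) dvd_rfl
  have hrk : Cfsg.PRankLE p 2 R := by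
    by_contra hrk
    have h3 := h2 hrk a a.2 (by rw [Subgroup.orderOf_coe, ha]; exact hcop)
    rw [Subgroup.orderOf_coe, ha] at h3
    exact hqp (Dvd.dvd.mul_left h3 _)
  have hne2 : Nat.card A ≠ 2 := by
    intro h
    rw [h] at hAodd
    exact absurd hAodd (by decide)
  have hpodd : Odd p := hpp.odd_of_ne_two hp
  constructor
  · have h3 : orderOf (TwoDimB.cj hA a) = Nat.card A := by
      have h4 : orderOf (TwoDimB.cj hA a) ∣ Nat.card A := by
        have := orderOf_map_dvd (TwoDimB.cj hA) a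
        rwa [ha] at this
      rcases (Nat.dvd_prime hq).1 h4 with h5 | h5
      · exfalso
        rw [_root_.orderOf_eq_one_iff] at h5
        rw [hinj a h5, _root_.orderOf_one] at ha
        exact hq.one_lt.ne ha
      · exact h5
    have h4 := TwoDimB.prime_dvd hp hR hrk _ hq hqA h3
    have h5 : Nat.card A ∣ p + 1 := by
      rcases hq.dvd_mul.1 h4 with h6 | h6
      · exact absurd (Dvd.dvd.mul_left h6 p) hqp
      · exact h6
    refine Nat.Coprime.mul_dvd_of_dvd_of_dvd ?_ ?_ h5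
    · exact (Nat.coprime_primes Nat.prime_two hq).2 (Ne.symm hne2)
    · obtain ⟨t, ht⟩ := hpodd
      exact ⟨t + 1, by rw [ht]; ring⟩
  · intro hRA hnab
    have hR1 : R ≠ ⊥ := by
      intro h
      apply hnab
      rw [PUtil.isMulCommutative_iff]
      intro x hx y hy
      rw [h, mem_bot] at hx hy
      rw [hx, hy]
    have hp3 := S1448.gt_three hp hR hR1 hrk hA hcop hAodd hRA
    have h : Hyp p R := ⟨hp3, hR, hrk, fun hm => hnab (by
      have h1 := (S1447.result p hp R A hR hm hA hcop).1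
      rwa [hRA] at h1)⟩
    have htop := S1448.structure_top hp hA hcop hAodd hRA h
    haveI hOn : (O1 p R).Normal := (ai_O1 h).normal
    have h3 : R ≤ (O1 p R).map R.subtype := by
      conv_lhs => rw [← hRA]
      rw [Subgroup.commutator_le]
      intro r hr b hb
      have hψ : (TwoDimB.cj hA ⟨b, hb⟩) ^ Nat.card A = 1 := by
        rw [← map_pow, pow_card_eq_one', map_one]
      have hr' : (⟨r, hr⟩ : R) ∈ O1 p R ⊔ centralizer (O1 p R : Set R) := by rw [htop]; trivial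
      obtain ⟨x, hx, c, hc, hxc⟩ := Subgroup.mem_sup_of_normal_left.1 hr'
      refine ⟨x * (TwoDimB.cj hA ⟨b, hb⟩ x)⁻¹, mul_mem hx (inv_mem (ai_O1 h _ x hx)), ?_⟩
      have h4 := fix_C h hq hqp hψ c hc
      have h5 : x * (TwoDimB.cj hA ⟨b, hb⟩ x)⁻¹ = (⟨r, hr⟩ : R) * (TwoDimB.cj hA ⟨b, hb⟩ ⟨r, hr⟩)⁻¹ := by
        rw [← hxc, map_mul, h4]; group
      rw [h5]
      show r * (((TwoDimB.cj hA ⟨b, hb⟩ ⟨r, hr⟩ : R) : G))⁻¹ = _
      rw [TwoDimB.cj_apply, _root_.commutatorElement_def]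
      show r * (b * r * b⁻¹)⁻¹ = _
      group
    have h4 : R = (O1 p R).map R.subtype := le_antisymm h3 (map_subtype_le _)
    have h5 : Nat.card ((O1 p R).map R.subtype) = p ^ 3 := by
      rw [Nat.card_congr ((O1 p R).equivMapOfInjective _ R.subtype_injective).symm.toEquiv, card_O1 h]
    calc Nat.card R = Nat.card ((O1 p R).map R.subtype) := congrArg (fun H : Subgroup G => Nat.card H) h4
      _ = p ^ 3 := h5

end Cfsg.Agent.S1454
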