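import Cfsg.Statements.S1455
import Cfsg.Agent.H2.NarrowCore

set_option autoImplicit false
open Cfsg

namespace Cfsg.Agent.S1455

open Cfsg.Agent Cfsg.Agent.H2 Cfsg.Agent.Lib Subgroup
open scoped commutatorElement

theorem rank_of_sylow {G : Type*} [Group G] [Finite G] {p k : ℕ} [Fact p.Prime] (S : Sylow p G) (h : Cfsg.PRankLE p k ↥(S : Subgroup G)) :
    Cfsg.PRankLE p k G := by
  intro A hA hA1
  have hAp : IsPGroup p A := fun x => ⟨1, Subtype.ext (by rw [pow_one]; exact hA1 x x.2)⟩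
  obtain ⟨Q, hQ⟩ := hAp.exists_le_sylow
  have h1 : Cfsg.PRankLE p k ↥(Q : Subgroup G) := FitCommB.rank_inj (Sylow.equiv Q S).toMonoidHom (Sylow.equiv Q S).injective h
  have h2 := h1 (A.subgroupOf (Q : Subgroup G)) (PUtil.isMulCommutative_iff.2 fun x hx y hy => Subtype.ext
    (PUtil.isMulCommutative_iff.1 hA x hx y hy)) (fun a ha => Subtype.ext (hA1 a ha))
  rwa [Nat.card_congr (Subgroup.subgroupOfEquivOfLe hQ).toEquiv] at h2

/-- Let G be a solvable group of odd order, p a prime dividing its order, and S a Sylow p-subgroup of G that is narrow; if S has an elementary abelian subgroup of order p ^ 3 assume also G = O_{p',p,p'}(G). Then every prime dividing the index of O_{p'}(G) is at most p; if p = 3 or p is the smallest prime divisor of #G then G has a normal p-complement; G' has a normal p-complement; every subgroup of G' of order coprime to p lies in O_{p'}(G'); and G' ≤ O_{p',p}(G) with the index of O_{p',p}(G) coprime to p. -/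
theorem result {G : Type*} [Group G] [Finite G] [Group.IsSolvable G] (hodd : Odd (Nat.card G)) (p : ℕ) [Fact p.Prime] (hpG : p ∣ Nat.card G) (S : Sylow p G) (hS : Cfsg.IsNarrow p ↥(S : Subgroup G))
    (hpl : ¬ Cfsg.PRankLE p 2 ↥(S : Subgroup G) → Cfsg.PLengthLE p 1 G) :
    (∀ q : ℕ, q.Prime → q ∣ (Cfsg.pPrimeCore p G).index → q ≤ p) ∧
      ((p = 3 ∨ ∀ q : ℕ, q.Prime → q ∣ Nat.card G → p ≤ q) → Cfsg.HasNormalPComplement p G) ∧
      Cfsg.HasNormalPComplement p ↥(commutator G) ∧
      (∀ L : Subgroup ↥(commutator G), (Nat.card L).Coprime p → L ≤ Cfsg.pPrimeCore p ↥(commutator G)) ∧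
      commutator G ≤ Cfsg.pPrimePCore p G ∧ ((Cfsg.pPrimePCore p G).index).Coprime p := by
  have hp : p ≠ 2 := by
    rintro rfl
    obtain ⟨k, hk⟩ := hodd
    omega
  haveI hNn : (Cfsg.pPrimeCore p G).Normal := Cores.pPrimeCore_normal p
  by_cases hrk : Cfsg.PRankLE p 2 ↥(S : Subgroup G)
  · obtain ⟨h1, h2⟩ := R2Core.lift (p := p) (G := G) inferInstance hodd hp
      (R2Core.rank_sub (R2Core.rank_quot (rank_of_sylow S hrk) _ (Cores.pPrimeCore_coprime p)) _)
    exact R2Core.conseq hodd h1 h2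
  · obtain ⟨e⟩ := NarrowCore.exists_equiv (hpl hrk) S
    obtain ⟨E, hE1, hE2, hE3⟩ := NarrowCore.of_narrow S.isPGroup' hrk hS
    obtain ⟨h1, h2⟩ := NarrowCore.max_transfer e hE1 hE3
    haveI hn : (Cfsg.pCore p (G ⧸ Cfsg.pPrimeCore p G)).Normal := Cores.pCore_normal p
    have h3 := NarrowAct.narrow_act hp (Cores.pCore_isPGroup (G := G ⧸ Cfsg.pPrimeCore p G) p)
      (fun h => hrk (FitCommB.rank_inj e.toMonoidHom e.injective h)) (E.map e.toMonoidHom) h1
      (by rw [Nat.card_congr (E.equivMapOfInjective _ e.injective).symm.toEquiv, hE2]) h2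
      (MulAut.conjNormal (H := Cfsg.pCore p (G ⧸ Cfsg.pPrimeCore p G)))
    have h4 := NarrowCore.info_of_act (p := p) (Cores.pPrimeCore_quotient_pPrimeCore p) h3
    obtain ⟨h5, h6⟩ := NarrowCore.lift' h4
    exact R2Core.conseq hodd h5 h6

end Cfsg.Agent.S1455
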