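import Cfsg.Statements.S1456
import Cfsg.Agent.H2.FitCommB
import Cfsg.Agent.H2.NarrowAct

set_option autoImplicit false
open Cfsg

namespace Cfsg.Agent.S1456

open Cfsg.Agent Cfsg.Agent.H2 Cfsg.Agent.Lib Subgroup
open scoped commutatorElement

theorem rank_apply {p : ℕ} {G : Type*} [Group G] {K B : Subgroup G} (h : Cfsg.PRankLE p 2 K) (hBK : B ≤ K)
    (hB1 : ∀ x ∈ B, ∀ y ∈ B, x * y = y * x) (hB2 : ∀ x ∈ B, x ^ p = 1) : Nat.card B ≤ p ^ 2 := by
  have h1 := h (B.subgroupOf K) (PUtil.isMulCommutative_iff.2 fun x hx y hy => Subtype.ext (hB1 x hx y hy))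
    (fun a ha => Subtype.ext (hB2 a ha))
  rwa [Nat.card_congr (Subgroup.subgroupOfEquivOfLe hBK).toEquiv] at h1

theorem exists_max {R : Type*} [Group R] [Finite R] {p : ℕ} [Fact p.Prime] (hR : IsPGroup p R) (hr : ¬ Cfsg.PRankLE p 2 R)
    (E : Subgroup R) (hE1 : ∀ x ∈ E, ∀ y ∈ E, x * y = y * x) (hE2 : ∀ x ∈ E, x ^ p = 1)
    (hc : ∀ B : Subgroup R, (∀ x ∈ B, ∀ y ∈ B, x * y = y * x) → (∀ x ∈ B, x ^ p = 1) → (∀ b ∈ B, ∀ e ∈ E, b * e = e * b) → Nat.card B ≤ p ^ 2) :
    ∃ E' : Subgroup R, Cfsg.IsElementaryAbelian p E' ∧ Nat.card E' = p ^ 2 ∧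
      ∀ B : Subgroup R, Cfsg.IsElementaryAbelian p B → E' ≤ B → B = E' := by
  have hpp : p.Prime := Fact.out
  haveI hnil : Group.IsNilpotent R := hR.isNilpotent
  have hRne : (⊤ : Subgroup R) ≠ ⊥ := by
    intro h
    apply hr
    intro A _ _
    have : A = ⊥ := le_bot_iff.1 (h ▸ le_top)
    rw [this, card_bot]
    exact Nat.one_le_pow _ _ hpp.pos
  have hZne : center R ≠ ⊥ := by
    have := Nilp.normal_inf_center_ne_bot (⊤ : Subgroup R) hRne
    rwa [top_inf_eq] at this
  obtain ⟨z, hz, hzo⟩ := PUtil.exists_orderOf_prime hpp hZne (hR.to_subgroup _)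
  have hzp : z ^ p = 1 := by rw [← hzo]; exact pow_orderOf_eq_one z
  have hzc : ∀ (i : ℤ) (e : R), z ^ i * e = e * z ^ i := by
    intro i e
    exact (((show Commute e z from mem_center_iff.1 hz e).zpow_right i).eq).symm
  have h := RankThree.ea_sup (p := p) (A := E) (B := zpowers z) hE1 hE2 (by
      rintro _ ⟨i, rfl⟩ _ ⟨j, rfl⟩
      exact hzc i _) (by
      rintro _ ⟨i, rfl⟩
      show (z ^ i) ^ p = 1
      rw [← zpow_natCast, ← zpow_mul, mul_comm, zpow_mul, zpow_natCast, hzp, one_zpow]) (by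
      rintro e he _ ⟨i, rfl⟩
      exact (hzc i e).symm)
  have hEc : ∀ b ∈ E ⊔ zpowers z, ∀ e ∈ E, b * e = e * b := fun b hb e he => h.1 b hb e (le_sup_left (a := E) he)
  have hle := hc _ h.1 h.2 hEc
  have hEp : IsPGroup p (E ⊔ zpowers z : Subgroup R) := hR.to_subgroup _
  obtain ⟨i, hi⟩ := IsPGroup.iff_card.1 hEp
  have hi2 : i ≤ 2 := by
    rw [hi] at hle
    exact (Nat.pow_le_pow_iff_right hpp.one_lt).1 hle
  have hii : i = 2 := by
    by_contra hne
    have h1 : zpowers z = E ⊔ zpowers z := by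
      apply Subgroup.eq_of_le_of_card_ge le_sup_right
      rw [hi, Nat.card_zpowers, hzo]
      calc p ^ i ≤ p ^ 1 := Nat.pow_le_pow_right hpp.pos (by omega)
        _ = p := pow_one p
    apply hr
    intro A hA hA1
    refine hc A (PUtil.isMulCommutative_iff.1 hA) hA1 (fun b _ e he => ?_)
    have h2 : e ∈ zpowers z := by rw [h1]; exact le_sup_left (a := E) he
    obtain ⟨j, rfl⟩ := h2
    exact (hzc j b).symm
  rw [hii] at hi
  refine ⟨_, ThompsonJ.ea_iff.2 h, hi, fun B hB hEB => ?_⟩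
  obtain ⟨hB1, hB2⟩ := ThompsonJ.ea_iff.1 hB
  have h1 := hc B hB1 hB2 (fun b hb e he => hB1 b hb e (hEB (le_sup_left (a := E) he)))
  exact (Subgroup.eq_of_le_of_card_ge hEB (by rw [hi]; exact h1)).symm

/-- Let G be a solvable group of odd order, p a prime, and E an elementary abelian p-subgroup of the Fitting subgroup F(G) such that F(G) ∩ C_G(E) has no elementary abelian subgroup of order q ^ 3 for any prime q. Then the derived subgroup of G is contained in F(G). -/
theorem result {G : Type*} [Group G] [Finite G] [Group.IsSolvable G] (hodd : Odd (Nat.card G)) (p : ℕ) [Fact p.Prime] (E : Subgroup G) (hE : E ≤ Cfsg.fittingSubgroup G) (hEe : Cfsg.IsElementaryAbelian p E)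
    (hr : Cfsg.RankLE 2 ↥(Cfsg.fittingSubgroup G ⊓ Subgroup.centralizer (E : Set G))) :
    commutator G ≤ Cfsg.fittingSubgroup G := by
  have hpp : p.Prime := Fact.out
  have hEO : E ≤ Cfsg.pCore p G := fun e he => FitComm.mem_pCore_of_mem_fit (hE he) (k := 1) (by rw [pow_one]; exact hEe.2 e he)
  haveI hOn := Cores.pCore_normal (G := G) p
  apply FitComm.main (D := commutator G)
  intro s hs x hx
  haveI : Fact s.Prime := ⟨hs⟩
  by_cases hsp : s = p
  · subst hsp
    by_cases hrk : Cfsg.PRankLE s 2 (Cfsg.pCore s G)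
    · exact FitCommB.acts inferInstance hodd hs hrk x hx
    · have hs2 : s ≠ 2 := by
        rintro rfl
        apply hrk
        intro A _ _
        have h1 := Subgroup.card_subgroup_dvd_card A
        have h2 : Nat.card (Cfsg.pCore 2 G) = 1 := by rw [FitCommB.core_two hodd, card_bot]
        rw [h2, Nat.dvd_one] at h1
        rw [h1]; norm_num
      have hRp := Cores.pCore_isPGroup (G := G) s
      obtain ⟨hE1, hE2⟩ := ThompsonJ.ea_iff.1 hEe
      obtain ⟨E', h1, h2, h3⟩ := exists_max hRp hrk (E.subgroupOf (Cfsg.pCore s G))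
        (fun x hx y hy => Subtype.ext (hE1 x hx y hy)) (fun x hx => Subtype.ext (hE2 x hx)) (by
          intro B hB1 hB2 hB3
          have h4 := rank_apply (hr s hs) (B := B.map (Cfsg.pCore s G).subtype) (by
            rintro _ ⟨b, hb, rfl⟩
            refine ⟨Cores.pCore_le_fitting s b.2, ?_⟩
            refine mem_centralizer_iff.2 ?_
            intro e he
            exact (congrArg Subtype.val (hB3 b hb ⟨e, hEO he⟩ he)).symm) (by
            rintro _ ⟨x, hx, rfl⟩ _ ⟨y, hy, rfl⟩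
            exact congrArg Subtype.val (hB1 x hx y hy)) (by
            rintro _ ⟨x, hx, rfl⟩
            exact congrArg Subtype.val (hB2 x hx))
          rwa [Nat.card_congr (B.equivMapOfInjective _ (Subgroup.subtype_injective _)).symm.toEquiv] at h4)
      obtain ⟨k, hk⟩ := (NarrowAct.narrow_act hs2 hRp hrk E' h1 h2 h3 (MulAut.conjNormal (H := Cfsg.pCore s G))).1 x hx
      refine ⟨k, ?_⟩
      rw [← map_pow, FitCommB.conj_one] at hk
      exact hk
  · have hle : Cfsg.pCore s G ≤ Cfsg.fittingSubgroup G ⊓ centralizer (E : Set G) := by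
      refine le_inf (Cores.pCore_le_fitting s) ?_
      haveI := Cores.pCore_normal (G := G) s
      have h4 : ⁅Cfsg.pCore s G, Cfsg.pCore p G⁆ ≤ Cfsg.pCore s G ⊓ Cfsg.pCore p G := Subgroup.commutator_le_inf _ _
      have h5 : Cfsg.pCore s G ⊓ Cfsg.pCore p G = ⊥ :=
        (IsPGroup.disjoint_of_ne s p hsp _ _ (Cores.pCore_isPGroup s) (Cores.pCore_isPGroup p)).eq_bot
      rw [h5, le_bot_iff, commutator_eq_bot_iff_le_centralizer] at h4
      exact h4.trans (centralizer_le hEO)
    exact FitCommB.acts inferInstance hodd hs (FitCommB.rank_le hle (hr s hs)) x hx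

end Cfsg.Agent.S1456
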