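import Cfsg.Statements.S1457
import Cfsg.Agent.H2.OddStabB

set_option autoImplicit false
open Cfsg

namespace Cfsg.Agent.S1457

open Subgroup Cfsg.Agent.Lib Cfsg.Agent.H2.OddStab Cfsg.Agent.H2.OddStabB

/-- Let G be a solvable group of odd order, p a prime, S a Sylow p-subgroup of G and A an abelian subgroup of S normal in S. Then A ≤ O_{p',p}(G). -/
theorem result {G : Type*} [Group G] [Finite G] [Group.IsSolvable G] (hodd : Odd (Nat.card G)) (p : ℕ) [Fact p.Prime] (S : Sylow p G) (A : Subgroup G) (hA : A ≤ (S : Subgroup G)) (hAc : IsMulCommutative A)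
    (hAn : (S : Subgroup G) ≤ Subgroup.normalizer (A : Set G)) :
    A ≤ Cfsg.pPrimePCore p G := by
  have hc : ∀ x ∈ A, ∀ y ∈ A, x * y = y * x := fun x hx y hy =>
    congrArg Subtype.val (hAc.is_comm.comm (⟨x, hx⟩ : A) ⟨y, hy⟩)
  by_cases hp : p = 2
  · have h1 : (S : Subgroup G) = ⊥ := by
      obtain ⟨n, hn⟩ := IsPGroup.iff_card.1 S.2
      rcases n with _ | n
      · rw [pow_zero] at hn
        exact Subgroup.card_eq_one.1 hn
      · exfalso
        have h2 : 2 ∣ Nat.card G := by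
          have h3 : 2 ∣ Nat.card (S : Subgroup G) := by
            rw [hn, hp]; exact dvd_pow_self 2 (by omega)
          exact h3.trans (Subgroup.card_subgroup_dvd_card _)
        obtain ⟨k, hk⟩ := hodd
        omega
    rw [h1, le_bot_iff] at hA
    rw [hA]; exact bot_le
  haveI hOn : (Cfsg.pPrimeCore p G).Normal := Cores.pPrimeCore_normal p
  have hsurj := QuotientGroup.mk'_surjective (Cfsg.pPrimeCore p G)
  have hs : Group.IsSolvable (G ⧸ Cfsg.pPrimeCore p G) := inferInstance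
  show A ≤ (Cfsg.pCore p (G ⧸ Cfsg.pPrimeCore p G)).comap (QuotientGroup.mk' (Cfsg.pPrimeCore p G))
  rw [← Subgroup.map_le_iff_le_comap]
  apply mem_core hs (Cores.pPrimeCore_quotient_pPrimeCore p) hp (odd_quot hodd _)
  · rintro _ ⟨x, hx, rfl⟩ _ ⟨y, hy, rfl⟩
    rw [← map_mul, hc x hx y hy, map_mul]
  · have h1 := Cores.pCore_le_sylow (S.mapSurjective hsurj)
    rw [Sylow.coe_mapSurjective] at h1
    refine h1.trans ?_
    rintro _ ⟨s, hs, rfl⟩
    rw [mem_normalizer_iff]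
    have key : ∀ s ∈ S, ∀ y ∈ A.map (QuotientGroup.mk' (Cfsg.pPrimeCore p G)),
        (QuotientGroup.mk' (Cfsg.pPrimeCore p G)) s * y * ((QuotientGroup.mk' (Cfsg.pPrimeCore p G)) s)⁻¹ ∈ A.map (QuotientGroup.mk' (Cfsg.pPrimeCore p G)) := by
      rintro s hs _ ⟨a, ha, rfl⟩
      exact ⟨s * a * s⁻¹, (mem_normalizer_iff.1 (hAn hs) a).1 ha, by simp⟩
    intro y
    refine ⟨key s hs y, fun h => ?_⟩
    have h2 := key s⁻¹ (inv_mem hs) _ h
    rw [map_inv] at h2
    have e : ((QuotientGroup.mk' (Cfsg.pPrimeCore p G)) s)⁻¹ * ((QuotientGroup.mk' (Cfsg.pPrimeCore p G)) s * y * ((QuotientGroup.mk' (Cfsg.pPrimeCore p G)) s)⁻¹) * (((QuotientGroup.mk' (Cfsg.pPrimeCore p G)) s)⁻¹)⁻¹ = y := by group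
    rwa [e] at h2

end Cfsg.Agent.S1457
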