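import Cfsg.Statements.S1458
import Cfsg.Agent.H2.OddStabB

set_option autoImplicit false
open Cfsg

namespace Cfsg.Agent.S1458

open Subgroup Cfsg.Agent.Lib Cfsg.Agent.H2.OddStab Cfsg.Agent.H2.OddStabB

/-- Let G be a solvable group of odd order, p a prime and S a Sylow p-subgroup of G. Then the subgroup generated by the centre of the Thompson subgroup of S and O_{p'}(G) is normal in G. -/
theorem result {G : Type*} [Group G] [Finite G] [Group.IsSolvable G] (hodd : Odd (Nat.card G)) (p : ℕ) [Fact p.Prime] (S : Sylow p G) :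
    (Cfsg.centerThompsonOf p (S : Subgroup G) ⊔ Cfsg.pPrimeCore p G).Normal := by
  haveI hOn : (Cfsg.pPrimeCore p G).Normal := Cores.pPrimeCore_normal p
  by_cases hp : p = 2
  · have h1 : (S : Subgroup G) = ⊥ := by
      obtain ⟨n, hn⟩ := IsPGroup.iff_card.1 S.2
      rcases n with _ | n
      · rw [pow_zero] at hn
        exact Subgroup.card_eq_one.1 hn
      · exfalso
        have h2 : 2 ∣ Nat.card G := by
          have h3 : 2 ∣ Nat.card (S : Subgroup G) := by
            rw [hn, hp]; exact dvd_pow_self 2 (by omega)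
          exact h3.trans (Subgroup.card_subgroup_dvd_card _)
        obtain ⟨k, hk⟩ := hodd
        omega
    have h2 : Cfsg.centerThompsonOf p (S : Subgroup G) = ⊥ := by
      rw [eq_bot_iff, ← h1]
      exact ZJe.Zc_le p _
    rw [h2, bot_sup_eq]
    exact hOn
  have hsurj := QuotientGroup.mk'_surjective (Cfsg.pPrimeCore p G)
  have hs : Group.IsSolvable (G ⧸ Cfsg.pPrimeCore p G) := inferInstance
  have hO := Cores.pPrimeCore_quotient_pPrimeCore (G := G) p
  have hinj : ∀ x ∈ (S : Subgroup G), (QuotientGroup.mk' (Cfsg.pPrimeCore p G)) x = 1 → x = 1 := by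
    intro x hx h1
    have h2 : x ∈ Cfsg.pPrimeCore p G := (QuotientGroup.eq_one_iff _).1 h1
    have h3 : orderOf x ∣ Nat.card (S : Subgroup G) := Subgroup.orderOf_dvd_natCard _ hx
    have h4 : orderOf x ∣ Nat.card (Cfsg.pPrimeCore p G) := Subgroup.orderOf_dvd_natCard _ h2
    obtain ⟨n, hn⟩ := IsPGroup.iff_card.1 S.2
    rw [hn] at h3
    have h5 := Cores.pPrimeCore_coprime (G := G) p
    have h6 : Nat.Coprime (p ^ n) (Nat.card (Cfsg.pPrimeCore p G)) := Nat.Coprime.pow_left n h5.symm
    have h7 := Nat.dvd_gcd h3 h4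
    rw [h6] at h7
    exact orderOf_eq_one_iff.1 (Nat.dvd_one.1 h7)
  have h1 := Zc_map_of_inj' (p := p) (QuotientGroup.mk' (Cfsg.pPrimeCore p G)) (S : Subgroup G) hinj
  have h2 : (Cfsg.centerThompsonOf p ((S.mapSurjective hsurj : Sylow p (G ⧸ Cfsg.pPrimeCore p G)) : Subgroup (G ⧸ Cfsg.pPrimeCore p G))).Normal :=
    ZJe.zj_normal hp _ (cpc hs hO) (fun P _ hP a ha => stable_normal (stable_of_odd hp (odd_quot hodd _)) P hP ha)
  rw [Sylow.coe_mapSurjective, ← h1] at h2
  have h3 := Subgroup.comap_map_eq (QuotientGroup.mk' (Cfsg.pPrimeCore p G)) (Cfsg.centerThompsonOf p (S : Subgroup G))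
  rw [QuotientGroup.ker_mk'] at h3
  rw [← h3]
  exact h2.comap _

end Cfsg.Agent.S1458
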