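import Cfsg.Statements.S1459
import Cfsg.Agent.Lib.Coprime
import Cfsg.Agent.Lib.CoprimeB
import Cfsg.Agent.Lib.Cores
import Cfsg.Agent.Lib.Nilp
import Cfsg.Agent.H2.PUtil

set_option autoImplicit false
open Cfsg

namespace Cfsg.Agent.S1459

open scoped commutatorElement

theorem comm_id {X : Type*} [Group X] {a b c d : X} (h6 : Commute a b) (h5 : Commute b c) (h8 : Commute a d) (h7 : Commute c d) :
    ⁅a * b, c * d⁆ = ⁅a, c⁆ * ⁅b, d⁆ := by
  simp only [_root_.commutatorElement_def]
  have s1 : (a * b) * (c * d) = (a * c) * (b * d) := by rw [mul_assoc, ← mul_assoc b, h5.eq]; simp only [mul_assoc]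
  have s2 : (a * b)⁻¹ = a⁻¹ * b⁻¹ := by rw [h6.eq, mul_inv_rev]
  have s3 : (c * d)⁻¹ = c⁻¹ * d⁻¹ := by rw [h7.eq, mul_inv_rev]
  rw [s1, s2, s3]
  have c1 : Commute (b * d) a⁻¹ := (h6.symm.mul_left h8.symm).inv_right
  have c2 : Commute (b * d * b⁻¹) c⁻¹ := ((h5.mul_left h7.symm).mul_left h5.inv_left).inv_right
  calc (a * c) * (b * d) * (a⁻¹ * b⁻¹) * (c⁻¹ * d⁻¹) = a * c * ((b * d) * a⁻¹) * b⁻¹ * c⁻¹ * d⁻¹ := by group
    _ = a * c * (a⁻¹ * (b * d)) * b⁻¹ * c⁻¹ * d⁻¹ := by rw [c1.eq]
    _ = a * c * a⁻¹ * ((b * d * b⁻¹) * c⁻¹) * d⁻¹ := by group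
    _ = a * c * a⁻¹ * (c⁻¹ * (b * d * b⁻¹)) * d⁻¹ := by rw [c2.eq]
    _ = _ := by group

open Subgroup in
theorem sup_comm_le {X : Type*} [Group X] {A B : Subgroup X} [A.Normal] (h : B ≤ centralizer (A : Set X)) :
    ⁅A ⊔ B, A ⊔ B⁆ ≤ ⁅A, A⁆ ⊔ ⁅B, B⁆ := by
  have hab : ∀ u ∈ A, ∀ v ∈ B, Commute u v := fun u hu v hv => mem_centralizer_iff.1 (h hv) u hu
  rw [Subgroup.commutator_le]
  intro x hx y hy
  obtain ⟨a, ha, b, hb, rfl⟩ := Subgroup.mem_sup_of_normal_left.1 hx
  obtain ⟨c, hc, d, hd, rfl⟩ := Subgroup.mem_sup_of_normal_left.1 hy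
  rw [comm_id (hab a ha b hb) (hab c hc b hb).symm (hab a ha d hd) (hab c hc d hd)]
  exact Subgroup.mul_mem_sup (Subgroup.commutator_mem_commutator ha hc) (Subgroup.commutator_mem_commutator hb hd)

open Subgroup in
theorem pgroup_comm {X : Type*} [Group X] [Finite X] {p : ℕ} [Fact p.Prime] (hX : IsPGroup p X) (h : (commutator X).index = p) :
    commutator X = ⊥ := by
  have hp : p.Prime := Fact.out
  have hne : commutator X ≠ ⊤ := by
    intro h1
    rw [h1, Subgroup.index_top] at h
    exact hp.one_lt.ne h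
  obtain ⟨x, -, hx⟩ := SetLike.exists_of_lt (lt_top_iff_ne_top.2 hne)
  have h1 : zpowers x ⊔ commutator X = ⊤ := by
    have h2 : (zpowers x ⊔ commutator X).index ∣ p := by rw [← h]; exact Subgroup.index_dvd_of_le le_sup_right
    rcases (Nat.dvd_prime hp).1 h2 with h3 | h3
    · exact Subgroup.index_eq_one.1 h3
    · exfalso
      have h4 : commutator X = zpowers x ⊔ commutator X := by
        apply Subgroup.eq_of_le_of_card_ge le_sup_right
        have h5 := (commutator X).card_mul_index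
        have h6 := (zpowers x ⊔ commutator X).card_mul_index
        rw [h3] at h6
        rw [h] at h5
        exact (Nat.eq_of_mul_eq_mul_right hp.pos (h6.trans h5.symm)).le
      apply hx
      rw [h4]
      exact (le_sup_left : zpowers x ≤ _) (mem_zpowers x)
  have h2 : zpowers x ⊔ frattini X = ⊤ := by
    rw [eq_top_iff, ← h1]
    exact sup_le_sup_left (Cfsg.Agent.Lib.Nilp.commutator_le_frattini hX) _
  have h3 := frattini_nongenerating h2
  rw [eq_bot_iff, _root_.commutator_def, Subgroup.commutator_le]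
  intro a _ b _
  rw [mem_bot, commutatorElement_eq_one_iff_mul_comm]
  obtain ⟨i, rfl⟩ := mem_zpowers_iff.1 (h3 ▸ mem_top a : a ∈ zpowers x)
  obtain ⟨j, rfl⟩ := mem_zpowers_iff.1 (h3 ▸ mem_top b : b ∈ zpowers x)
  rw [← zpow_add, ← zpow_add, add_comm]

open Subgroup in
theorem partb {G : Type*} [Group G] [Finite G] (hnil : Group.IsNilpotent ↥(commutator G)) (hpr : (commutator G).index.Prime) :
    (Nat.card ↥(commutator G)).Coprime (commutator G).index := by
  obtain ⟨p, hp⟩ : ∃ p, p = (commutator G).index := ⟨_, rfl⟩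
  rw [← hp] at hpr ⊢
  haveI : Fact p.Prime := ⟨hpr⟩
  haveI hNn : (commutator G).Normal := inferInstance
  set N := commutator G with hN
  haveI := Cfsg.Agent.Lib.Cores.pPrimeCore_characteristic (G := N) p
  set M : Subgroup G := (Cfsg.pPrimeCore p N).map N.subtype with hM
  haveI hMn : M.Normal := inferInstance
  have hMN : M ≤ N := Subgroup.map_subtype_le _
  have hMc : (Nat.card M).Coprime p := by
    rw [hM, Subgroup.card_map_of_injective N.subtype_injective]
    exact Cfsg.Agent.Lib.Cores.pPrimeCore_coprime p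
  have hidx : ∃ j, M.index = p ^ j := by
    have h1 : (Cfsg.pPrimeCore p N).index = p ^ ((Cfsg.pPrimeCore p N).index).primeFactorsList.length := by
      apply Nat.eq_prime_pow_of_unique_prime_dvd Subgroup.index_ne_zero_of_finite
      intro q hq hd
      by_contra hqp
      haveI : Fact q.Prime := ⟨hq⟩
      obtain ⟨Q⟩ : Nonempty (Sylow q N) := inferInstance
      have hQn : (Q : Subgroup N).Normal := Cfsg.Agent.H2.PUtil.sylow_normal_of_nilpotent hnil Q
      have h2 : (Q : Subgroup N) ≤ Cfsg.pPrimeCore p N := by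
        apply Cfsg.Agent.Lib.Cores.le_pPrimeCore hQn
        obtain ⟨k, hk⟩ := IsPGroup.iff_card.1 Q.2
        rw [hk]
        exact Nat.Coprime.pow_left _ ((Nat.coprime_primes hq hpr).2 hqp)
      exact Q.not_dvd_index (hd.trans (Subgroup.index_dvd_of_le h2))
    have h2 : M.relIndex N = (Cfsg.pPrimeCore p N).index := by
      show (M.subgroupOf N).index = _
      congr 1
      exact Subgroup.comap_map_eq_self_of_injective N.subtype_injective _
    have h3 := Subgroup.relIndex_mul_index hMN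
    rw [h2, h1, ← hp, ← pow_succ] at h3
    exact ⟨_, h3.symm⟩
  obtain ⟨j, hj⟩ := hidx
  set σ := QuotientGroup.mk' M with hσ
  have hσs : Function.Surjective σ := QuotientGroup.mk'_surjective M
  have hX : IsPGroup p (G ⧸ M) := IsPGroup.of_card (n := j) (by rw [← Subgroup.index_eq_card]; exact hj)
  have hc : commutator (G ⧸ M) = N.map σ := by
    rw [hN, _root_.commutator_def, _root_.commutator_def, Subgroup.map_commutator, Subgroup.map_top_of_surjective σ hσs]
  have hci : (commutator (G ⧸ M)).index = p := by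
    rw [hc, Subgroup.index_map_eq N hσs (by rw [QuotientGroup.ker_mk']; exact hMN)]
    exact hp.symm
  have h1 := pgroup_comm hX hci
  rw [hc, Subgroup.map_eq_bot_iff, QuotientGroup.ker_mk'] at h1
  have h2 : N = M := le_antisymm h1 hMN
  rw [h2]; exact hMc

open Subgroup in
theorem parta1 {G : Type*} [Group G] [Finite G] [Group.IsSolvable G] (H K : Subgroup G) (hHn : H.Normal) (hcop : (Nat.card H).Coprime H.index)
    (hc : Subgroup.IsComplement' H K) (hle : H ≤ commutator G) :
    H = ⁅H, K⁆ := by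
  haveI := hHn
  have hKH : K ≤ normalizer (H : Set G) := by rw [normalizer_eq_top_iff.2 hHn]; exact le_top
  have hKc : Nat.card K = H.index := by
    rw [← hc.symm.index_eq_card]
  have hcop' : (Nat.card K).Coprime (Nat.card H) := by rw [hKc]; exact hcop.symm
  have hsup : H ⊔ K = ⊤ := hc.sup_eq_top
  have hdisj : H ⊓ K = ⊥ := hc.disjoint.eq_bot
  set N := ⁅H, K⁆ with hN
  have hNH : N ≤ H := Cfsg.Agent.Lib.Coprime.commutator_le_of_normalizes hKH
  have hNn : N.Normal := by
    rw [← normalizer_eq_top_iff, eq_top_iff, ← hsup]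
    exact sup_le (Cfsg.Agent.Lib.Coprime.le_normalizer_commutator_left K H) (Cfsg.Agent.Lib.Coprime.le_normalizer_commutator_right K H)
  haveI := hNn
  set σ := QuotientGroup.mk' N with hσ
  have hσs : Function.Surjective σ := QuotientGroup.mk'_surjective N
  have hcommσ : ⁅H.map σ, K.map σ⁆ = ⊥ := by
    rw [← Subgroup.map_commutator, Subgroup.map_eq_bot_iff, QuotientGroup.ker_mk']
  have hHσ : H.map σ = ⊥ := by
    by_contra hne
    have h1 : H.map σ ≤ ⁅H.map σ, H.map σ⁆ ⊔ ⁅K.map σ, K.map σ⁆ := by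
      have h2 : H.map σ ≤ (commutator G).map σ := Subgroup.map_mono hle
      refine h2.trans ?_
      have h3 : (commutator G).map σ = ⁅H.map σ ⊔ K.map σ, H.map σ ⊔ K.map σ⁆ := by
        rw [← Subgroup.map_sup, hsup, _root_.commutator_def, Subgroup.map_commutator]
      rw [h3]
      haveI hHsn : (H.map σ).Normal := hHn.map σ hσs
      have h4 : H.map σ ⊔ K.map σ = ⊤ := by rw [← Subgroup.map_sup, hsup, Subgroup.map_top_of_surjective σ hσs]
      have hcent : K.map σ ≤ centralizer (H.map σ : Set (G ⧸ N)) := by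
        rw [Subgroup.commutator_comm, Subgroup.commutator_eq_bot_iff_le_centralizer] at hcommσ
        exact hcommσ
      exact sup_comm_le hcent
    have hHK : H.map σ ⊓ K.map σ = ⊥ := by
      rw [← Subgroup.card_eq_one]
      have h2 : Nat.card (H.map σ ⊓ K.map σ : Subgroup (G ⧸ N)) ∣ Nat.card H :=
        (Subgroup.card_dvd_of_le inf_le_left).trans (Subgroup.card_map_dvd H σ)
      have h3 : Nat.card (H.map σ ⊓ K.map σ : Subgroup (G ⧸ N)) ∣ Nat.card K :=
        (Subgroup.card_dvd_of_le inf_le_right).trans (Subgroup.card_map_dvd K σ)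
      exact Nat.eq_one_of_dvd_coprimes hcop' h3 h2
    have h2 : H.map σ ≤ ⁅H.map σ, H.map σ⁆ := by
      intro x hx
      haveI hHsn : (H.map σ).Normal := hHn.map σ hσs
      obtain ⟨a, ha, b, hb, hab⟩ := Subgroup.mem_sup_of_normal_left.1 (h1 hx)
      have h3 : a ∈ H.map σ := Subgroup.commutator_le_right _ _ ha
      have h4 : b ∈ K.map σ := by
        have h5 : ⁅K.map σ, K.map σ⁆ ≤ K.map σ := Cfsg.Agent.Lib.Coprime.commutator_le_of_normalizes le_normalizer
        exact h5 hb
      have h5 : b ∈ H.map σ ⊓ K.map σ := ⟨by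
        have : b = a⁻¹ * x := by rw [← hab]; group
        rw [this]; exact Subgroup.mul_mem _ (Subgroup.inv_mem _ h3) hx, h4⟩
      rw [hHK, mem_bot] at h5
      rw [← hab, h5, mul_one]; exact ha
    exact absurd (lt_of_lt_of_le (Group.IsSolvable.commutator_lt_of_ne_bot hne) h2) (lt_irrefl _)
  have hHN : H ≤ N := by
    rw [Subgroup.map_eq_bot_iff, QuotientGroup.ker_mk'] at hHσ
    exact hHσ
  exact le_antisymm hHN hNH

open Subgroup in
theorem parta2 {G : Type*} [Group G] [Finite G] (H K : Subgroup G) (hHn : H.Normal) (hcop' : (Nat.card K).Coprime (Nat.card H))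
    (hHN' : H = ⁅H, K⁆) : H ⊓ Subgroup.centralizer (K : Set G) ≤ ⁅H, H⁆ := by
  haveI := hHn
  -- second part
  haveI hDn : (⁅H, H⁆ : Subgroup G).Normal := inferInstance
  set τ := QuotientGroup.mk' (⁅H, H⁆ : Subgroup G) with hτ
  have hHab : IsMulCommutative (H.map τ) := by
    refine ⟨⟨?_⟩⟩
    rintro ⟨_, x, hx, rfl⟩ ⟨_, y, hy, rfl⟩
    apply Subtype.ext
    show τ x * τ y = τ y * τ x
    have h1 : τ ⁅x, y⁆ = 1 := (QuotientGroup.eq_one_iff _).2 (Subgroup.commutator_mem_commutator hx hy)
    rwa [map_commutatorElement, commutatorElement_eq_one_iff_mul_comm] at h1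
  haveI hHtn : (H.map τ).Normal := hHn.map τ (QuotientGroup.mk'_surjective _)
  have h1 := Cfsg.Agent.Lib.CoprimeB.abelian_inf_eq_bot (A := K.map τ) (V := H.map τ) hHab
    (by rw [normalizer_eq_top_iff.2 hHtn]; exact le_top)
    (Nat.Coprime.coprime_dvd_left (Subgroup.card_map_dvd K τ) (Nat.Coprime.coprime_dvd_right (Subgroup.card_map_dvd H τ) hcop'))
  have h2 : ⁅H.map τ, K.map τ⁆ = H.map τ := by rw [← Subgroup.map_commutator, ← hHN']
  intro x hx
  have h3 : τ x ∈ (H.map τ ⊓ centralizer ((K.map τ : Subgroup _) : Set _)) ⊓ ⁅H.map τ, K.map τ⁆ := by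
    rw [h2]
    refine ⟨⟨⟨x, hx.1, rfl⟩, mem_centralizer_iff.2 ?_⟩, ⟨x, hx.1, rfl⟩⟩
    rintro _ ⟨k, hk, rfl⟩
    rw [← map_mul, ← map_mul, mem_centralizer_iff.1 hx.2 k hk]
  rw [h1, mem_bot] at h3
  exact (QuotientGroup.eq_one_iff _).1 h3

/-- Let G be a finite solvable group. (a) If H is a normal subgroup of order coprime to its index, K is a complement to H, and H ≤ G', then H = [H, K] and H ∩ C_G(K) ≤ [H, H]. (b) If G' is nilpotent and has prime index in G, then the order of G' is coprime to its index and G' = [G, K] (the subgroup generated by commutators of elements of G with elements of K) for every complement K of G'. -/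
theorem result {G : Type*} [Group G] [Finite G] [Group.IsSolvable G] :
    (∀ (H K : Subgroup G), H.Normal → (Nat.card H).Coprime H.index → Subgroup.IsComplement' H K → H ≤ commutator G →
        H = ⁅H, K⁆ ∧ H ⊓ Subgroup.centralizer (K : Set G) ≤ ⁅H, H⁆) ∧
      (Group.IsNilpotent ↥(commutator G) → (commutator G).index.Prime →
        (Nat.card ↥(commutator G)).Coprime (commutator G).index ∧
        ∀ K : Subgroup G, Subgroup.IsComplement' (commutator G) K → commutator G = ⁅(⊤ : Subgroup G), K⁆) := by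
  have parta : ∀ (H K : Subgroup G), H.Normal → (Nat.card H).Coprime H.index → Subgroup.IsComplement' H K → H ≤ commutator G →
        H = ⁅H, K⁆ ∧ H ⊓ Subgroup.centralizer (K : Set G) ≤ ⁅H, H⁆ := by
    intro H K h1 h2 h3 h4
    have h5 := parta1 H K h1 h2 h3 h4
    exact ⟨h5, parta2 H K h1 (by rw [← h3.symm.index_eq_card]; exact h2.symm) h5⟩
  refine ⟨parta, ?_⟩
  intro hnil hpr
  have key := partb hnil hpr
  refine ⟨key, fun K hK => ?_⟩
  have h1 := (parta (commutator G) K inferInstance key hK le_rfl).1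
  apply le_antisymm
  · calc commutator G = ⁅commutator G, K⁆ := h1
      _ ≤ ⁅(⊤ : Subgroup G), K⁆ := Subgroup.commutator_mono le_top le_rfl
  · rw [_root_.commutator_def]
    exact Subgroup.commutator_mono le_rfl le_top

end Cfsg.Agent.S1459
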