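import Cfsg.Statements.S1461
import Mathlib
import Cfsg.Agent.H2.SolvSupp
import Cfsg.Agent.H2.PLen

set_option autoImplicit false
open Cfsg

namespace Cfsg.Agent.S1461

open Subgroup Cfsg.Agent.H2.PLen Cfsg.Agent.Lib.Cores

/-- Let G be a finite solvable group, p a prime with G = O_{p',p,p'}(G), and S a Sylow p-subgroup. Then: if S ≤ G' then S ≤ [N_G(S), N_G(S)]; if Y ⊆ S and xYx⁻¹ ⊆ S then x = g c for some g ∈ N_G(S) and c centralizing Y; and for every p-subgroup Q there is x ∈ C_G(Q ∩ S) with xQx⁻¹ ≤ S. -/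
theorem result {G : Type*} [Group G] [Finite G] [Group.IsSolvable G] (p : ℕ) [Fact p.Prime] (hpl : Cfsg.PLengthLE p 1 G) (S : Sylow p G) :
    ((S : Subgroup G) ≤ commutator G → (S : Subgroup G) ≤ ⁅Subgroup.normalizer ((S : Subgroup G) : Set G), Subgroup.normalizer ((S : Subgroup G) : Set G)⁆) ∧
      (∀ (Y : Set G) (x : G), Y ⊆ (S : Subgroup G) → (fun y => x * y * x⁻¹) '' Y ⊆ (S : Subgroup G) →
        ∃ g ∈ Subgroup.normalizer ((S : Subgroup G) : Set G), ∃ c ∈ Subgroup.centralizer Y, g * c = x) ∧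
      ∀ Q : Subgroup G, IsPGroup p Q → ∃ x ∈ Subgroup.centralizer ((Q ⊓ (S : Subgroup G) : Subgroup G) : Set G), Q.map (MulAut.conj x).toMonoidHom ≤ (S : Subgroup G) := by
  classical
  obtain ⟨K, hK⟩ : ∃ K, K = Cfsg.pPrimeCore p G := ⟨_, rfl⟩
  haveI hKn : K.Normal := hK ▸ Cfsg.Agent.Lib.Cores.pPrimeCore_normal (G := G) p
  have hKc : (Nat.card K).Coprime p := hK ▸ pPrimeCore_coprime p
  have hKs : Group.IsSolvable K := inferInstance
  -- `K S` is normal
  have hch := ups_ch (G := G) p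
  have hU1 : (Cfsg.upperPSeries p G 1).1 ≤ K := by
    rw [hK]
    apply le_pPrimeCore (hch.normal 1)
    apply coprime_of_elements
    intro x hx
    obtain ⟨m, hm, hxm⟩ := hch.even 0 x hx
    exact ⟨m, hm, mem_bot.mp hxm⟩
  haveI hU2n := hch.normal 2
  obtain ⟨L, hL⟩ : ∃ L, L = (Cfsg.upperPSeries p G 2).1 := ⟨_, rfl⟩
  have hL3 : ∀ x : G, ∃ m : ℕ, m.Coprime p ∧ x ^ m ∈ L := by
    intro x
    have h1 : x ∈ (Cfsg.upperPSeries p G (2 * 1 + 1)).1 := by
      have h2 : (Cfsg.upperPSeries p G (2 * 1 + 1)).1 = ⊤ := hpl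
      rw [h2]; exact mem_top x
    obtain ⟨m, hm, hxm⟩ := hch.even 1 x h1
    exact ⟨m, hm, hL ▸ hxm⟩
  haveI hLn : L.Normal := hL ▸ hU2n
  have hSL : (S : Subgroup G) ≤ L := by
    intro x hx
    obtain ⟨m, hm, hxm⟩ := hL3 x
    obtain ⟨k, hk⟩ := S.isPGroup' ⟨x, hx⟩
    have hk' : x ^ p ^ k = 1 := congrArg Subtype.val hk
    have hcop : m.Coprime (p ^ k) := Nat.Coprime.pow_right k hm
    have h1 : x ∈ zpowers (x ^ m) := by
      have h2 : m.Coprime (orderOf x) := Nat.Coprime.coprime_dvd_right (_root_.orderOf_dvd_of_pow_eq_one hk') hcop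
      obtain ⟨j, hj⟩ := _root_.exists_pow_eq_self_of_coprime (x := x) h2
      have h3 : (x ^ m) ^ j ∈ zpowers (x ^ m) := pow_mem (mem_zpowers (x ^ m)) j
      rwa [hj] at h3
    exact (zpowers_le.mpr hxm) h1
  have hLK : L ≤ K ⊔ (S : Subgroup G) := by
    have h1 : L.map (QuotientGroup.mk' K) ≤ Cfsg.pCore p (G ⧸ K) := by
      apply le_pCore (hLn.map _ (QuotientGroup.mk'_surjective K))
      rintro ⟨_, ⟨x, hx, rfl⟩⟩
      obtain ⟨n, hn⟩ := hch.odd 0 x (hL ▸ hx)
      refine ⟨n, Subtype.ext ?_⟩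
      change (QuotientGroup.mk' K x) ^ p ^ n = 1
      rw [← map_pow]
      exact (QuotientGroup.eq_one_iff _).mpr (hU1 hn)
    have h2 : Cfsg.pCore p (G ⧸ K) ≤ (S : Subgroup G).map (QuotientGroup.mk' K) :=
      pCore_le_sylow (S.mapSurjective (QuotientGroup.mk'_surjective K))
    have h3 := map_le_iff_le_comap.mp (h1.trans h2)
    rwa [comap_map_eq, QuotientGroup.ker_mk', sup_comm] at h3
  haveI hKSn : (K ⊔ (S : Subgroup G)).Normal := by
    have : K ⊔ (S : Subgroup G) = K ⊔ L := le_antisymm (sup_le_sup_left hSL K) (sup_le le_sup_left hLK)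
    rw [this]; infer_instance
  have hKU : K ⊔ normalizer ((S : Subgroup G) : Set G) = ⊤ := by
    have h1 := Sylow.normalizer_sup_eq_top' S (N := K ⊔ (S : Subgroup G)) le_sup_right
    have h2 : (S : Subgroup G) ≤ normalizer ((S : Subgroup G) : Set G) := le_normalizer
    rw [eq_top_iff, ← h1]
    exact sup_le le_sup_right (sup_le le_sup_left (h2.trans le_sup_right))
  have hcopS : (Nat.card (S : Subgroup G)).Coprime (Nat.card K) := by
    obtain ⟨k, hk⟩ := IsPGroup.iff_card.mp S.isPGroup'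
    rw [hk]
    exact Nat.Coprime.pow_left k hKc.symm
  have hSN : (S : Subgroup G) ≤ normalizer ((S : Subgroup G) : Set G) := le_normalizer
  have hpart2 : ∀ (Y : Set G) (x : G), Y ⊆ (S : Subgroup G) → (fun y => x * y * x⁻¹) '' Y ⊆ (S : Subgroup G) →
        ∃ g ∈ Subgroup.normalizer ((S : Subgroup G) : Set G), ∃ c ∈ Subgroup.centralizer Y, g * c = x := by
    intro Y x hY hxY
    have h1 : closure Y ≤ (S : Subgroup G) := (closure_le _).mpr hY
    obtain ⟨u, hu, c, hc, hx⟩ := Cfsg.Agent.H2.SolvSupp.factor hKs hKU (H := closure Y) (h1.trans hSN)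
      (Nat.Coprime.coprime_dvd_left (card_dvd_of_le h1) hcopS) (g := x) (by
      intro h hh
      apply hSN
      have h2 : (closure Y).map (MulAut.conj x).toMonoidHom ≤ (S : Subgroup G) := by
        rw [MonoidHom.map_closure, closure_le]
        rintro _ ⟨y, hy, rfl⟩
        exact hxY ⟨y, hy, rfl⟩
      exact h2 ⟨h, hh, rfl⟩)
    exact ⟨u, hu, c, centralizer_le Subgroup.subset_closure (mem_inf.mp hc).2, hx.symm⟩
  refine ⟨?_, hpart2, ?_⟩
  · intro hSG
    have h1 := Cfsg.Agent.H2.SolvSupp.inf_commutator hKU hSN hcopS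
    rw [inf_eq_left.mpr hSG] at h1
    exact h1.le.trans inf_le_right
  · intro Q hQ
    obtain ⟨T, hT⟩ := hQ.exists_le_sylow
    obtain ⟨y, hy⟩ := MulAction.exists_smul_eq G T S
    have h1 : ∀ q ∈ Q, y * q * y⁻¹ ∈ (S : Subgroup G) := by
      intro q hq
      rw [← hy]
      exact Subgroup.smul_mem_pointwise_smul q (MulAut.conj y) (T : Subgroup G) (hT hq)
    obtain ⟨g, hg, c, hc, hgc⟩ := hpart2 ((Q ⊓ (S : Subgroup G) : Subgroup G) : Set G) y (fun z hz => (mem_inf.mp hz).2) (by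
      rintro _ ⟨z, hz, rfl⟩
      exact h1 z (mem_inf.mp hz).1)
    refine ⟨c, hc, ?_⟩
    rintro _ ⟨q, hq, rfl⟩
    change c * q * c⁻¹ ∈ (S : Subgroup G)
    have h2 := h1 q hq
    rw [← hgc] at h2
    have h3 : g * c * q * (g * c)⁻¹ = g * (c * q * c⁻¹) * g⁻¹ := by group
    rw [h3] at h2
    exact (mem_normalizer_iff.mp hg _).mpr h2

end Cfsg.Agent.S1461
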