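import Cfsg.Statements.S1462
import Cfsg.Agent.H2.OddStabB
import Cfsg.Agent.H2.PLen
import Cfsg.Agent.Lib.MinAct
import Cfsg.Agent.Lib.SylRel
import Cfsg.Agent.Lib.ThompsonJ

set_option autoImplicit false
open Cfsg

namespace Cfsg.Agent.S1462

open Subgroup Cfsg.Agent.Lib Cfsg.Agent.H2 Cfsg.Agent.H2.OddStabB

/-- the reduced case -/
theorem reduced {H : Type*} [Group H] [Finite H] [hs : Group.IsSolvable H] (p : ℕ) [Fact p.Prime] (hp : p ≠ 2) (hpl : Cfsg.PLengthLE p 1 H)
    (hO : Cfsg.pPrimeCore p H = ⊥) (E L : Subgroup H) (hE : Cfsg.IsElementaryAbelian p E)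
    (hEmax : ∀ B : Subgroup H, Cfsg.IsElementaryAbelian p B → E ≤ B → B = E) (hL : (Nat.card L).Coprime p) (hEL : E ≤ Subgroup.normalizer (L : Set H)) :
    L = ⊥ := by
  haveI hQn : (Cfsg.pCore p H).Normal := Cores.pCore_normal p
  have hQp : IsPGroup p (Cfsg.pCore p H) := Cores.pCore_isPGroup p
  obtain ⟨K, hK, hKt⟩ := PLen.pLengthLE_iff.1 hpl
  have hK1 : K 1 = ⊥ := by
    have h1 : (Nat.card (K 1)).Coprime p := PLen.coprime_of_elements (K 1) (fun x hx => by
      obtain ⟨m, hm, hxm⟩ := hK.even 0 x hx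
      rw [mul_zero, hK.zero, mem_bot] at hxm
      exact ⟨m, hm, hxm⟩)
    rw [eq_bot_iff, ← hO]
    exact Cores.le_pPrimeCore (hK.normal 1) h1
  have hK2 : K 2 ≤ Cfsg.pCore p H := by
    apply Cores.le_pCore (hK.normal 2)
    rintro ⟨x, hx⟩
    obtain ⟨n, hn⟩ := hK.odd 0 x hx
    rw [mul_zero, zero_add, hK1, mem_bot] at hn
    exact ⟨n, Subtype.ext hn⟩
  have hpel : ∀ x : H, (∃ n, x ^ p ^ n = 1) → x ∈ Cfsg.pCore p H := by
    rintro x ⟨n, hn⟩
    obtain ⟨m, hm, hxm⟩ := hK.even 1 x (by rw [show 2 * 1 + 1 = 3 from rfl, show (3 : ℕ) = 2 * 1 + 1 from rfl, hKt]; trivial)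
    have h1 : x ^ m ∈ Cfsg.pCore p H := hK2 hxm
    have h2 : m.Coprime (p ^ n) := Nat.Coprime.pow_right n hm
    have h3 : (orderOf x).Coprime m := Nat.Coprime.coprime_dvd_left (_root_.orderOf_dvd_of_pow_eq_one hn) h2.symm
    obtain ⟨l, hl⟩ := exists_pow_eq_self_of_coprime h3.symm
    rw [← hl]
    exact (Cfsg.pCore p H).pow_mem h1 l
  obtain ⟨hE1, hE2⟩ := ThompsonJ.ea_iff.1 hE
  have hEp : IsPGroup p E := fun x => ⟨1, Subtype.ext (by rw [pow_one]; exact hE2 x x.2)⟩
  have hEQ : E ≤ Cfsg.pCore p H := fun x hx => hpel x ⟨1, by rw [pow_one]; exact hE2 x hx⟩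
  have hLQ : L ⊓ Cfsg.pCore p H = ⊥ := by
    rw [eq_bot_iff]
    rintro x ⟨hx1, hx2⟩
    obtain ⟨n, hn⟩ := hQp ⟨x, hx2⟩
    have hn' : x ^ p ^ n = 1 := congrArg Subtype.val hn
    have h1 : orderOf x ∣ Nat.card L := Subgroup.orderOf_dvd_natCard _ hx1
    have h2 := Nat.dvd_gcd h1 (_root_.orderOf_dvd_of_pow_eq_one hn')
    rw [Nat.Coprime.pow_right n hL] at h2
    exact orderOf_eq_one_iff.1 (Nat.dvd_one.1 h2)
  have hLE : E ≤ centralizer (L : Set H) := by
    intro e he
    rw [mem_centralizer_iff]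
    intro l hl
    have h1 : e * l * e⁻¹ * l⁻¹ ∈ L ⊓ Cfsg.pCore p H := by
      refine ⟨L.mul_mem ((mem_normalizer_iff.1 (hEL he) l).1 hl) (L.inv_mem hl), ?_⟩
      have h2 := (Cfsg.pCore p H).mul_mem (hEQ he) (hQn.conj_mem e⁻¹ ((Cfsg.pCore p H).inv_mem (hEQ he)) l)
      have e1 : e * (l * e⁻¹ * l⁻¹) = e * l * e⁻¹ * l⁻¹ := by group
      rwa [e1] at h2
    rw [hLQ, mem_bot] at h1
    exact (mul_inv_eq_iff_eq_mul.1 (mul_inv_eq_one.1 h1)).symm
  -- `L` acts trivially on `C_Q(E)`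
  have hEC : L ≤ centralizer (E : Set H) := le_centralizer_iff.1 hLE
  have hC : ⁅Cfsg.pCore p H ⊓ centralizer (E : Set H), L⁆ = ⊥ := by
    refine MinAct.trivial_of_order_p hp (hQp.to_le inf_le_left) ?_ hL ?_
    · have key : ∀ l ∈ L, ∀ x ∈ Cfsg.pCore p H ⊓ centralizer (E : Set H), l * x * l⁻¹ ∈ Cfsg.pCore p H ⊓ centralizer (E : Set H) := by
        rintro l hl x ⟨hx1, hx2⟩
        refine ⟨hQn.conj_mem x hx1 l, ?_⟩
        exact (centralizer (E : Set H)).mul_mem ((centralizer (E : Set H)).mul_mem (hEC hl) hx2) ((centralizer (E : Set H)).inv_mem (hEC hl))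
      intro l hl
      rw [mem_normalizer_iff]
      intro x
      refine ⟨key l hl x, fun h => ?_⟩
      have := key l⁻¹ (L.inv_mem hl) _ h
      have e : l⁻¹ * (l * x * l⁻¹) * l⁻¹⁻¹ = x := by group
      rwa [e] at this
    · rintro x ⟨hx1, hx2⟩ hxp a ha
      have hxE : x ∈ E := by
        have h1 : Cfsg.IsElementaryAbelian p (E ⊔ zpowers x : Subgroup H) := by
          have hcx : ∀ e ∈ E, Commute e x := fun e he => mem_centralizer_iff.1 hx2 e he
          have hrep : ∀ y ∈ E ⊔ zpowers x, ∃ e ∈ E, ∃ k : ℤ, y = e * x ^ k := by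
            intro y hy
            have h2 : E ≤ normalizer (zpowers x : Set H) := by
              intro e he
              have : e ∈ centralizer (zpowers x : Set H) := by
                rw [mem_centralizer_iff]
                rintro _ ⟨k, rfl⟩
                exact ((hcx e he).zpow_right k).eq.symm
              exact centralizer_le_normalizer _ this
            rw [← SetLike.mem_coe, Subgroup.coe_mul_of_left_le_normalizer_right E _ h2] at hy
            obtain ⟨e, he, _, ⟨k, rfl⟩, rfl⟩ := hy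
            exact ⟨e, he, k, rfl⟩
          rw [ThompsonJ.ea_iff]
          constructor
          · intro y hy z hz
            obtain ⟨e, he, k, rfl⟩ := hrep y hy
            obtain ⟨e', he', k', rfl⟩ := hrep z hz
            have c1 := (hcx e' he').zpow_right k
            have c2 := (hcx e he).zpow_right k'
            have c3 := hE1 e he e' he'
            calc e * x ^ k * (e' * x ^ k') = e * (x ^ k * e') * x ^ k' := by group
              _ = e * (e' * x ^ k) * x ^ k' := by rw [c1.eq]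
              _ = (e * e') * (x ^ k * x ^ k') := by group
              _ = (e' * e) * (x ^ k' * x ^ k) := by rw [c3, ← zpow_add, ← zpow_add, add_comm]
              _ = e' * (e * x ^ k') * x ^ k := by group
              _ = e' * (x ^ k' * e) * x ^ k := by rw [c2.eq]
              _ = _ := by group
          · intro y hy
            obtain ⟨e, he, k, rfl⟩ := hrep y hy
            rw [((hcx e he).zpow_right k).mul_pow, hE2 e he, one_mul, ← zpow_natCast, ← zpow_mul, mul_comm, zpow_mul, zpow_natCast, hxp, one_zpow]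
        rw [← hEmax _ h1 le_sup_left]
        exact le_sup_right (a := E) (mem_zpowers x)
      exact (mem_centralizer_iff.1 (hEC ha) x hxE).symm
  have h1 : L ≤ centralizer (Cfsg.pCore p H : Set H) := by
    refine CoprimeB.thompson_PxQ hEp hL hQp hLE ?_ ?_ ?_
    · rw [Subgroup.normalizer_eq_top_iff.2 hQn]; exact le_top
    · rw [Subgroup.normalizer_eq_top_iff.2 hQn]; exact le_top
    · exact commutator_eq_bot_iff_le_centralizer.1 hC
  have h2 := h1.trans (cpc hs hO)
  rw [← hLQ]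
  exact le_antisymm (le_inf le_rfl h2) inf_le_left

theorem max_quot {G : Type*} [Group G] [Finite G] (p : ℕ) [Fact p.Prime] (E : Subgroup G) (hE : Cfsg.IsElementaryAbelian p E)
    (hEmax : ∀ B : Subgroup G, Cfsg.IsElementaryAbelian p B → E ≤ B → B = E) (O : Subgroup G) [hOn : O.Normal] (hOc : (Nat.card O).Coprime p)
    (B : Subgroup (G ⧸ O)) (hB : Cfsg.IsElementaryAbelian p B) (hEB : E.map (QuotientGroup.mk' O) ≤ B) : B = E.map (QuotientGroup.mk' O) := by
  have hsurj := QuotientGroup.mk'_surjective O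
  obtain ⟨hE1, hE2⟩ := ThompsonJ.ea_iff.1 hE
  have hEp : IsPGroup p E := fun x => ⟨1, Subtype.ext (by rw [pow_one]; exact hE2 x x.2)⟩
  generalize hf : QuotientGroup.mk' O = f at *
  have hker : ∀ x, f x = 1 → x ∈ O := fun x hx => by rw [← hf] at hx; exact (QuotientGroup.eq_one_iff _).1 hx
  obtain ⟨hB1, hB2⟩ := ThompsonJ.ea_iff.1 hB
  have hEB' : E ≤ B.comap f := map_le_iff_le_comap.1 hEB
  obtain ⟨S, hS, hES⟩ := SylRel.exists_sylIn (p := p) hEB' hEp
  have hone : ∀ x ∈ S, f x = 1 → x = 1 := by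
    intro x hx h1
    have h2 : x ∈ O := hker x h1
    obtain ⟨n, hn⟩ := hS.isPGroup ⟨x, hx⟩
    have hn' : x ^ p ^ n = 1 := congrArg Subtype.val hn
    have h3 : orderOf x ∣ Nat.card O := Subgroup.orderOf_dvd_natCard _ h2
    have h4 := Nat.dvd_gcd h3 (_root_.orderOf_dvd_of_pow_eq_one hn')
    rw [Nat.Coprime.pow_right n hOc] at h4
    exact orderOf_eq_one_iff.1 (Nat.dvd_one.1 h4)
  have hSE : Cfsg.IsElementaryAbelian p S := by
    rw [ThompsonJ.ea_iff]
    constructor
    · intro x hx y hy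
      have h2 : f (x * y * x⁻¹ * y⁻¹) = 1 := by
        rw [map_mul, map_mul, map_mul, map_inv, map_inv, hB1 (f x) (hS.le hx) (f y) (hS.le hy)]; group
      have h3 := hone _ (S.mul_mem (S.mul_mem (S.mul_mem hx hy) (S.inv_mem hx)) (S.inv_mem hy)) h2
      exact mul_inv_eq_iff_eq_mul.1 (mul_inv_eq_one.1 h3)
    · intro x hx
      exact hone _ (S.pow_mem hx p) (by rw [map_pow]; exact hB2 (f x) (hS.le hx))
  have hSeq := hEmax S hSE hES
  apply le_antisymm _ hEB
  -- `B` is a `p`-group containing the Sylow subgroup `f S`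
  have hd : (S.map f).relIndex ((B.comap f).map f) ∣ S.relIndex (B.comap f) := PSol.relIndex_map_dvd f hS.le
  rw [Subgroup.map_comap_eq_self_of_surjective hsurj, hSeq] at hd
  have hBp : IsPGroup p B := fun x => ⟨1, Subtype.ext (by rw [pow_one]; exact hB2 x x.2)⟩
  obtain ⟨n, hn⟩ := IsPGroup.iff_card.1 hBp
  have h5 : (E.map f).relIndex B ∣ p ^ n := by rw [← hn]; exact Subgroup.relIndex_dvd_card _ _
  obtain ⟨k, hk, hk2⟩ := (Nat.dvd_prime_pow (Fact.out : p.Prime)).1 h5
  rcases k with _ | k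
  · rw [pow_zero, Subgroup.relIndex_eq_one] at hk2
    exact hk2
  · exfalso
    apply hS.not_dvd
    rw [hSeq]
    refine dvd_trans ?_ hd
    rw [hk2]; exact dvd_pow_self p (by omega)


theorem ea_map {G H : Type*} [Group G] [Group H] (p : ℕ) (f : G →* H) (E : Subgroup G) (hE : Cfsg.IsElementaryAbelian p E) :
    Cfsg.IsElementaryAbelian p (E.map f) := by
  obtain ⟨hE1, hE2⟩ := ThompsonJ.ea_iff.1 hE
  rw [ThompsonJ.ea_iff]
  constructor
  · rintro _ ⟨x, hx, rfl⟩ _ ⟨y, hy, rfl⟩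
    rw [← map_mul, hE1 x hx y hy, map_mul]
  · rintro _ ⟨x, hx, rfl⟩
    rw [← map_pow, hE2 x hx, map_one]

theorem fin_step {G : Type*} [Group G] [Finite G] [Group.IsSolvable G] (p : ℕ) [Fact p.Prime] (hp : p ≠ 2) (hpl : Cfsg.PLengthLE p 1 G) (O E L : Subgroup G) [hOn : O.Normal]
    (hOc : (Nat.card O).Coprime p) (hO : Cfsg.pPrimeCore p (G ⧸ O) = ⊥) (hE : Cfsg.IsElementaryAbelian p E)
    (hEmax : ∀ B : Subgroup G, Cfsg.IsElementaryAbelian p B → E ≤ B → B = E) (hL : (Nat.card L).Coprime p) (hEL : E ≤ Subgroup.normalizer (L : Set G)) :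
    L ≤ O := by
  haveI hs : Group.IsSolvable (G ⧸ O) := inferInstance
  have hm := max_quot p E hE hEmax O hOc
  have hLc : (Nat.card (L.map (QuotientGroup.mk' O))).Coprime p :=
    Nat.Coprime.coprime_dvd_left (Subgroup.card_dvd_of_surjective ((QuotientGroup.mk' O).subgroupMap L) ((QuotientGroup.mk' O).subgroupMap_surjective L)) hL
  have hn : E.map (QuotientGroup.mk' O) ≤ normalizer ((L.map (QuotientGroup.mk' O) : Subgroup (G ⧸ O)) : Set (G ⧸ O)) :=
    (Subgroup.map_mono hEL).trans (le_normalizer_map _)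
  have h1 := reduced p hp (PLen.quotient hpl O) hO _ _ (ea_map p _ E hE) hm hLc hn
  rw [Subgroup.map_eq_bot_iff, QuotientGroup.ker_mk'] at h1
  exact h1

/-- Let G be a finite solvable group, p an odd prime with G = O_{p',p,p'}(G), E an elementary abelian p-subgroup contained in no larger elementary abelian p-subgroup of G, and L a subgroup of order coprime to p normalized by E. Then L ≤ O_{p'}(G). -/
theorem result {G : Type*} [Group G] [Finite G] [Group.IsSolvable G] (p : ℕ) [Fact p.Prime] (hp : p ≠ 2) (hpl : Cfsg.PLengthLE p 1 G) (E L : Subgroup G) (hE : Cfsg.IsElementaryAbelian p E)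
    (hEmax : ∀ B : Subgroup G, Cfsg.IsElementaryAbelian p B → E ≤ B → B = E) (hL : (Nat.card L).Coprime p) (hEL : E ≤ Subgroup.normalizer (L : Set G)) :
    L ≤ Cfsg.pPrimeCore p G := by
  haveI : (Cfsg.pPrimeCore p G).Normal := Cores.pPrimeCore_normal p
  exact fin_step p hp hpl (Cfsg.pPrimeCore p G) E L (Cores.pPrimeCore_coprime p) (Cores.pPrimeCore_quotient_pPrimeCore p) hE hEmax hL hEL

end Cfsg.Agent.S1462
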