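import Cfsg.Statements.S1463
import Cfsg.Agent.Lib.DickD

set_option autoImplicit false
open scoped MatrixGroups
open Cfsg

namespace Cfsg.Agent.S1463

open Cfsg.Agent.Lib.DickB Cfsg.Agent.Lib.DickC Cfsg.Agent.Lib.DickD Matrix

theorem det_one_of_pow {F : Type*} [Field F] {p : ℕ} [Fact p.Prime] [CharP F p] {x : F} (h : x ^ p = 1) : x = 1 := by
  have h1 : (x - 1) ^ p = 0 := by
    rw [sub_pow_char, h, one_pow, sub_self]
  exact sub_eq_zero.1 (pow_eq_zero_iff (Fact.out : p.Prime).ne_zero |>.1 h1)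

theorem exists_lift {F : Type*} [Field F] (g : GL (Fin 2) F) (h : (g : Matrix (Fin 2) (Fin 2) F).det = 1) :
    ∃ s : S F, (s : Matrix (Fin 2) (Fin 2) F) = g := ⟨⟨g, h⟩, rfl⟩

theorem span_of_fix {F : Type*} [Field F] {u : S F} (hu : u ≠ 1) {w x : Fin 2 → F} (hw : w ≠ 0)
    (h1 : (u : Matrix (Fin 2) (Fin 2) F).mulVec w = w) (h2 : (u : Matrix (Fin 2) (Fin 2) F).mulVec x = x) :
    x ∈ Submodule.span F {w} := by
  have a0 := congrFun h1 0
  have a1 := congrFun h1 1
  have b0 := congrFun h2 0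
  have b1 := congrFun h2 1
  simp only [Matrix.mulVec, dotProduct, Fin.sum_univ_two] at a0 a1 b0 b1
  have hdet : w 0 * x 1 - w 1 * x 0 = 0 := by
    by_contra hne
    apply hu
    have e1 : (u.1 0 0 - 1) * (w 0 * x 1 - w 1 * x 0) = 0 := by linear_combination x 1 * a0 - w 1 * b0
    have e2 : (u.1 0 1) * (w 0 * x 1 - w 1 * x 0) = 0 := by linear_combination w 0 * b0 - x 0 * a0
    have e3 : (u.1 1 0) * (w 0 * x 1 - w 1 * x 0) = 0 := by linear_combination x 1 * a1 - w 1 * b1
    have e4 : (u.1 1 1 - 1) * (w 0 * x 1 - w 1 * x 0) = 0 := by linear_combination w 0 * b1 - x 0 * a1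
    have f1 := (mul_eq_zero.1 e1).resolve_right hne
    have f2 := (mul_eq_zero.1 e2).resolve_right hne
    have f3 := (mul_eq_zero.1 e3).resolve_right hne
    have f4 := (mul_eq_zero.1 e4).resolve_right hne
    refine ext4 ?_ ?_ ?_ ?_
    · rw [ga_one]; exact sub_eq_zero.1 f1
    · rw [gb_one]; exact f2
    · rw [gc_one]; exact f3
    · rw [gd_one]; exact sub_eq_zero.1 f4
  rw [Submodule.mem_span_singleton]
  by_cases he : w 0 = 0
  · have hf : w 1 ≠ 0 := by
      intro hf
      apply hw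
      ext i
      fin_cases i
      · exact he
      · exact hf
    refine ⟨x 1 / w 1, ?_⟩
    ext i
    fin_cases i
    · show x 1 / w 1 * w 0 = x 0
      rw [he] at hdet ⊢
      have h3 : w 1 * x 0 = 0 := by linear_combination -hdet
      rw [mul_zero, (mul_eq_zero.1 h3).resolve_left hf]
    · show x 1 / w 1 * w 1 = x 1
      field_simp
  · refine ⟨x 0 / w 0, ?_⟩
    ext i
    fin_cases i
    · show x 0 / w 0 * w 0 = x 0
      field_simp
    · show x 0 / w 0 * w 1 = x 1
      field_simp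
      linear_combination -hdet

theorem toGL_inj (F : Type*) [Field F] : Function.Injective (SpecialLinearGroup.toGL : S F →* GL (Fin 2) F) := by
  intro a b hab
  apply Subtype.ext
  exact congrArg (fun g : GL (Fin 2) F => (g : Matrix (Fin 2) (Fin 2) F)) hab

theorem no_noncomm {F : Type*} [Field F] {p : ℕ} [Fact p.Prime] [CharP F p] (hp : p ≠ 2)
    (H : Subgroup (GL (Fin 2) F)) [Finite H] (hodd : Odd (Nat.card H)) {u v : S F}
    (hu : SpecialLinearGroup.toGL u ∈ H) (hv : SpecialLinearGroup.toGL v ∈ H) (htu : tr u = 2) (htv : tr v = 2) : Commute u v := by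
  by_contra hc
  have hinj := toGL_inj F
  let L : Subgroup (S F) := H.comap SpecialLinearGroup.toGL
  haveI : Finite L := Finite.of_injective (fun x : L => (⟨SpecialLinearGroup.toGL x.1, x.2⟩ : H)) (by
    intro a b hab
    exact Subtype.ext (hinj (congrArg Subtype.val hab)))
  obtain ⟨φ, hφ, hr⟩ := dickson_hom hp L hu hv htu htv hc
  have h1 : φ (-1) ∈ L := hr ⟨-1, rfl⟩
  have hne : (-1 : S (ZMod p)) ≠ 1 := by
    intro h
    have h2 := congrArg ga h
    rw [ga_one] at h2
    have h3 : ga (-1 : S (ZMod p)) = -1 := by simp [ga]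
    rw [h3] at h2
    have h4 : (2 : ZMod p) = 0 := by linear_combination -h2
    exact two_ne hp (ZMod p) h4
  have h5 : (⟨SpecialLinearGroup.toGL (φ (-1)), h1⟩ : H) ^ 2 = 1 := by
    apply Subtype.ext
    show (SpecialLinearGroup.toGL (φ (-1))) ^ 2 = 1
    rw [← map_pow, ← map_pow]
    simp
  have h6 : (⟨SpecialLinearGroup.toGL (φ (-1)), h1⟩ : H) ≠ 1 := by
    intro h
    have h7 : SpecialLinearGroup.toGL (φ (-1)) = 1 := congrArg Subtype.val h
    rw [← map_one (SpecialLinearGroup.toGL : S F →* GL (Fin 2) F)] at h7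
    have h8 := hinj h7
    rw [← map_one φ] at h8
    exact hne (hφ h8)
  have h9 := _root_.orderOf_eq_prime h5 h6
  have h10 : 2 ∣ Nat.card H := by
    have h11 := _root_.orderOf_dvd_natCard (⟨SpecialLinearGroup.toGL (φ (-1)), h1⟩ : H)
    rw [h9] at h11
    exact h11
  rcases hodd with ⟨k, hk⟩
  omega

/-- Let F be a field of odd characteristic p and H a finite subgroup of odd order of GL(2, F) that leaves no 1-dimensional subspace of F² invariant. Then p does not divide the order of H. -/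
theorem result {F : Type*} [Field F] (p : ℕ) [Fact p.Prime] [CharP F p] (hp : p ≠ 2)
    (H : Subgroup (GL (Fin 2) F)) [Finite H] (hodd : Odd (Nat.card H))
    (hirr : ∀ v : Fin 2 → F, v ≠ 0 → ∃ g ∈ H, (g : Matrix (Fin 2) (Fin 2) F).mulVec v ∉ Submodule.span F {v}) :
    ¬ p ∣ Nat.card H := by
  intro hdvd
  obtain ⟨h₀, hh₀⟩ := exists_prime_orderOf_dvd_card' (G := H) p hdvd
  have hpow : (h₀ : GL (Fin 2) F) ^ p = 1 := by
    have := _root_.pow_orderOf_eq_one h₀
    rw [hh₀] at this
    exact congrArg Subtype.val this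
  have hlift : ∀ g : GL (Fin 2) F, g ^ p = 1 → ∃ s : S F, SpecialLinearGroup.toGL s = g ∧ tr s = 2 := by
    intro g hg
    have h1 : ((g : Matrix (Fin 2) (Fin 2) F).det) ^ p = 1 := by
      rw [← Matrix.det_pow]
      have := congrArg (fun g : GL (Fin 2) F => (g : Matrix (Fin 2) (Fin 2) F)) hg
      simp only [Units.val_pow_eq_pow_val, Units.val_one] at this
      rw [this, Matrix.det_one]
    obtain ⟨s, hs⟩ := exists_lift g (det_one_of_pow h1)
    have h2 : SpecialLinearGroup.toGL s = g := Units.ext hs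
    refine ⟨s, h2, tr_of_pow (p := p) (k := 1) ?_⟩
    apply toGL_inj F
    rw [pow_one, map_pow, h2, hg, map_one]
  obtain ⟨u, hu, htu⟩ := hlift _ hpow
  have hu1 : u ≠ 1 := by
    rintro rfl
    rw [map_one] at hu
    have h1 : h₀ = 1 := Subtype.ext hu.symm
    rw [h1, _root_.orderOf_one] at hh₀
    exact (Fact.out : p.Prime).one_lt.ne hh₀
  have h2F : (2 : F) ≠ 0 := two_ne hp F
  have hsc : ¬ Sc u := by
    rintro ⟨hb, hc, had⟩
    apply hu1
    have h3 : ga u = 1 := by
      rw [tr, ← had] at htu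
      have : 2 * (ga u - 1) = 0 := by linear_combination htu
      exact sub_eq_zero.1 ((mul_eq_zero.1 this).resolve_left h2F)
    refine ext4 ?_ ?_ ?_ ?_
    · rw [ga_one, h3]
    · rw [gb_one, hb]
    · rw [gc_one, hc]
    · rw [gd_one, ← had, h3]
  obtain ⟨e, f, hef, h1, h2⟩ := exists_fix htu
  let w : Fin 2 → F := ![e, f]
  have hw : w ≠ 0 := by
    intro h
    have h3 : e = 0 := congrFun h 0
    have h4 : f = 0 := congrFun h 1
    rcases hef with h5 | h5
    · exact h5 h3
    · exact h5 h4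
  have huw : (u : Matrix (Fin 2) (Fin 2) F).mulVec w = w := by
    ext i
    fin_cases i
    · show (u.1.mulVec w) 0 = e
      simp only [Matrix.mulVec, dotProduct, Fin.sum_univ_two]
      show ga u * e + gb u * f = e
      linear_combination h1
    · show (u.1.mulVec w) 1 = f
      simp only [Matrix.mulVec, dotProduct, Fin.sum_univ_two]
      show gc u * e + gd u * f = f
      linear_combination h2
  obtain ⟨g, hg, hgw⟩ := hirr w hw
  apply hgw
  have hconj : (g⁻¹ * (h₀ : GL (Fin 2) F) * g) ^ p = 1 := by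
    have : g⁻¹ * (h₀ : GL (Fin 2) F) * g = g⁻¹ * (h₀ : GL (Fin 2) F) * (g⁻¹)⁻¹ := by rw [inv_inv]
    rw [this, conj_pow, hpow]
    group
  obtain ⟨v, hv, htv⟩ := hlift _ hconj
  have hcomm : Commute u v := no_noncomm hp H hodd (by rw [hu]; exact h₀.2)
    (by rw [hv]; exact H.mul_mem (H.mul_mem (H.inv_mem hg) h₀.2) hg) htu htv
  obtain ⟨α, β, k1, k2, k3, k4⟩ := exists_ab hsc hcomm
  have hab : α + β = 1 := by
    have h5' : tr v = α * tr u + 2 * β := by
      simp only [tr]; rw [k1, k4]; ring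
    have h5 : α * tr u + 2 * β = 2 := by rw [← h5', htv]
    rw [htu] at h5
    have : 2 * (α + β - 1) = 0 := by linear_combination h5
    exact sub_eq_zero.1 ((mul_eq_zero.1 this).resolve_left h2F)
  have hvw : (v : Matrix (Fin 2) (Fin 2) F).mulVec w = w := by
    ext i
    fin_cases i
    · show (v.1.mulVec w) 0 = e
      simp only [Matrix.mulVec, dotProduct, Fin.sum_univ_two]
      show ga v * e + gb v * f = e
      rw [k1, k2]
      linear_combination α * h1 + e * hab
    · show (v.1.mulVec w) 1 = f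
      simp only [Matrix.mulVec, dotProduct, Fin.sum_univ_two]
      show gc v * e + gd v * f = f
      rw [k3, k4]
      linear_combination α * h2 + f * hab
  apply span_of_fix hu1 hw huw
  have hv' : (v : Matrix (Fin 2) (Fin 2) F) = ((g⁻¹ * (h₀ : GL (Fin 2) F) * g : GL (Fin 2) F) : Matrix (Fin 2) (Fin 2) F) := by
    rw [← hv]; rfl
  have hu' : (u : Matrix (Fin 2) (Fin 2) F) = ((h₀ : GL (Fin 2) F) : Matrix (Fin 2) (Fin 2) F) := by
    rw [← hu]; rfl
  rw [hv'] at hvw
  have h6 : (g : Matrix (Fin 2) (Fin 2) F).mulVec (((g⁻¹ * (h₀ : GL (Fin 2) F) * g : GL (Fin 2) F) : Matrix (Fin 2) (Fin 2) F).mulVec w) =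
      (g : Matrix (Fin 2) (Fin 2) F).mulVec w := congrArg _ hvw
  rw [Matrix.mulVec_mulVec, ← Units.val_mul] at h6
  have e1 : g * (g⁻¹ * (h₀ : GL (Fin 2) F) * g) = (h₀ : GL (Fin 2) F) * g := by group
  rw [e1, Units.val_mul, ← Matrix.mulVec_mulVec, ← hu'] at h6
  exact h6

end Cfsg.Agent.S1463
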