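import Cfsg.Statements.S1466
import Cfsg.Agent.H2.Puig

set_option autoImplicit false
open Cfsg

namespace Cfsg.Agent.S1466

open Subgroup Cfsg.Agent.H2.Puig

theorem zz {R : Type*} [Group R] (X : Subgroup R) : Subgroup.center R ≤ Subgroup.centralizer (X : Set R) := Subgroup.center_le_centralizer _

/-- Let p be a prime and R a nontrivial finite p-group. Then for every i > 0, Z(R) ≤ C_R(L_i(R)) ≤ L_i(R); likewise Z(R) ≤ C_R(L_*(R)) ≤ L_*(R) and Z(R) ≤ C_R(L(R)) ≤ L(R); and L(R) ≠ 1, L_*(R) ≠ 1. -/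
theorem result {R : Type*} [Group R] [Finite R] (p : ℕ) [Fact p.Prime] (hR : IsPGroup p R) [Nontrivial R] :
    (∀ i : ℕ, 0 < i → Subgroup.center R ≤ Subgroup.centralizer ((Cfsg.puigSeq R i : Subgroup R) : Set R) ∧
        Subgroup.centralizer ((Cfsg.puigSeq R i : Subgroup R) : Set R) ≤ Cfsg.puigSeq R i) ∧
      (Subgroup.center R ≤ Subgroup.centralizer ((Cfsg.puigLower R : Subgroup R) : Set R) ∧ Subgroup.centralizer ((Cfsg.puigLower R : Subgroup R) : Set R) ≤ Cfsg.puigLower R) ∧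
      (Subgroup.center R ≤ Subgroup.centralizer ((Cfsg.puigSubgroup R : Subgroup R) : Set R) ∧ Subgroup.centralizer ((Cfsg.puigSubgroup R : Subgroup R) : Set R) ≤ Cfsg.puigSubgroup R) ∧
      Cfsg.puigSubgroup R ≠ ⊥ ∧ Cfsg.puigLower R ≠ ⊥ := by
  haveI hc := hR.center_nontrivial
  have hcb : Subgroup.center R ≠ ⊥ := (Subgroup.nontrivial_iff_ne_bot _).1 hc
  have hT : IsPGroup p (⊤ : Subgroup R) := hR.to_subgroup ⊤
  have h1 : ∀ i : ℕ, 0 < i → Subgroup.centralizer ((Cfsg.puigSeq R i : Subgroup R) : Set R) ≤ Cfsg.puigSeq R i := by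
    intro i hi
    obtain ⟨j, rfl⟩ := Nat.exists_eq_succ_of_ne_zero hi.ne'
    rw [puigSeq_eq]
    have := cent_st (S := (⊤ : Subgroup R)) (X := sq ⊤ j) hT (sq_le _ _)
    rw [top_inf_eq] at this
    exact this
  have h2 : Subgroup.centralizer ((Cfsg.puigLower R : Subgroup R) : Set R) ≤ Cfsg.puigLower R := by
    rw [puigLower_eq]
    have := cent_lo (S := (⊤ : Subgroup R)) hT
    rwa [top_inf_eq] at this
  have h3 : Subgroup.centralizer ((Cfsg.puigSubgroup R : Subgroup R) : Set R) ≤ Cfsg.puigSubgroup R := by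
    rw [puigSubgroup_eq]
    have := cent_hi (S := (⊤ : Subgroup R)) hT
    rwa [top_inf_eq] at this
  refine ⟨fun i hi => ⟨zz _, h1 i hi⟩, ⟨zz _, h2⟩, ⟨zz _, h3⟩, ?_, ?_⟩
  · intro h0
    rw [h0] at h3
    exact hcb (le_bot_iff.1 ((zz _).trans h3))
  · intro h0
    rw [h0] at h2
    exact hcb (le_bot_iff.1 ((zz _).trans h2))

end Cfsg.Agent.S1466
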