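import Cfsg.Statements.S1469
import Cfsg.Agent.H2.PuigB
import Cfsg.Agent.Lib.ZJeB

set_option autoImplicit false
open Cfsg

namespace Cfsg.Agent.S1469

open Subgroup Cfsg.Agent.Lib Cfsg.Agent.H2 Cfsg.Agent.H2.Puig Cfsg.Agent.H2.PuigB Cfsg.Agent.H2.OddStabB

theorem center_map {H : Type*} [Group H] (K : Subgroup H) : (Subgroup.center K).map K.subtype = K ⊓ centralizer (K : Set H) := by
  ext x
  constructor
  · rintro ⟨y, hy, rfl⟩
    refine ⟨y.2, ?_⟩
    show (y : H) ∈ centralizer _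
    rw [mem_centralizer_iff]
    intro z hz
    exact congrArg Subtype.val (Subgroup.mem_center_iff.1 hy ⟨z, hz⟩)
  · rintro ⟨hx1, hx2⟩
    refine ⟨⟨x, hx1⟩, ?_, rfl⟩
    show (⟨x, hx1⟩ : K) ∈ Subgroup.center K
    rw [Subgroup.mem_center_iff]
    intro z
    exact Subtype.ext (mem_centralizer_iff.1 hx2 z z.2)

theorem Zp_eq {G : Type*} [Group G] [Finite G] (S : Subgroup G) :
    ((Subgroup.center ↥(Cfsg.puigSubgroup ↥S)).map (Cfsg.puigSubgroup ↥S).subtype).map S.subtype = Zp S := by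
  rw [center_map, ZJeB.map_inf_centralizer S.subtype S.subtype_injective, (map_puig S).1]
  rfl

theorem frat {G : Type*} [Group G] [Finite G] {p : ℕ} [Fact p.Prime] {O Z : Subgroup G} [hOn : O.Normal] (hO : (Nat.card O).Coprime p)
    (hZ : IsPGroup p Z) (hn : (Z ⊔ O).Normal) : O ⊔ normalizer (Z : Set G) = ⊤ := by
  have hZs : SylRel.SylIn p Z (Z ⊔ O) := by
    obtain ⟨R, hR, hZR⟩ := SylRel.exists_sylIn (p := p) (le_sup_left : Z ≤ Z ⊔ O) hZ
    have hc : Nat.card R ∣ Nat.card Z := by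
      have h1 : Nat.card R ∣ Nat.card (Z ⊔ O : Subgroup G) := Subgroup.card_dvd_of_le hR.le
      have h2 : Nat.card (Z ⊔ O : Subgroup G) ∣ Nat.card O * Nat.card Z := by
        rw [sup_comm]
        exact Cores.card_sup_dvd (by rw [Subgroup.normalizer_eq_top_iff.2 hOn]; exact le_top)
      obtain ⟨n, hn⟩ := IsPGroup.iff_card.1 hR.isPGroup
      have h3 : Nat.Coprime (Nat.card R) (Nat.card O) := by
        rw [hn]; exact Nat.Coprime.pow_left n hO.symm
      exact h3.dvd_of_dvd_mul_left (h1.trans h2)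
    have : Z = R := Subgroup.eq_of_le_of_card_ge hZR (Nat.le_of_dvd Nat.card_pos hc)
    rw [this] at hR ⊢
    rwa [← this] at hR ⊢
  rw [eq_top_iff]
  intro g _
  obtain ⟨d, hd, hdg⟩ := hZs.frattini (g := g) (fun x hx => hn.conj_mem x hx g)
  have h3 : d * g ∈ normalizer (Z : Set G) := PUtil.mem_normalizer_of_conj_mem hdg
  have h4 : Z ⊔ O ≤ O ⊔ normalizer (Z : Set G) := sup_le (le_normalizer.trans le_sup_right) le_sup_left
  have h5 := mul_mem (inv_mem (h4 hd)) ((le_sup_right : normalizer (Z : Set G) ≤ O ⊔ normalizer (Z : Set G)) h3)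
  rwa [inv_mul_cancel_left] at h5

/-- Let p be an odd prime, G a solvable group of odd order and S a Sylow p-subgroup, and let Z be the centre of the Puig subgroup L(S), viewed inside G. Then G is generated by O_{p'}(G) and N_G(Z); and if O_{p'}(G) = 1 then Z is normal in G. -/
theorem result {G : Type*} [Group G] [Finite G] [Group.IsSolvable G] (hodd : Odd (Nat.card G)) (p : ℕ) [Fact p.Prime] (hp : p ≠ 2) (S : Sylow p G) :
    Cfsg.pPrimeCore p G ⊔ Subgroup.normalizer ((((Subgroup.center ↥(Cfsg.puigSubgroup ↥(S : Subgroup G))).map (Cfsg.puigSubgroup ↥(S : Subgroup G)).subtype).map (S : Subgroup G).subtype : Subgroup G) : Set G) = ⊤ ∧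
      (Cfsg.pPrimeCore p G = ⊥ → (((Subgroup.center ↥(Cfsg.puigSubgroup ↥(S : Subgroup G))).map (Cfsg.puigSubgroup ↥(S : Subgroup G)).subtype).map (S : Subgroup G).subtype).Normal) := by
  rw [Zp_eq]
  refine ⟨?_, fun hO => puig_normal hodd hp hO S⟩
  haveI hOn : (Cfsg.pPrimeCore p G).Normal := Cores.pPrimeCore_normal p
  have hsurj := QuotientGroup.mk'_surjective (Cfsg.pPrimeCore p G)
  have hs : Group.IsSolvable (G ⧸ Cfsg.pPrimeCore p G) := inferInstance
  have hO := Cores.pPrimeCore_quotient_pPrimeCore (G := G) p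
  have hinj : ∀ x ∈ (S : Subgroup G), (QuotientGroup.mk' (Cfsg.pPrimeCore p G)) x = 1 → x = 1 := by
    intro x hx h1
    have h2 : x ∈ Cfsg.pPrimeCore p G := (QuotientGroup.eq_one_iff _).1 h1
    have h3 : orderOf x ∣ Nat.card (S : Subgroup G) := Subgroup.orderOf_dvd_natCard _ hx
    have h4 : orderOf x ∣ Nat.card (Cfsg.pPrimeCore p G) := Subgroup.orderOf_dvd_natCard _ h2
    obtain ⟨n, hn⟩ := IsPGroup.iff_card.1 S.2
    rw [hn] at h3
    have h5 := Cores.pPrimeCore_coprime (G := G) p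
    have h6 : Nat.Coprime (p ^ n) (Nat.card (Cfsg.pPrimeCore p G)) := Nat.Coprime.pow_left n h5.symm
    have h7 := Nat.dvd_gcd h3 h4
    rw [h6] at h7
    exact orderOf_eq_one_iff.1 (Nat.dvd_one.1 h7)
  have h1 := (hilo_map hinj).1
  have h2 := puig_normal (odd_quot hodd _) hp hO (S.mapSurjective hsurj)
  rw [Sylow.coe_mapSurjective] at h2
  have h4 : (Zp (S : Subgroup G)).map (QuotientGroup.mk' (Cfsg.pPrimeCore p G)) =
      Zp ((S : Subgroup G).map (QuotientGroup.mk' (Cfsg.pPrimeCore p G))) := by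
    unfold Zp
    rw [← h1]
    ext y
    constructor
    · rintro ⟨x, ⟨hx1, hx2⟩, rfl⟩
      refine ⟨⟨x, hx1, rfl⟩, ?_⟩
      show (QuotientGroup.mk' (Cfsg.pPrimeCore p G)) x ∈ centralizer _
      rw [mem_centralizer_iff]
      rintro _ ⟨z, hz, rfl⟩
      rw [← map_mul, mem_centralizer_iff.1 hx2 z hz, map_mul]
    · rintro ⟨⟨x, hx1, rfl⟩, hx2⟩
      refine ⟨x, ⟨hx1, ?_⟩, rfl⟩
      show x ∈ centralizer _
      rw [mem_centralizer_iff]
      intro z hz
      have h1 := mem_centralizer_iff.1 hx2 _ ⟨z, hz, rfl⟩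
      have h2 : (QuotientGroup.mk' (Cfsg.pPrimeCore p G)) (z * x * z⁻¹ * x⁻¹) = 1 := by
        rw [map_mul, map_mul, map_mul, map_inv, map_inv, h1]; group
      have hJX := hi_le (S : Subgroup G)
      have h3 := hinj _ ((S : Subgroup G).mul_mem ((S : Subgroup G).mul_mem ((S : Subgroup G).mul_mem (hJX hz) (hJX hx1))
        ((S : Subgroup G).inv_mem (hJX hz))) ((S : Subgroup G).inv_mem (hJX hx1))) h2
      exact mul_inv_eq_iff_eq_mul.1 (mul_inv_eq_one.1 h3)
  rw [← h4] at h2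
  have h3 := Subgroup.comap_map_eq (QuotientGroup.mk' (Cfsg.pPrimeCore p G)) (Zp (S : Subgroup G))
  rw [QuotientGroup.ker_mk'] at h3
  have h5 : (Zp (S : Subgroup G) ⊔ Cfsg.pPrimeCore p G).Normal := by
    rw [← h3]; exact h2.comap _
  exact frat (Cores.pPrimeCore_coprime p) (S.2.to_le (inf_le_left.trans (hi_le _))) h5

end Cfsg.Agent.S1469
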