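import Cfsg.Statements.S1470
import Mathlib

set_option autoImplicit false
open Cfsg

namespace Cfsg.Agent.S1470

/-- Let p and q be odd primes with (p^q − 1)/(p − 1) coprime to p − 1, and let E be the set of elements a of the field with p ^ q elements whose norm to the prime field is 1 and for which 2 − a also has norm 1. If a⁻¹ ∈ E for every a ∈ E and E has at least two elements, then p ≤ q. -/
theorem result (p q : ℕ) [Fact p.Prime] [Fact q.Prime] (hp : p ≠ 2) (hq : q ≠ 2) (hA : Nat.Coprime ((p ^ q - 1) / (p - 1)) (p - 1))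
    (hinv : ∀ a ∈ {a : GaloisField p q | Algebra.norm (ZMod p) a = 1 ∧ Algebra.norm (ZMod p) (2 - a) = 1}, a⁻¹ ∈ {a : GaloisField p q | Algebra.norm (ZMod p) a = 1 ∧ Algebra.norm (ZMod p) (2 - a) = 1})
    (h2 : 2 ≤ Set.ncard {a : GaloisField p q | Algebra.norm (ZMod p) a = 1 ∧ Algebra.norm (ZMod p) (2 - a) = 1}) :
    p ≤ q := by
  classical
  have hp' : p.Prime := Fact.out
  have hq' : q.Prime := Fact.out
  set E := {a : GaloisField p q | Algebra.norm (ZMod p) a = 1 ∧ Algebra.norm (ZMod p) (2 - a) = 1} with hE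
  -- an element different from `1`
  obtain ⟨a, ha, ha1⟩ : ∃ a ∈ E, a ≠ 1 := by
    by_contra hcon
    push Not at hcon
    have h1 : E ⊆ {1} := fun a ha => hcon a ha
    have h3 := Set.ncard_le_ncard h1 (Set.finite_singleton _)
    rw [Set.ncard_singleton] at h3
    omega
  -- `N (k (a - 1) + 1) = 1` for all `k`
  have key : ∀ k : ℕ, ∃ b ∈ E, b * ((k : GaloisField p q) * (a - 1) + 1) = ((k + 1 : ℕ) : GaloisField p q) * (a - 1) + 1 := by
    intro k
    induction k with
    | zero => exact ⟨a, ha, by push_cast; ring⟩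
    | succ k ih =>
      obtain ⟨b, hb, hbk⟩ := ih
      have hb0 : b ≠ 0 := by
        rintro rfl
        have := hb.1
        rw [Algebra.norm_zero] at this
        exact zero_ne_one this
      have hinvb := hinv b hb
      refine ⟨2 - b⁻¹, ⟨hinvb.2, ?_⟩, ?_⟩
      · rw [sub_sub_cancel]; exact hinvb.1
      · have h1 : b⁻¹ * (((k + 1 : ℕ) : GaloisField p q) * (a - 1) + 1) = (k : GaloisField p q) * (a - 1) + 1 := by
          rw [← hbk, inv_mul_cancel_left₀ hb0]
        rw [sub_mul, h1]
        push_cast; ring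
  have hnorm : ∀ k : ℕ, Algebra.norm (ZMod p) ((k : GaloisField p q) * (a - 1) + 1) = 1 := by
    intro k
    induction k with
    | zero => simp
    | succ k ih =>
      obtain ⟨b, hb, hbk⟩ := key k
      rw [← hbk, map_mul, ih, hb.1, one_mul]
  -- the polynomial
  by_contra hlt
  push Not at hlt
  haveI : Fintype (ZMod p) := inferInstance
  obtain ⟨b, hbdef⟩ : ∃ b : GaloisField p q, b = a - 1 := ⟨_, rfl⟩
  have hb : b ≠ 0 := hbdef ▸ sub_ne_zero.mpr ha1
  rw [← hbdef] at hnorm
  have hfr : Module.finrank (ZMod p) (GaloisField p q) = q := GaloisField.finrank p hq'.ne_zero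
  let B := Module.finBasis (ZMod p) (GaloisField p q)
  let M := Algebra.leftMulMatrix B b
  let P := Matrix.det ((Polynomial.X : Polynomial (ZMod p)) • M.map Polynomial.C + (1 : Matrix _ _ (ZMod p)).map Polynomial.C)
  have hP : ∀ k : ℕ, P.eval (k : ZMod p) = 1 := by
    intro k
    have h1 : P.eval (k : ZMod p) = ((k : ZMod p) • M + 1).det := by
      change Polynomial.evalRingHom (k : ZMod p) (Matrix.det _) = _
      rw [RingHom.map_det]
      congr 1
      ext i j
      by_cases hij : i = j
      · subst hij; simp only [RingHom.mapMatrix_apply, Matrix.map_apply, Matrix.add_apply, Matrix.smul_apply, smul_eq_mul, Matrix.one_apply_eq,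
          map_add, map_mul, map_one, Polynomial.coe_evalRingHom, Polynomial.eval_X, Polynomial.eval_C, Polynomial.eval_mul, Polynomial.eval_one]
      · simp only [RingHom.mapMatrix_apply, Matrix.map_apply, Matrix.add_apply, Matrix.smul_apply, smul_eq_mul, Matrix.one_apply_ne hij,
          map_add, map_mul, map_zero, Polynomial.coe_evalRingHom, Polynomial.eval_X, Polynomial.eval_C, Polynomial.eval_mul, Polynomial.eval_zero]
    rw [h1, ← hnorm k, Algebra.norm_eq_matrix_det B]
    congr 1
    rw [map_add, map_mul, map_one]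
    congr 1
    rw [map_natCast, ← nsmul_eq_mul, ← Nat.cast_smul_eq_nsmul (ZMod p)]
  have hdeg : (P - 1).natDegree < p := by
    refine lt_of_le_of_lt (Polynomial.natDegree_sub_le _ _) ?_
    rw [Polynomial.natDegree_one]
    refine lt_of_le_of_lt (max_le (Polynomial.natDegree_det_X_add_C_le _ _) (Nat.zero_le _)) ?_
    rw [Fintype.card_fin, hfr]; exact hlt
  have hzero : P - 1 = 0 := by
    apply Polynomial.eq_zero_of_natDegree_lt_card_of_eval_eq_zero (P - 1) (f := fun x : ZMod p => x) Function.injective_id
    · intro x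
      have h1 := hP x.val
      rw [ZMod.natCast_zmod_val] at h1
      rw [Polynomial.eval_sub, h1, Polynomial.eval_one, sub_self]
    · rw [ZMod.card]; exact hdeg
  have hcoeff : P.coeff (Fintype.card (Fin (Module.finrank (ZMod p) (GaloisField p q)))) = M.det := Polynomial.coeff_det_X_add_C_card _ _
  have hcard : Fintype.card (Fin (Module.finrank (ZMod p) (GaloisField p q))) = q := by rw [Fintype.card_fin, hfr]
  rw [hcard, sub_eq_zero.mp hzero, Polynomial.coeff_one, if_neg hq'.ne_zero] at hcoeff
  have hN : Algebra.norm (ZMod p) b = 0 := by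
    rw [Algebra.norm_eq_matrix_det B]; exact hcoeff.symm
  exact hb (Algebra.norm_eq_zero_iff.mp hN)

end Cfsg.Agent.S1470
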