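import Cfsg.Statements.S1471
import Mathlib
import Cfsg.Agent.H2.GPeriodB

set_option autoImplicit false
open Cfsg

namespace Cfsg.Agent.S1471

/-- Let p and q be odd primes with (p^q − 1)/(p − 1) coprime to p − 1. Then there are at least two elements a of the field with p ^ q elements such that both a and 2 − a have norm 1 to the prime field. -/
theorem result (p q : ℕ) [Fact p.Prime] [Fact q.Prime] (hp : p ≠ 2) (hq : q ≠ 2) (hA : Nat.Coprime ((p ^ q - 1) / (p - 1)) (p - 1)) :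
    2 ≤ Set.ncard {a : GaloisField p q | Algebra.norm (ZMod p) a = 1 ∧ Algebra.norm (ZMod p) (2 - a) = 1} := by
  classical
  have hp' : p.Prime := Fact.out
  have hq' : q.Prime := Fact.out
  set E := {a : GaloisField p q | Algebra.norm (ZMod p) a = 1 ∧ Algebra.norm (ZMod p) (2 - a) = 1} with hE
  have h1E : (1 : GaloisField p q) ∈ E := by
    refine ⟨map_one _, ?_⟩
    have : (2 : GaloisField p q) - 1 = 1 := by ring
    rw [this, map_one]
  by_contra hcon
  push Not at hcon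
  have hE1 : ∀ a ∈ E, a = 1 := by
    intro a ha
    have h1 : E.ncard ≤ 1 := by omega
    exact (Set.ncard_le_one (Set.toFinite E)).mp h1 a ha 1 h1E
  by_cases hq3 : q = 3
  · subst hq3
    obtain ⟨a, ha1, ha, hb⟩ := Cfsg.Agent.H2.GPeriodB.cubic p hp
    exact ha1 (hE1 a ⟨ha, hb⟩)
  have hq5 : 5 ≤ q := by
    have h2 := hq'.two_le
    have h4 : q ≠ 4 := by rintro rfl; exact absurd hq' (by norm_num)
    omega
  letI : Fintype (GaloisField p q) := Fintype.ofFinite _
  let U : Finset (GaloisField p q) := Finset.univ.filter (fun x => Algebra.norm (ZMod p) x = 1)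
  have hmem : ∀ x, x ∈ U ↔ Algebra.norm (ZMod p) x = 1 := fun x => by simp [U]
  have h0 : (0 : GaloisField p q) ∉ U := by
    rw [hmem, Algebra.norm_zero]; exact zero_ne_one
  have hne : U.Nonempty := ⟨1, by rw [hmem, map_one]⟩
  have hmul : ∀ w ∈ U, ∀ u, w * u ∈ U ↔ u ∈ U := by
    intro w hw u
    rw [hmem, hmem, map_mul, (hmem w).mp hw, one_mul]
  have h2 : (2 : GaloisField p q) ≠ 0 := by
    intro h
    have h1 : ((2 : ℕ) : GaloisField p q) = 0 := by exact_mod_cast h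
    rw [CharP.cast_eq_zero_iff (GaloisField p q) p] at h1
    exact hp ((Nat.prime_dvd_prime_iff_eq hp' Nat.prime_two).mp h1)
  have hmain := Cfsg.Agent.H2.GPeriod.main h0 hne hmul h2
  have hcE : (U.filter (fun u => 2 - u ∈ U)).card ≤ 1 := by
    rw [Finset.card_le_one]
    intro a ha b hb
    have hE' : ∀ a ∈ U.filter (fun u => 2 - u ∈ U), a = 1 := by
      intro a ha
      obtain ⟨h3, h4⟩ := Finset.mem_filter.mp ha
      exact hE1 a ⟨(hmem a).mp h3, (hmem _).mp h4⟩
    rw [hE' a ha, hE' b hb]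
  have hcF : Fintype.card (GaloisField p q) = p ^ q := by
    rw [← Nat.card_eq_fintype_card, GaloisField.card p q hq'.ne_zero]
  have hcU : U.card * (p - 1) = p ^ q - 1 := by
    rw [← Cfsg.Agent.H2.GPeriodB.card_norm_one p q]
    congr 1
    rw [Nat.card_eq_fintype_card, Fintype.card_subtype]
  rw [hcF] at hmain
  -- numerics
  have hp3 : 3 ≤ p := by have := hp'.two_le; omega
  obtain ⟨m, hm⟩ : ∃ m, m = U.card := ⟨_, rfl⟩
  rw [← hm] at hcU hmain
  obtain ⟨P, hP⟩ : ∃ P, P = p ^ (q - 2) := ⟨_, rfl⟩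
  have hPq : p ^ q = p ^ 2 * P := by rw [hP, ← pow_add]; congr 1; omega
  have hPq1 : p ^ (q - 1) = p * P := by rw [hP, ← pow_succ']; congr 1; omega
  have hP3 : p ^ 3 ≤ P := by rw [hP]; exact Nat.pow_le_pow_right (by omega) (by omega)
  have hm1 : p * P ≤ m := by
    by_contra hlt
    push Not at hlt
    have h3 : m * (p - 1) ≤ (p * P - 1) * (p - 1) := Nat.mul_le_mul_right _ (by omega)
    rw [hcU, hPq] at h3
    obtain ⟨r, rfl⟩ : ∃ r, p = r + 1 := ⟨p - 1, by omega⟩
    have h4 : 1 ≤ (r + 1) * P := by nlinarith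
    obtain ⟨t, ht⟩ : ∃ t, (r + 1) * P = t + 1 := ⟨(r + 1) * P - 1, by omega⟩
    rw [ht] at h3
    have h5 : (r + 1) ^ 2 * P = (r + 1) * (t + 1) := by rw [← ht]; ring
    rw [h5] at h3
    simp only [Nat.add_sub_cancel] at h3
    have h6 : (r + 1) * (t + 1) - 1 = r * t + r + t := by
      have : (r + 1) * (t + 1) = r * t + r + t + 1 := by ring
      omega
    rw [h6] at h3
    nlinarith
  have hmR : (p : ℝ) * P ≤ m := by exact_mod_cast hm1
  have hER : ((U.filter (fun u => 2 - u ∈ U)).card : ℝ) ≤ 1 := by exact_mod_cast hcE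
  have hPR : (p : ℝ) ^ 3 ≤ P := by exact_mod_cast hP3
  have hpR : (3 : ℝ) ≤ p := by exact_mod_cast hp3
  have hnR : ((p ^ q : ℕ) : ℝ) = (p : ℝ) ^ 2 * P := by rw [hPq]; push_cast; ring
  rw [hnR] at hmain
  obtain ⟨n, hn⟩ : ∃ n : ℝ, n = (p : ℝ) ^ 2 * P := ⟨_, rfl⟩
  rw [← hn] at hmain
  have hPpos : (0 : ℝ) < P := lt_of_lt_of_le (by positivity) hPR
  have hn0 : 0 < n := by rw [hn]; positivity
  have hm0 : (0 : ℝ) ≤ m := Nat.cast_nonneg _
  have hsq : (n - m) * Real.sqrt (n - m) ≤ n * Real.sqrt n := by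
    have h3 : Real.sqrt (n - m) ≤ Real.sqrt n := Real.sqrt_le_sqrt (by linarith)
    have h4 : 0 ≤ Real.sqrt (n - m) := Real.sqrt_nonneg _
    nlinarith
  have hlow : n * P - n ≤ n * Real.sqrt n := by
    have h5 : n * P ≤ (m : ℝ) ^ 2 := by
      have h6 : ((p : ℝ) * P) ^ 2 ≤ (m : ℝ) ^ 2 := by
        apply pow_le_pow_left₀ (by positivity) hmR
      have h7 : ((p : ℝ) * P) ^ 2 = n * P := by rw [hn]; ring
      linarith
    nlinarith
  have h8 : (P : ℝ) - 1 ≤ Real.sqrt n := by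
    have : n * ((P : ℝ) - 1) ≤ n * Real.sqrt n := by linarith
    exact le_of_mul_le_mul_left this hn0
  have h9 : ((P : ℝ) - 1) ^ 2 ≤ n := by
    have h10 : (1 : ℝ) ≤ P := by nlinarith [pow_le_pow_left₀ (by norm_num : (0:ℝ) ≤ 3) hpR 3]
    have h11 := Real.sq_sqrt hn0.le
    nlinarith
  rw [hn] at h9
  have h12 : (P : ℝ) ≤ (p : ℝ) ^ 2 + 2 := by
    by_contra hlt
    push Not at hlt
    nlinarith
  nlinarith

end Cfsg.Agent.S1471
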