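import Cfsg.Statements.S1474
import Mathlib
import Cfsg.Agent.H2.CNC

set_option autoImplicit false
open Cfsg

namespace Cfsg.Agent.S1474

open Subgroup Cfsg.Agent.H2.CN Cfsg.Agent.H2.CNB Cfsg.Agent.H2.CNC

/-- Let G be a finite group in which every non-identity element has nilpotent centralizer, not itself nilpotent, and having a nontrivial normal Sylow p-subgroup for some prime p. Let H be the largest normal nilpotent Hall subgroup of G. Then H is a nontrivial proper normal subgroup with a complement E that is a Frobenius complement in G (no non-identity element of E centralizes a non-identity element of H), and G/H is nilpotent. -/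
theorem result {G : Type*} [Group G] [Finite G] (hCN : Cfsg.IsCNGroup G) (hnn : ¬ Group.IsNilpotent G) (p : ℕ) [Fact p.Prime] (P : Sylow p G)
    (hP1 : (P : Subgroup G) ≠ ⊥) (hPn : (P : Subgroup G).Normal) :
    Cfsg.fittingHall G ≠ ⊥ ∧ Cfsg.fittingHall G ≠ ⊤ ∧
      (∃ E : Subgroup G, Subgroup.IsComplement' (Cfsg.fittingHall G) E ∧ Cfsg.IsFrobeniusComplement E ∧
        ∀ e ∈ E, e ≠ 1 → Cfsg.fittingHall G ⊓ Subgroup.centralizer ({e} : Set G) = ⊥) ∧
      Group.IsNilpotent (G ⧸ Cfsg.fittingHall G) := by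
  classical
  haveI hHn := Cfsg.fittingHall_normal G
  obtain ⟨-, hHnil, hHall⟩ := nh_fittingHall (G := G)
  have hPH : (P : Subgroup G) ≤ Cfsg.fittingHall G := le_fittingHall (sylow_nh P hPn)
  have hH1 : Cfsg.fittingHall G ≠ ⊥ := by
    intro h
    rw [h, le_bot_iff] at hPH
    exact hP1 hPH
  have hHt : Cfsg.fittingHall G ≠ ⊤ := by
    intro h
    rw [h] at hHnil
    exact hnn (Group.nilpotent_of_mulEquiv Subgroup.topEquiv)
  obtain ⟨E, hc⟩ := Subgroup.exists_right_complement'_of_coprime hHall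
  have hE1 : E ≠ ⊥ := by
    rintro rfl
    exact hHt (isComplement'_bot_right.mp hc)
  have hf : ∀ e ∈ E, e ≠ 1 → Cfsg.fittingHall G ⊓ centralizer ({e} : Set G) = ⊥ := fun e he he1 => fpf hCN hc he he1
  have hEnil := nilpotent_compl hCN hc hH1 hE1 hf
  refine ⟨hH1, hHt, ⟨E, hc, (Cfsg.Agent.Lib.FrobC.coprime_of_fpf hc hH1 hE1 hf).1, hf⟩, ?_⟩
  haveI := hEnil
  exact Group.nilpotent_of_mulEquiv (hc.symm.QuotientMulEquiv).symm

end Cfsg.Agent.S1474
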