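import Cfsg.Statements.S1475
import Mathlib
import Cfsg.Agent.H2.ThreePr

set_option autoImplicit false
open Cfsg

namespace Cfsg.Agent.S1475

/-- Let G be a finite solvable group such that the order of every element is a prime power (1 included). Then at most two distinct primes divide the order of G. -/
theorem result {G : Type*} [Group G] [Finite G] [Group.IsSolvable G] (h : ∀ g : G, IsPrimePow (orderOf g) ∨ g = 1) :
    (Nat.card G).primeFactors.card ≤ 2 := by
  by_contra hc
  rw [not_le] at hc
  obtain ⟨a, ha, b, hb, c, hc', hab, hac, hbc⟩ := Finset.two_lt_card.mp hc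
  have hap := Nat.prime_of_mem_primeFactors ha
  have hbp := Nat.prime_of_mem_primeFactors hb
  have hcp := Nat.prime_of_mem_primeFactors hc'
  have key : ∀ s t : ℕ, s.Prime → t.Prime → s ≠ t → ∀ g : G, orderOf g ≠ s * t := by
    intro s t hs ht hst g hg
    rcases h g with h1 | h1
    · rw [hg] at h1
      obtain ⟨p, k, hp, hk, hpk⟩ := h1
      have h2 : s ∣ p ^ k := hpk ▸ dvd_mul_right s t
      have h3 : t ∣ p ^ k := hpk ▸ dvd_mul_left t s
      have h4 := (Nat.prime_dvd_prime_iff_eq hs hp.nat_prime).mp (hs.dvd_of_dvd_pow h2)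
      have h5 := (Nat.prime_dvd_prime_iff_eq ht hp.nat_prime).mp (ht.dvd_of_dvd_pow h3)
      exact hst (h4.trans h5.symm)
    · rw [h1, orderOf_one] at hg
      have := Nat.eq_one_of_mul_eq_one_right hg.symm
      exact hs.one_lt.ne' this
  exact Cfsg.Agent.H2.ThreePr.main (G := G) inferInstance hap hbp hcp hab hac hbc (Nat.dvd_of_mem_primeFactors ha)
    (Nat.dvd_of_mem_primeFactors hb) (Nat.dvd_of_mem_primeFactors hc') (key _ _ hap hbp hab) (key _ _ hap hcp hac)
    (key _ _ hbp hcp hbc)

end Cfsg.Agent.S1475
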