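import Cfsg.Statements.S1476
import Mathlib
import Cfsg.Agent.H2.CND

set_option autoImplicit false
open Cfsg

namespace Cfsg.Agent.S1476

open Subgroup Cfsg.Agent.H2.CN Cfsg.Agent.H2.CNB Cfsg.Agent.H2.CNC Cfsg.Agent.H2.CND

/-- Let G be a finite solvable group in which every non-identity element has nilpotent centralizer. Then either G is nilpotent; or G has a normal subgroup K with a Frobenius complement E (K E = G, K ∩ E = 1, E meets its conjugates by outside elements trivially) such that E is cyclic or E is generated by two elementwise-commuting subgroups, one cyclic of odd order and one isomorphic to a generalized quaternion group; or G is a three-step group with respect to some prime p. -/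
theorem result {G : Type*} [Group G] [Finite G] [Group.IsSolvable G] (hCN : Cfsg.IsCNGroup G) :
    Group.IsNilpotent G ∨
      (∃ K E : Subgroup G, K.Normal ∧ Subgroup.IsComplement' K E ∧ Cfsg.IsFrobeniusComplement E ∧
        (IsCyclic E ∨ ∃ C Q : Subgroup G, C ⊔ Q = E ∧ (∀ a ∈ C, ∀ b ∈ Q, a * b = b * a) ∧ IsCyclic C ∧ Odd (Nat.card C) ∧
          ∃ n : ℕ, Nonempty (↥Q ≃* QuaternionGroup (2 ^ n)))) ∨
      ∃ p : ℕ, p.Prime ∧ Cfsg.IsThreeStepGroup p G := by
  classical
  by_cases hnn : Group.IsNilpotent G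
  · exact Or.inl hnn
  right
  by_cases hno : ∀ (p : ℕ) (_ : Fact p.Prime) (P : Sylow p G), (P : Subgroup G) ≠ ⊥ → ¬ (P : Subgroup G).Normal
  · exact Or.inr (three_step hCN hnn hno)
  left
  push Not at hno
  obtain ⟨p, hp, P, hP1, hPn⟩ := hno
  haveI hHn := Cfsg.fittingHall_normal G
  obtain ⟨-, hHnil, hHall⟩ := nh_fittingHall (G := G)
  have hPH : (P : Subgroup G) ≤ Cfsg.fittingHall G := le_fittingHall (sylow_nh P hPn)
  have hH1 : Cfsg.fittingHall G ≠ ⊥ := by
    intro h
    rw [h, le_bot_iff] at hPH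
    exact hP1 hPH
  have hHt : Cfsg.fittingHall G ≠ ⊤ := by
    intro h
    rw [h] at hHnil
    exact hnn (Group.nilpotent_of_mulEquiv Subgroup.topEquiv)
  obtain ⟨E, hc⟩ := Subgroup.exists_right_complement'_of_coprime hHall
  have hE1 : E ≠ ⊥ := by
    rintro rfl
    exact hHt (isComplement'_bot_right.mp hc)
  have hf : ∀ e ∈ E, e ≠ 1 → Cfsg.fittingHall G ⊓ centralizer ({e} : Set G) = ⊥ := fun e he he1 => fpf hCN hc he he1
  have hEnil := nilpotent_compl hCN hc hH1 hE1 hf
  refine ⟨Cfsg.fittingHall G, E, hHn, hc, (Cfsg.Agent.Lib.FrobC.coprime_of_fpf hc hH1 hE1 hf).1, ?_⟩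
  rcases struct hEnil (fun q hq Q => @Cfsg.Agent.S0040.result G _ _ (Cfsg.fittingHall G) E hHn hc hH1 hf q hq Q) with h | ⟨C, Q, h1, h2, h3, h4, n, ⟨e⟩⟩
  · exact Or.inl h
  · right
    refine ⟨C.map E.subtype, Q.map E.subtype, ?_, ?_, ?_, ?_, n, ⟨?_⟩⟩
    · rw [← Subgroup.map_sup, h1, ← MonoidHom.range_eq_map, range_subtype]
    · rintro _ ⟨a, ha, rfl⟩ _ ⟨b, hb, rfl⟩
      exact congrArg Subtype.val (h2 a ha b hb)
    · exact (MulEquiv.isCyclic (C.equivMapOfInjective _ E.subtype_injective)).mp h3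
    · rw [Nat.card_congr (C.equivMapOfInjective _ E.subtype_injective).toEquiv.symm]
      exact h4
    · exact (Q.equivMapOfInjective _ E.subtype_injective).symm.trans e

end Cfsg.Agent.S1476
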