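import Cfsg.Statements.S1477
import Mathlib
import Cfsg.Agent.H2.CNB

set_option autoImplicit false
open Cfsg

namespace Cfsg.Agent.S1477

open Subgroup Cfsg.Agent.H2.CN Cfsg.Agent.H2.CNB

/-- Let G be a finite group in which every non-identity element has nilpotent centralizer, and H a nilpotent subgroup not properly contained in any nilpotent subgroup. Then the order of H is coprime to its index; if the order of H is not a prime power then H ∩ gHg⁻¹ = 1 whenever gHg⁻¹ ≠ H; and if H ∩ gHg⁻¹ = 1 whenever gHg⁻¹ ≠ H, then C_G(x) ≤ H for every non-identity x ∈ H. -/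
theorem result {G : Type*} [Group G] [Finite G] (hCN : Cfsg.IsCNGroup G) (H : Subgroup G) (hH : Group.IsNilpotent H)
    (hmax : ∀ L : Subgroup G, Group.IsNilpotent L → H ≤ L → L = H) :
    (Nat.card H).Coprime H.index ∧
      (¬ IsPrimePow (Nat.card H) → Nat.card H ≠ 1 → ∀ g : G, H.map (MulAut.conj g).toMonoidHom ≠ H → H ⊓ H.map (MulAut.conj g).toMonoidHom = ⊥) ∧
      ((∀ g : G, H.map (MulAut.conj g).toMonoidHom ≠ H → H ⊓ H.map (MulAut.conj g).toMonoidHom = ⊥) → ∀ x ∈ H, x ≠ 1 → Subgroup.centralizer ({x} : Set G) ≤ H) := by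
  classical
  refine ⟨coprime_index hCN hH hmax, ?_, cent_le_of_ti hCN hH hmax⟩
  intro hnp hc1 g hg
  by_contra hne
  obtain ⟨x, hx1⟩ := ne_bot_iff_exists_ne_one.mp hne
  obtain ⟨hxH, hxg⟩ := mem_inf.mp x.2
  -- a power of prime order
  obtain ⟨p, hp, hd⟩ := Nat.exists_prime_and_dvd (fun h => hx1 (orderOf_eq_one_iff.mp h))
  haveI hpf : Fact p.Prime := ⟨hp⟩
  obtain ⟨y, hy1, hyH, hyg, hyp⟩ : ∃ y : G, y ≠ 1 ∧ y ∈ H ∧ y ∈ H.map (MulAut.conj g).toMonoidHom ∧ y ^ p = 1 := by
    obtain ⟨k, hk⟩ := hd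
    have hk0 : 0 < orderOf x := orderOf_pos x
    have h1 : x ^ k ≠ 1 := by
      intro h
      have h2 := Nat.le_of_dvd (Nat.pos_of_ne_zero (by rintro rfl; rw [mul_zero] at hk; omega)) (_root_.orderOf_dvd_of_pow_eq_one h)
      have h3 : 0 < k := Nat.pos_of_ne_zero (by rintro rfl; rw [mul_zero] at hk; omega)
      nlinarith [hp.one_lt]
    refine ⟨(x ^ k : (H ⊓ H.map (MulAut.conj g).toMonoidHom : Subgroup G)), fun h => h1 (Subtype.ext h), (mem_inf.mp (x ^ k).2).1, (mem_inf.mp (x ^ k).2).2, ?_⟩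
    have h4 : (x ^ k) ^ p = 1 := by rw [← pow_mul, mul_comm, ← hk, pow_orderOf_eq_one]
    exact congrArg Subtype.val h4
  -- another prime
  obtain ⟨q, hq, hqp, hqd⟩ : ∃ q : ℕ, q.Prime ∧ q ≠ p ∧ q ∣ Nat.card H := by
    by_contra hcon
    push Not at hcon
    apply hnp
    have h1 := Nat.eq_prime_pow_of_unique_prime_dvd (p := p) (n := Nat.card H) Nat.card_pos.ne' (fun {q} hq hqd => by
          by_contra hne'; exact hcon q hq hne' hqd)
    rw [h1]
    refine hp.isPrimePow.pow ?_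
    intro h0
    rw [h0, pow_zero] at h1
    exact hc1 h1
  haveI hqf : Fact q.Prime := ⟨hq⟩
  obtain ⟨S, hS⟩ := sylow_le hCN hH hmax hqd
  obtain ⟨z, hz, hz1, ⟨i, hzi⟩, hzc⟩ := exists_central hH hqd
  have hSy : ∀ s ∈ (S : Subgroup G), ∃ k, s ^ q ^ k = 1 := by
    intro s hs
    obtain ⟨l, hl⟩ := S.isPGroup' ⟨s, hs⟩
    exact ⟨l, congrArg Subtype.val hl⟩
  have hpq : p.Coprime q := (Nat.coprime_primes hp hq).mpr (Ne.symm hqp)
  -- `S` and its conjugate centralise `y`
  have h1 : (S : Subgroup G) ≤ centralizer ({y} : Set G) := by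
    intro s hs
    obtain ⟨l, hl⟩ := hSy s hs
    exact mem_cent (comm_of_mem hH hyH (hS hs) hyp hl (Nat.Coprime.pow_right l hpq))
  have hHg : Group.IsNilpotent (H.map (MulAut.conj g).toMonoidHom) := by
    haveI := hH
    exact Group.nilpotent_of_surjective ((MulAut.conj g).toMonoidHom.subgroupMap H) ((MulAut.conj g).toMonoidHom.subgroupMap_surjective H)
  have h2 : ((g • S : Sylow q G) : Subgroup G) ≤ centralizer ({y} : Set G) := by
    intro s hs
    obtain ⟨l, hl⟩ : ∃ k, s ^ q ^ k = 1 := by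
      obtain ⟨l, hl⟩ := (g • S).isPGroup' ⟨s, hs⟩
      exact ⟨l, congrArg Subtype.val hl⟩
    have h3 : s ∈ H.map (MulAut.conj g).toMonoidHom := by
      obtain ⟨t, ht, rfl⟩ := hs
      exact ⟨t, hS ht, rfl⟩
    exact mem_cent (comm_of_mem hHg hyg h3 hyp hl (Nat.Coprime.pow_right l hpq))
  have hSS : g • S = S := by
    have hn := hCN y hy1
    have hu := Cfsg.Agent.H2.PUtil.sylow_normal_of_nilpotent hn (S.subtype h1)
    haveI : Unique (Sylow q (centralizer ({y} : Set G))) := Sylow.unique_of_normal _ hu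
    have h3 : (g • S).subtype h2 = S.subtype h1 := Subsingleton.elim _ _
    have h4 := congrArg (fun T : Sylow q (centralizer ({y} : Set G)) => (T : Subgroup (centralizer ({y} : Set G))).map (centralizer ({y} : Set G)).subtype) h3
    simp only [Sylow.coe_subtype, subgroupOf_map_subtype] at h4
    rw [inf_eq_left.mpr h1, inf_eq_left.mpr h2] at h4
    exact Sylow.ext h4
  -- the conjugate of `z` is central in `H`
  obtain ⟨w, hw⟩ : ∃ w, w = g * z * g⁻¹ := ⟨_, rfl⟩
  have hw1 : w ≠ 1 := by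
    intro h; apply hz1
    rw [hw] at h
    have : z = g⁻¹ * (g * z * g⁻¹) * g := by group
    rw [this, h]; group
  have hzS : z ∈ (S : Subgroup G) := by
    have hu := Cfsg.Agent.H2.PUtil.sylow_normal_of_nilpotent hH (S.subtype hS)
    have h5 : IsPGroup q (zpowers (⟨z, hz⟩ : H)) := by
      apply IsPGroup.of_card (n := Nat.log q (Nat.card (zpowers (⟨z, hz⟩ : H))))
      have h3 : Nat.card (zpowers (⟨z, hz⟩ : H)) ∣ q ^ i := by
        rw [Nat.card_zpowers]; exact _root_.orderOf_dvd_of_pow_eq_one (Subtype.ext hzi)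
      obtain ⟨j, _, hj⟩ := (Nat.dvd_prime_pow hq).mp h3
      rw [hj, Nat.log_pow hq.one_lt]
    obtain ⟨P', hP'⟩ := h5.exists_le_sylow
    haveI : Unique (Sylow q H) := Sylow.unique_of_normal _ hu
    have h6 : P' = S.subtype hS := Subsingleton.elim _ _
    rw [h6] at hP'
    exact hP' (mem_zpowers _)
  have hwS : w ∈ (S : Subgroup G) := by
    rw [← hSS, hw]
    exact ⟨z, hzS, rfl⟩
  have hwH : w ∈ H := hS hwS
  have hwcg : ∀ h ∈ H.map (MulAut.conj g).toMonoidHom, w * h = h * w := by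
    rintro _ ⟨h, hh, rfl⟩
    rw [hw]
    change g * z * g⁻¹ * (g * h * g⁻¹) = g * h * g⁻¹ * (g * z * g⁻¹)
    have h3 := hzc h hh
    calc g * z * g⁻¹ * (g * h * g⁻¹) = g * (z * h) * g⁻¹ := by group
      _ = g * (h * z) * g⁻¹ := by rw [h3]
      _ = _ := by group
  have hwc : H ≤ centralizer ({w} : Set G) := by
    rw [← subgroupOf_eq_top]
    apply Cfsg.Agent.Lib.Cores.eq_top_of_sylow_le
    intro s hs
    haveI : Fact s.Prime := ⟨hs⟩
    by_cases hsq : s = q
    · subst hsq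
      refine ⟨S.subtype hS, fun t ht => ?_⟩
      rw [mem_subgroupOf]
      have h3 : (t : G) ∈ H.map (MulAut.conj g).toMonoidHom := by
        have h4 : (t : G) ∈ (S : Subgroup G) := ht
        rw [← hSS] at h4
        obtain ⟨t', ht', h5⟩ := h4
        exact ⟨t', hS ht', h5⟩
      exact mem_cent (hwcg _ h3)
    · obtain ⟨T⟩ := (inferInstance : Nonempty (Sylow s H))
      refine ⟨T, fun t ht => ?_⟩
      rw [mem_subgroupOf]
      obtain ⟨k, hk⟩ := T.isPGroup' ⟨t, ht⟩
      have hk' : (t : G) ^ s ^ k = 1 := congrArg (fun t => ((t : H) : G)) (congrArg Subtype.val hk)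
      obtain ⟨l, hl⟩ := hSy w hwS
      exact mem_cent (comm_of_mem hH hwH t.2 hl hk' (Nat.Coprime.pow _ _ ((Nat.coprime_primes hq hs).mpr (Ne.symm hsq))))
  have hle : H ≤ H.map (MulAut.conj g).toMonoidHom := by
    intro h hh
    have h3 : g⁻¹ * h * g ∈ centralizer ({z} : Set G) := by
      rw [mem_centralizer_singleton_iff]
      have h4 : h * w = w * h := mem_centralizer_singleton_iff.mp (hwc hh)
      rw [hw] at h4
      calc g⁻¹ * h * g * z = g⁻¹ * (h * (g * z * g⁻¹)) * g := by group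
        _ = g⁻¹ * ((g * z * g⁻¹) * h) * g := by rw [h4]
        _ = _ := by group
    rw [cent_eq hCN hmax hz1 hzc] at h3
    refine ⟨_, h3, ?_⟩
    change g * (g⁻¹ * h * g) * g⁻¹ = h
    group
  exact hg (hmax _ hHg hle)

end Cfsg.Agent.S1477
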