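import Cfsg.Statements.S1480
import Mathlib
import Cfsg.Agent.H2.Trans
import Cfsg.Agent.H2.Constr
import Cfsg.Agent.Lib.PiCore
import Cfsg.Agent.Lib.PNilp
import Cfsg.Agent.Lib.Wiel

set_option autoImplicit false
open Cfsg

namespace Cfsg.Agent.S1480

open Subgroup Cfsg.Agent.Lib Cfsg.Agent.Lib.Coprime Cfsg.Agent.Lib.CoprimeB
open scoped Pointwise commutatorElement

theorem classTwo_of {G : Type*} [Group G] [Finite G] {p : ℕ} [Fact p.Prime]
    (h : ∀ S : Sylow p G, Group.IsNilpotent (S : Subgroup G) ∧ Group.nilpotencyClass (S : Subgroup G) ≤ 2)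
    (S : Subgroup G) (hS : IsPGroup p S) : ⁅⁅S, S⁆, S⁆ = ⊥ := by
  obtain ⟨T, hT⟩ := hS.exists_le_sylow
  obtain ⟨h1, h2⟩ := h T
  have h3 : (T : Subgroup G).lowerCentralSeries 2 = ⊥ := lowerCentralSeries_eq_bot_of_nilpotencyClass_le h2
  have h4 : ⁅⁅(T : Subgroup G), (T : Subgroup G)⁆, (T : Subgroup G)⁆ = ⊥ := h3
  rw [eq_bot_iff, ← h4]
  exact commutator_mono (commutator_mono hT hT) hT

/-- `p'`-elements of `C_G(E)` lie in the core when `E` contains all `p`-elements of `C_G(E)` -/
theorem mem_core {G : Type*} [Group G] [Finite G] {p : ℕ} [hp : Fact p.Prime] {E : Subgroup G}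
    (hEp : IsPGroup p E) (hEc : IsMulCommutative E)
    (hEfull : ∀ x ∈ Subgroup.centralizer (E : Set G), IsPGroup p (Subgroup.zpowers x) → x ∈ E)
    {c : G} (hc : c ∈ centralizer (E : Set G)) (ho : (orderOf c).Coprime p) :
    c ∈ Cfsg.piCoreOf (Cfsg.primesNotDvd p) (Subgroup.centralizer (E : Set G)) := by
  have hcomm := H2.PUtil.isMulCommutative_iff.1 hEc
  set C := centralizer (E : Set G) with hC
  have hEC : E ≤ C := by
    intro x hx
    rw [hC, mem_centralizer_iff]
    intro y hy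
    exact hcomm y hy x hx
  have hE' : IsPGroup p (E.subgroupOf C) := hEp.comap_of_injective C.subtype C.subtype_injective
  obtain ⟨S, hS⟩ := hE'.exists_le_sylow
  have hSle : (S : Subgroup C) ≤ E.subgroupOf C := by
    intro x hx
    apply hEfull x.1 x.2
    obtain ⟨k, hk⟩ := IsPGroup.iff_orderOf.1 S.isPGroup' ⟨x, hx⟩
    rw [← Subgroup.orderOf_coe] at hk
    exact IsPGroup.of_card (n := k) (by rw [Nat.card_zpowers, Subgroup.orderOf_coe]; exact hk)
  have hnil : PNilp.PNil p C := by
    apply Wiel.pNil_of_normalizer_le_centralizer S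
    intro x _
    rw [mem_centralizer_iff]
    intro y hy
    have hyE : (y : G) ∈ E := hSle hy
    exact Subtype.ext (mem_centralizer_iff.1 x.2 _ hyE)
  have hcore := (PNilp.pNil_iff_core).1 hnil
  have h1 : (⟨c, hc⟩ : C) ∈ pPrimeCore p C :=
    (PNilp.mem_iff_coprime (Cores.pPrimeCore_normal p) (Cores.pPrimeCore_coprime p) hcore _).2
      (by rw [← Subgroup.orderOf_coe]; exact ho)
  have h2 : pPrimeCore p C ≤ Cfsg.piCore (Cfsg.primesNotDvd p) C := by
    apply PiCore.le_piCore (Cores.pPrimeCore_normal p)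
    intro r hr hd
    refine ⟨hr, fun hrp => ?_⟩
    have h3 := (Nat.prime_dvd_prime_iff_eq hr hp.out).1 hrp
    rw [h3] at hd
    exact (Nat.Prime.coprime_iff_not_dvd hp.out).1 (Cores.pPrimeCore_coprime (G := C) p).symm hd
  exact ⟨⟨c, hc⟩, h2 h1, rfl⟩

/-- Let G be a finite group and p a prime such that the normalizer of every nontrivial p-subgroup of G is p-constrained; if p = 2 assume also that the Sylow 2-subgroups of G have nilpotency class at most 2. Let E be an abelian p-subgroup containing an elementary abelian subgroup of order p ^ 3 and containing every element of p-power order of C_G(E). Then for every prime q ≠ p, any two maximal E-invariant q-subgroups of G are conjugate by an element of O_{p'}(C_G(E)). -/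
theorem result {G : Type*} [Group G] [Finite G] (p : ℕ) [Fact p.Prime]
    (hloc : ∀ T : Subgroup G, IsPGroup p T → T ≠ ⊥ → Cfsg.IsPConstrained p ↥(Subgroup.normalizer (T : Set G)))
    (h2 : p = 2 → ∀ S : Sylow p G, Group.IsNilpotent (S : Subgroup G) ∧ Group.nilpotencyClass (S : Subgroup G) ≤ 2)
    (E : Subgroup G) (hEp : IsPGroup p E) (hEc : IsMulCommutative E) (hE3 : ¬ Cfsg.PRankLE p 2 E)
    (hEfull : ∀ x ∈ Subgroup.centralizer (E : Set G), IsPGroup p (Subgroup.zpowers x) → x ∈ E)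
    (q : ℕ) [Fact q.Prime] (hqp : q ≠ p) :
    ∀ Q₁ ∈ Cfsg.maxInvSubgroups ⊤ E {q}, ∀ Q₂ ∈ Cfsg.maxInvSubgroups ⊤ E {q},
        ∃ k ∈ Cfsg.piCoreOf (Cfsg.primesNotDvd p) (Subgroup.centralizer (E : Set G)), Q₂ = Q₁.map (MulAut.conj k).toMonoidHom := by
  classical
  have hp : p.Prime := Fact.out
  have hq : q.Prime := Fact.out
  have hcomm := H2.PUtil.isMulCommutative_iff.1 hEc
  -- an elementary abelian subgroup of order p^3
  obtain ⟨A₀, hA₀E, hA₀c, hA₀e, hA₀card⟩ : ∃ A₀ : Subgroup G, A₀ ≤ E ∧ IsMulCommutative A₀ ∧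
      (∀ x ∈ A₀, x ^ p = 1) ∧ Nat.card A₀ = p ^ 3 := by
    unfold Cfsg.PRankLE at hE3
    push Not at hE3
    obtain ⟨A, hAc, hAe, hAcard⟩ := hE3
    have hAp : IsPGroup p A := hEp.to_subgroup A
    obtain ⟨m, hm⟩ := hAp.exists_card_eq
    have hm3 : 3 ≤ m := by
      rw [hm] at hAcard
      have := (Nat.pow_lt_pow_iff_right hp.one_lt).1 hAcard
      omega
    obtain ⟨B, hB⟩ := Sylow.exists_subgroup_card_pow_prime (G := A) p (n := 3) (by
      rw [hm]; exact pow_dvd_pow p hm3)
    refine ⟨(B.map A.subtype).map E.subtype, map_subtype_le _, ?_, ?_, ?_⟩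
    · rw [H2.PUtil.isMulCommutative_iff]
      intro a ha b hb
      exact hcomm a (map_subtype_le _ ha) b (map_subtype_le _ hb)
    · rintro _ ⟨_, ⟨y, hy, rfl⟩, rfl⟩
      exact congrArg Subtype.val (hAe y.1 y.2)
    · rw [card_map_of_injective E.subtype_injective, card_map_of_injective A.subtype_injective, hB]
  have hEsolv : Group.IsSolvable E := isSolvable_of_isPGroup hEp
  have hqp' : q.Coprime p := (Nat.coprime_primes hq hp).2 hqp
  have hcopq : ∀ X : Subgroup G, IsPGroup q X → (Nat.card X).Coprime p := by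
    intro X hX
    obtain ⟨k, hk⟩ := hX.exists_card_eq
    rw [hk]; exact hqp'.pow_left k
  set K := Cfsg.piCoreOf (Cfsg.primesNotDvd p) (Subgroup.centralizer (E : Set G)) with hK
  have hKC : K ≤ centralizer (E : Set G) := map_subtype_le _
  -- local subgroups
  have hloc' : ∀ a ∈ A₀, a ≠ 1 → ∃ R : Subgroup G, E ≤ normalizer (R : Set G) ∧ (Nat.card R).Coprime p ∧
      ∀ X : Subgroup G, IsPGroup q X → E ≤ normalizer (X : Set G) → X ≤ centralizer ({a} : Set G) → X ≤ R := by
    intro a ha ha1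
    set T := zpowers a with hT
    have horda : orderOf a = p := orderOf_eq_prime (hA₀e a ha) ha1
    have hTp : IsPGroup p T := IsPGroup.of_card (n := 1) (by rw [Nat.card_zpowers, horda, pow_one])
    have hT1 : T ≠ ⊥ := by rw [hT, Ne, zpowers_eq_bot]; exact ha1
    set H := normalizer (T : Set G) with hH
    have hEH : E ≤ H := by
      intro x hx
      apply H2.PUtil.mem_normalizer_of_conj_mem
      intro y hy
      have hyE : y ∈ E := (zpowers_le.2 (hA₀E ha) : T ≤ E) hy
      rw [hcomm x hx y hyE, mul_inv_cancel_right]; exact hy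
    have hCH : centralizer ({a} : Set G) ≤ H := by
      intro x hx
      apply H2.PUtil.mem_normalizer_of_conj_mem
      intro y hy
      have hxa : x * a = a * x := mem_centralizer_singleton_iff.1 hx
      obtain ⟨i, rfl⟩ := hy
      have : Commute x (a ^ i) := (show Commute x a from hxa).zpow_right i
      rw [this.eq, mul_inv_cancel_right]
      exact ⟨i, rfl⟩
    set M := Cfsg.pPrimeCore p H with hM
    have hMn : M.Normal := Cores.pPrimeCore_normal p
    refine ⟨M.map H.subtype, ?_, ?_, ?_⟩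
    · intro x hx
      apply H2.PUtil.mem_normalizer_of_conj_mem
      rintro _ ⟨y, hy, rfl⟩
      exact ⟨⟨x, hEH hx⟩ * y * (⟨x, hEH hx⟩ : H)⁻¹, hMn.conj_mem y hy _, rfl⟩
    · rw [card_map_of_injective H.subtype_injective]
      exact Cores.pPrimeCore_coprime p
    · intro X hXq hEX hXa
      have hXH : X ≤ H := hXa.trans hCH
      have h1 : X.subgroupOf H ≤ M := by
        apply H2.Constr.lemmaA (hloc T hTp hT1) _ (E.subgroupOf H) (X.subgroupOf H)
          (hEp.comap_of_injective H.subtype H.subtype_injective)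
        · rw [H2.PUtil.isMulCommutative_iff]
          intro x hx y hy
          exact Subtype.ext (hcomm _ hx _ hy)
        · intro x hx hxp
          apply hEfull (x : G)
          · rw [mem_centralizer_iff]
            intro y hy
            exact congrArg Subtype.val (mem_centralizer_iff.1 hx ⟨y, hEH hy⟩ hy)
          · obtain ⟨k, hk⟩ := hxp.exists_card_eq
            exact IsPGroup.of_card (n := k) (by
              rw [Nat.card_zpowers] at hk ⊢
              rw [Subgroup.orderOf_coe]; exact hk)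
        · rw [Nat.card_congr (subgroupOfEquivOfLe hXH).toEquiv]
          exact hcopq X hXq
        · intro x hx
          apply H2.PUtil.mem_normalizer_of_conj_mem
          intro y hy
          exact (mem_normalizer_iff.1 (hEX hx) _).1 hy
        · intro hp2 S hS
          have h3 := classTwo_of (h2 hp2) (S.map H.subtype) (hS.map _)
          rw [← map_commutator, ← map_commutator, map_eq_bot_iff_of_injective _ H.subtype_injective] at h3
          exact h3
      intro x hx
      exact ⟨⟨x, hXH hx⟩, h1 hx, rfl⟩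
  have key := H2.Trans.induct (A := E) (K := K) (q := q) hKC (fun _ => True) (fun _ _ _ _ => trivial) (by
    intro Q₁ h₁ Q₂ h₂ _ hlt1 hlt2
    set D := Q₁ ⊓ Q₂ with hD
    obtain ⟨hQ₁q, hEQ₁⟩ := H2.Trans.inv_iff.1 h₁.1
    obtain ⟨hQ₂q, hEQ₂⟩ := H2.Trans.inv_iff.1 h₂.1
    have hED : E ≤ normalizer (D : Set G) := SchurZas.le_normalizer_inf hEQ₁ hEQ₂
    have hDq : IsPGroup q D := hQ₁q.to_le inf_le_left
    have hEND : E ≤ normalizer ((normalizer (D : Set G) : Subgroup G) : Set G) := hED.trans le_normalizer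
    set N := normalizer (D : Set G) with hN
    have hX₁ : E ≤ normalizer ((Q₁ ⊓ N : Subgroup G) : Set G) := SchurZas.le_normalizer_inf hEQ₁ hEND
    have hX₂ : E ≤ normalizer ((Q₂ ⊓ N : Subgroup G) : Set G) := SchurZas.le_normalizer_inf hEQ₂ hEND
    have hX₁q : IsPGroup q (Q₁ ⊓ N : Subgroup G) := hQ₁q.to_le inf_le_left
    have hX₂q : IsPGroup q (Q₂ ⊓ N : Subgroup G) := hQ₂q.to_le inf_le_left
    obtain ⟨a, ha, ha1, hn₁, hn₂⟩ := H2.Trans.common hA₀c hA₀e hA₀card (hA₀E.trans hX₁) (hcopq _ hX₁q)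
      (H2.Trans.not_le_of_lt hQ₁q hlt1) (hA₀E.trans hX₂) (hcopq _ hX₂q) (H2.Trans.not_le_of_lt hQ₂q hlt2)
    obtain ⟨R, hER, hRc, hR⟩ := hloc' a ha ha1
    have hEa : E ≤ normalizer ((centralizer ({a} : Set G) : Subgroup G) : Set G) := by
      refine le_trans ?_ le_normalizer
      intro x hx
      rw [mem_centralizer_singleton_iff]
      exact hcomm x hx a (hA₀E ha)
    have hY₁ : E ≤ normalizer ((Q₁ ⊓ N ⊓ centralizer ({a} : Set G) : Subgroup G) : Set G) :=
      SchurZas.le_normalizer_inf hX₁ hEa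
    have hY₂ : E ≤ normalizer ((Q₂ ⊓ N ⊓ centralizer ({a} : Set G) : Subgroup G) : Set G) :=
      SchurZas.le_normalizer_inf hX₂ hEa
    have hY₁q : IsPGroup q (Q₁ ⊓ N ⊓ centralizer ({a} : Set G) : Subgroup G) := hX₁q.to_le inf_le_left
    have hY₂q : IsPGroup q (Q₂ ⊓ N ⊓ centralizer ({a} : Set G) : Subgroup G) := hX₂q.to_le inf_le_left
    have hcopER : (Nat.card E).Coprime (Nat.card (R ⊓ N : Subgroup G)) :=
      (card_coprime_of_isPGroup (Nat.Coprime.coprime_dvd_left (card_dvd_of_le inf_le_left) hRc) hEp).symm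
    obtain ⟨c, hc, Q₃, h₃, hDQ₃, hY₁Q₃, hY₂Q₃⟩ := H2.Trans.step (A := E) (R := R ⊓ N) (D := D)
      (X₁ := Q₁ ⊓ N ⊓ centralizer ({a} : Set G)) (X₂ := Q₂ ⊓ N ⊓ centralizer ({a} : Set G)) (q := q)
      (SchurZas.le_normalizer_inf hER hEND) hcopER (Or.inl hEsolv) inf_le_right hDq hED
      (le_inf (hR _ hY₁q hY₁ inf_le_right) (inf_le_left.trans inf_le_right)) hY₁q hY₁
      (le_inf (hR _ hY₂q hY₂ inf_le_right) (inf_le_left.trans inf_le_right)) hY₂q hY₂
    have hcN : MulAut.conj c • D = D := conj_smul_eq_of_mem_normalizer hc.1.2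
    refine ⟨c, ?_, Q₃, h₃, ?_, ?_⟩
    · apply mem_core hEp hEc hEfull hc.2
      have h5 : c ∈ R := hc.1.1
      refine Nat.Coprime.coprime_dvd_left ?_ hRc
      have := orderOf_dvd_natCard (⟨c, h5⟩ : R)
      rwa [← Subgroup.orderOf_coe] at this
    · refine lt_of_le_of_ne (le_inf inf_le_left hDQ₃) ?_
      intro he
      apply hn₁
      rw [he]
      exact le_inf (inf_le_left.trans inf_le_left) hY₁Q₃
    · refine lt_of_le_of_ne (le_inf ?_ hDQ₃) ?_
      · rw [← hcN]
        exact (Subgroup.pointwise_smul_le_pointwise_smul_iff (a := MulAut.conj c)).2 inf_le_right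
      · intro he
        apply hn₂
        rw [← Subgroup.pointwise_smul_le_pointwise_smul_iff (a := MulAut.conj c), hcN, he]
        exact le_inf ((Subgroup.pointwise_smul_le_pointwise_smul_iff (a := MulAut.conj c)).2
          (inf_le_left.trans inf_le_left)) hY₂Q₃) (Nat.card G + 1)
  intro Q₁ h₁ Q₂ h₂
  obtain ⟨k, hk, e⟩ := key Q₁ h₁ Q₂ h₂ trivial (by
    have : 0 < Nat.card (Q₁ ⊓ Q₂ : Subgroup G) := Nat.card_pos
    omega)
  exact ⟨k, hk, e⟩

end Cfsg.Agent.S1480
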