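import Cfsg.Statements.S1487
import Cfsg.Agent.Lib.OddA

set_option autoImplicit false
open Cfsg

namespace Cfsg.Agent.S1487

/-- Let A ≤ H be normal subgroups of the finite group G and θ an irreducible character of H. Then θ takes the value θ 1 on all of A if and only if the function induced from θ to G takes its value at 1 on all of A. -/
theorem result {G : Type*} [Group G] [Fintype G] (A H : Subgroup G) [A.Normal] [H.Normal] (hAH : A ≤ H) (θ : H → ℂ) (hθ : Cfsg.IsIrrCharacter H θ) : (∀ a : H, (a : G) ∈ A → θ a = θ 1) ↔ (∀ a : G, a ∈ A → Cfsg.indFun H θ a = Cfsg.indFun H θ 1) := by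
  classical
  cases nonempty_fintype H
  have hHn : H.Normal := inferInstance
  have hAn : A.Normal := inferInstance
  constructor
  · intro h a ha
    have h1 := Lib.CharInd.indFun_normal_mem H θ ⟨a, hAH ha⟩
    have h2 := Lib.CharInd.indFun_normal_mem H θ 1
    change Cfsg.indFun H θ a = _ at h1
    change Cfsg.indFun H θ 1 = _ at h2
    rw [h1, h2]
    congr 1
    refine Finset.sum_congr rfl fun x _ => ?_
    rw [h ⟨x * a * x⁻¹, _⟩ (hAn.conj_mem a ha x)]
    refine congrArg θ (Subtype.ext ?_)
    simp
  · intro h a ha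
    have h1 : Cfsg.classInner (fun x : H => Cfsg.indFun H θ x) θ ≠ 0 := by
      rw [← Lib.CharBasic.classInner_conj_symm, map_ne_zero,
        ← Lib.CharInd.reciprocity H θ _ (Lib.CharInd.indFun_classFn H θ)]
      intro h2
      have h3 := Lib.CharBasic.classInner_self_eq_zero h2
      have h4 := congrFun h3 1
      rw [Lib.CharInd.indFun_one, Pi.zero_apply] at h4
      rcases mul_eq_zero.mp h4 with h5 | h5
      · exact Nat.cast_ne_zero.mpr Subgroup.index_ne_zero_of_finite h5
      · exact Lib.CharBasic.isIrr_one_ne_zero hθ h5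
    exact Lib.CharMono.constituent_ker (Lib.CharInd.isChar_res H
      (Lib.CharInd.isChar_ind H (Lib.CharBasic.isChar_of_irr hθ))) hθ h1 (k := a)
      (h a ha)
end Cfsg.Agent.S1487
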