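import Cfsg.Statements.S1488
import Cfsg.Agent.Lib.OddA

set_option autoImplicit false
open Cfsg

namespace Cfsg.Agent.S1488

/-- Let A be a normal subgroup of the finite group G contained in the subgroup H, let θ be a function on H and θ₁ a function on the image of H in G ⧸ A whose composite with the projection is θ. Then the function induced from θ₁ to G ⧸ A, composed with the projection G → G ⧸ A, equals the function induced from θ to G. -/
theorem result {G : Type*} [Group G] [Fintype G] (A H : Subgroup G) [A.Normal] (hAH : A ≤ H) [Fintype (G ⧸ A)] [Fintype ↥(H.map (QuotientGroup.mk' A))] (θ : H → ℂ) (θ₁ : ↥(H.map (QuotientGroup.mk' A)) → ℂ) (hθ : ∀ x : H, θ₁ ⟨QuotientGroup.mk' A x, Subgroup.mem_map_of_mem _ x.2⟩ = θ x) (g : G) : Cfsg.indFun (H.map (QuotientGroup.mk' A)) θ₁ (QuotientGroup.mk' A g) = Cfsg.indFun H θ g := by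
  classical
  have hA0 : (Nat.card A : ℂ) ≠ 0 := Nat.cast_ne_zero.mpr Nat.card_pos.ne'
  have hcard : Nat.card H = Nat.card A * Nat.card ↥(H.map (QuotientGroup.mk' A)) := by
    have h1 := Lib.CharKer.sum_comp_surj (QuotientGroup.mk' A) (QuotientGroup.mk'_surjective A)
      (fun h => if h ∈ H.map (QuotientGroup.mk' A) then (1 : ℂ) else 0)
    rw [QuotientGroup.ker_mk'] at h1
    have h2 : ∀ x : G, (QuotientGroup.mk' A x ∈ H.map (QuotientGroup.mk' A)) ↔ x ∈ H := by
      intro x
      rw [← Subgroup.mem_comap, Subgroup.comap_map_eq, QuotientGroup.ker_mk',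
        sup_eq_left.mpr hAH]
    simp only [h2] at h1
    rw [← Finset.sum_filter, ← Finset.sum_filter, Finset.sum_const, Finset.sum_const,
      nsmul_eq_mul, nsmul_eq_mul, mul_one, mul_one] at h1
    rw [Nat.card_eq_fintype_card (α := ↥(H.map (QuotientGroup.mk' A))),
      Fintype.card_subtype]
    cases nonempty_fintype H
    rw [Nat.card_eq_fintype_card (α := H), Fintype.card_subtype]
    exact_mod_cast h1
  rw [Lib.CharInd.indFun_apply, Lib.CharInd.indFun_apply, hcard]
  have h1 := Lib.CharKer.sum_comp_surj (QuotientGroup.mk' A) (QuotientGroup.mk'_surjective A)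
    (fun x => Cfsg.extendByZero (H.map (QuotientGroup.mk' A)) θ₁
      (x⁻¹ * QuotientGroup.mk' A g * x))
  rw [QuotientGroup.ker_mk'] at h1
  have h2 : ∀ x : G, Cfsg.extendByZero (H.map (QuotientGroup.mk' A)) θ₁
      ((QuotientGroup.mk' A x)⁻¹ * QuotientGroup.mk' A g * QuotientGroup.mk' A x) =
      Cfsg.extendByZero H θ (x⁻¹ * g * x) := by
    intro x
    rw [← map_inv, ← map_mul, ← map_mul]
    by_cases h : x⁻¹ * g * x ∈ H
    · rw [Lib.CharInd.ext_mem H θ h, ← hθ ⟨_, h⟩,
        Lib.CharInd.ext_mem _ θ₁ (Subgroup.mem_map_of_mem _ h)]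
    · rw [Lib.CharInd.ext_notMem H θ h, Lib.CharInd.ext_notMem _ θ₁]
      rw [← Subgroup.mem_comap, Subgroup.comap_map_eq, QuotientGroup.ker_mk',
        sup_eq_left.mpr hAH]
      exact h
  simp only [h2] at h1
  rw [h1]
  push_cast
  have h3 : (Nat.card ↥(H.map (QuotientGroup.mk' A)) : ℂ) ≠ 0 :=
    Nat.cast_ne_zero.mpr Nat.card_pos.ne'
  field_simp
end Cfsg.Agent.S1488
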