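import Cfsg.Statements.S1491
import Cfsg.Agent.Lib.OddA

set_option autoImplicit false
open Cfsg

namespace Cfsg.Agent.S1491

/-- Let H be a normal subgroup of the finite group G and θ an irreducible character of H with inertia group T, where T/H is abelian (commutators of T lie in H) and the index of H in T is coprime to the order of H. Then the function induced from θ is the sum of a set of exactly [T:H] irreducible characters of G, each of degree [G:T] * θ(1). -/
theorem result {G : Type*} [Group G] [Fintype G] (H T : Subgroup G) [hN : H.Normal] (θ : H → ℂ) (hθ : Cfsg.IsIrrCharacter H θ) (hT : ∀ g : G, g ∈ T ↔ ∀ h : H, θ ⟨g * h * g⁻¹, hN.conj_mem h h.2 g⟩ = θ h) (hab : ∀ x ∈ T, ∀ y ∈ T, x * y * x⁻¹ * y⁻¹ ∈ H) (hcop : Nat.Coprime (Nat.card H) (H.relIndex T)) : ∃ C : Finset (G → ℂ), (∀ χ ∈ C, Cfsg.IsIrrCharacter G χ) ∧ C.card = H.relIndex T ∧ Cfsg.indFun H θ = ∑ χ ∈ C, χ ∧ ∀ χ ∈ C, χ 1 = (T.index : ℂ) * θ 1 := by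
  classical
  cases nonempty_fintype H
  cases nonempty_fintype T
  have hT' : ∀ g : G, g ∈ T ↔ Lib.CharNormal.cj g θ = θ :=
    fun g => by rw [hT, Lib.CharClifford.cj_eq_iff]
  have hHT : H ≤ T := by
    intro h hh
    rw [hT']
    exact Lib.CharNormal.cj_of_mem (Lib.CharBasic.isChar_classFn (Lib.CharBasic.isChar_of_irr hθ)) hh
  obtain ⟨e, C, h1, h2, h3, h4, h5, h6⟩ := Lib.OddA.abelian_inertia hθ hT' hHT hab
  have he : e = 1 := by
    apply h6
    obtain ⟨θ', hθ'⟩ : ∃ θ', θ' = Lib.OddA.sub H T θ := ⟨_, rfl⟩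
    have hθ'i : IsIrrCharacter (H.subgroupOf T) θ' := by
      rw [hθ']; exact (Lib.CharClifford.isIrr_subgroupOf_iff hHT θ).mpr hθ
    have hinv : ∀ g : T, Lib.CharNormal.cj g θ' = θ' := by
      intro g
      have h1 := (hT' g).mp g.2
      funext x
      have h2 := congrFun h1 ⟨((x : T) : G), Subgroup.mem_subgroupOf.mp x.2⟩
      rw [Lib.CharNormal.cj_apply] at h2
      rw [Lib.CharNormal.cj_apply, hθ']
      exact h2
    obtain ⟨d, hd0, hd⟩ := Lib.CharBasic.isIrr_one_eq hθ'i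
    obtain ⟨e1, e2⟩ := Lib.CharGlaub.coprime_det_deg hθ'i hd
    have hcardH : Nat.card (H.subgroupOf T) = Nat.card H :=
      Nat.card_congr (Subgroup.subgroupOfEquivOfLe hHT).toEquiv
    rw [hcardH] at e1 e2
    have hcop' : Nat.Coprime (H.subgroupOf T).index (detOrder θ' * d) := by
      have : Nat.Coprime (H.subgroupOf T).index (Nat.card H) := hcop.symm
      exact Nat.Coprime.mul_right (this.coprime_dvd_right e1) (this.coprime_dvd_right e2)
    obtain ⟨η, ⟨hη, hηr, -⟩, -⟩ := Lib.CharExt.ext_of_coprime_det hθ'i hinv hd hcop'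
    refine ⟨η, hη, ?_⟩
    funext h
    have h7 := hηr ⟨⟨(h : G), hHT h.2⟩, by rw [Subgroup.mem_subgroupOf]; exact h.2⟩
    rw [hθ'] at h7
    exact h7
  subst he
  refine ⟨C, h2, ?_, ?_, ?_⟩
  · have h7 := Lib.CharClifford.relIndex_mul_card' H T hHT
    rw [← h3] at h7
    apply Nat.eq_of_mul_eq_mul_right (Nat.card_pos (α := H))
    rw [h7]; ring
  · rw [h4]; simp
  · intro χ hχ
    rw [h5 χ hχ]; simp
end Cfsg.Agent.S1491
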