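import Cfsg.Statements.S1507
import Cfsg.Agent.Lib.OddCyc
import Cfsg.Agent.Lib.OddMat

set_option autoImplicit false
open Cfsg

namespace Cfsg.Agent.S1507

open Classical in
open Cfsg.Agent.Lib.OddCyc in

/-- Let W₁, W₂ ≤ G form a self-normalising cyclic subgroup W = W₁ ⊔ W₂ of odd order with Nat.card W₁ < Nat.card W₂, and χ an orthonormal family of irreducible characters of G up to sign, indexed by the linear characters ω of W, with χ_1 = 1, χ_ω = ω on W outside W₁ ∪ W₂, and the induction identity for (1 − φ)(1 − ψ). Let θ be a class function of G vanishing on W outside W₁ ∪ W₂, and suppose fewer than 2 · Nat.card W₁ linear characters ω of W have ⟨θ, χ ω⟩ ≠ 0. Then one of: all ⟨θ, χ ω⟩ vanish; or there are ψ₀ and a with ⟨θ, χ ω⟩ = a when ω ψ₀⁻¹ is trivial on W₂ and 0 otherwise; or there are φ₀ and a with ⟨θ, χ ω⟩ = a when ω φ₀⁻¹ is trivial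 on W₁ and 0 otherwise. -/
theorem result {G : Type*} [Group G] [Fintype G] (W₁ W₂ : Subgroup G) (hW : Cfsg.IsSelfNormalizingCyclic W₁ W₂) (hodd : Odd (Nat.card ↥(W₁ ⊔ W₂))) (χ : (↥(W₁ ⊔ W₂) →* ℂˣ) → (G → ℂ)) (hχ : Cfsg.IsCyclicTIFamily W₁ W₂ χ) (hlt : Nat.card W₁ < Nat.card W₂) (θ : G → ℂ) (hθ : Cfsg.IsClassFunction G θ) (hθV : ∀ w : ↥(W₁ ⊔ W₂), (w : G) ∉ W₁ → (w : G) ∉ W₂ → θ w = 0) (hfew : Nat.card {ω : ↥(W₁ ⊔ W₂) →* ℂˣ // Cfsg.classInner θ (χ ω) ≠ 0} < 2 * Nat.card W₁) : (∀ ω, Cfsg.classInner θ (χ ω) = 0) ∨ (∃ (ψ₀ : ↥(W₁ ⊔ W₂) →* ℂˣ) (a : ℂ), ∀ ω, Cfsg.classInner θ (χ ω) = if (∀ w : ↥(W₁ ⊔ W₂), (w : G) ∈ W₂ → (ω * ψ₀⁻¹) w = 1) then a else 0) ∨ (∃ (φ₀ : ↥(W₁ ⊔ W₂) →* ℂˣ) (a : ℂ), ∀ ω, Cfsg.classInner θ (χ ω) = if (∀ w : ↥(W₁ ⊔ W₂), (w : G) ∈ W₁ → (ω * φ₀⁻¹) w = 1) then a else 0) := by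
  classical
  haveI : Fintype (K1 W₁ W₂) := Fintype.ofFinite _
  haveI : Fintype (K2 W₁ W₂) := Fintype.ofFinite _
  haveI : Fintype ↥(W₁ ⊔ W₂) := Fintype.ofFinite _
  have hd := hW.2.2.1
  have hc := hW.2.2.2.1
  have c1 : Fintype.card (K1 W₁ W₂) = Nat.card W₁ := by
    rw [← Nat.card_eq_fintype_card, card_K1 hd hc (W1_comm hW)]
  have c2 : Fintype.card (K2 W₁ W₂) = Nat.card W₂ := by
    rw [← Nat.card_eq_fintype_card, card_K2 hd hc (W2_comm hW)]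
  have cW := card_W hd hc
  have o1 : Odd (Nat.card W₁) := by
    rw [cW] at hodd; exact (Nat.odd_mul.mp hodd).1
  have o2 : Odd (Nat.card W₂) := by
    rw [cW] at hodd; exact (Nat.odd_mul.mp hodd).2
  have h1 : 1 < Nat.card W₁ := by
    rw [Subgroup.one_lt_card_iff_ne_bot]; exact hW.1
  obtain ⟨k1, hk1⟩ := o1
  obtain ⟨k2, hk2⟩ := o2
  let a : K1 W₁ W₂ → K2 W₁ W₂ → ℂ := fun i j => Cfsg.classInner θ (χ (i.1 * j.1))
  have ha : ∀ i j, a i j = Cfsg.classInner θ (χ i.1) + Cfsg.classInner θ (χ j.1) - Cfsg.classInner θ (χ 1) :=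
    fun i j => rect hχ hθ hθV i.2 j.2
  have hrect : ∀ i i' j j', a i j + a i' j' = a i j' + a i' j := by
    intro i i' j j'; rw [ha, ha, ha, ha]; ring
  let e : K1 W₁ W₂ × K2 W₁ W₂ → (↥(W₁ ⊔ W₂) →* ℂˣ) := fun p => p.1.1 * p.2.1
  have he : Function.Bijective e := by
    constructor
    · rintro ⟨x, y⟩ ⟨x', y'⟩ h
      obtain ⟨e1, e2⟩ := K_inj hd hc x.2 x'.2 y.2 y'.2 h
      exact Prod.ext (Subtype.ext e1) (Subtype.ext e2)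
    · intro ω
      obtain ⟨φ, hφ, ψ, hψ, rfl⟩ := K_surj hd hc ω
      exact ⟨(⟨φ, hφ⟩, ⟨ψ, hψ⟩), rfl⟩
  have hfew' : (Finset.univ.filter (fun p : K1 W₁ W₂ × K2 W₁ W₂ => a p.1 p.2 ≠ 0)).card < 2 * Fintype.card (K1 W₁ W₂) := by
    rw [c1, ← Fintype.card_subtype, ← Nat.card_eq_fintype_card]
    refine lt_of_eq_of_lt ?_ hfew
    exact Nat.card_congr (Equiv.subtypeEquiv (Equiv.ofBijective e he) (fun p => Iff.rfl))
  have tri := Cfsg.Agent.Lib.OddMat.trichotomy a hrect (by rw [c1]; omega) (by rw [c1, c2]; omega) hfew'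
  rcases tri with h | ⟨j0, c, h⟩ | ⟨i0, c, h⟩
  · left
    intro ω
    obtain ⟨φ, hφ, ψ, hψ, rfl⟩ := K_surj hd hc ω
    exact h ⟨φ, hφ⟩ ⟨ψ, hψ⟩
  · right; left
    refine ⟨j0.1, c, fun ω => ?_⟩
    obtain ⟨φ, hφ, ψ, hψ, rfl⟩ := K_surj hd hc ω
    rw [show Cfsg.classInner θ (χ (φ * ψ)) = a ⟨φ, hφ⟩ ⟨ψ, hψ⟩ from rfl, h]
    have : (⟨ψ, hψ⟩ : K2 W₁ W₂) = j0 ↔ ∀ w : ↥(W₁ ⊔ W₂), (w : G) ∈ W₂ → (φ * ψ * j0.1⁻¹) w = 1 := by
      constructor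
      · rintro rfl w hw
        have : φ * ψ * ψ⁻¹ = φ := mul_inv_cancel_right φ ψ
        rw [this]; exact hφ w hw
      · intro h2
        have h3 : φ * (ψ * j0.1⁻¹) ∈ K1 W₁ W₂ := by
          have e : φ * (ψ * j0.1⁻¹) = φ * ψ * j0.1⁻¹ := (hmul_assoc _ _ _).symm
          rw [e]; exact h2
        have h4 : ψ * j0.1⁻¹ ∈ K1 W₁ W₂ := by
          have := (K1 W₁ W₂).mul_mem ((K1 W₁ W₂).inv_mem hφ) h3
          have e : φ⁻¹ * (φ * (ψ * j0.1⁻¹)) = ψ * j0.1⁻¹ := hinv_mul_cancel_left _ _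
          rwa [e] at this
        have h5 := K_inf hd hc h4 ((K2 W₁ W₂).mul_mem hψ ((K2 W₁ W₂).inv_mem j0.2))
        exact Subtype.ext (mul_inv_eq_one.mp h5)
    by_cases hj : (⟨ψ, hψ⟩ : K2 W₁ W₂) = j0
    · rw [if_pos hj, if_pos (this.mp hj)]
    · rw [if_neg hj, if_neg (fun h => hj (this.mpr h))]
  · right; right
    refine ⟨i0.1, c, fun ω => ?_⟩
    obtain ⟨φ, hφ, ψ, hψ, rfl⟩ := K_surj hd hc ω
    rw [show Cfsg.classInner θ (χ (φ * ψ)) = a ⟨φ, hφ⟩ ⟨ψ, hψ⟩ from rfl, h]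
    have : (⟨φ, hφ⟩ : K1 W₁ W₂) = i0 ↔ ∀ w : ↥(W₁ ⊔ W₂), (w : G) ∈ W₁ → (φ * ψ * i0.1⁻¹) w = 1 := by
      constructor
      · rintro rfl w hw
        have : φ * ψ * φ⁻¹ = ψ := by rw [mul_comm φ ψ]; exact mul_inv_cancel_right ψ φ
        rw [this]; exact hψ w hw
      · intro h2
        have h3 : ψ * (φ * i0.1⁻¹) ∈ K2 W₁ W₂ := by
          have e : ψ * (φ * i0.1⁻¹) = φ * ψ * i0.1⁻¹ := by
            rw [mul_comm φ ψ]; exact (hmul_assoc _ _ _).symm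
          rw [e]; exact h2
        have h4 : φ * i0.1⁻¹ ∈ K2 W₁ W₂ := by
          have := (K2 W₁ W₂).mul_mem ((K2 W₁ W₂).inv_mem hψ) h3
          have e : ψ⁻¹ * (ψ * (φ * i0.1⁻¹)) = φ * i0.1⁻¹ := hinv_mul_cancel_left _ _
          rwa [e] at this
        have h5 := K_inf hd hc ((K1 W₁ W₂).mul_mem hφ ((K1 W₁ W₂).inv_mem i0.2)) h4
        exact Subtype.ext (mul_inv_eq_one.mp h5)
    by_cases hj : (⟨φ, hφ⟩ : K1 W₁ W₂) = i0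
    · rw [if_pos hj, if_pos (this.mp hj)]
    · rw [if_neg hj, if_neg (fun h => hj (this.mpr h))]
end Cfsg.Agent.S1507
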