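import Cfsg.Statements.S1527
import Cfsg.Agent.Lib.OddDade

set_option autoImplicit false
open Cfsg

namespace Cfsg.Agent.S1527

theorem card_ne_one (H : Type*) [Group H] [Finite H] : Nat.card {h : H // h ≠ 1} = Nat.card H - 1 := by
  classical
  haveI := Fintype.ofFinite H
  rw [Nat.card_eq_fintype_card, Nat.card_eq_fintype_card, Fintype.card_subtype_compl, Fintype.card_subtype_eq]

/-- Let G be a finite group and H i (i in a finite index type) subgroups of pairwise coprime orders, each of whose underlying sets is a TI-subset of G, such that every non-identity element of G is conjugate to an element of some H i. Then Nat.card G − 1 = Σ_i [G : N_G(H i)] · (Nat.card (H i) − 1). -/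
theorem result {G : Type*} [Group G] [Finite G] {ι : Type*} [Fintype ι] (H : ι → Subgroup G) (hcop : ∀ i j, i ≠ j → Nat.Coprime (Nat.card (H i)) (Nat.card (H j))) (hTI : ∀ i, Cfsg.IsTISubset (H i : Set G)) (hcover : ∀ g : G, g ≠ 1 → ∃ i, ∃ x : G, x * g * x⁻¹ ∈ H i) : Nat.card G - 1 = ∑ i, (Subgroup.normalizer (H i : Set G)).index * (Nat.card (H i) - 1) := by
  classical
  haveI := Fintype.ofFinite G
  let N : ι → Subgroup G := fun i => Subgroup.normalizer (H i : Set G)
  have hTI' : ∀ i, ∀ g : G, ∀ x ∈ H i, x ≠ 1 → g * x * g⁻¹ ∈ H i → g ∈ N i := by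
    intro i g x hx hx1 hgx
    by_contra hg
    exact hx1 (hTI i g hg x hx hgx)
  let F : (Σ i, (G ⧸ N i) × {h : H i // h ≠ 1}) → {g : G // g ≠ 1} := fun p =>
    ⟨p.2.1.out * (p.2.2.1 : G) * (p.2.1.out)⁻¹, by
      intro h
      apply p.2.2.2
      have : (p.2.2.1 : G) = 1 := by
        have h1 := congrArg (fun y => (p.2.1.out)⁻¹ * y * p.2.1.out) h
        simpa [mul_assoc] using h1
      exact Subtype.ext this⟩
  have hF : Function.Bijective F := by
    constructor
    · rintro ⟨i, c, h, hh⟩ ⟨j, d, k, hk⟩ e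
      have e' : c.out * (h : G) * (c.out)⁻¹ = d.out * (k : G) * (d.out)⁻¹ := congrArg Subtype.val e
      by_cases hij : i = j
      · subst hij
        have h1 : (d.out)⁻¹ * c.out * (h : G) * ((d.out)⁻¹ * c.out)⁻¹ = k := by
          have h2 := congrArg (fun y => (d.out)⁻¹ * y * d.out) e'
          simp only [mul_assoc, inv_mul_cancel, mul_one, inv_mul_cancel_left] at h2
          rw [mul_inv_rev, inv_inv]
          simpa [mul_assoc] using h2
        have h2 : (d.out)⁻¹ * c.out ∈ N i := hTI' i _ h h.2 (fun e => hh (Subtype.ext e)) (by rw [h1]; exact k.2)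
        have h3 : d = c := by
          rw [← Quotient.out_eq d, ← Quotient.out_eq c]
          exact QuotientGroup.eq.mpr h2
        subst h3
        have h4 : h = k := by
          rw [inv_mul_cancel] at h1
          exact Subtype.ext (by simpa using h1)
        subst h4
        rfl
      · exfalso
        have o1 : orderOf (c.out * (h : G) * (c.out)⁻¹) = orderOf (h : G) := (SemiconjBy.conj_mk _ _).orderOf_eq.symm
        have o2 : orderOf (d.out * (k : G) * (d.out)⁻¹) = orderOf (k : G) := (SemiconjBy.conj_mk _ _).orderOf_eq.symm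
        have h1 : orderOf (h : G) ∣ Nat.card (H i) := by
          rw [Subgroup.orderOf_coe]; exact orderOf_dvd_natCard h
        have h2 : orderOf (h : G) ∣ Nat.card (H j) := by
          rw [← o1, e', o2, Subgroup.orderOf_coe]; exact orderOf_dvd_natCard k
        have h3 := Nat.eq_one_of_dvd_coprimes (hcop i j hij) h1 h2
        exact hh (Subtype.ext (orderOf_eq_one_iff.mp h3))
    · rintro ⟨g, hg⟩
      obtain ⟨i, x, hx⟩ := hcover g hg
      obtain ⟨n, hn⟩ := QuotientGroup.mk_out_eq_mul (N i) x⁻¹
      obtain ⟨c, hc⟩ : ∃ c : G ⧸ N i, c = QuotientGroup.mk x⁻¹ := ⟨_, rfl⟩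
      have hn' : c.out = x⁻¹ * n := by rw [hc]; exact hn
      have hmem : (n : G)⁻¹ * (x * g * x⁻¹) * n ∈ H i := by
        have := (Subgroup.mem_set_normalizer_iff.mp ((N i).inv_mem n.2) (x * g * x⁻¹)).mp hx
        simpa using this
      refine ⟨⟨i, c, ⟨⟨(n : G)⁻¹ * (x * g * x⁻¹) * n, hmem⟩, ?_⟩⟩, ?_⟩
      · intro h
        apply hg
        have h1 : (n : G)⁻¹ * (x * g * x⁻¹) * n = 1 := congrArg Subtype.val h
        have h2 := congrArg (fun y => x⁻¹ * (n * y * (n : G)⁻¹) * x) h1
        simpa [mul_assoc] using h2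
      · apply Subtype.ext
        show c.out * ((n : G)⁻¹ * (x * g * x⁻¹) * n) * (c.out)⁻¹ = g
        rw [hn']
        group
  have hcard := Nat.card_congr (Equiv.ofBijective F hF)
  rw [card_ne_one] at hcard
  rw [← hcard, Nat.card_sigma]
  refine Finset.sum_congr rfl fun i _ => ?_
  rw [Nat.card_prod, card_ne_one]
  rfl
end Cfsg.Agent.S1527
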