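import Cfsg.Statements.S1528
import Cfsg.Agent.Lib.CharFrob

set_option autoImplicit false
open Cfsg

namespace Cfsg.Agent.S1528

open Cfsg.Agent.Lib.CharBasic Cfsg.Agent.Lib.CharInd

/-- Let N be a normal subgroup of the finite group G such that every element of G commuting with a non-identity element of N lies in N. If χ is an irreducible character of G with χ n ≠ χ 1 for some n ∈ N, then χ is the function induced from some irreducible character of N. -/
theorem result {G : Type*} [Group G] [Fintype G] (N : Subgroup G) [N.Normal] (hC : ∀ n ∈ N, n ≠ 1 → Subgroup.centralizer ({n} : Set G) ≤ N) (χ : G → ℂ) (hχ : Cfsg.IsIrrCharacter G χ) (hker : ∃ n ∈ N, χ n ≠ χ 1) : ∃ φ : N → ℂ, Cfsg.IsIrrCharacter N φ ∧ χ = Cfsg.indFun N φ := by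
  classical
  haveI := Fintype.ofFinite N
  have hfpf : ∀ g : G, g ∉ N → ∀ k ∈ N, g * k = k * g → k = 1 := by
    intro g hg k hk hgk
    by_contra hk1
    exact hg (hC k hk hk1 (Subgroup.mem_centralizer_singleton_iff.mpr hgk))
  obtain ⟨n, hn, hne⟩ := hker
  have hex : ∃ θ : IrrCharacter N, θ.1 ≠ (fun _ => 1) ∧ classInner (fun n : N => χ n) θ.1 ≠ 0 := by
    by_contra hcon
    push_neg at hcon
    have h1 := char_eq_sum_inner (isChar_res N (isChar_of_irr hχ))
    have h2 := congrFun h1 ⟨n, hn⟩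
    have h3 := congrFun h1 1
    apply hne
    have h3' : χ 1 = (∑ ψ : IrrCharacter N, classInner (fun x : N => χ x) ψ.1 • ψ.1) 1 := h3
    rw [h3']
    refine Eq.trans h2 ?_
    rw [Finset.sum_apply, Finset.sum_apply]
    refine Finset.sum_congr rfl fun ψ _ => ?_
    rw [Pi.smul_apply, Pi.smul_apply]
    by_cases hψ : ψ.1 = fun _ => 1
    · rw [hψ]
    · rw [hcon ψ hψ, zero_smul, zero_smul]
  obtain ⟨θ, hθ1, hθ⟩ := hex
  have hirr := Cfsg.Agent.Lib.CharFrob.ind_irr hfpf θ.2 hθ1
  refine ⟨θ.1, θ.2, ?_⟩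
  refine irr_eq_of_inner_ne_zero hχ hirr ?_
  rw [reciprocity' N θ.1 χ (isChar_classFn (isChar_of_irr hχ))]
  exact hθ
end Cfsg.Agent.S1528
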