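import Cfsg.Statements.S1532
import Cfsg.Agent.Lib.OddTIFN

set_option autoImplicit false
open Cfsg

namespace Cfsg.Agent.S1532

open Cfsg.Agent.Lib.OddSib Cfsg.Agent.Lib.OddCohE Cfsg.Agent.Lib.OddCohD Cfsg.Agent.Lib.OddCohC Cfsg.Agent.Lib.OddCohB Cfsg.Agent.Lib.OddCoh Cfsg.Agent.Lib.OddTIFN Cfsg.Agent.Lib.OddCohF

/-- Let G be a finite group, p an odd prime and P a Sylow p-subgroup that is non-abelian, whose underlying set is a TI-subset of G, with P properly contained in its set normaliser N and C_G(x) ≤ P for every non-identity x ∈ P. Let Z be a nontrivial subgroup of the centre of P normalised by N. Then the set of irreducible characters χ of N with χ z ≠ χ 1 for some z ∈ Z is coherent for the map induced by induction from N to G. -/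
theorem result {G : Type*} [Group G] [Fintype G] (p : ℕ) [Fact p.Prime] (hp : p ≠ 2) (P : Sylow p G) (hna : ¬ IsMulCommutative (P : Subgroup G)) (hTI : Cfsg.IsTISubset ((P : Subgroup G) : Set G)) (hlt : (P : Subgroup G) < Subgroup.normalizer ((P : Subgroup G) : Set G)) (hC : ∀ k ∈ (P : Subgroup G), k ≠ 1 → Subgroup.centralizer ({k} : Set G) ≤ (P : Subgroup G)) [Fintype ↥(Subgroup.normalizer ((P : Subgroup G) : Set G))] (Z : Subgroup G) (hZ1 : Z ≠ ⊥) (hZP : ∀ z ∈ Z, z ∈ (P : Subgroup G) ∧ ∀ y ∈ (P : Subgroup G), z * y = y * z) (hZn : ∀ x ∈ Subgroup.normalizer ((P : Subgroup G) : Set G), ∀ z ∈ Z, x * z * x⁻¹ ∈ Z) : Cfsg.IsCoherent {χ : ↥(Subgroup.normalizer ((P : Subgroup G) : Set G)) → ℂ | Cfsg.IsIrrCharacter ↥(Subgroup.normalizer ((P : Subgroup G) : Set G)) χ ∧ ∃ z : ↥(Subgroup.normalizer ((P : Subgroup G) : Set G)), (z : G) ∈ Z ∧ χ z ≠ χ 1} {1}ᶜ (fun α => Cfsg.indFun (Subgroup.normalizer ((P : Subgroup G) : Set G))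 α) := by
  classical
  obtain ⟨L, hL⟩ : ∃ L : Subgroup G, L = Subgroup.normalizer ((P : Subgroup G) : Set G) := ⟨_, rfl⟩
  haveI : Fintype L := Fintype.ofFinite _
  suffices h : Cfsg.IsCoherent {χ : L → ℂ | Cfsg.IsIrrCharacter L χ ∧ ∃ z : L, (z : G) ∈ Z ∧ χ z ≠ χ 1} {1}ᶜ (fun α => Cfsg.indFun L α) by
    subst hL
    convert h
  rw [← hL] at hlt hZn
  obtain ⟨K, hKdef⟩ : ∃ K : Subgroup L, K = (P : Subgroup G).subgroupOf L := ⟨_, rfl⟩
  haveI : Fintype K := Fintype.ofFinite _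
  have hmem : ∀ x : L, x ∈ K ↔ (x : G) ∈ (P : Subgroup G) := fun x => by rw [hKdef]; exact Subgroup.mem_subgroupOf
  haveI hKn : K.Normal := by rw [hKdef]; exact sub_normal hL
  have hfpf : ∀ g : L, g ∉ K → ∀ k ∈ K, g * k = k * g → k = 1 := by rw [hKdef]; exact sub_fpf hC
  have hTI' := sub_TI hL hTI
  rw [← hKdef] at hTI'
  have hKp : IsPGroup p K := by
    intro k
    obtain ⟨n, hn⟩ := P.isPGroup' ⟨((k : L) : G), (hmem k).mp k.2⟩
    refine ⟨n, Subtype.ext (Subtype.ext ?_)⟩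
    have h2 := congrArg Subtype.val hn
    simpa using h2
  have hKodd : Odd (Nat.card K) := by
    obtain ⟨n, hn⟩ := hKp.exists_card_eq
    rw [hn]
    exact ((Fact.out : p.Prime).odd_of_ne_two hp).pow
  have hnab : ¬ ∀ a ∈ K, ∀ b ∈ K, a * b = b * a := by
    intro h
    apply hna
    refine ⟨⟨fun a b => ?_⟩⟩
    have h3 := h ⟨a, hlt.le a.2⟩ ((hmem _).mpr a.2) ⟨b, hlt.le b.2⟩ ((hmem _).mpr b.2)
    have h4 := congrArg Subtype.val h3
    exact Subtype.ext h4
  have heodd := odd_index hKodd hfpf hnab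
  have hodd : Odd (Nat.card L) := by
    rw [← K.card_mul_index]; exact hKodd.mul heodd
  have hnil : Group.IsNilpotent K := hKp.isNilpotent
  have hsolv : Group.IsSolvable K := inferInstance
  have hK1 : K ≠ ⊥ := by
    intro h
    apply hnab
    intro a ha b hb
    rw [h, Subgroup.mem_bot] at ha hb
    rw [ha, hb]
  have hbot : (⊥ : Subgroup L) < K := bot_lt_iff_ne_bot.mpr hK1
  obtain ⟨χ₀, hχ₀, -⟩ := exists_degree_e hsolv hbot
  obtain ⟨R, hS⟩ := cs_frob hodd hfpf hTI' ⟨χ₀, hχ₀⟩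
  have hKK : ⁅K, K⁆ < K := by
    haveI : Nontrivial K := (Subgroup.nontrivial_iff_ne_bot K).mpr hK1
    have h1 := Group.IsSolvable.commutator_lt_top_of_nontrivial (G := K)
    have h2 : (commutator K).map K.subtype = ⁅K, K⁆ := Subgroup.map_subtype_commutator K
    rw [← h2]
    refine lt_of_le_of_ne (Subgroup.map_subtype_le _) ?_
    intro h
    apply h1.ne
    rw [eq_top_iff]
    intro k _
    have : (k : L) ∈ (commutator K).map K.subtype := by rw [h]; exact k.2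
    obtain ⟨k', hk', e⟩ := this
    have : k' = k := Subtype.ext e
    rw [← this]; exact hk'
  have hfrob : ∀ k ∈ K, k ∉ ⁅K, K⁆ → ∀ x : L, x * k * x⁻¹ * k⁻¹ ∈ ⁅K, K⁆ → x ∈ K := frob_quot hKK.le hfpf
  have hZL : ∀ z ∈ Z, z ∈ L := fun z hz => hlt.le (hZP z hz).1
  haveI hZ'n : (Z.subgroupOf L).Normal := ⟨fun z hz g => hZn g g.2 z hz⟩
  have hZ'1 : Z.subgroupOf L ≠ ⊥ := by
    obtain ⟨⟨z, hz⟩, hz0⟩ := (Subgroup.ne_bot_iff_exists_ne_one).mp hZ1
    have hz1 : z ≠ 1 := fun e => hz0 (Subtype.ext e)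
    intro h
    have : (⟨z, hZL z hz⟩ : L) ∈ Z.subgroupOf L := hz
    rw [h, Subgroup.mem_bot] at this
    exact hz1 (congrArg Subtype.val this)
  have hZK : Z.subgroupOf L ≤ K := fun z hz => (hmem z).mpr (hZP z hz).1
  have hZc : ∀ z ∈ Z.subgroupOf L, ∀ k ∈ K, z * k = k * z := fun z hz k hk => Subtype.ext ((hZP z hz).2 k ((hmem k).mp hk))
  have hcc := central_coherent hsolv hS hodd hnil hKK hfrob hZ'1 hZK hZc (fun χ hχ => iia_irr' hfpf hχ.1)
  rw [central_set hZK (fun χ hχ => iia_irr' hfpf hχ.1)] at hcc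
  exact hcc
end Cfsg.Agent.S1532
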