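import Cfsg.Statements.S1533
import Cfsg.Agent.Lib.OddFeit

set_option autoImplicit false
open Cfsg

namespace Cfsg.Agent.S1533

open Cfsg.Agent.Lib.OddSib Cfsg.Agent.Lib.OddCohE Cfsg.Agent.Lib.OddCohD Cfsg.Agent.Lib.OddCohC Cfsg.Agent.Lib.OddCohB Cfsg.Agent.Lib.OddCoh Cfsg.Agent.Lib.OddTIFN Cfsg.Agent.Lib.OddCohF
open Cfsg.Agent.Lib.OddFeit

/-- Let G be a finite group, p an odd prime, and P a nontrivial Sylow p-subgroup whose underlying set is a TI-subset of G, with P properly contained in its set normaliser N and C_G(x) ≤ P for every non-identity x ∈ P. Let S be the set of irreducible characters χ of N with χ x ≠ χ 1 for some x ∈ P. Then either S has exactly one member, P is elementary abelian and Nat.card P = [N:P] + 1; or (S, N minus 1, induction to G) is coherent. -/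
theorem result {G : Type*} [Group G] [Fintype G] (p : ℕ) [Fact p.Prime] (hp : p ≠ 2) (P : Sylow p G) (hP1 : (P : Subgroup G) ≠ ⊥) (hTI : Cfsg.IsTISubset ((P : Subgroup G) : Set G)) (hlt : (P : Subgroup G) < Subgroup.normalizer ((P : Subgroup G) : Set G)) (hC : ∀ k ∈ (P : Subgroup G), k ≠ 1 → Subgroup.centralizer ({k} : Set G) ≤ (P : Subgroup G)) [Fintype ↥(Subgroup.normalizer ((P : Subgroup G) : Set G))] : (Nat.card {χ : ↥(Subgroup.normalizer ((P : Subgroup G) : Set G)) → ℂ // Cfsg.IsIrrCharacter ↥(Subgroup.normalizer ((P : Subgroup G) : Set G)) χ ∧ ∃ x : ↥(Subgroup.normalizer ((P : Subgroup G) : Set G)), (x : G) ∈ (P : Subgroup G) ∧ χ x ≠ χ 1} = 1 ∧ Cfsg.IsElementaryAbelian p (P : Subgroup G) ∧ Nat.card (P : Subgroup G) = ((P : Subgroup G).subgroupOf (Subgroup.normalizer ((P : Subgroup G) : Set G))).index + 1) ∨ Cfsg.IsCoherent {χ : ↥(Subgroup.normalizer ((P : Subgroup G) : Set G)) → ℂ | Cfsg.IsIrrCharacter ↥(Subgroup.normalizer ((P :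 Subgroup G) : Set G)) χ ∧ ∃ x : ↥(Subgroup.normalizer ((P : Subgroup G) : Set G)), (x : G) ∈ (P : Subgroup G) ∧ χ x ≠ χ 1} {1}ᶜ (fun α => Cfsg.indFun (Subgroup.normalizer ((P : Subgroup G) : Set G)) α) := by
  classical
  obtain ⟨L, hL⟩ : ∃ L : Subgroup G, L = Subgroup.normalizer ((P : Subgroup G) : Set G) := ⟨_, rfl⟩
  haveI : Fintype L := Fintype.ofFinite _
  suffices h : (Nat.card {χ : L → ℂ // Cfsg.IsIrrCharacter L χ ∧ ∃ x : L, (x : G) ∈ (P : Subgroup G) ∧ χ x ≠ χ 1} = 1 ∧ Cfsg.IsElementaryAbelian p (P : Subgroup G) ∧ Nat.card (P : Subgroup G) = ((P : Subgroup G).subgroupOf L).index + 1) ∨ Cfsg.IsCoherent {χ : L → ℂ | Cfsg.IsIrrCharacter L χ ∧ ∃ z : L, (z : G) ∈ (P : Subgroup G) ∧ χ z ≠ χ 1} {1}ᶜ (fun α => Cfsg.indFun L α) by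
    subst hL
    convert h
  rw [← hL] at hlt
  obtain ⟨K, hKdef⟩ : ∃ K : Subgroup L, K = (P : Subgroup G).subgroupOf L := ⟨_, rfl⟩
  haveI : Fintype K := Fintype.ofFinite _
  have hmem : ∀ x : L, x ∈ K ↔ (x : G) ∈ (P : Subgroup G) := fun x => by rw [hKdef]; exact Subgroup.mem_subgroupOf
  haveI hKn : K.Normal := by rw [hKdef]; exact sub_normal hL
  have hfpf : ∀ g : L, g ∉ K → ∀ k ∈ K, g * k = k * g → k = 1 := by rw [hKdef]; exact sub_fpf hC
  have hTI' := sub_TI hL hTI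
  rw [← hKdef] at hTI'
  have hcardK : Nat.card K = Nat.card (P : Subgroup G) := by
    rw [hKdef]; exact Nat.card_congr (Subgroup.subgroupOfEquivOfLe hlt.le).toEquiv
  have hK1 : K ≠ ⊥ := by
    intro h
    apply hP1
    rw [← Subgroup.card_eq_one, ← hcardK, h, Subgroup.card_bot]
  rw [← hKdef]
  have hset : {χ : L → ℂ | Cfsg.IsIrrCharacter L χ ∧ ∃ z : L, (z : G) ∈ (P : Subgroup G) ∧ χ z ≠ χ 1} = Cfsg.inducedIrrAbove K ⊥ := by
    rw [iia_eq hfpf]
    ext χ
    constructor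
    · rintro ⟨h1, z, h2, h3⟩; exact ⟨h1, z, (hmem z).mpr h2, h3⟩
    · rintro ⟨h1, z, h2, h3⟩; exact ⟨h1, z, (hmem z).mp h2, h3⟩
  have hti := ti_iso hTI'
  by_cases hab : ∀ a ∈ K, ∀ b ∈ K, a * b = b * a
  · by_cases hc : Nat.card K = K.index + 1
    · left
      refine ⟨?_, ?_, by rw [← hcardK]; exact hc⟩
      · have h1 : Nat.card {χ : L → ℂ // Cfsg.IsIrrCharacter L χ ∧ ∃ x : L, (x : G) ∈ (P : Subgroup G) ∧ χ x ≠ χ 1} =
            Nat.card ({χ : L → ℂ | Cfsg.IsIrrCharacter L χ ∧ ∃ z : L, (z : G) ∈ (P : Subgroup G) ∧ χ z ≠ χ 1} : Set (L → ℂ)) := rfl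
        rw [h1, hset]
        exact card_one hfpf hc
      · obtain ⟨-, q, hq, hqe⟩ := elem_ab hfpf hc
        refine ⟨⟨⟨fun a b => ?_⟩⟩, ?_⟩
        · have h3 := hab ⟨a, hlt.le a.2⟩ ((hmem _).mpr a.2) ⟨b, hlt.le b.2⟩ ((hmem _).mpr b.2)
          have h4 := congrArg Subtype.val h3
          exact Subtype.ext h4
        · intro a ha
          have h3 := congrArg Subtype.val (hqe ⟨a, hlt.le ha⟩ ((hmem _).mpr ha))
          have h4 : a ^ q = 1 := by simpa using h3
          by_cases ha1 : a = 1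
          · rw [ha1, one_pow]
          · have h5 : orderOf a = q := orderOf_eq_prime (hp := ⟨hq⟩) h4 ha1
            obtain ⟨n, hn⟩ := P.isPGroup' ⟨a, ha⟩
            have h6 : a ^ p ^ n = 1 := by
              have := congrArg Subtype.val hn
              simpa using this
            have h7 := orderOf_dvd_of_pow_eq_one h6
            rw [h5] at h7
            have h8 := (Nat.prime_dvd_prime_iff_eq hq (Fact.out : p.Prime)).mp (hq.dvd_of_dvd_pow h7)
            rw [← h8]; exact h4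
    · right
      rw [hset]
      exact frob_coherent hfpf hK1 hti.1 hti.2 hc (Or.inl hab)
  · right
    rw [hset]
    have hKp : IsPGroup p K := by
      intro k
      obtain ⟨n, hn⟩ := P.isPGroup' ⟨((k : L) : G), (hmem k).mp k.2⟩
      refine ⟨n, Subtype.ext (Subtype.ext ?_)⟩
      have h2 := congrArg Subtype.val hn
      simpa using h2
    have hKodd : Odd (Nat.card K) := by
      obtain ⟨n, hn⟩ := hKp.exists_card_eq
      rw [hn]
      exact ((Fact.out : p.Prime).odd_of_ne_two hp).pow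
    have heodd := odd_index hKodd hfpf hab
    have hodd : Odd (Nat.card L) := by
      rw [← K.card_mul_index]; exact hKodd.mul heodd
    exact sibley P rfl hL hTI hodd hmem hfpf hK1
end Cfsg.Agent.S1533
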