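import Cfsg.Statements.S1534
import Cfsg.Agent.Lib.OddFeit

set_option autoImplicit false
open Cfsg

namespace Cfsg.Agent.S1534

open Cfsg.Agent.Lib.OddSib Cfsg.Agent.Lib.OddCohE Cfsg.Agent.Lib.OddCohD Cfsg.Agent.Lib.OddCohC Cfsg.Agent.Lib.OddCohB Cfsg.Agent.Lib.OddCoh Cfsg.Agent.Lib.OddTIFN Cfsg.Agent.Lib.OddCohF
open Cfsg.Agent.Lib.OddFeit

theorem commutator_index_equiv {A B : Type*} [Group A] [Group B] (e : A ≃* B) :
    (commutator A).index = (commutator B).index := by
  have h1 : (commutator A).map e.toMonoidHom = commutator B := by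
    rw [commutator_def, commutator_def, Subgroup.map_commutator, ← MonoidHom.range_eq_map,
      MonoidHom.range_eq_top.mpr e.surjective]
  rw [← h1]
  exact (Subgroup.index_map_equiv (commutator A) e).symm

/-- Let G be a finite group and K a nontrivial nilpotent subgroup whose underlying set is a TI-subset of G, properly contained in its set normaliser N, with C_G(k) ≤ K for every non-identity k ∈ K; let e be the index of K in N and S the set of irreducible characters χ of N with χ k ≠ χ 1 for some k ∈ K. Then one of: S has exactly one member, Nat.card K = e + 1 and K is an elementary abelian p-group for some prime p; or K is a Sylow 2-subgroup of G (Nat.card K is the largest power of 2 dividing Nat.card G) and [K : [K,K]] < 4e²; or (S, N minus 1, induction to G) is coherent. -/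
theorem result {G : Type*} [Group G] [Fintype G] (K : Subgroup G) (hK1 : K ≠ ⊥) (hnil : Group.IsNilpotent K) (hTI : Cfsg.IsTISubset (K : Set G)) (hlt : K < Subgroup.normalizer (K : Set G)) (hC : ∀ k ∈ K, k ≠ 1 → Subgroup.centralizer ({k} : Set G) ≤ K) [Fintype ↥(Subgroup.normalizer (K : Set G))] : (Nat.card {χ : ↥(Subgroup.normalizer (K : Set G)) → ℂ // Cfsg.IsIrrCharacter ↥(Subgroup.normalizer (K : Set G)) χ ∧ ∃ k : ↥(Subgroup.normalizer (K : Set G)), (k : G) ∈ K ∧ χ k ≠ χ 1} = 1 ∧ Nat.card K = (K.subgroupOf (Subgroup.normalizer (K : Set G))).index + 1 ∧ ∃ p : ℕ, p.Prime ∧ Cfsg.IsElementaryAbelian p K) ∨ (Nat.card K = 2 ^ (Nat.card G).factorization 2 ∧ (⁅K, K⁆.subgroupOf K).index < 4 * (K.subgroupOf (Subgroup.normalizer (K : Set G))).index ^ 2) ∨ Cfsg.IsCoherent {χ : ↥(Subgroup.normalizer (K : Set G)) → ℂ | Cfsg.IsIrrCharacter ↥(Subgroup.normalizer (K : Set G)) χ ∧ ∃ k : ↥(Subgroup.normalizer (K : Set G)), (k : G) ∈ K ∧ χ k ≠ χ 1} {1}ᶜ (fun α => Cfsg.indFun (Subgroup.normalizer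 (K : Set G)) α) := by
  classical
  obtain ⟨L, hL⟩ : ∃ L : Subgroup G, L = Subgroup.normalizer (K : Set G) := ⟨_, rfl⟩
  haveI : Fintype L := Fintype.ofFinite _
  suffices h : (Nat.card {χ : L → ℂ // Cfsg.IsIrrCharacter L χ ∧ ∃ k : L, (k : G) ∈ K ∧ χ k ≠ χ 1} = 1 ∧ Nat.card K = (K.subgroupOf L).index + 1 ∧ ∃ p : ℕ, p.Prime ∧ Cfsg.IsElementaryAbelian p K) ∨ (Nat.card K = 2 ^ (Nat.card G).factorization 2 ∧ (⁅K, K⁆.subgroupOf K).index < 4 * (K.subgroupOf L).index ^ 2) ∨ Cfsg.IsCoherent {χ : L → ℂ | Cfsg.IsIrrCharacter L χ ∧ ∃ z : L, (z : G) ∈ K ∧ χ z ≠ χ 1} {1}ᶜ (fun α => Cfsg.indFun L α) by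
    subst hL
    convert h
  rw [← hL] at hlt
  obtain ⟨K', hKdef⟩ : ∃ K' : Subgroup L, K' = K.subgroupOf L := ⟨_, rfl⟩
  haveI : Fintype K' := Fintype.ofFinite _
  have hmem : ∀ x : L, x ∈ K' ↔ (x : G) ∈ K := fun x => by rw [hKdef]; exact Subgroup.mem_subgroupOf
  haveI hKn : K'.Normal := by rw [hKdef]; exact sub_normal hL
  have hfpf : ∀ g : L, g ∉ K' → ∀ k ∈ K', g * k = k * g → k = 1 := by rw [hKdef]; exact sub_fpf hC
  have hTI' := sub_TI hL hTI
  rw [← hKdef] at hTI'
  have hcardK : Nat.card K' = Nat.card K := by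
    rw [hKdef]; exact Nat.card_congr (Subgroup.subgroupOfEquivOfLe hlt.le).toEquiv
  have hcomI : (commutator K').index = (⁅K, K⁆.subgroupOf K).index := by
    have h1 : (⁅K, K⁆.subgroupOf K).index = (commutator K).index := by
      rw [Subgroup.subgroupOf]
      congr 1
      rw [← Subgroup.map_subtype_commutator K]
      exact Subgroup.comap_map_eq_self_of_injective K.subtype_injective _
    rw [h1, hKdef]
    exact commutator_index_equiv (Subgroup.subgroupOfEquivOfLe hlt.le)
  have hnilK : Group.IsNilpotent K' := by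
    rw [hKdef]
    exact Group.nilpotent_of_mulEquiv (Subgroup.subgroupOfEquivOfLe hlt.le).symm
  have hK1' : K' ≠ ⊥ := by
    intro h
    apply hK1
    rw [← Subgroup.card_eq_one, ← hcardK, h, Subgroup.card_bot]
  rw [← hKdef, ← hcomI]
  have hset : {χ : L → ℂ | Cfsg.IsIrrCharacter L χ ∧ ∃ z : L, (z : G) ∈ K ∧ χ z ≠ χ 1} = Cfsg.inducedIrrAbove K' ⊥ := by
    rw [iia_eq hfpf]
    ext χ
    constructor
    · rintro ⟨h1, z, h2, h3⟩; exact ⟨h1, z, (hmem z).mpr h2, h3⟩
    · rintro ⟨h1, z, h2, h3⟩; exact ⟨h1, z, (hmem z).mp h2, h3⟩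
  have hti := ti_iso hTI'
  by_cases hc : Nat.card K' = K'.index + 1
  · left
    refine ⟨?_, by rw [← hcardK]; exact hc, ?_⟩
    · have h1 : Nat.card {χ : L → ℂ // Cfsg.IsIrrCharacter L χ ∧ ∃ x : L, (x : G) ∈ K ∧ χ x ≠ χ 1} =
          Nat.card ({χ : L → ℂ | Cfsg.IsIrrCharacter L χ ∧ ∃ z : L, (z : G) ∈ K ∧ χ z ≠ χ 1} : Set (L → ℂ)) := rfl
      rw [h1, hset]
      exact card_one hfpf hc
    · obtain ⟨hab, q, hq, hqe⟩ := elem_ab hfpf hc
      refine ⟨q, hq, ⟨⟨fun a b => ?_⟩⟩, ?_⟩
      · have h3 := hab ⟨a, hlt.le a.2⟩ ((hmem _).mpr a.2) ⟨b, hlt.le b.2⟩ ((hmem _).mpr b.2)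
        have h4 := congrArg Subtype.val h3
        exact Subtype.ext h4
      · intro a ha
        have h3 := congrArg Subtype.val (hqe ⟨a, hlt.le ha⟩ ((hmem _).mpr ha))
        simpa using h3
  right
  by_cases hab : ∀ a ∈ K', ∀ b ∈ K', a * b = b * a
  · right
    rw [hset]
    exact frob_coherent hfpf hK1' hti.1 hti.2 hc (Or.inl hab)
  by_cases hbig : (∃ p m : ℕ, p.Prime ∧ Nat.card K' = p ^ m) → 4 * K'.index ^ 2 + 1 < (commutator K').index
  · right
    rw [hset]
    exact frob_coherent hfpf hK1' hti.1 hti.2 hc (Or.inr ⟨hnilK, hbig⟩)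
  push_neg at hbig
  obtain ⟨⟨p, m, hp, hm⟩, hle⟩ := hbig
  haveI : Fact p.Prime := ⟨hp⟩
  have hKm : Nat.card K = p ^ m := by rw [← hcardK, hm]
  have hKp : IsPGroup p K := IsPGroup.of_card hKm
  have hpe : ¬ p ∣ K'.index := by
    intro h
    have h1 := h.trans (index_dvd_frob hfpf)
    have h0 : p ∣ Nat.card K' := by
      rw [hm]
      apply dvd_pow_self
      rintro rfl
      rw [pow_zero] at hm
      exact hK1' (Subgroup.card_eq_one.mp hm)
    have h3 := (Nat.dvd_sub h0 h1)
    have h4 : 0 < Nat.card K' := Nat.card_pos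
    have h5 : Nat.card K' - (Nat.card K' - 1) = 1 := by omega
    rw [h5] at h3
    exact hp.one_lt.ne' (Nat.dvd_one.mp h3)
  have hSyl : ¬ p ∣ K.index := by
    intro h
    have h1 := Sylow.card_quotient_normalizer_modEq_card_quotient (G := G) hKm
    have h3 : Nat.card (Subgroup.normalizer (K : Set G) ⧸ Subgroup.comap ((Subgroup.normalizer (K : Set G)).subtype) K) = K'.index := by
      rw [hKdef, Subgroup.index, Subgroup.subgroupOf]
      subst hL
      rfl
    rw [h3] at h1
    apply hpe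
    have h5 : Nat.card (G ⧸ K) ≡ 0 [MOD p] := (Nat.modEq_zero_iff_dvd).mpr h
    exact (Nat.modEq_zero_iff_dvd).mp (h1.trans h5)
  let P : Sylow p G := hKp.toSylow hSyl
  have hPK : (P : Subgroup G) = K := rfl
  by_cases hp2 : p = 2
  · left
    subst hp2
    refine ⟨?_, ?_⟩
    · rw [← hPK]; exact P.card_eq_multiplicity
    · have hev : 2 ∣ (commutator K').index := by
        apply prime_dvd_index_commutator hnilK Nat.prime_two
        rw [hm]
        apply dvd_pow_self
        rintro rfl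
        rw [pow_zero] at hm
        exact hK1' (Subgroup.card_eq_one.mp hm)
      have he1 : K'.index ≠ 1 := by
        intro h
        rw [Subgroup.index_eq_one] at h
        apply hlt.not_ge
        intro x hx
        have : (⟨x, hx⟩ : L) ∈ K' := by rw [h]; exact Subgroup.mem_top _
        exact (hmem _).mp this
      have hne : (commutator K').index ≠ 4 * K'.index ^ 2 := by
        intro h
        have h1 : (commutator K').index ∣ 2 ^ m := by rw [← hm]; exact (commutator K').index_dvd_card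
        have h2 : K'.index ∣ 2 ^ m := by
          refine dvd_trans ?_ h1
          rw [h]
          exact Dvd.dvd.mul_left (dvd_pow_self _ two_ne_zero) _
        obtain ⟨k, -, hk⟩ := (Nat.dvd_prime_pow Nat.prime_two).mp h2
        apply hpe
        rw [hk]
        apply dvd_pow_self
        rintro rfl
        exact he1 (by rw [hk, pow_zero])
      have h4 : (commutator K').index ≠ 4 * K'.index ^ 2 + 1 := by
        intro h
        rw [h] at hev
        omega
      omega
  · right
    rw [hset]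
    have hKodd : Odd (Nat.card K') := by
      rw [hm]
      exact (hp.odd_of_ne_two hp2).pow
    have heodd := odd_index hKodd hfpf hab
    have hodd : Odd (Nat.card L) := by
      rw [← K'.card_mul_index]; exact hKodd.mul heodd
    exact sibley P rfl hL hTI hodd hmem hfpf hK1'
end Cfsg.Agent.S1534
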