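import Cfsg.Statements.S1535
import Cfsg.Agent.Lib.OddFeit

set_option autoImplicit false
open Cfsg

namespace Cfsg.Agent.S1535

open Cfsg.Agent.Lib.OddTIFN Cfsg.Agent.Lib.OddFeit

/-- Let N be a finite group with a proper nontrivial normal subgroup H such that every element commuting with a non-identity element of H lies in H (N is a Frobenius group with kernel H); let e be the index of H and suppose Nat.card H ≠ e + 1. Let S be the set of irreducible characters χ of N with χ h ≠ χ 1 for some h ∈ H, and τ a linear isometry on the integer combinations of S vanishing at 1, with values virtual characters of a finite group G vanishing at 1. Then (S, N minus 1, τ) is coherent, or there is a prime p with Nat.card H a power of p, H non-abelian and [H : [H,H]] ≤ 4e² + 1. -/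
theorem result {N : Type*} [Group N] [Fintype N] {G : Type*} [Group G] [Fintype G] (H : Subgroup N) [H.Normal] (hH1 : H ≠ ⊥) (hH2 : H ≠ ⊤) (hC : ∀ h ∈ H, h ≠ 1 → Subgroup.centralizer ({h} : Set N) ≤ H) (he : Nat.card H ≠ H.index + 1) (τ : (N → ℂ) → (G → ℂ)) (hτ : Cfsg.IsLinearIsometryOn (Cfsg.zspanOn {χ : N → ℂ | Cfsg.IsIrrCharacter N χ ∧ ∃ h ∈ H, χ h ≠ χ 1} {1}ᶜ) τ) (hτ1 : ∀ α ∈ Cfsg.zspanOn {χ : N → ℂ | Cfsg.IsIrrCharacter N χ ∧ ∃ h ∈ H, χ h ≠ χ 1} {1}ᶜ, τ α 1 = 0) : Cfsg.IsCoherent {χ : N → ℂ | Cfsg.IsIrrCharacter N χ ∧ ∃ h ∈ H, χ h ≠ χ 1} {1}ᶜ τ ∨ ∃ p : ℕ, p.Prime ∧ (∃ m : ℕ, Nat.card H = p ^ m) ∧ ¬ IsMulCommutative H ∧ (⁅H, H⁆.subgroupOf H).index ≤ 4 * H.index ^ 2 + 1 := by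
  classical
  have hfpf : ∀ g : N, g ∉ H → ∀ k ∈ H, g * k = k * g → k = 1 := by
    intro g hg k hk h
    by_contra hk1
    apply hg
    apply hC k hk hk1
    rw [Subgroup.mem_centralizer_iff]
    intro x hx
    rw [Set.mem_singleton_iff.mp hx]
    exact h.symm
  have hset := iia_eq (K := H) hfpf
  rw [← hset] at hτ hτ1 ⊢
  have hnil := nilp_frob hfpf hH2
  by_cases hab : ∀ a ∈ H, ∀ b ∈ H, a * b = b * a
  · left
    exact frob_coherent hfpf hH1 hτ hτ1 he (Or.inl hab)
  by_cases hbig : (∃ p m : ℕ, p.Prime ∧ Nat.card H = p ^ m) → 4 * H.index ^ 2 + 1 < (commutator H).index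
  · left
    exact frob_coherent hfpf hH1 hτ hτ1 he (Or.inr ⟨hnil, hbig⟩)
  · right
    push_neg at hbig
    obtain ⟨⟨p, m, hp, hm⟩, hle⟩ := hbig
    refine ⟨p, hp, ⟨m, hm⟩, ?_, ?_⟩
    · intro h
      apply hab
      intro a ha b hb
      exact congrArg Subtype.val (h.is_comm.comm (⟨a, ha⟩ : H) ⟨b, hb⟩)
    · have h1 : (⁅H, H⁆.subgroupOf H).index = (commutator H).index := commutator_relIndex (K := H)
      rw [h1]; exact hle
end Cfsg.Agent.S1535
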