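import Cfsg.Statements.S1536
import Cfsg.Agent.Lib.CharFrob
import Cfsg.Agent.Lib.OddA

set_option autoImplicit false
open Cfsg

namespace Cfsg.Agent.S1536

open Cfsg.Agent.Lib.CharBasic Cfsg.Agent.Lib.CharInd Cfsg.Agent.Lib.CharNormal Cfsg.Agent.Lib.CharTable

theorem pow_idx_mem {M : Type*} [Group M] [Finite M] (H : Subgroup M) [H.Normal] (x : M) : x ^ H.index ∈ H := by
  rw [← QuotientGroup.eq_one_iff, QuotientGroup.mk_pow, Subgroup.index_eq_card]
  exact pow_card_eq_one'

theorem zpow_idx_mem {M : Type*} [Group M] [Finite M] (H : Subgroup M) [H.Normal] (x : M) (b : ℤ) : x ^ (b * H.index : ℤ) ∈ H := by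
  rw [mul_comm, zpow_mul, zpow_natCast]
  exact H.zpow_mem (pow_idx_mem H x) b

theorem exists_fix {M : Type*} [Group M] [Finite M] (H : Subgroup M) [hN : H.Normal] (hHall : Nat.Coprime (Nat.card H) H.index) {x t : M}
    (hxt : ∃ m ∈ H, m * t = x) {k : M} (hk : k ∈ H) (hk1 : k ≠ 1) (htk : t * k = k * t) : ∃ h ∈ H, h ≠ 1 ∧ x * h = h * x := by
  classical
  obtain ⟨a, b, hab⟩ := hHall.isCoprime
  obtain ⟨m, hm, hmx⟩ := hxt
  have hcard : Nat.card H * H.index = Nat.card M := H.card_mul_index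
  have hyi : ∀ s : M, (s ^ (a * Nat.card H : ℤ)) ^ H.index = 1 := by
    intro s
    rw [← zpow_natCast, ← zpow_mul]
    have : (a * Nat.card H : ℤ) * H.index = a * (Nat.card M : ℤ) := by rw [← hcard]; push_cast; ring
    rw [this, mul_comm, zpow_mul, zpow_natCast, pow_card_eq_one', one_zpow]
  have hsplit : ∀ s : M, s = s ^ (a * Nat.card H : ℤ) * s ^ (b * H.index : ℤ) := by
    intro s
    rw [← zpow_add, hab, zpow_one]
  set y := t ^ (a * Nat.card H : ℤ) with hy
  set z := x ^ (a * Nat.card H : ℤ) with hz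
  have hyk : y * k = k * y := ((show Commute t k from htk).zpow_left _).eq
  -- z = h y
  have hzy : z * y⁻¹ ∈ H := by
    rw [← QuotientGroup.eq_one_iff, QuotientGroup.mk_mul, QuotientGroup.mk_inv, hz, hy, QuotientGroup.mk_zpow, QuotientGroup.mk_zpow]
    have : (x : M ⧸ H) = (t : M ⧸ H) := by
      rw [← hmx, QuotientGroup.mk_mul, (QuotientGroup.eq_one_iff m).mpr hm, one_mul]
    rw [this, mul_inv_cancel]
  have hyn : y ∈ Subgroup.normalizer (H : Set M) := by
    have : Subgroup.normalizer (H : Set M) = ⊤ := Subgroup.normalizer_eq_top_iff.mpr hN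
    rw [this]; trivial
  have hoy : Nat.Coprime (orderOf y) (Nat.card H) := by
    have h1 : orderOf y ∣ H.index := orderOf_dvd_of_pow_eq_one (hyi t)
    exact Nat.Coprime.coprime_dvd_left h1 hHall.symm
  obtain ⟨u, hu, c, hc, hcy, hconj⟩ := Cfsg.Agent.Lib.OddA.coset_conj H y hyn hoy (z * y⁻¹) hzy
  rw [inv_mul_cancel_right] at hconj
  have hc1 : c = 1 := by
    have h1 : (c * y) ^ H.index = 1 := by
      rw [← hconj, conj_pow, hyi x, mul_one, mul_inv_cancel]
    rw [(show Commute c y from hcy).mul_pow, hyi t, mul_one] at h1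
    have h2 : orderOf c ∣ H.index := orderOf_dvd_of_pow_eq_one h1
    have h3 : orderOf c ∣ Nat.card H := by
      have := orderOf_dvd_natCard (⟨c, hc⟩ : H)
      rwa [← Subgroup.orderOf_coe] at this
    exact orderOf_eq_one_iff.mp (Nat.eq_one_of_dvd_coprimes hHall h3 h2)
  rw [hc1, one_mul] at hconj
  have hzk : z * (u⁻¹ * k * u) = (u⁻¹ * k * u) * z := by
    have h1 : z = u⁻¹ * y * u := by rw [← hconj]; group
    rw [h1]
    calc u⁻¹ * y * u * (u⁻¹ * k * u) = u⁻¹ * (y * k) * u := by group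
      _ = u⁻¹ * (k * y) * u := by rw [hyk]
      _ = _ := by group
  by_cases hw : x ^ (b * H.index : ℤ) = 1
  · have hxz : x = z := by
      have := hsplit x
      rwa [hw, mul_one] at this
    refine ⟨u⁻¹ * k * u, ?_, ?_, ?_⟩
    · exact H.mul_mem (H.mul_mem (H.inv_mem hu) hk) hu
    · intro h
      apply hk1
      have := congrArg (fun s => u * s * u⁻¹) h
      simpa [mul_assoc] using this
    · rw [hxz]; exact hzk
  · exact ⟨_, zpow_idx_mem H x b, hw, ((Commute.refl x).zpow_right _).eq⟩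

/-- Let H be a normal subgroup of the finite group M whose order is coprime to its index. For x ∈ M: some non-principal irreducible character of H is unchanged under h ↦ θ(x h x⁻¹) if and only if some non-identity element of H commutes with x. -/
theorem result {M : Type*} [Group M] [Finite M] (H : Subgroup M) [hN : H.Normal] (hHall : Nat.Coprime (Nat.card H) H.index) (x : M) : (∃ θ : H → ℂ, Cfsg.IsIrrCharacter H θ ∧ θ ≠ (fun _ => 1) ∧ (fun h : H => θ ⟨x * h * x⁻¹, hN.conj_mem h h.2 x⟩) = θ) ↔ ∃ h ∈ H, h ≠ 1 ∧ x * h = h * x := by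
  classical
  haveI := Fintype.ofFinite M
  haveI := Fintype.ofFinite H
  have hcf := card_fixed_aut (cjAut (N := H) x)
  have hmk : ConjClasses.map (cjAut (N := H) x).toMonoidHom (ConjClasses.mk 1) = ConjClasses.mk (1 : H) := by
    change ConjClasses.mk (cjAut (N := H) x 1) = _
    rw [map_one]
  constructor
  · rintro ⟨θ, hθ, hθ1, hfix⟩
    have hfix' : θ ∘ (cjAut (N := H) x) = θ := by
      funext h
      have e : cjAut (N := H) x h = ⟨x * h * x⁻¹, hN.conj_mem h h.2 x⟩ := Subtype.ext (cjAut_coe x h)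
      rw [Function.comp_apply, e]
      exact congrFun hfix h
    have hnt : 1 < Nat.card {χ : IrrCharacter H // χ.1 ∘ (cjAut (N := H) x) = χ.1} := by
      rw [Finite.one_lt_card_iff_nontrivial]
      refine ⟨⟨⟨θ, hθ⟩, hfix'⟩, ⟨⟨fun _ => 1, isIrr_trivial⟩, rfl⟩, ?_⟩
      intro h
      exact hθ1 (congrArg (fun s => s.1.1) h)
    rw [← hcf, Finite.one_lt_card_iff_nontrivial] at hnt
    obtain ⟨⟨C, hC⟩, hne⟩ := exists_ne (⟨ConjClasses.mk 1, hmk⟩ : {C : ConjClasses H // ConjClasses.map (cjAut (N := H) x).toMonoidHom C = C})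
    have hne' : C ≠ ConjClasses.mk 1 := fun h => hne (Subtype.ext h)
    induction C using Quotient.inductionOn with | _ k => ?_
    change ConjClasses.mk (cjAut (N := H) x k) = ConjClasses.mk k at hC
    rw [ConjClasses.mk_eq_mk_iff_isConj, isConj_comm, isConj_iff] at hC
    obtain ⟨m, hm⟩ := hC
    have hm' : (m : M) * k * (m : M)⁻¹ = x * k * x⁻¹ := by
      have := congrArg Subtype.val hm
      rw [cjAut_coe] at this
      exact this
    have hk1 : (k : M) ≠ 1 := by
      intro h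
      apply hne'
      have : k = 1 := Subtype.ext h
      rw [this]; rfl
    refine exists_fix H hHall (x := x) (t := (m : M)⁻¹ * x) ⟨m, m.2, by group⟩ k.2 hk1 ?_
    calc (m : M)⁻¹ * x * k = (m : M)⁻¹ * (x * k * x⁻¹) * x := by group
      _ = (m : M)⁻¹ * (m * k * (m : M)⁻¹) * x := by rw [hm']
      _ = k * ((m : M)⁻¹ * x) := by group
  · rintro ⟨h, hh, hh1, hxh⟩
    have hmk2 : ConjClasses.map (cjAut (N := H) x).toMonoidHom (ConjClasses.mk ⟨h, hh⟩) = ConjClasses.mk (⟨h, hh⟩ : H) := by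
      change ConjClasses.mk (cjAut (N := H) x ⟨h, hh⟩) = _
      congr 1
      apply Subtype.ext
      rw [cjAut_coe, hxh, mul_inv_cancel_right]
    have hnt : 1 < Nat.card {C : ConjClasses H // ConjClasses.map (cjAut (N := H) x).toMonoidHom C = C} := by
      rw [Finite.one_lt_card_iff_nontrivial]
      refine ⟨⟨ConjClasses.mk ⟨h, hh⟩, hmk2⟩, ⟨ConjClasses.mk 1, hmk⟩, ?_⟩
      intro e
      have e' : ConjClasses.mk (⟨h, hh⟩ : H) = ConjClasses.mk 1 := congrArg Subtype.val e
      rw [ConjClasses.mk_eq_mk_iff_isConj, isConj_one_left] at e'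
      exact hh1 (congrArg Subtype.val e')
    rw [hcf, Finite.one_lt_card_iff_nontrivial] at hnt
    obtain ⟨⟨θ, hθ⟩, hne⟩ := exists_ne (⟨⟨fun _ => 1, isIrr_trivial⟩, rfl⟩ : {χ : IrrCharacter H // χ.1 ∘ (cjAut (N := H) x) = χ.1})
    refine ⟨θ.1, θ.2, ?_, ?_⟩
    · intro h1
      exact hne (Subtype.ext (Subtype.ext h1))
    · funext k
      have e : cjAut (N := H) x k = ⟨x * k * x⁻¹, hN.conj_mem k k.2 x⟩ := Subtype.ext (cjAut_coe x k)
      have := congrFun hθ k
      rw [Function.comp_apply, e] at this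
      exact this
end Cfsg.Agent.S1536
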