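import Cfsg.Statements.S1546

set_option autoImplicit false
open Cfsg

namespace Cfsg.Agent.S1546

/-- Let p and q be odd primes and N = (p ^ q − 1) / (p − 1) = 1 + p + ⋯ + p^(q−1). Then N is odd; if p ≡ 1 (mod q) then q ∣ N; and if p is not ≡ 1 (mod q) then N is coprime to p − 1 and every divisor of N is ≡ 1 (mod q). -/
theorem result (p q : ℕ) (hp : p.Prime) (hq : q.Prime) (hp2 : p ≠ 2) (hq2 : q ≠ 2) : Odd ((p ^ q - 1) / (p - 1)) ∧ (p % q = 1 → q ∣ (p ^ q - 1) / (p - 1)) ∧ (p % q ≠ 1 → Nat.Coprime ((p ^ q - 1) / (p - 1)) (p - 1) ∧ ∀ x : ℕ, x ∣ (p ^ q - 1) / (p - 1) → x % q = 1) := by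
  have hp3 : 3 ≤ p := by
    have := hp.two_le; omega
  have hq3 : 3 ≤ q := by
    have := hq.two_le; omega
  have hpodd : p % 2 = 1 := (hp.eq_two_or_odd).resolve_left hp2
  have hqodd : q % 2 = 1 := (hq.eq_two_or_odd).resolve_left hq2
  have hN : (p ^ q - 1) / (p - 1) = ∑ k ∈ Finset.range q, p ^ k := (Nat.geomSum_eq hp.two_le q).symm
  have hN' : (p ^ q - 1) = (∑ k ∈ Finset.range q, p ^ k) * (p - 1) := by
    have := Nat.geomSum_eq hp.two_le q
    rw [this]
    exact (Nat.div_mul_cancel (by simpa using Nat.sub_dvd_pow_sub_pow p 1 q)).symm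
  rw [hN]
  set N := ∑ k ∈ Finset.range q, p ^ k with hNdef
  have hmod : ∀ r : ℕ, p % r = 1 % r → N % r = q % r := by
    intro r hr
    have h1 : p ≡ 1 [MOD r] := hr
    have h2 : N ≡ ∑ k ∈ Finset.range q, 1 [MOD r] := by
      rw [hNdef]
      generalize Finset.range q = s
      classical
      induction s using Finset.induction_on with
      | empty => exact Nat.ModEq.refl _
      | insert a s has ih =>
        rw [Finset.sum_insert has, Finset.sum_insert has]
        have := h1.pow a
        rw [one_pow] at this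
        exact this.add ih
    rw [Finset.sum_const, Finset.card_range, smul_eq_mul, mul_one] at h2
    exact h2
  refine ⟨?_, ?_, ?_⟩
  · rw [Nat.odd_iff, hmod 2 (by rw [hpodd]), hqodd]
  · intro h
    have := hmod q (by rw [h, Nat.mod_eq_of_lt (by omega)])
    rw [Nat.mod_self] at this
    exact Nat.dvd_of_mod_eq_zero this
  · intro h
    have hcop : Nat.Coprime N (p - 1) := by
      rw [Nat.coprime_iff_gcd_eq_one]
      by_contra hne
      obtain ⟨r, hr, hr1⟩ := Nat.exists_prime_and_dvd hne
      have h1 : r ∣ N := hr1.trans (Nat.gcd_dvd_left _ _)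
      have h2 : r ∣ p - 1 := hr1.trans (Nat.gcd_dvd_right _ _)
      have h3 : p % r = 1 % r := by
        have h4 : 1 ≡ p [MOD r] := (Nat.modEq_iff_dvd' (by omega)).mpr h2
        exact h4.symm
      have h4 := hmod r h3
      rw [Nat.mod_eq_zero_of_dvd h1] at h4
      have h5 : r ∣ q := Nat.dvd_of_mod_eq_zero h4.symm
      have h6 : r = q := (Nat.prime_dvd_prime_iff_eq hr hq).mp h5
      rw [h6, Nat.mod_eq_of_lt (show 1 < q by omega)] at h3
      exact h h3
    refine ⟨hcop, ?_⟩
    have hprime : ∀ r : ℕ, r.Prime → r ∣ N → r % q = 1 := by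
      intro r hr hrN
      haveI : Fact r.Prime := ⟨hr⟩
      have hpr : (p : ZMod r) ^ q = 1 := by
        have h1 : r ∣ p ^ q - 1 := by rw [hN']; exact Dvd.dvd.mul_right hrN _
        have h2 : ((p ^ q - 1 : ℕ) : ZMod r) = 0 := (ZMod.natCast_eq_zero_iff _ _).mpr h1
        rw [Nat.cast_sub (Nat.one_le_pow _ _ (by omega))] at h2
        push_cast at h2
        exact sub_eq_zero.mp h2
      have hne : (p : ZMod r) ≠ 1 := by
        intro h1
        have h2 : ((p - 1 : ℕ) : ZMod r) = 0 := by
          rw [Nat.cast_sub (by omega), h1]; simp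
        have h3 : r ∣ p - 1 := (ZMod.natCast_eq_zero_iff _ _).mp h2
        exact Nat.Prime.not_coprime_iff_dvd.mpr ⟨r, hr, hrN, h3⟩ hcop
      have ho : orderOf (p : ZMod r) = q := by
        haveI : Fact q.Prime := ⟨hq⟩
        exact orderOf_eq_prime hpr hne
      have hd : q ∣ r - 1 := by
        rw [← ho]
        exact orderOf_dvd_of_pow_eq_one (ZMod.pow_card_sub_one_eq_one (by
          intro h0; rw [h0, zero_pow (by omega)] at hpr; exact zero_ne_one hpr))
      obtain ⟨k, hk⟩ := hd
      have : r = 1 + q * k := by have := hr.two_le; omega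
      rw [this, Nat.add_mul_mod_self_left, Nat.mod_eq_of_lt (by omega)]
    have hpos : 0 < N := by
      rw [hNdef]
      exact Finset.sum_pos (fun i _ => pow_pos (by omega) _) ⟨0, Finset.mem_range.mpr (by omega)⟩
    intro x hx
    have hx0 : x ≠ 0 := fun h0 => by rw [h0, zero_dvd_iff] at hx; omega
    clear_value N
    revert hx
    induction x using Nat.recOnMul with
    | zero => exact absurd rfl hx0
    | one => intro _; exact Nat.mod_eq_of_lt (by omega)
    | prime r hr => intro h; exact hprime r hr h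
    | mul a b iha ihb =>
      intro hab
      rw [Nat.mul_ne_zero_iff] at hx0
      rw [Nat.mul_mod, iha hx0.1 ((Dvd.intro _ rfl).trans hab), ihb hx0.2 ((Dvd.intro_left _ rfl).trans hab), one_mul,
        Nat.mod_eq_of_lt (by omega)]
end Cfsg.Agent.S1546
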