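import Cfsg.Statements.S1551
import Cfsg.Agent.Lib.Golay.SextetStruct2

set_option autoImplicit false
open scoped Pointwise
open Cfsg

namespace Cfsg.Agent.S1551

open Cfsg Cfsg.Agent.Lib.Golay
open scoped Pointwise

/-- Structure of a sextet stabiliser: it induces every permutation of the six tetrads, the subgroup fixing each tetrad setwise has order 192, and there is a normal subgroup of order 64 consisting of elements squaring to the identity. -/
theorem result (S : Finset (Finset Cfsg.GolayPt)) (hS : S ∈ Cfsg.sextets) : (∀ e : Equiv.Perm ↥S, ∃ g ∈ MulAction.stabilizer Cfsg.M24 S, ∀ t : ↥S, (g : Equiv.Perm Cfsg.GolayPt) • (t : Finset Cfsg.GolayPt) = ((e t : ↥S) : Finset Cfsg.GolayPt)) ∧ Nat.card {g : ↥(MulAction.stabilizer Cfsg.M24 S) // ∀ t ∈ S, ((g : Cfsg.M24) : Equiv.Perm Cfsg.GolayPt) • t = t} = 192 ∧ ∃ N : Subgroup ↥(MulAction.stabilizer Cfsg.M24 S), N.Normal ∧ Nat.card N = 64 ∧ ∀ x ∈ N, x * x = 1 := by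
  refine ⟨fun e => sextet_perm hS e, ?_, ?_⟩
  · rw [← ncard_KS hS, ← Nat.card_coe_set_eq]
    apply Nat.card_congr
    refine ⟨fun g => ⟨((g : ↥(MulAction.stabilizer M24 S)) : M24), ((g : ↥(MulAction.stabilizer M24 S)) : M24).2, g.2⟩,
      fun g => ⟨⟨⟨g, g.2.1⟩, ?_⟩, g.2.2⟩, fun g => rfl, fun g => rfl⟩
    show (⟨(g : Equiv.Perm GolayPt), g.2.1⟩ : M24) • S = S
    apply Finset.eq_of_subset_of_card_le
    · intro t ht
      obtain ⟨u, hu, rfl⟩ := Finset.mem_smul_finset.1 ht
      have : (⟨(g : Equiv.Perm GolayPt), g.2.1⟩ : M24) • u = u := g.2.2 u hu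
      rw [this]; exact hu
    · rw [Finset.card_smul_finset]
  · let N : Subgroup ↥(MulAction.stabilizer M24 S) :=
      { carrier := {x | ((x : M24) : Equiv.Perm GolayPt) ∈ NS S}
        mul_mem' := fun {a b} ha hb => NS_mul hS ha hb
        one_mem' := ⟨⟨M24.one_mem, fun t _ => one_smul _ t⟩, mul_one 1⟩
        inv_mem' := fun {a} ha => by
          have h2 : (((a : M24) : Equiv.Perm GolayPt))⁻¹ = ((a : M24) : Equiv.Perm GolayPt) := by
            rw [inv_eq_iff_mul_eq_one]; exact ha.2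
          show (((a : M24) : Equiv.Perm GolayPt))⁻¹ ∈ NS S
          rw [h2]; exact ha }
    refine ⟨N, ⟨?_⟩, ?_, ?_⟩
    · intro n hn g
      show ((g : M24) : Equiv.Perm GolayPt) * ((n : M24) : Equiv.Perm GolayPt) * ((g : M24) : Equiv.Perm GolayPt)⁻¹ ∈ NS S
      have h1 : ((g : M24) : Equiv.Perm GolayPt) • S = S := g.2
      have h2 := (NS_conj (S := S) (k := ((g : M24) : Equiv.Perm GolayPt)) (g : M24).2
        (g := ((n : M24) : Equiv.Perm GolayPt))).2 hn
      rw [h1] at h2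
      exact h2
    · rw [← ncard_NS hS, ← Nat.card_coe_set_eq]
      apply Nat.card_congr
      refine ⟨fun g => ⟨((g : ↥(MulAction.stabilizer M24 S)) : M24), g.2⟩,
        fun g => ⟨⟨⟨g, g.2.1.1⟩, ?_⟩, g.2⟩, fun g => rfl, fun g => rfl⟩
      show (⟨(g : Equiv.Perm GolayPt), g.2.1.1⟩ : M24) • S = S
      apply Finset.eq_of_subset_of_card_le
      · intro t ht
        obtain ⟨u, hu, rfl⟩ := Finset.mem_smul_finset.1 ht
        have : (⟨(g : Equiv.Perm GolayPt), g.2.1.1⟩ : M24) • u = u := g.2.1.2 u hu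
        rw [this]; exact hu
      · rw [Finset.card_smul_finset]
    · intro x hx
      apply Subtype.ext
      apply Subtype.ext
      exact hx.2

end Cfsg.Agent.S1551
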