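import Cfsg.Statements.S1552
import Cfsg.Agent.Lib.Golay.OrbUse

set_option autoImplicit false
open scoped Pointwise
open Cfsg

namespace Cfsg.Agent.S1552

open Cfsg Cfsg.Agent.Lib.Golay in
theorem fcase4 {n : ℕ} (h : n < 4) : n = 0 ∨ n = 1 ∨ n = 2 ∨ n = 3 := by omega

/-- A sextet stabiliser has four orbits on the 1771 sextets, of sizes 1, 90, 240, 1440; and the stabiliser is a maximal proper subgroup. -/
theorem result (S : Finset (Finset Cfsg.GolayPt)) (hS : S ∈ Cfsg.sextets) : ∃ X₁ ∈ Cfsg.sextets, ∃ X₂ ∈ Cfsg.sextets, ∃ X₃ ∈ Cfsg.sextets, (MulAction.orbit ↥(MulAction.stabilizer Cfsg.M24 S) X₁).ncard = 90 ∧ (MulAction.orbit ↥(MulAction.stabilizer Cfsg.M24 S) X₂).ncard = 240 ∧ (MulAction.orbit ↥(MulAction.stabilizer Cfsg.M24 S) X₃).ncard = 1440 ∧ Cfsg.sextets = {S} ∪ MulAction.orbit ↥(MulAction.stabilizer Cfsg.M24 S) X₁ ∪ MulAction.orbit ↥(MulAction.stabilizer Cfsg.M24 S) X₂ ∪ MulAction.orbit ↥(MulAction.stabilizer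 Cfsg.M24 S) X₃ ∧ IsCoatom (MulAction.stabilizer Cfsg.M24 S) := by
  open Cfsg.Agent.Lib.Golay in
  obtain ⟨f, x, hx, hf, ho⟩ := (resS hS).1.orbits (by decide)
  obtain ⟨a0, b0, c0, d0⟩ := hx 0 (by norm_num)
  obtain ⟨a1, b1, c1, d1⟩ := hx 1 (by norm_num)
  obtain ⟨a2, b2, c2, d2⟩ := hx 2 (by norm_num)
  obtain ⟨a3, b3, c3, d3⟩ := hx 3 (by norm_num)
  refine ⟨x 1, a1, x 2, a2, x 3, a3, d1, d2, d3, ?_, isCoatom_sextet hS⟩
  have h1 := ho S hS
  rw [orbit_self_singleton] at h1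
  have hS0 : f S = 0 := by
    rcases fcase4 (hf S hS) with h | h | h | h
    · exact h
    · exfalso; rw [h, ← c1] at h1; rw [← h1, Set.ncard_singleton] at d1; exact absurd d1 (by decide)
    · exfalso; rw [h, ← c2] at h1; rw [← h1, Set.ncard_singleton] at d2; exact absurd d2 (by decide)
    · exfalso; rw [h, ← c3] at h1; rw [← h1, Set.ncard_singleton] at d3; exact absurd d3 (by decide)
  rw [h1, hS0, c1, c2, c3]
  ext y
  simp only [Set.mem_union, Set.mem_setOf_eq]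
  constructor
  · intro hy
    rcases fcase4 (hf y hy) with h | h | h | h
    · exact Or.inl (Or.inl (Or.inl ⟨hy, h⟩))
    · exact Or.inl (Or.inl (Or.inr ⟨hy, h⟩))
    · exact Or.inl (Or.inr ⟨hy, h⟩)
    · exact Or.inr ⟨hy, h⟩
  · rintro (((h | h) | h) | h) <;> exact h.1

end Cfsg.Agent.S1552
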