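import Cfsg.Statements.S1553
import Cfsg.Agent.Lib.Golay.Restr
import Cfsg.Agent.Lib.Golay.Stab

set_option autoImplicit false
open scoped Pointwise
open Cfsg

namespace Cfsg.Agent.S1553

open Cfsg Cfsg.Agent.Lib.Golay
open scoped Pointwise

theorem inv_oct {o : Finset GolayPt} : ∀ g ∈ M24 ⊓ MulAction.stabilizer (Equiv.Perm GolayPt) o, ∀ x ∈ o, g • x ∈ o := by
  intro g hg x hx
  have h1 := (smul_mem_smul_iff' g o x).2 hx
  rw [show g • o = o from hg.2] at h1
  exact h1

theorem range_eq {o : Finset GolayPt} (ho : o ∈ octads) :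
    (restrHom (M24 ⊓ MulAction.stabilizer (Equiv.Perm GolayPt) o) o inv_oct).range = alternatingGroup ↥o := by
  apply Equiv.Perm.eq_alternatingGroup_of_index_eq_two
  have h1 := card_eq_range_mul_ker (restrHom (M24 ⊓ MulAction.stabilizer (Equiv.Perm GolayPt) o) o inv_oct)
  have h2 : {g | g ∈ M24 ⊓ MulAction.stabilizer (Equiv.Perm GolayPt) o ∧ ∀ x ∈ o, g • x = x} =
      {g | g ∈ M24 ∧ ∀ p ∈ o, g p = p} := by
    ext g
    constructor
    · rintro ⟨h1, h2⟩; exact ⟨h1.1, h2⟩
    · rintro ⟨h1, h2⟩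
      refine ⟨⟨h1, ?_⟩, h2⟩
      show g • o = o
      apply Finset.eq_of_subset_of_card_le
      · intro p hp
        rw [mem_smul_iff] at hp
        have := h2 _ hp
        rw [Equiv.apply_symm_apply] at this
        rw [this]; exact hp
      · rw [Finset.card_smul_finset]
  rw [card_M24_stab_octad ho, card_ker_restrHom, h2, (fixOct_general ho).1] at h1
  have h3 := Subgroup.card_mul_index (restrHom (M24 ⊓ MulAction.stabilizer (Equiv.Perm GolayPt) o) o inv_oct).range
  rw [Nat.card_perm, Nat.card_eq_fintype_card (α := ↥o), Fintype.card_coe, (mem_octads.1 ho).2] at h3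
  have h4 : Nat.factorial 8 = 40320 := by decide
  rw [h4] at h3
  have h5 : Nat.card ↥(restrHom (M24 ⊓ MulAction.stabilizer (Equiv.Perm GolayPt) o) o inv_oct).range = 20160 := by omega
  rw [h5] at h3
  omega

/-- The stabiliser of an octad in the group of the length-24 code induces on the octad exactly its alternating group. -/
theorem result (o : Finset Cfsg.GolayPt) (ho : o ∈ Cfsg.octads) : {e : Equiv.Perm ↥o | ∃ g : Equiv.Perm Cfsg.GolayPt, g ∈ Cfsg.M24 ∧ ∃ h : (∀ x, g x ∈ o ↔ x ∈ o), g.subtypePerm h = e} = (alternatingGroup ↥o : Set (Equiv.Perm ↥o)) := by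
  have h := range_eq ho
  rw [← h]
  ext e
  constructor
  · rintro ⟨g, hg, h, rfl⟩
    refine ⟨⟨g, hg, ?_⟩, Equiv.ext fun x => Subtype.ext rfl⟩
    show g • o = o
    apply Finset.eq_of_subset_of_card_le
    · intro p hp
      rw [mem_smul_iff] at hp
      rw [← h] at hp
      rw [Equiv.apply_symm_apply] at hp
      exact hp
    · rw [Finset.card_smul_finset]
  · rintro ⟨g, rfl⟩
    have hgo : (g : Equiv.Perm GolayPt) • o = o := g.2.2
    refine ⟨g, g.2.1, fun x => ?_, Equiv.ext fun x => Subtype.ext rfl⟩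
    have h1 := smul_mem_smul_iff' (g : Equiv.Perm GolayPt) o x
    rw [hgo] at h1
    exact h1

end Cfsg.Agent.S1553
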