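import Cfsg.Statements.S1554
import Cfsg.Agent.S1553
import Cfsg.Agent.Lib.Golay.OctStab

set_option autoImplicit false
open scoped Pointwise
open Cfsg

namespace Cfsg.Agent.S1554

open Cfsg Cfsg.Agent.Lib.Golay
open scoped Pointwise

theorem inv_oct2 {o : Finset GolayPt} {p : GolayPt} : ∀ g ∈ M24 ⊓ MulAction.stabilizer (Equiv.Perm GolayPt) o ⊓
    MulAction.stabilizer (Equiv.Perm GolayPt) p, ∀ x ∈ o, g • x ∈ o := by
  intro g hg x hx
  exact S1553.inv_oct g hg.1 x hx

theorem triv {o : Finset GolayPt} (ho : o ∈ octads) {p : GolayPt} (hp : p ∉ o) {g : Equiv.Perm GolayPt} (hg : g ∈ M24)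
    (h1 : ∀ x ∈ o, g x = x) (h2 : g p = p) : g = 1 := by
  obtain ⟨x, hx1, hx2, hx3⟩ := exists_enum (mem_octads.1 ho).2
  refine eq_one_of_fixes7 (fun i => if i = 5 then p else if i = 6 then x 5 else x i) ?_ ho ?_ ?_ ?_ ?_ hg ?_
  · intro i hi j hj
    have : i ≠ 5 ∧ i ≠ 6 ∧ j ≠ 5 ∧ j ≠ 6 := by omega
    simp only [this, if_false]
    exact hx2 i (by omega) j hj
  · intro i hi
    have : i ≠ 5 ∧ i ≠ 6 := by omega
    simp only [this, if_false]
    exact hx1 i (by omega)
  · simpa using hp
  · simpa using hx1 5 (by norm_num)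
  · intro i hi
    have : i ≠ 5 ∧ i ≠ 6 := by omega
    simp only [this, if_false]
    exact hx2 5 (by norm_num) i hi
  · intro i hi
    split_ifs with h h'
    · exact h2
    · exact h1 _ (hx1 5 (by norm_num))
    · exact h1 _ (hx1 i (by omega))

/-- An octad stabiliser is a split extension: the joint stabiliser of the octad and a point outside it is a complement to the pointwise stabiliser of the octad, and is isomorphic to the alternating group of degree 8. -/
theorem result (o : Finset Cfsg.GolayPt) (ho : o ∈ Cfsg.octads) (p : Cfsg.GolayPt) (hp : p ∉ o) : (Cfsg.M24 ⊓ fixingSubgroup (Equiv.Perm Cfsg.GolayPt) (o : Set Cfsg.GolayPt)) ⊓ (Cfsg.M24 ⊓ MulAction.stabilizer (Equiv.Perm Cfsg.GolayPt) o ⊓ MulAction.stabilizer (Equiv.Perm Cfsg.GolayPt) p) = ⊥ ∧ (Cfsg.M24 ⊓ fixingSubgroup (Equiv.Perm Cfsg.GolayPt) (o : Set Cfsg.GolayPt)) ⊔ (Cfsg.M24 ⊓ MulAction.stabilizer (Equiv.Perm Cfsg.GolayPt) o ⊓ MulAction.stabilizer (Equiv.Perm Cfsg.GolayPt) p) = (Cfsg.M24 ⊓ MulAction.stabilizer (Equiv.Perm Cfsg.GolayPt) o) ∧ Nonempty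 (↥(Cfsg.M24 ⊓ MulAction.stabilizer (Equiv.Perm Cfsg.GolayPt) o ⊓ MulAction.stabilizer (Equiv.Perm Cfsg.GolayPt) p) ≃* alternatingGroup (Fin 8)) := by
  have hE : ∀ g : Equiv.Perm GolayPt, g ∈ M24 ⊓ fixingSubgroup (Equiv.Perm GolayPt) (o : Set GolayPt) ↔
      g ∈ M24 ∧ ∀ x ∈ o, g x = x := by
    intro g
    rw [Subgroup.mem_inf]
    apply and_congr_right
    intro _
    rw [mem_fixingSubgroup_iff]
    exact Iff.rfl
  refine ⟨?_, ?_, ?_⟩
  · rw [eq_bot_iff]
    rintro g ⟨h1, h2⟩
    have h1 := (hE g).1 h1
    exact Subgroup.mem_bot.2 (triv ho hp h1.1 h1.2 h2.2)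
  · apply le_antisymm
    · apply sup_le
      · intro g hg
        rw [hE] at hg
        refine ⟨hg.1, ?_⟩
        show g • o = o
        apply Finset.eq_of_subset_of_card_le
        · intro p hp
          rw [mem_smul_iff] at hp
          have := hg.2 _ hp
          rw [Equiv.apply_symm_apply] at this
          rw [this]; exact hp
        · rw [Finset.card_smul_finset]
      · exact inf_le_left
    · intro g hg
      have hgp : g p ∉ o := by
        intro h
        apply hp
        have h1 := smul_mem_smul_iff' g o p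
        rw [show g • o = o from hg.2] at h1
        exact h1.1 h
      obtain ⟨e, he, h1, h2⟩ := fixOct_trans ho hp hgp
      have hg2 : g = e * (e⁻¹ * g) := by group
      rw [hg2]
      apply Subgroup.mul_mem_sup
      · rw [hE]; exact ⟨he, h1⟩
      · have heo : e • o = o := by
          apply Finset.eq_of_subset_of_card_le
          · intro p hp
            rw [mem_smul_iff] at hp
            have := h1 _ hp
            rw [Equiv.apply_symm_apply] at this
            rw [this]; exact hp
          · rw [Finset.card_smul_finset]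
        refine ⟨⟨M24.mul_mem (M24.inv_mem he) hg.1, ?_⟩, ?_⟩
        · show (e⁻¹ * g) • o = o
          rw [mul_smul, show g • o = o from hg.2, inv_smul_eq_iff, heo]
        · show (e⁻¹ * g) p = p
          rw [Equiv.Perm.mul_apply, ← h2]
          exact e.symm_apply_apply p
  · have hcard : Nat.card ↥(M24 ⊓ MulAction.stabilizer (Equiv.Perm GolayPt) o ⊓ MulAction.stabilizer (Equiv.Perm GolayPt) p) = 20160 := by
      have h := card_eq_orbit_mul (M24 ⊓ MulAction.stabilizer (Equiv.Perm GolayPt) o) p
      rw [card_M24_stab_octad ho, orbit_eq_of_forall _ p ((oᶜ : Finset GolayPt) : Set GolayPt) (fun g hg => ?_) (fun y hy => ?_),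
        Set.ncard_coe_finset, Finset.card_compl, (mem_octads.1 ho).2, show Fintype.card GolayPt = 24 by decide] at h
      · omega
      · rw [Finset.mem_coe, Finset.mem_compl]
        intro h1
        apply hp
        have h2 := smul_mem_smul_iff' g o p
        rw [show g • o = o from hg.2] at h2
        exact h2.1 h1
      · rw [Finset.mem_coe, Finset.mem_compl] at hy
        obtain ⟨e, he, h1, h2⟩ := fixOct_trans ho hp hy
        refine ⟨e, ⟨he, ?_⟩, h2⟩
        show e • o = o
        apply Finset.eq_of_subset_of_card_le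
        · intro p hp
          rw [mem_smul_iff] at hp
          have := h1 _ hp
          rw [Equiv.apply_symm_apply] at this
          rw [this]; exact hp
        · rw [Finset.card_smul_finset]
    let f := restrHom (M24 ⊓ MulAction.stabilizer (Equiv.Perm GolayPt) o ⊓ MulAction.stabilizer (Equiv.Perm GolayPt) p) o inv_oct2
    have hinj : Function.Injective f := by
      rw [← MonoidHom.ker_eq_bot_iff, eq_bot_iff]
      intro g hg
      rw [mem_ker_restrHom] at hg
      exact Subgroup.mem_bot.2 (Subtype.ext (triv ho hp g.2.1.1 hg g.2.2))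
    have e1 := MonoidHom.ofInjective hinj
    have hr : f.range = alternatingGroup ↥o := by
      apply Equiv.Perm.eq_alternatingGroup_of_index_eq_two
      have h3 := Subgroup.card_mul_index f.range
      rw [← Nat.card_congr e1.toEquiv, hcard, Nat.card_perm, Nat.card_eq_fintype_card (α := ↥o), Fintype.card_coe,
        (mem_octads.1 ho).2] at h3
      have h4 : Nat.factorial 8 = 40320 := by decide
      rw [h4] at h3
      omega
    have e2 : ↥f.range ≃* ↥(alternatingGroup ↥o) := MulEquiv.subgroupCongr hr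
    exact ⟨(e1.trans e2).trans (Equiv.altCongrHom (o.equivFinOfCardEq (mem_octads.1 ho).2))⟩

end Cfsg.Agent.S1554
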