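import Cfsg.Statements.S1559
import Cfsg.Agent.Lib.Golay.OrbUse

set_option autoImplicit false
open scoped Pointwise
open Cfsg

namespace Cfsg.Agent.S1559

open Cfsg Cfsg.Agent.Lib.Golay in
theorem fcase5 {n : ℕ} (h : n < 5) : n = 0 ∨ n = 1 ∨ n = 2 ∨ n = 3 ∨ n = 4 := by omega

/-- A trio stabiliser has five orbits on the 3795 trios, of sizes 1, 42, 56, 1008, 2688; and the stabiliser is a maximal proper subgroup. -/
theorem result (T : Finset (Finset Cfsg.GolayPt)) (hT : T ∈ Cfsg.trios) : ∃ X₁ ∈ Cfsg.trios, ∃ X₂ ∈ Cfsg.trios, ∃ X₃ ∈ Cfsg.trios, ∃ X₄ ∈ Cfsg.trios, (MulAction.orbit ↥(MulAction.stabilizer Cfsg.M24 T) X₁).ncard = 42 ∧ (MulAction.orbit ↥(MulAction.stabilizer Cfsg.M24 T) X₂).ncard = 56 ∧ (MulAction.orbit ↥(MulAction.stabilizer Cfsg.M24 T) X₃).ncard = 1008 ∧ (MulAction.orbit ↥(MulAction.stabilizer Cfsg.M24 T) X₄).ncard = 2688 ∧ Cfsg.trios = {T} ∪ MulAction.orbit ↥(MulAction.stabilizer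 Cfsg.M24 T) X₁ ∪ MulAction.orbit ↥(MulAction.stabilizer Cfsg.M24 T) X₂ ∪ MulAction.orbit ↥(MulAction.stabilizer Cfsg.M24 T) X₃ ∪ MulAction.orbit ↥(MulAction.stabilizer Cfsg.M24 T) X₄ ∧ IsCoatom (MulAction.stabilizer Cfsg.M24 T) := by
  open Cfsg.Agent.Lib.Golay in
  obtain ⟨f, x, hx, hf, ho⟩ := (resT hT).1.orbits (by decide)
  obtain ⟨a0, b0, c0, d0⟩ := hx 0 (by norm_num)
  obtain ⟨a1, b1, c1, d1⟩ := hx 1 (by norm_num)
  obtain ⟨a2, b2, c2, d2⟩ := hx 2 (by norm_num)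
  obtain ⟨a3, b3, c3, d3⟩ := hx 3 (by norm_num)
  obtain ⟨a4, b4, c4, d4⟩ := hx 4 (by norm_num)
  refine ⟨x 1, a1, x 2, a2, x 3, a3, x 4, a4, d1, d2, d3, d4, ?_, isCoatom_trio hT⟩
  have h1 := ho T hT
  rw [orbit_self_singleton] at h1
  have hS0 : f T = 0 := by
    rcases fcase5 (hf T hT) with h | h | h | h | h
    · exact h
    · exfalso; rw [h, ← c1] at h1; rw [← h1, Set.ncard_singleton] at d1; exact absurd d1 (by decide)
    · exfalso; rw [h, ← c2] at h1; rw [← h1, Set.ncard_singleton] at d2; exact absurd d2 (by decide)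
    · exfalso; rw [h, ← c3] at h1; rw [← h1, Set.ncard_singleton] at d3; exact absurd d3 (by decide)
    · exfalso; rw [h, ← c4] at h1; rw [← h1, Set.ncard_singleton] at d4; exact absurd d4 (by decide)
  rw [h1, hS0, c1, c2, c3, c4]
  ext y
  simp only [Set.mem_union, Set.mem_setOf_eq]
  constructor
  · intro hy
    rcases fcase5 (hf y hy) with h | h | h | h | h
    · exact Or.inl (Or.inl (Or.inl (Or.inl ⟨hy, h⟩)))
    · exact Or.inl (Or.inl (Or.inl (Or.inr ⟨hy, h⟩)))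
    · exact Or.inl (Or.inl (Or.inr ⟨hy, h⟩))
    · exact Or.inl (Or.inr ⟨hy, h⟩)
    · exact Or.inr ⟨hy, h⟩
  · rintro ((((h | h) | h) | h) | h) <;> exact h.1

end Cfsg.Agent.S1559
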