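import Cfsg.Statements.S1568
import Cfsg.Agent.Lib.Golay.LeechCount3
import Cfsg.Agent.Lib.Golay.LeechShape2

set_option autoImplicit false
open Cfsg

namespace Cfsg.Agent.S1568

open Cfsg.Agent.Lib.Golay Finset in
theorem key {x : Vec} (h1 : x ∈ leechLattice) (h2 : sqNorm x = 48) :
    ((∀ i, x i = 0 ∨ x i = 2 ∨ x i = -2) ∧ (∀ i, |x i| ≤ (2 : ℕ)) ∧ (∀ i, |x i| ≤ (3 : ℕ)) ∧ (∀ i, |x i| ≤ (4 : ℕ)) ∧
      (∀ i, |x i| ≤ (6 : ℕ)) ∧
      (¬ ∃ i j k, i ≠ j ∧ j ≠ k ∧ i ≠ k ∧ |x i| = 3 ∧ |x j| = 3 ∧ |x k| = 3) ∧ (¬ ∃ i, |x i| = 4) ∧ (¬ ∃ i, |x i| = 5)) ∨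
    ((¬ ∀ i, x i = 0 ∨ x i = 2 ∨ x i = -2) ∧ (¬ ∀ i, |x i| ≤ (2 : ℕ)) ∧ (∀ i, |x i| ≤ (3 : ℕ)) ∧ (∀ i, |x i| ≤ (4 : ℕ)) ∧
      (∀ i, |x i| ≤ (6 : ℕ)) ∧
      (∃ i j k, i ≠ j ∧ j ≠ k ∧ i ≠ k ∧ |x i| = 3 ∧ |x j| = 3 ∧ |x k| = 3) ∧ (¬ ∃ i, |x i| = 4) ∧ (¬ ∃ i, |x i| = 5)) ∨
    ((¬ ∀ i, x i = 0 ∨ x i = 2 ∨ x i = -2) ∧ (¬ ∀ i, |x i| ≤ (2 : ℕ)) ∧ (¬ ∀ i, |x i| ≤ (3 : ℕ)) ∧ (∀ i, |x i| ≤ (4 : ℕ)) ∧
      (∀ i, |x i| ≤ (6 : ℕ)) ∧
      (¬ ∃ i j k, i ≠ j ∧ j ≠ k ∧ i ≠ k ∧ |x i| = 3 ∧ |x j| = 3 ∧ |x k| = 3) ∧ (∃ i, |x i| = 4) ∧ (¬ ∃ i, |x i| = 5)) ∨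
    ((¬ ∀ i, x i = 0 ∨ x i = 2 ∨ x i = -2) ∧ (¬ ∀ i, |x i| ≤ (2 : ℕ)) ∧ (¬ ∀ i, |x i| ≤ (3 : ℕ)) ∧ (¬ ∀ i, |x i| ≤ (4 : ℕ)) ∧
      (∀ i, |x i| ≤ (6 : ℕ)) ∧
      (¬ ∃ i j k, i ≠ j ∧ j ≠ k ∧ i ≠ k ∧ |x i| = 3 ∧ |x j| = 3 ∧ |x k| = 3) ∧ (¬ ∃ i, |x i| = 4) ∧ (∃ i, |x i| = 5)) := by
  have neg : ∀ i, (x i = 0 ∨ x i = 2 ∨ x i = -2) → |x i| ≤ 2 := by
    intro i h; rcases h with h | h | h <;> rw [h] <;> norm_num
  rcases shape48 h1 h2 with ⟨D, h⟩ | ⟨O, k, h⟩ | ⟨a, b, c, h⟩ | ⟨a, h⟩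
  · left
    have hv : ∀ i, x i = 0 ∨ x i = 2 ∨ x i = -2 := by
      intro i
      by_cases hi : i ∈ D
      · have := abs_cases (h.2.1 i hi); omega
      · exact Or.inl (h.2.2 i hi)
    have ha : ∀ i, |x i| ≤ 2 := fun i => neg i (hv i)
    refine ⟨hv, ha, fun i => ?_, fun i => ?_, fun i => ?_, ?_, ?_, ?_⟩
    · have := ha i; push_cast; omega
    · have := ha i; push_cast; omega
    · have := ha i; push_cast; omega
    · rintro ⟨i, j, k, -, -, -, h3, -⟩; have := ha i; omega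
    · rintro ⟨i, h3⟩; have := ha i; omega
    · rintro ⟨i, h3⟩; have := ha i; omega
  · right; right; left
    have ha : ∀ i, |x i| = 0 ∨ |x i| = 2 ∨ |x i| = 4 := by
      intro i
      by_cases hi : i ∈ O
      · exact Or.inr (Or.inl (h.2.2.2.1 i hi))
      · by_cases hk : i = k
        · rw [hk]; exact Or.inr (Or.inr h.2.2.1)
        · rw [h.2.2.2.2 i hi hk]; exact Or.inl rfl
    have hk := h.2.2.1
    refine ⟨fun hv => ?_, fun hv => ?_, fun hv => ?_, fun i => ?_, fun i => ?_, ?_, ⟨k, hk⟩, ?_⟩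
    · have := neg k (hv k); omega
    · have := hv k; push_cast at this; omega
    · have := hv k; push_cast at this; omega
    · have := ha i; push_cast; omega
    · have := ha i; push_cast; omega
    · rintro ⟨i, j, k, -, -, -, h3, -⟩; have := ha i; omega
    · rintro ⟨i, h3⟩; have := ha i; omega
  · right; left
    have ha : ∀ i, |x i| = 1 ∨ |x i| = 3 := by
      intro i
      by_cases h3 : i = a
      · rw [h3]; exact Or.inr h.2.2.2.1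
      · by_cases h4 : i = b
        · rw [h4]; exact Or.inr h.2.2.2.2.1
        · by_cases h5 : i = c
          · rw [h5]; exact Or.inr h.2.2.2.2.2.1
          · exact Or.inl (h.2.2.2.2.2.2 i h3 h4 h5)
    have hk := h.2.2.2.1
    refine ⟨fun hv => ?_, fun hv => ?_, fun i => ?_, fun i => ?_, fun i => ?_,
      ⟨a, b, c, h.1, h.2.2.1, h.2.1, h.2.2.2.1, h.2.2.2.2.1, h.2.2.2.2.2.1⟩, ?_, ?_⟩
    · have := neg a (hv a); omega
    · have := hv a; push_cast at this; omega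
    · have := ha i; push_cast; omega
    · have := ha i; push_cast; omega
    · have := ha i; push_cast; omega
    · rintro ⟨i, h3⟩; have := ha i; omega
    · rintro ⟨i, h3⟩; have := ha i; omega
  · right; right; right
    have ha : ∀ i, |x i| = 1 ∨ |x i| = 5 := by
      intro i
      by_cases h3 : i = a
      · rw [h3]; exact Or.inr h.1
      · exact Or.inl (h.2 i h3)
    have hk := h.1
    refine ⟨fun hv => ?_, fun hv => ?_, fun hv => ?_, fun hv => ?_, fun i => ?_, ?_, ?_, ⟨a, hk⟩⟩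
    · have := neg a (hv a); omega
    · have := hv a; push_cast at this; omega
    · have := hv a; push_cast at this; omega
    · have := hv a; push_cast at this; omega
    · have := ha i; push_cast; omega
    · rintro ⟨i, j, k, -, -, -, h3, -⟩; have := ha i; omega
    · rintro ⟨i, h3⟩; have := ha i; omega

/-- Shape census of the lattice vectors of sum of squares 48 (customary norm 6): the four families (2^12, 0^12), (±3^3, ±1^21), (±4, ±2^8, 0^15) and (±5, ±1^23) have 5275648, 8290304, 3108864 and 98304 members. -/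
theorem result : {x : Cfsg.GolayPt → ℤ | x ∈ Cfsg.leechLattice ∧ Cfsg.sqNorm x = 48 ∧ ∀ i, x i = 0 ∨ x i = 2 ∨ x i = -2}.ncard = 5275648 ∧ {x : Cfsg.GolayPt → ℤ | x ∈ Cfsg.leechLattice ∧ Cfsg.sqNorm x = 48 ∧ ∃ i j k, i ≠ j ∧ j ≠ k ∧ i ≠ k ∧ |x i| = 3 ∧ |x j| = 3 ∧ |x k| = 3}.ncard = 8290304 ∧ {x : Cfsg.GolayPt → ℤ | x ∈ Cfsg.leechLattice ∧ Cfsg.sqNorm x = 48 ∧ ∃ i, |x i| = 4}.ncard = 3108864 ∧ {x : Cfsg.GolayPt → ℤ | x ∈ Cfsg.leechLattice ∧ Cfsg.sqNorm x = 48 ∧ ∃ i, |x i| = 5}.ncard = 98304 := by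
  open Cfsg.Agent.Lib.Golay in
  have c2 := count_box 2 (2 ^ 64) 48 5275648 (by decide) (by decide +kernel) (by decide +kernel)
  have c3 := count_box 3 (2 ^ 64) 48 (5275648 + 8290304) (by decide) (by decide +kernel) (by decide +kernel)
  have c4 := count_box 4 (2 ^ 64) 48 (5275648 + 8290304 + 3108864) (by decide) (by decide +kernel) (by decide +kernel)
  have c6 := count_box 6 (2 ^ 64) 48 (5275648 + 8290304 + 3108864 + 98304) (by decide) (by decide +kernel) (by decide +kernel)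
  have diff : ∀ (P Q R : (GolayPt → ℤ) → Prop) (a b : ℕ), {x : GolayPt → ℤ | x ∈ leechLattice ∧ P x ∧ sqNorm x = (48 : ℕ)}.ncard = a →
      {x : GolayPt → ℤ | x ∈ leechLattice ∧ Q x ∧ sqNorm x = (48 : ℕ)}.ncard = a + b → 0 < a →
      (∀ x ∈ leechLattice, sqNorm x = 48 → P x → Q x) → (∀ x ∈ leechLattice, sqNorm x = 48 → (R x ↔ Q x ∧ ¬ P x)) →
      {x : GolayPt → ℤ | x ∈ leechLattice ∧ sqNorm x = 48 ∧ R x}.ncard = b := by
    intro P Q R a b h1 h2 h3 h4 h5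
    have e : {x : GolayPt → ℤ | x ∈ leechLattice ∧ sqNorm x = 48 ∧ R x} =
        {x : GolayPt → ℤ | x ∈ leechLattice ∧ Q x ∧ sqNorm x = (48 : ℕ)} \
          {x : GolayPt → ℤ | x ∈ leechLattice ∧ P x ∧ sqNorm x = (48 : ℕ)} := by
      ext x
      simp only [Set.mem_setOf_eq, Set.mem_diff, Nat.cast_ofNat]
      constructor
      · rintro ⟨e1, e2, e3⟩
        have := (h5 x e1 e2).1 e3
        exact ⟨⟨e1, this.1, e2⟩, fun h => this.2 h.2.1⟩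
      · rintro ⟨⟨e1, e2, e3⟩, e4⟩
        exact ⟨e1, e3, (h5 x e1 e3).2 ⟨e2, fun h => e4 ⟨e1, h, e3⟩⟩⟩
    rw [e, Set.ncard_diff ?_ (Set.finite_of_ncard_ne_zero (by omega)), h1, h2]
    · omega
    · rintro x ⟨e1, e2, e3⟩
      exact ⟨e1, h4 x e1 (by exact_mod_cast e3) e2, e3⟩
  refine ⟨?_, ?_, ?_, ?_⟩
  · rw [← c2]
    congr 1
    ext x
    simp only [Set.mem_setOf_eq, Nat.cast_ofNat]
    constructor
    · rintro ⟨h1, h2, h3⟩
      have := key h1 h2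
      push_cast at this
      tauto
    · rintro ⟨h1, h2, h3⟩
      have := key h1 h3
      push_cast at this
      tauto
  · refine diff _ _ _ _ _ c2 c3 (by norm_num) ?_ ?_
    · intro x h1 h2
      have := key h1 h2
      simp only [Nat.cast_ofNat] at this ⊢
      generalize (∀ i, |x i| ≤ 2) = p2 at this ⊢
      generalize (∀ i, |x i| ≤ 3) = p3 at this ⊢
      generalize (∀ i, |x i| ≤ 4) = p4 at this ⊢
      generalize (∀ i, |x i| ≤ 6) = p6 at this ⊢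
      generalize (∃ i j k, i ≠ j ∧ j ≠ k ∧ i ≠ k ∧ |x i| = 3 ∧ |x j| = 3 ∧ |x k| = 3) = q3 at this ⊢
      generalize (∃ i, |x i| = 4) = q4 at this ⊢
      generalize (∃ i, |x i| = 5) = q5 at this ⊢
      generalize (∀ i, x i = 0 ∨ x i = 2 ∨ x i = -2) = q2 at this ⊢
      tauto
    · intro x h1 h2
      have := key h1 h2
      simp only [Nat.cast_ofNat] at this ⊢
      generalize (∀ i, |x i| ≤ 2) = p2 at this ⊢
      generalize (∀ i, |x i| ≤ 3) = p3 at this ⊢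
      generalize (∀ i, |x i| ≤ 4) = p4 at this ⊢
      generalize (∀ i, |x i| ≤ 6) = p6 at this ⊢
      generalize (∃ i j k, i ≠ j ∧ j ≠ k ∧ i ≠ k ∧ |x i| = 3 ∧ |x j| = 3 ∧ |x k| = 3) = q3 at this ⊢
      generalize (∃ i, |x i| = 4) = q4 at this ⊢
      generalize (∃ i, |x i| = 5) = q5 at this ⊢
      generalize (∀ i, x i = 0 ∨ x i = 2 ∨ x i = -2) = q2 at this ⊢
      tauto
  · refine diff _ _ _ _ _ c3 c4 (by norm_num) ?_ ?_
    · intro x h1 h2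
      have := key h1 h2
      simp only [Nat.cast_ofNat] at this ⊢
      generalize (∀ i, |x i| ≤ 2) = p2 at this ⊢
      generalize (∀ i, |x i| ≤ 3) = p3 at this ⊢
      generalize (∀ i, |x i| ≤ 4) = p4 at this ⊢
      generalize (∀ i, |x i| ≤ 6) = p6 at this ⊢
      generalize (∃ i j k, i ≠ j ∧ j ≠ k ∧ i ≠ k ∧ |x i| = 3 ∧ |x j| = 3 ∧ |x k| = 3) = q3 at this ⊢
      generalize (∃ i, |x i| = 4) = q4 at this ⊢
      generalize (∃ i, |x i| = 5) = q5 at this ⊢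
      generalize (∀ i, x i = 0 ∨ x i = 2 ∨ x i = -2) = q2 at this ⊢
      tauto
    · intro x h1 h2
      have := key h1 h2
      simp only [Nat.cast_ofNat] at this ⊢
      generalize (∀ i, |x i| ≤ 2) = p2 at this ⊢
      generalize (∀ i, |x i| ≤ 3) = p3 at this ⊢
      generalize (∀ i, |x i| ≤ 4) = p4 at this ⊢
      generalize (∀ i, |x i| ≤ 6) = p6 at this ⊢
      generalize (∃ i j k, i ≠ j ∧ j ≠ k ∧ i ≠ k ∧ |x i| = 3 ∧ |x j| = 3 ∧ |x k| = 3) = q3 at this ⊢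
      generalize (∃ i, |x i| = 4) = q4 at this ⊢
      generalize (∃ i, |x i| = 5) = q5 at this ⊢
      generalize (∀ i, x i = 0 ∨ x i = 2 ∨ x i = -2) = q2 at this ⊢
      tauto
  · refine diff _ _ _ _ _ c4 c6 (by norm_num) ?_ ?_
    · intro x h1 h2
      have := key h1 h2
      simp only [Nat.cast_ofNat] at this ⊢
      generalize (∀ i, |x i| ≤ 2) = p2 at this ⊢
      generalize (∀ i, |x i| ≤ 3) = p3 at this ⊢
      generalize (∀ i, |x i| ≤ 4) = p4 at this ⊢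
      generalize (∀ i, |x i| ≤ 6) = p6 at this ⊢
      generalize (∃ i j k, i ≠ j ∧ j ≠ k ∧ i ≠ k ∧ |x i| = 3 ∧ |x j| = 3 ∧ |x k| = 3) = q3 at this ⊢
      generalize (∃ i, |x i| = 4) = q4 at this ⊢
      generalize (∃ i, |x i| = 5) = q5 at this ⊢
      generalize (∀ i, x i = 0 ∨ x i = 2 ∨ x i = -2) = q2 at this ⊢
      tauto
    · intro x h1 h2
      have := key h1 h2
      simp only [Nat.cast_ofNat] at this ⊢
      generalize (∀ i, |x i| ≤ 2) = p2 at this ⊢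
      generalize (∀ i, |x i| ≤ 3) = p3 at this ⊢
      generalize (∀ i, |x i| ≤ 4) = p4 at this ⊢
      generalize (∀ i, |x i| ≤ 6) = p6 at this ⊢
      generalize (∃ i j k, i ≠ j ∧ j ≠ k ∧ i ≠ k ∧ |x i| = 3 ∧ |x j| = 3 ∧ |x k| = 3) = q3 at this ⊢
      generalize (∃ i, |x i| = 4) = q4 at this ⊢
      generalize (∃ i, |x i| = 5) = q5 at this ⊢
      generalize (∀ i, x i = 0 ∨ x i = 2 ∨ x i = -2) = q2 at this ⊢
      tauto

end Cfsg.Agent.S1568
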