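import Cfsg.Statements.S1569
import Cfsg.Agent.Lib.Golay.LeechOrder

set_option autoImplicit false
open scoped Pointwise
open Cfsg

namespace Cfsg.Agent.S1569

/-- The cross through a lattice vector of customary norm 8 has exactly 48 members. -/
theorem result (x : Cfsg.GolayPt → ℤ) (hx : x ∈ Cfsg.leechLattice) (hxn : Cfsg.sqNorm x = 64) : (Cfsg.cross x).ncard = 48 := by
  open Cfsg.Agent.Lib.Golay in
  obtain ⟨g, hg⟩ := T64 hx hxn
  have h1 := cross_app g hx
  rw [hg, cross_t0] at h1
  rw [← Set.ncard_image_of_injective (cross x) (app_injective g), ← h1]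
  exact ncard_std

end Cfsg.Agent.S1569
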