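import Cfsg.Statements.S1571
import Cfsg.Agent.Lib.Golay.LeechOrder

set_option autoImplicit false
open scoped Pointwise
open Cfsg

namespace Cfsg.Agent.S1571

/-- The stabiliser of the standard cross in the automorphism group of the lattice is the monomial group of the code: each of its elements acts as a signed permutation with permutation part in the code's group and sign set a codeword, and it has order 4096 · 244823040. -/
theorem result : (∀ g : ↥Cfsg.Co0, (∀ v : ↥Cfsg.leechLattice, (v : Cfsg.GolayPt → ℤ) ∈ Cfsg.stdCross → ((g • v : ↥Cfsg.leechLattice) : Cfsg.GolayPt → ℤ) ∈ Cfsg.stdCross) → ∃ f ∈ Cfsg.golayMonomialMaps, ∀ v : ↥Cfsg.leechLattice, ((g • v : ↥Cfsg.leechLattice) : Cfsg.GolayPt → ℤ) = f (v : Cfsg.GolayPt → ℤ)) ∧ Nat.card {g : ↥Cfsg.Co0 // (∀ v : ↥Cfsg.leechLattice, (v : Cfsg.GolayPt → ℤ) ∈ Cfsg.stdCross → ((g • v : ↥Cfsg.leechLattice) : Cfsg.GolayPt → ℤ) ∈ Cfsg.stdCross)} = 4096 * 244823040 := by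
  open Cfsg.Agent.Lib.Golay in
  have key : ∀ g : ↥Co0, (∀ v : ↥leechLattice, (v : GolayPt → ℤ) ∈ stdCross → ((g • v : ↥leechLattice) : GolayPt → ℤ) ∈ stdCross) ↔
      g ∈ monoN := by
    intro g
    constructor
    · intro h x hx
      rw [app_of_mem g (std_mem_L hx)]
      exact h ⟨x, std_mem_L hx⟩ hx
    · intro h v hv
      rw [← app_coe]; exact h _ hv
  refine ⟨?_, ?_⟩
  · intro g hg
    obtain ⟨c, σ, hc, hσ, h⟩ := mono ((key g).1 hg)
    refine ⟨signedPerm σ c, ⟨σ, hσ, c, isWord_iff.1 hc, rfl⟩, fun v => ?_⟩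
    rw [← app_coe, h _ v.2]
    rfl
  · rw [← card_monoN]
    exact Nat.card_congr (Equiv.subtypeEquivRight (fun g => key g))

end Cfsg.Agent.S1571
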