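import Cfsg.Statements.S1580
import Cfsg.Agent.Lib.Golay.LeechMcL2

set_option autoImplicit false
open Cfsg

namespace Cfsg.Agent.S1580

/-- The McLaughlin configuration: for u of customary norm 6 and v minimal with u − v minimal, there are 275 further such summands x of customary inner product 2 with v, permuted transitively by the stabiliser of u and v. -/
theorem result (u v : ↥Cfsg.leechLattice) (hu : Cfsg.sqNorm (u : Cfsg.GolayPt → ℤ) = 48) (hv : Cfsg.sqNorm (v : Cfsg.GolayPt → ℤ) = 32 ∧ Cfsg.sqNorm ((u - v) : Cfsg.GolayPt → ℤ) = 32) : {x : ↥Cfsg.leechLattice | Cfsg.sqNorm (x : Cfsg.GolayPt → ℤ) = 32 ∧ Cfsg.sqNorm ((u - x) : Cfsg.GolayPt → ℤ) = 32 ∧ Cfsg.dotInt (v : Cfsg.GolayPt → ℤ) (x : Cfsg.GolayPt → ℤ) = 16}.ncard = 275 ∧ ∀ x ∈ {x : ↥Cfsg.leechLattice | Cfsg.sqNorm (x : Cfsg.GolayPt → ℤ) = 32 ∧ Cfsg.sqNorm ((u - x) : Cfsg.GolayPt → ℤ)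 = 32 ∧ Cfsg.dotInt (v : Cfsg.GolayPt → ℤ) (x : Cfsg.GolayPt → ℤ) = 16}, ∀ x' ∈ {x : ↥Cfsg.leechLattice | Cfsg.sqNorm (x : Cfsg.GolayPt → ℤ) = 32 ∧ Cfsg.sqNorm ((u - x) : Cfsg.GolayPt → ℤ) = 32 ∧ Cfsg.dotInt (v : Cfsg.GolayPt → ℤ) (x : Cfsg.GolayPt → ℤ) = 16}, ∃ g : ↥Cfsg.Co0, g • u = u ∧ g • v = v ∧ g • x = x' := by
  open Cfsg.Agent.Lib.Golay in
  have hvu := dot_of_norm hu hv.1 hv.2
  have hset : ∀ x : leechLattice, x ∈ {x : ↥leechLattice | sqNorm (x : GolayPt → ℤ) = 32 ∧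
      sqNorm ((u - x) : GolayPt → ℤ) = 32 ∧ dotInt (v : GolayPt → ℤ) (x : GolayPt → ℤ) = 16} ↔
      sqNorm (x : GolayPt → ℤ) = 32 ∧ dotInt (v : GolayPt → ℤ) x = 16 ∧ dotInt (u : GolayPt → ℤ) x = 24 := by
    intro x
    constructor
    · rintro ⟨e1, e2, e3⟩
      exact ⟨e1, e3, by rw [dotInt_comm]; exact dot_of_norm hu e1 e2⟩
    · rintro ⟨e1, e2, e3⟩
      exact ⟨e1, sub_norm hu e1 (by rw [dotInt_comm]; exact e3), e2⟩
  refine ⟨?_, ?_⟩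
  · refine (ncard_sub _ (fun x => sqNorm x = 32 ∧ dotInt (v : GolayPt → ℤ) x = 16 ∧ dotInt (u : GolayPt → ℤ) x = 24) hset).trans ?_
    obtain ⟨g, hg⟩ := (T48 v.2 u.2 hv.1 hu hvu).trans
      (T48 x0_mem (r5_mem pb) norm_x0 (norm_r5 pb) (dot_x0_r5 pb (Or.inr rfl))).symm
    simp only [List.map_cons, List.map_nil, List.cons.injEq, and_true] at hg
    rw [← c_275]
    exact ncard_app g _ _ (fun y hy => by rw [app_norm g hy, ← hg.1, ← hg.2, app_dot g v.2 hy, app_dot g u.2 hy])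
  · intro x hx x' hx'
    obtain ⟨x1, x2, x3⟩ := (hset x).1 hx
    obtain ⟨x1', x2', x3'⟩ := (hset x').1 hx'
    obtain ⟨g, g1, g2, g3⟩ := T275 v.2 u.2 x.2 hv.1 hu x1 hvu x2 x3
    obtain ⟨k, k1, k2, k3⟩ := T275 v.2 u.2 x'.2 hv.1 hu x1' hvu x2' x3'
    have main : Eqv [(v : GolayPt → ℤ), u, x] [(v : GolayPt → ℤ), u, x'] := by
      have a : Eqv [(v : GolayPt → ℤ), u, x] [x0, r5 pa, y0] := ⟨g, by simp [g1, g2, g3]⟩
      have b : Eqv [(v : GolayPt → ℤ), u, x'] [x0, r5 pa, y0] := ⟨k, by simp [k1, k2, k3]⟩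
      exact a.trans b.symm
    obtain ⟨m, m1, m2, m3⟩ := Eqv.three main
    exact ⟨m, m2, m1, m3⟩

end Cfsg.Agent.S1580
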