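import Cfsg.Statements.S1581
import Cfsg.Agent.Lib.Golay.LeechMcL2

set_option autoImplicit false
open Cfsg

namespace Cfsg.Agent.S1581

/-- The McLaughlin group acts with rank 3 and subdegrees 1, 112, 162 on its 275 points: the point stabiliser has two orbits on the remaining points, distinguished by customary inner product 1 or 2 with the fixed point. -/
theorem result (u v x : ↥Cfsg.leechLattice) (hu : Cfsg.sqNorm (u : Cfsg.GolayPt → ℤ) = 48) (hv : Cfsg.sqNorm (v : Cfsg.GolayPt → ℤ) = 32 ∧ Cfsg.sqNorm ((u - v) : Cfsg.GolayPt → ℤ) = 32) (hx : x ∈ {x : ↥Cfsg.leechLattice | Cfsg.sqNorm (x : Cfsg.GolayPt → ℤ) = 32 ∧ Cfsg.sqNorm ((u - x) : Cfsg.GolayPt → ℤ) = 32 ∧ Cfsg.dotInt (v : Cfsg.GolayPt → ℤ) (x : Cfsg.GolayPt → ℤ) = 16}) : {y : ↥Cfsg.leechLattice | y ∈ {x : ↥Cfsg.leechLattice | Cfsg.sqNorm (x : Cfsg.GolayPt → ℤ) = 32 ∧ Cfsg.sqNorm ((u - x) : Cfsg.GolayPt →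 ℤ) = 32 ∧ Cfsg.dotInt (v : Cfsg.GolayPt → ℤ) (x : Cfsg.GolayPt → ℤ) = 16} ∧ Cfsg.dotInt (x : Cfsg.GolayPt → ℤ) (y : Cfsg.GolayPt → ℤ) = 8}.ncard = 112 ∧ {y : ↥Cfsg.leechLattice | y ∈ {x : ↥Cfsg.leechLattice | Cfsg.sqNorm (x : Cfsg.GolayPt → ℤ) = 32 ∧ Cfsg.sqNorm ((u - x) : Cfsg.GolayPt → ℤ) = 32 ∧ Cfsg.dotInt (v : Cfsg.GolayPt → ℤ) (x : Cfsg.GolayPt → ℤ) = 16} ∧ y ≠ x ∧ Cfsg.dotInt (x : Cfsg.GolayPt → ℤ) (y : Cfsg.GolayPt → ℤ) = 16}.ncard = 162 ∧ ∀ y ∈ {x : ↥Cfsg.leechLattice | Cfsg.sqNorm (x : Cfsg.GolayPt → ℤ) = 32 ∧ Cfsg.sqNorm ((u - x) : Cfsg.GolayPt → ℤ) = 32 ∧ Cfsg.dotInt (v : Cfsg.GolayPt → ℤ) (x : Cfsg.GolayPt → ℤ) = 16}, ∀ y' ∈ {x : ↥Cfsg.leechLattice | Cfsg.sqNorm (x : Cfsg.GolayPt → ℤ) = 32 ∧ Cfsg.sqNorm ((u - x) : Cfsg.GolayPt → ℤ) = 32 ∧ Cfsg.dotInt (v : Cfsg.GolayPt → ℤ) (x : Cfsg.GolayPt → ℤ) = 16}, y ≠ x → y' ≠ x → Cfsg.dotInt (x : Cfsg.GolayPt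 → ℤ) (y : Cfsg.GolayPt → ℤ) = Cfsg.dotInt (x : Cfsg.GolayPt → ℤ) (y' : Cfsg.GolayPt → ℤ) → ∃ g : ↥Cfsg.Co0, g • u = u ∧ g • v = v ∧ g • x = x ∧ g • y = y' := by
  open Cfsg.Agent.Lib.Golay in
  have hvu := dot_of_norm hu hv.1 hv.2
  have hset : ∀ x : leechLattice, x ∈ {x : ↥leechLattice | sqNorm (x : GolayPt → ℤ) = 32 ∧
      sqNorm ((u - x) : GolayPt → ℤ) = 32 ∧ dotInt (v : GolayPt → ℤ) (x : GolayPt → ℤ) = 16} ↔
      sqNorm (x : GolayPt → ℤ) = 32 ∧ dotInt (v : GolayPt → ℤ) x = 16 ∧ dotInt (u : GolayPt → ℤ) x = 24 := by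
    intro x
    constructor
    · rintro ⟨e1, e2, e3⟩
      exact ⟨e1, e3, by rw [dotInt_comm]; exact dot_of_norm hu e1 e2⟩
    · rintro ⟨e1, e2, e3⟩
      exact ⟨e1, sub_norm hu e1 (by rw [dotInt_comm]; exact e3), e2⟩
  obtain ⟨x1, x2, x3⟩ := (hset x).1 hx
  obtain ⟨g, g1, g2, g3⟩ := T275 v.2 u.2 x.2 hv.1 hu x1 hvu x2 x3
  refine ⟨?_, ?_, ?_⟩
  · rw [ncard_sub _ (fun y => sqNorm y = 32 ∧ dotInt (v : GolayPt → ℤ) y = 16 ∧ dotInt (u : GolayPt → ℤ) y = 24 ∧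
      dotInt (x : GolayPt → ℤ) y = 8) (fun y => by
        have := hset y
        tauto)]
    rw [← c_112]
    exact ncard_app g _ _ (fun y hy => by
      rw [app_norm g hy, ← g1, ← g2, ← g3, app_dot g v.2 hy, app_dot g u.2 hy, app_dot g x.2 hy])
  · rw [ncard_sub _ (fun y => sqNorm y = 32 ∧ dotInt (v : GolayPt → ℤ) y = 16 ∧ dotInt (u : GolayPt → ℤ) y = 24 ∧
      dotInt (x : GolayPt → ℤ) y = 16) (fun y => by
        have := hset y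
        have hne : dotInt (x : GolayPt → ℤ) y = 16 → y ≠ x := by
          rintro h rfl
          rw [dotInt_self, x1] at h; norm_num at h
        tauto)]
    rw [← c_162]
    exact ncard_app g _ _ (fun y hy => by
      rw [app_norm g hy, ← g1, ← g2, ← g3, app_dot g v.2 hy, app_dot g u.2 hy, app_dot g x.2 hy])
  · intro y hy y' hy' hne hne' he
    obtain ⟨y1, y2, y3⟩ := (hset y).1 hy
    obtain ⟨y1', y2', y3'⟩ := (hset y').1 hy'
    have hcases : dotInt (x : GolayPt → ℤ) y = 8 ∨ dotInt (x : GolayPt → ℤ) y = 16 := by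
      have hgy := app_mem g y.2
      have e1 : dotInt x0 (app g y) = 16 := by rw [← g1, app_dot g v.2 y.2, y2]
      have e2 : dotInt (r5 pa) (app g y) = 24 := by rw [← g2, app_dot g u.2 y.2, y3]
      rw [← app_dot g x.2 y.2, g3, dot_y0]
      rw [dot_x0] at e1
      rw [dot_r5] at e2
      have hyn : sqNorm (app g y) = 32 := by rw [app_norm g y.2, y1]
      rcases pa_cases hgy hyn (by omega) e2 with ⟨j, hj, h4, h5, h6⟩ | ⟨O, hO, haO, hbO, h⟩ | ⟨hS, h4, h5, hc, hac, hbc⟩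
      · by_cases h1j : pt 1 = j
        · exfalso
          apply hne
          apply Subtype.ext
          apply app_injective g
          rw [g3, norm_of_sg hj h4 h5, ← h1j]; rfl
        · have := hj.2.2.2 (pt 1) p1_ne.1 h1j
          right; omega
      · have f1 : app g y pa = 2 := by rw [h]; unfold r8; rw [if_pos haO]
        have f2 : app g y (pt 1) = 2 ∨ app g y (pt 1) = 0 := by
          rw [h]; unfold r8; split_ifs
          · exact Or.inl rfl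
          · exact Or.inr rfl
        omega
      · have := hS.2 (pt 1) p1_ne.1
        omega
    have main : Eqv [(v : GolayPt → ℤ), u, x, y] [(v : GolayPt → ℤ), u, x, y'] := by
      rcases hcases with h8 | h8
      · exact (T112 v.2 u.2 x.2 y.2 hv.1 hu x1 y1 hvu x2 x3 y2 y3 h8).trans
          (T112 v.2 u.2 x.2 y'.2 hv.1 hu x1 y1' hvu x2 x3 y2' y3' (he.symm.trans h8)).symm
      · exact (T162 v.2 u.2 x.2 y.2 hv.1 hu x1 y1 hvu x2 x3 y2 y3 h8).trans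
          (T162 v.2 u.2 x.2 y'.2 hv.1 hu x1 y1' hvu x2 x3 y2' y3' (he.symm.trans h8)).symm
    obtain ⟨m, m1, m2, m3, m4⟩ := Eqv.four main
    exact ⟨m, m2, m1, m3, m4⟩

end Cfsg.Agent.S1581
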