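import Cfsg.Statements.S1583
import Cfsg.Agent.Lib.Golay.LeechHS

set_option autoImplicit false
open Cfsg

namespace Cfsg.Agent.S1583

/-- The Higman–Sims configuration: for two vectors of customary norm 6 with inner product −4, exactly 100 minimal vectors have customary inner products 3 and −3 with them, and the joint stabiliser permutes these transitively. -/
theorem result (v w : ↥Cfsg.leechLattice) (hv : Cfsg.sqNorm (v : Cfsg.GolayPt → ℤ) = 48) (hw : Cfsg.sqNorm (w : Cfsg.GolayPt → ℤ) = 48) (hvw : Cfsg.dotInt (v : Cfsg.GolayPt → ℤ) (w : Cfsg.GolayPt → ℤ) = -32) : {x : ↥Cfsg.leechLattice | Cfsg.sqNorm (x : Cfsg.GolayPt → ℤ) = 32 ∧ Cfsg.dotInt (v : Cfsg.GolayPt → ℤ) (x : Cfsg.GolayPt → ℤ) = 24 ∧ Cfsg.dotInt (w : Cfsg.GolayPt → ℤ) (x : Cfsg.GolayPt → ℤ) = -24}.ncard = 100 ∧ ∀ x ∈ {x : ↥Cfsg.leechLattice | Cfsg.sqNorm (x : Cfsg.GolayPt → ℤ) = 32 ∧ Cfsg.dotInt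 (v : Cfsg.GolayPt → ℤ) (x : Cfsg.GolayPt → ℤ) = 24 ∧ Cfsg.dotInt (w : Cfsg.GolayPt → ℤ) (x : Cfsg.GolayPt → ℤ) = -24}, ∀ x' ∈ {x : ↥Cfsg.leechLattice | Cfsg.sqNorm (x : Cfsg.GolayPt → ℤ) = 32 ∧ Cfsg.dotInt (v : Cfsg.GolayPt → ℤ) (x : Cfsg.GolayPt → ℤ) = 24 ∧ Cfsg.dotInt (w : Cfsg.GolayPt → ℤ) (x : Cfsg.GolayPt → ℤ) = -24}, ∃ g : ↥Cfsg.Co0, g • v = v ∧ g • w = w ∧ g • x = x' := by
  open Cfsg.Agent.Lib.Golay in
  obtain ⟨h1, h2, h3⟩ := hs_third hv hw hvw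
  have hm : -((v : GolayPt → ℤ) + (w : GolayPt → ℤ)) ∈ leechLattice := neg_mem (add_mem v.2 w.2)
  have hd : ∀ x : GolayPt → ℤ, dotInt (-((v : GolayPt → ℤ) + (w : GolayPt → ℤ))) x = - dotInt (v : GolayPt → ℤ) x - dotInt (w : GolayPt → ℤ) x := by
    intro x; rw [dotInt_neg_left, dotInt_add_left]; ring
  refine ⟨?_, ?_⟩
  · obtain ⟨g, hg⟩ := TH hm v.2 h1 hv h2
    simp only [List.map_cons, List.map_nil, List.cons.injEq, and_true] at hg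
    rw [ncard_sub _ (fun x => sqNorm x = 32 ∧ dotInt (-((v : GolayPt → ℤ) + (w : GolayPt → ℤ))) x = 0 ∧ dotInt (v : GolayPt → ℤ) x = 24) (by
      intro x
      rw [hd x]
      constructor
      · rintro ⟨e1, e2, e3⟩; exact ⟨e1, by omega, e2⟩
      · rintro ⟨e1, e2, e3⟩; exact ⟨e1, e3, by omega⟩)]
    exact (ncard_dot2 g hm hg.1 v.2 hg.2 _ _ _).trans c_100
  · rintro x ⟨e1, e2, e3⟩ x' ⟨e1', e2', e3'⟩
    obtain ⟨k, hk⟩ := (TH3 hm x.2 v.2 h1 e1 hv (by rw [hd]; omega) h2 (by rw [dotInt_comm]; exact e2)).trans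
      (TH3 hm x'.2 v.2 h1 e1' hv (by rw [hd]; omega) h2 (by rw [dotInt_comm]; exact e2')).symm
    simp only [List.map_cons, List.map_nil, List.cons.injEq, and_true] at hk
    refine ⟨k, smul_eq_iff_app.2 hk.2.2, smul_eq_iff_app.2 ?_, smul_eq_iff_app.2 hk.2.1⟩
    have e : (w : GolayPt → ℤ) = -(-((v : GolayPt → ℤ) + (w : GolayPt → ℤ)) + v) := by abel
    conv_lhs => rw [e]
    rw [app_neg k (add_mem hm v.2), app_add k hm v.2, hk.1, hk.2.2, ← e]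

end Cfsg.Agent.S1583
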