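import Cfsg.Statements.S1584
import Cfsg.Agent.Lib.Golay.LeechHS

set_option autoImplicit false
open Cfsg

namespace Cfsg.Agent.S1584

/-- The Higman–Sims group acts with rank 3 and subdegrees 1, 22, 77 on its 100 points, the orbits of a point stabiliser being distinguished by customary inner product 1 with the fixed point. -/
theorem result (v w x : ↥Cfsg.leechLattice) (hv : Cfsg.sqNorm (v : Cfsg.GolayPt → ℤ) = 48) (hw : Cfsg.sqNorm (w : Cfsg.GolayPt → ℤ) = 48) (hvw : Cfsg.dotInt (v : Cfsg.GolayPt → ℤ) (w : Cfsg.GolayPt → ℤ) = -32) (hx : x ∈ {x : ↥Cfsg.leechLattice | Cfsg.sqNorm (x : Cfsg.GolayPt → ℤ) = 32 ∧ Cfsg.dotInt (v : Cfsg.GolayPt → ℤ) (x : Cfsg.GolayPt → ℤ) = 24 ∧ Cfsg.dotInt (w : Cfsg.GolayPt → ℤ) (x : Cfsg.GolayPt → ℤ) = -24}) : {y : ↥Cfsg.leechLattice | y ∈ {x : ↥Cfsg.leechLattice | Cfsg.sqNorm (x : Cfsg.GolayPt → ℤ) = 32 ∧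 Cfsg.dotInt (v : Cfsg.GolayPt → ℤ) (x : Cfsg.GolayPt → ℤ) = 24 ∧ Cfsg.dotInt (w : Cfsg.GolayPt → ℤ) (x : Cfsg.GolayPt → ℤ) = -24} ∧ Cfsg.dotInt (x : Cfsg.GolayPt → ℤ) (y : Cfsg.GolayPt → ℤ) = 8}.ncard = 22 ∧ {y : ↥Cfsg.leechLattice | y ∈ {x : ↥Cfsg.leechLattice | Cfsg.sqNorm (x : Cfsg.GolayPt → ℤ) = 32 ∧ Cfsg.dotInt (v : Cfsg.GolayPt → ℤ) (x : Cfsg.GolayPt → ℤ) = 24 ∧ Cfsg.dotInt (w : Cfsg.GolayPt → ℤ) (x : Cfsg.GolayPt → ℤ) = -24} ∧ y ≠ x ∧ Cfsg.dotInt (x : Cfsg.GolayPt → ℤ) (y : Cfsg.GolayPt → ℤ) ≠ 8}.ncard = 77 ∧ ∀ y ∈ {x : ↥Cfsg.leechLattice | Cfsg.sqNorm (x : Cfsg.GolayPt → ℤ) = 32 ∧ Cfsg.dotInt (v : Cfsg.GolayPt → ℤ) (x : Cfsg.GolayPt → ℤ) = 24 ∧ Cfsg.dotInt (w : Cfsg.GolayPt → ℤ) (x : Cfsg.GolayPt → ℤ) = -24}, ∀ y' ∈ {x : ↥Cfsg.leechLattice | Cfsg.sqNorm (x : Cfsg.GolayPt → ℤ) = 32 ∧ Cfsg.dotInt (v : Cfsg.GolayPt → ℤ) (x : Cfsg.GolayPt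 → ℤ) = 24 ∧ Cfsg.dotInt (w : Cfsg.GolayPt → ℤ) (x : Cfsg.GolayPt → ℤ) = -24}, y ≠ x → y' ≠ x → (Cfsg.dotInt (x : Cfsg.GolayPt → ℤ) (y : Cfsg.GolayPt → ℤ) = 8 ↔ Cfsg.dotInt (x : Cfsg.GolayPt → ℤ) (y' : Cfsg.GolayPt → ℤ) = 8) → ∃ g : ↥Cfsg.Co0, g • v = v ∧ g • w = w ∧ g • x = x ∧ g • y = y' := by
  open Cfsg.Agent.Lib.Golay in
  obtain ⟨h1, h2, h3⟩ := hs_third hv hw hvw
  have hm : -((v : GolayPt → ℤ) + (w : GolayPt → ℤ)) ∈ leechLattice := neg_mem (add_mem v.2 w.2)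
  have hd : ∀ x : GolayPt → ℤ, dotInt (-((v : GolayPt → ℤ) + (w : GolayPt → ℤ))) x = - dotInt (v : GolayPt → ℤ) x - dotInt (w : GolayPt → ℤ) x := by
    intro x; rw [dotInt_neg_left, dotInt_add_left]; ring
  obtain ⟨x1, x2, x3⟩ := hx
  obtain ⟨g, hg⟩ := TH3 hm x.2 v.2 h1 x1 hv (by rw [hd]; omega) h2 (by rw [dotInt_comm]; exact x2)
  simp only [List.map_cons, List.map_nil, List.cons.injEq, and_true] at hg
  obtain ⟨g1, g2, g3⟩ := hg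
  have hset : ∀ y : leechLattice, y ∈ {x : ↥leechLattice | sqNorm (x : GolayPt → ℤ) = 32 ∧
      dotInt (v : GolayPt → ℤ) (x : GolayPt → ℤ) = 24 ∧ dotInt (w : GolayPt → ℤ) (x : GolayPt → ℤ) = -24} ↔
      sqNorm (y : GolayPt → ℤ) = 32 ∧ dotInt (-((v : GolayPt → ℤ) + (w : GolayPt → ℤ))) y = 0 ∧ dotInt (v : GolayPt → ℤ) y = 24 := by
    intro y
    rw [hd y]
    constructor
    · rintro ⟨e1, e2, e3⟩; exact ⟨e1, by omega, e2⟩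
    · rintro ⟨e1, e2, e3⟩; exact ⟨e1, e3, by omega⟩
  have c22 : {y : ↥leechLattice | y ∈ {x : ↥leechLattice | sqNorm (x : GolayPt → ℤ) = 32 ∧
      dotInt (v : GolayPt → ℤ) (x : GolayPt → ℤ) = 24 ∧ dotInt (w : GolayPt → ℤ) (x : GolayPt → ℤ) = -24} ∧
      dotInt (x : GolayPt → ℤ) (y : GolayPt → ℤ) = 8}.ncard = 22 := by
    rw [ncard_sub _ (fun y => sqNorm y = 32 ∧ dotInt (-((v : GolayPt → ℤ) + (w : GolayPt → ℤ))) y = 0 ∧ dotInt (v : GolayPt → ℤ) y = 24 ∧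
      dotInt (x : GolayPt → ℤ) y = 8) (fun y => by
        have := hset y
        tauto)]
    exact (ncard_dot3 g hm g1 v.2 g3 x.2 g2 _ _ _ _).trans c_22
  have c100 : {x : ↥leechLattice | sqNorm (x : GolayPt → ℤ) = 32 ∧
      dotInt (v : GolayPt → ℤ) (x : GolayPt → ℤ) = 24 ∧ dotInt (w : GolayPt → ℤ) (x : GolayPt → ℤ) = -24}.ncard = 100 := by
    refine (ncard_sub _ (fun x => sqNorm x = 32 ∧ dotInt (-((v : GolayPt → ℤ) + (w : GolayPt → ℤ))) x = 0 ∧ dotInt (v : GolayPt → ℤ) x = 24) hset).trans ?_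
    exact (ncard_dot2 g hm g1 v.2 g3 _ _ _).trans c_100
  refine ⟨c22, ?_, ?_⟩
  · have hfin := Set.finite_of_ncard_ne_zero (by rw [c100]; norm_num : Set.ncard _ ≠ 0)
    have e : {y : ↥leechLattice | y ∈ {x : ↥leechLattice | sqNorm (x : GolayPt → ℤ) = 32 ∧
      dotInt (v : GolayPt → ℤ) (x : GolayPt → ℤ) = 24 ∧ dotInt (w : GolayPt → ℤ) (x : GolayPt → ℤ) = -24} ∧ y ≠ x ∧
      dotInt (x : GolayPt → ℤ) (y : GolayPt → ℤ) ≠ 8} =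
      {x : ↥leechLattice | sqNorm (x : GolayPt → ℤ) = 32 ∧
      dotInt (v : GolayPt → ℤ) (x : GolayPt → ℤ) = 24 ∧ dotInt (w : GolayPt → ℤ) (x : GolayPt → ℤ) = -24} \
      (insert x {y : ↥leechLattice | y ∈ {x : ↥leechLattice | sqNorm (x : GolayPt → ℤ) = 32 ∧
      dotInt (v : GolayPt → ℤ) (x : GolayPt → ℤ) = 24 ∧ dotInt (w : GolayPt → ℤ) (x : GolayPt → ℤ) = -24} ∧
      dotInt (x : GolayPt → ℤ) (y : GolayPt → ℤ) = 8}) := by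
      ext y
      simp only [Set.mem_setOf_eq, Set.mem_diff, Set.mem_insert_iff]
      tauto
    have hxn : x ∉ {y : ↥leechLattice | y ∈ {x : ↥leechLattice | sqNorm (x : GolayPt → ℤ) = 32 ∧
      dotInt (v : GolayPt → ℤ) (x : GolayPt → ℤ) = 24 ∧ dotInt (w : GolayPt → ℤ) (x : GolayPt → ℤ) = -24} ∧
      dotInt (x : GolayPt → ℤ) (y : GolayPt → ℤ) = 8} := by
      rintro ⟨-, h⟩
      rw [dotInt_self, x1] at h; norm_num at h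
    have hf22 := Set.finite_of_ncard_ne_zero (by rw [c22]; norm_num : Set.ncard _ ≠ 0)
    rw [e, Set.ncard_diff ?_ (hf22.insert x), c100, Set.ncard_insert_of_notMem hxn hf22, c22]
    intro y hy
    rcases Set.mem_insert_iff.1 hy with rfl | hy
    · exact ⟨x1, x2, x3⟩
    · exact hy.1
  · intro y hy y' hy' hne hne' hiff
    obtain ⟨y1, y2, y3⟩ := (hset y).1 hy
    obtain ⟨y1', y2', y3'⟩ := (hset y').1 hy'
    have hxz : dotInt (-((v : GolayPt → ℤ) + (w : GolayPt → ℤ))) x = 0 := by rw [hd]; omega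
    have hxv : dotInt (x : GolayPt → ℤ) v = 24 := by rw [dotInt_comm]; exact x2
    have fin : ∀ {a b : List (GolayPt → ℤ)}, True := fun {_ _} => trivial
    have main : Eqv [-((v : GolayPt → ℤ) + (w : GolayPt → ℤ)), (x : GolayPt → ℤ), v, y] [-((v : GolayPt → ℤ) + (w : GolayPt → ℤ)), (x : GolayPt → ℤ), v, y'] := by
      by_cases h8 : dotInt (x : GolayPt → ℤ) y = 8
      · exact (TH22 hm x.2 v.2 y.2 h1 x1 hv y1 hxz h2 hxv y2 y3 h8).trans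
          (TH22 hm x.2 v.2 y'.2 h1 x1 hv y1' hxz h2 hxv y2' y3' (hiff.1 h8)).symm
      · exact (TH77 hm x.2 v.2 y.2 h1 x1 hv y1 hxz h2 hxv y2 y3 h8 (fun h => hne (Subtype.ext h))).trans
          (TH77 hm x.2 v.2 y'.2 h1 x1 hv y1' hxz h2 hxv y2' y3' (fun h => h8 (hiff.2 h))
            (fun h => hne' (Subtype.ext h))).symm
    obtain ⟨k, hk⟩ := main
    simp only [List.map_cons, List.map_nil, List.cons.injEq, and_true] at hk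
    refine ⟨k, smul_eq_iff_app.2 hk.2.2.1, smul_eq_iff_app.2 ?_, smul_eq_iff_app.2 hk.2.1, smul_eq_iff_app.2 hk.2.2.2⟩
    have e : (w : GolayPt → ℤ) = -(-((v : GolayPt → ℤ) + (w : GolayPt → ℤ)) + v) := by abel
    conv_lhs => rw [e]
    rw [app_neg k (add_mem hm v.2), app_add k hm v.2, hk.1, hk.2.2.1, ← e]

end Cfsg.Agent.S1584
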