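import Cfsg.Statements.S1585
import Cfsg.Agent.Lib.Golay.LeechHS

set_option autoImplicit false
open Cfsg

namespace Cfsg.Agent.S1585

/-- Two vectors of customary norm 6 with inner product −4 are exchanged by some automorphism of the lattice. -/
theorem result (v w : ↥Cfsg.leechLattice) (hv : Cfsg.sqNorm (v : Cfsg.GolayPt → ℤ) = 48) (hw : Cfsg.sqNorm (w : Cfsg.GolayPt → ℤ) = 48) (hvw : Cfsg.dotInt (v : Cfsg.GolayPt → ℤ) (w : Cfsg.GolayPt → ℤ) = -32) : ∃ g : ↥Cfsg.Co0, g • v = w ∧ g • w = v := by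
  open Cfsg.Agent.Lib.Golay in
  obtain ⟨h1, h2, h3⟩ := hs_third hv hw hvw
  have hm : -((v : GolayPt → ℤ) + (w : GolayPt → ℤ)) ∈ leechLattice := neg_mem (add_mem v.2 w.2)
  obtain ⟨k, hk⟩ := (TH hm v.2 h1 hv h2).trans (TH hm w.2 h1 hw h3).symm
  simp only [List.map_cons, List.map_nil, List.cons.injEq, and_true] at hk
  refine ⟨k, smul_eq_iff_app.2 hk.2, smul_eq_iff_app.2 ?_⟩
  have e : (w : GolayPt → ℤ) = -(-((v : GolayPt → ℤ) + (w : GolayPt → ℤ)) + v) := by abel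
  have e2 : (v : GolayPt → ℤ) = -(-((v : GolayPt → ℤ) + (w : GolayPt → ℤ)) + w) := by abel
  conv_lhs => rw [e]
  rw [app_neg k (add_mem hm v.2), app_add k hm v.2, hk.1, hk.2, ← e2]

end Cfsg.Agent.S1585
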