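import Cfsg.Statements.S1587

set_option autoImplicit false
open Matrix
open Cfsg

namespace Cfsg.Agent.S1587

/-- First step of the characterisation of the rank-24 lattice: in an even lattice without roots, norm-8 vectors congruent modulo 2 are equal, opposite or orthogonal. -/
theorem result (B : Matrix (Fin 24) (Fin 24) ℤ) (hsymm : B.IsSymm) (hpos : ∀ x : Fin 24 → ℤ, x ≠ 0 → 0 < x ⬝ᵥ (B *ᵥ x)) (heven : ∀ x : Fin 24 → ℤ, (2 : ℤ) ∣ x ⬝ᵥ (B *ᵥ x)) (h2 : ∀ x : Fin 24 → ℤ, x ⬝ᵥ (B *ᵥ x) ≠ 2) (x y : Fin 24 → ℤ) (hx : x ⬝ᵥ (B *ᵥ x) = 8) (hy : y ⬝ᵥ (B *ᵥ y) = 8) (hc : ∀ i, (2 : ℤ) ∣ (x - y) i) : y = x ∨ y = -x ∨ x ⬝ᵥ (B *ᵥ y) = 0 := by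
  have hsub : ∀ u v : Fin 24 → ℤ, (u - v) ⬝ᵥ (B *ᵥ (u - v)) = u ⬝ᵥ (B *ᵥ u) - 2 * (u ⬝ᵥ (B *ᵥ v)) + v ⬝ᵥ (B *ᵥ v) := by
    intro u v
    have hs : v ⬝ᵥ (B *ᵥ u) = u ⬝ᵥ (B *ᵥ v) := by
      rw [Matrix.dotProduct_mulVec, ← Matrix.mulVec_transpose, hsymm.eq, dotProduct_comm]
    rw [Matrix.mulVec_sub, sub_dotProduct, dotProduct_sub, dotProduct_sub, hs]
    ring
  have hadd : ∀ u v : Fin 24 → ℤ, (u + v) ⬝ᵥ (B *ᵥ (u + v)) = u ⬝ᵥ (B *ᵥ u) + 2 * (u ⬝ᵥ (B *ᵥ v)) + v ⬝ᵥ (B *ᵥ v) := by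
    intro u v
    have hs : v ⬝ᵥ (B *ᵥ u) = u ⬝ᵥ (B *ᵥ v) := by
      rw [Matrix.dotProduct_mulVec, ← Matrix.mulVec_transpose, hsymm.eq, dotProduct_comm]
    rw [Matrix.mulVec_add, add_dotProduct, dotProduct_add, dotProduct_add, hs]
    ring
  have hdbl : ∀ z : Fin 24 → ℤ, (z + z) ⬝ᵥ (B *ᵥ (z + z)) = 4 * (z ⬝ᵥ (B *ᵥ z)) := by
    intro z; rw [hadd]; ring
  have hmin : ∀ z : Fin 24 → ℤ, z ≠ 0 → 4 ≤ z ⬝ᵥ (B *ᵥ z) := by
    intro z hz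
    have h1 := hpos z hz
    have h3 := heven z
    have h4 := h2 z
    omega
  obtain ⟨z, hz⟩ : ∃ z : Fin 24 → ℤ, x - y = z + z := by
    choose z hz using hc
    exact ⟨z, by funext i; rw [hz i]; simp; ring⟩
  have hz' : x + y = (z + y) + (z + y) := by
    have : x = z + z + y := by rw [← hz]; abel
    rw [this]; abel
  have e1 := hsub x y
  have e2 := hadd x y
  rw [hz, hdbl, hx, hy] at e1
  rw [hz', hdbl, hx, hy] at e2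
  by_cases h1 : z = 0
  · left
    have : x - y = 0 := by rw [hz, h1, add_zero]
    exact (sub_eq_zero.1 this).symm
  by_cases h3 : z + y = 0
  · right; left
    have : x + y = 0 := by rw [hz', h3, add_zero]
    exact (neg_eq_of_add_eq_zero_right this).symm
  right; right
  have a1 := hmin z h1
  have a2 := hmin _ h3
  omega

end Cfsg.Agent.S1587
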