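import Cfsg.Statements.S1599
import Cfsg.Agent.Lib.Quart.Orb

set_option autoImplicit false
open scoped Pointwise
open Cfsg

namespace Cfsg.Agent.S1599

/-- A quartet stabiliser has five orbits on the quartets of its dodecad, of sizes 1, 12, 27, 72, 108. -/
theorem result (d : Finset Cfsg.GolayPt) (hd : d ∈ Cfsg.dodecads) (Q : Finset (Finset Cfsg.GolayPt)) (hQ : Q ∈ Cfsg.quartets d) : ∃ X₁ ∈ Cfsg.quartets d, ∃ X₂ ∈ Cfsg.quartets d, ∃ X₃ ∈ Cfsg.quartets d, ∃ X₄ ∈ Cfsg.quartets d, (MulAction.orbit ↥(MulAction.stabilizer Cfsg.M24 d ⊓ MulAction.stabilizer Cfsg.M24 Q) X₁).ncard = 12 ∧ (MulAction.orbit ↥(MulAction.stabilizer Cfsg.M24 d ⊓ MulAction.stabilizer Cfsg.M24 Q) X₂).ncard = 27 ∧ (MulAction.orbit ↥(MulAction.stabilizer Cfsg.M24 d ⊓ MulAction.stabilizer Cfsg.M24 Q) X₃).ncard = 72 ∧ (MulAction.orbit ↥(MulAction.stabilizer Cfsg.M24 d ⊓ MulAction.stabilizer Cfsg.M24 Q) X₄).ncard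 = 108 ∧ Cfsg.quartets d = {Q} ∪ MulAction.orbit ↥(MulAction.stabilizer Cfsg.M24 d ⊓ MulAction.stabilizer Cfsg.M24 Q) X₁ ∪ MulAction.orbit ↥(MulAction.stabilizer Cfsg.M24 d ⊓ MulAction.stabilizer Cfsg.M24 Q) X₂ ∪ MulAction.orbit ↥(MulAction.stabilizer Cfsg.M24 d ⊓ MulAction.stabilizer Cfsg.M24 Q) X₃ ∪ MulAction.orbit ↥(MulAction.stabilizer Cfsg.M24 d ⊓ MulAction.stabilizer Cfsg.M24 Q) X₄ := by
  obtain ⟨r1, r2, r3⟩ := Lib.Quart.orb_gen hd hQ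
  have horb : ∀ X ∈ Cfsg.quartets d, MulAction.orbit ↥(MulAction.stabilizer Cfsg.M24 d ⊓ MulAction.stabilizer Cfsg.M24 Q) X =
      {y | y ∈ Cfsg.quartets d ∧ Lib.Quart.clsG Q y = Lib.Quart.clsG Q X} := by
    intro X hX
    ext y
    constructor
    · rintro ⟨g, rfl⟩
      have h1 : ((g : ↥Cfsg.M24) : Equiv.Perm Cfsg.GolayPt) • d = d := g.2.1
      have h2 : ((g : ↥Cfsg.M24) : Equiv.Perm Cfsg.GolayPt) • Q = Q := g.2.2
      refine ⟨?_, ?_⟩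
      · have := Lib.Quart.smul_quartet (g : ↥Cfsg.M24).2 hX
        rw [h1] at this
        exact this
      · have := Lib.Quart.clsG_smul Q X ((g : ↥Cfsg.M24) : Equiv.Perm Cfsg.GolayPt)
        rw [h2] at this
        exact this
    · rintro ⟨hy, he⟩
      obtain ⟨g, hg, h1, h2, h3⟩ := r1 X hX y hy he.symm
      exact ⟨⟨⟨g, hg⟩, h1, h2⟩, h3⟩
  obtain ⟨c0, c1, c2, c3, c4⟩ := Lib.Quart.cntQt
  have hex : ∀ k n, n ≠ 0 → Lib.Golay.countB (fun e => Nat.blt e 220 && Lib.Golay.tabAt Lib.Quart.dQt.R 4 e == k) 0 8 = n →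
      ∃ X ∈ Cfsg.quartets d, Lib.Quart.clsG Q X = k := by
    intro k n hn hc
    have h := r2 k
    rw [hc] at h
    have hne : {y | y ∈ Cfsg.quartets d ∧ Lib.Quart.clsG Q y = k}.Nonempty := by
      rw [Set.nonempty_iff_ne_empty]
      intro e
      rw [e, Set.ncard_empty] at h
      exact hn h.symm
    exact hne
  obtain ⟨X1, hX1, e1⟩ := hex 1 12 (by norm_num) c1
  obtain ⟨X2, hX2, e2⟩ := hex 2 27 (by norm_num) c2
  obtain ⟨X3, hX3, e3⟩ := hex 3 72 (by norm_num) c3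
  obtain ⟨X4, hX4, e4⟩ := hex 4 108 (by norm_num) c4
  have hQ0 : Lib.Quart.clsG Q Q = 0 := by
    obtain ⟨k, hk, hkd, hkQ⟩ := Lib.Quart.trans_quartets Lib.Golay.dodU_mem hd Lib.Quart.stdQ_mem hQ
    rw [← hkQ, Lib.Quart.clsG_smul]
    unfold Lib.Quart.clsG
    rw [Lib.Quart.stdQ_fs, Lib.Golay.prof_fs 0 (by decide) (by decide)]
    decide +kernel
  refine ⟨X1, hX1, X2, hX2, X3, hX3, X4, hX4, ?_, ?_, ?_, ?_, ?_⟩
  · rw [horb X1 hX1, e1, r2, c1]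
  · rw [horb X2 hX2, e2, r2, c2]
  · rw [horb X3 hX3, e3, r2, c3]
  · rw [horb X4 hX4, e4, r2, c4]
  · rw [horb X1 hX1, horb X2 hX2, horb X3 hX3, horb X4 hX4, e1, e2, e3, e4]
    ext y
    simp only [Set.mem_union, Set.mem_singleton_iff]
    constructor
    · intro hy
      have h5 := r3 y hy
      have hz : Lib.Quart.clsG Q y = 0 → y = Q := by
        intro h0
        have h := r2 0
        rw [c0, Set.ncard_eq_one] at h
        obtain ⟨z, hz⟩ := h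
        have m1 : y ∈ {y | y ∈ Cfsg.quartets d ∧ Lib.Quart.clsG Q y = 0} := ⟨hy, h0⟩
        have m2 : Q ∈ {y | y ∈ Cfsg.quartets d ∧ Lib.Quart.clsG Q y = 0} := ⟨hQ, hQ0⟩
        rw [hz, Set.mem_singleton_iff] at m1 m2
        rw [m1, m2]
      have h6 : Lib.Quart.clsG Q y = 0 ∨ Lib.Quart.clsG Q y = 1 ∨ Lib.Quart.clsG Q y = 2 ∨ Lib.Quart.clsG Q y = 3 ∨
        Lib.Quart.clsG Q y = 4 := by omega
      rcases h6 with h | h | h | h | h
      · exact Or.inl (Or.inl (Or.inl (Or.inl (hz h))))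
      · exact Or.inl (Or.inl (Or.inl (Or.inr ⟨hy, h⟩)))
      · exact Or.inl (Or.inl (Or.inr ⟨hy, h⟩))
      · exact Or.inl (Or.inr ⟨hy, h⟩)
      · exact Or.inr ⟨hy, h⟩
    · rintro ((((h | h) | h) | h) | h)
      · rw [h]; exact hQ
      · exact h.1
      · exact h.1
      · exact h.1
      · exact h.1

end Cfsg.Agent.S1599
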