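import Cfsg.Statements.S1600
import Cfsg.Agent.Lib.Quart.Struct2

set_option autoImplicit false
open scoped Pointwise
open Cfsg

namespace Cfsg.Agent.S1600

/-- The pointwise stabiliser of three points of a dodecad inside the dodecad stabiliser (order 72) is transitive on the complementary dodecad. -/
theorem result (d : Finset Cfsg.GolayPt) (hd : d ∈ Cfsg.dodecads) (p q r : Cfsg.GolayPt) (hp : p ∈ d) (hq : q ∈ d) (hr : r ∈ d) (hpq : p ≠ q) (hpr : p ≠ r) (hqr : q ≠ r) : Nat.card ↥(MulAction.stabilizer Cfsg.M24 d ⊓ MulAction.stabilizer Cfsg.M24 p ⊓ MulAction.stabilizer Cfsg.M24 q ⊓ MulAction.stabilizer Cfsg.M24 r) = 72 ∧ ∀ x ∉ d, ∀ y ∉ d, ∃ g ∈ (MulAction.stabilizer Cfsg.M24 d ⊓ MulAction.stabilizer Cfsg.M24 p ⊓ MulAction.stabilizer Cfsg.M24 q ⊓ MulAction.stabilizer Cfsg.M24 r), ((g : ↥Cfsg.M24) : Equiv.Perm Cfsg.GolayPt) x = y := by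
  have hn : [p, q, r].Nodup := by simp [hpq, hpr, hqr]
  have hm : ∀ x ∈ [p, q, r], x ∈ d := by
    intro x hx
    simp only [List.mem_cons, List.not_mem_nil, or_false] at hx
    rcases hx with rfl | rfl | rfl <;> assumption
  constructor
  · have h := Lib.Quart.card_fixL hd [p, q, r] hn hm (by simp)
    have e : MulAction.stabilizer Cfsg.M24 d ⊓ MulAction.stabilizer Cfsg.M24 p ⊓ MulAction.stabilizer Cfsg.M24 q ⊓
        MulAction.stabilizer Cfsg.M24 r = Lib.Quart.fixL d [p, q, r] := by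
      ext g
      constructor
      · rintro ⟨⟨⟨h1, h2⟩, h3⟩, h4⟩
        refine ⟨h1, ?_⟩
        intro x hx
        simp only [List.mem_cons, List.not_mem_nil, or_false] at hx
        rcases hx with rfl | rfl | rfl
        · exact h2
        · exact h3
        · exact h4
      · rintro ⟨h1, h2⟩
        exact ⟨⟨⟨h1, h2 p (by simp)⟩, h2 q (by simp)⟩, h2 r (by simp)⟩
    rw [e]
    have e3 : (12).descFactorial [p, q, r].length = 1320 := rfl
    rw [e3] at h
    omega
  · intro x hx y hy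
    obtain ⟨g, hg, h1, h2, h3, h4, h5⟩ := Lib.Quart.trans_compl hd hn hm hx hy
    exact ⟨⟨g, hg⟩, ⟨⟨⟨h1, h2⟩, h3⟩, h4⟩, h5⟩

end Cfsg.Agent.S1600
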