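import Cfsg.Statements.S1604
import Cfsg.Agent.Lib.Golay.OrbQ

set_option autoImplicit false
open scoped Pointwise
open Cfsg

namespace Cfsg.Agent.S1604

/-- A hexad stabiliser in the two-point stabiliser has orbits of sizes 1, 16, 60 on the 77 hexads: the 16 hexads disjoint from it and the 60 meeting it in two points. -/
theorem result (p q : Cfsg.GolayPt) (hpq : p ≠ q) (o o' o'' : Finset Cfsg.GolayPt) (ho : o ∈ Cfsg.octads) (ho' : o' ∈ Cfsg.octads) (ho'' : o'' ∈ Cfsg.octads) (hp : p ∈ o ∧ p ∈ o' ∧ p ∈ o'') (hq : q ∈ o ∧ q ∈ o' ∧ q ∈ o'') (h : (o ∩ o').card = (o ∩ o'').card) : {x : Finset Cfsg.GolayPt | x ∈ Cfsg.octads ∧ p ∈ x ∧ q ∈ x ∧ (o ∩ x).card = 2}.ncard = 16 ∧ {x : Finset Cfsg.GolayPt | x ∈ Cfsg.octads ∧ p ∈ x ∧ q ∈ x ∧ (o ∩ x).card = 4}.ncard = 60 ∧ ∃ g : Equiv.Perm Cfsg.GolayPt, g ∈ Cfsg.M24 ∧ g p = p ∧ g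 q = q ∧ g • o = o ∧ g • o' = o'' := by
  obtain ⟨b, hb⟩ := Cfsg.Agent.Lib.Golay.exists_out ho
  obtain ⟨h0, h1, h4⟩ := Cfsg.Agent.Lib.Golay.oct0_pts
  obtain ⟨k, hk, kp, kq, _, ko⟩ := Cfsg.Agent.Lib.Golay.std_map Cfsg.Agent.Lib.Golay.oct0_mem ho h0 h1 (by decide) hp.1 hq.1 hpq h4 hb
  have c1 := Cfsg.Agent.Lib.Golay.cnt_conj (by norm_num) (by norm_num) hk ko kp kq true true 2 16 (by decide +kernel)
  have c2 := Cfsg.Agent.Lib.Golay.cnt_conj (by norm_num) (by norm_num) hk ko kp kq true true 4 60 (by decide +kernel)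
  refine ⟨?_, ?_, ?_⟩
  · rw [← c1]; congr 1; ext x
    constructor
    · rintro ⟨a1, a2, a3, a4⟩; exact ⟨a1, a4, ⟨fun _ => rfl, fun _ => a2⟩, ⟨fun _ => rfl, fun _ => a3⟩⟩
    · rintro ⟨a1, a2, a3, a4⟩; exact ⟨a1, a3.2 rfl, a4.2 rfl, a2⟩
  · rw [← c2]; congr 1; ext x
    constructor
    · rintro ⟨a1, a2, a3, a4⟩; exact ⟨a1, a4, ⟨fun _ => rfl, fun _ => a2⟩, ⟨fun _ => rfl, fun _ => a3⟩⟩
    · rintro ⟨a1, a2, a3, a4⟩; exact ⟨a1, a3.2 rfl, a4.2 rfl, a2⟩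
  · obtain ⟨g, hg, e1, e2, e3, e4⟩ := Cfsg.Agent.Lib.Golay.rel_conj hk ko kp kq Cfsg.Agent.Lib.Golay.resQA o' ho' o'' ho'' h
      ⟨fun _ => hp.2.2, fun _ => hp.2.1⟩ ⟨fun _ => hq.2.2, fun _ => hq.2.1⟩
    exact ⟨g, hg, e2, e3, e1, e4⟩

end Cfsg.Agent.S1604
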