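import Cfsg.Statements.S1605
import Cfsg.Agent.Lib.Golay.OrbQ

set_option autoImplicit false
open scoped Pointwise
open Cfsg

namespace Cfsg.Agent.S1605

/-- The two-point stabiliser acts on the 176 octads through the first point avoiding the second with rank 3 and subdegrees 1, 70, 105 (intersections 8, 2, 4). -/
theorem result (p q : Cfsg.GolayPt) (hpq : p ≠ q) : {x : Finset Cfsg.GolayPt | (x ∈ Cfsg.octads ∧ p ∈ x ∧ q ∉ x)}.ncard = 176 ∧ (∀ o o' : Finset Cfsg.GolayPt, (o ∈ Cfsg.octads ∧ p ∈ o ∧ q ∉ o) → (o' ∈ Cfsg.octads ∧ p ∈ o' ∧ q ∉ o') → ∃ g : Equiv.Perm Cfsg.GolayPt, g ∈ Cfsg.M24 ∧ g p = p ∧ g q = q ∧ g • o = o') ∧ ∀ o : Finset Cfsg.GolayPt, (o ∈ Cfsg.octads ∧ p ∈ o ∧ q ∉ o) → {x : Finset Cfsg.GolayPt | (x ∈ Cfsg.octads ∧ p ∈ x ∧ q ∉ x) ∧ (o ∩ x).card = 2}.ncard = 70 ∧ {x : Finset Cfsg.GolayPt | (x ∈ Cfsg.octads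 ∧ p ∈ x ∧ q ∉ x) ∧ (o ∩ x).card = 4}.ncard = 105 ∧ ∀ o' o'' : Finset Cfsg.GolayPt, (o' ∈ Cfsg.octads ∧ p ∈ o' ∧ q ∉ o') → (o'' ∈ Cfsg.octads ∧ p ∈ o'' ∧ q ∉ o'') → (o ∩ o').card = (o ∩ o'').card → ∃ g : Equiv.Perm Cfsg.GolayPt, g ∈ Cfsg.M24 ∧ g p = p ∧ g q = q ∧ g • o = o ∧ g • o' = o'' := by
  obtain ⟨h0, h1, h4⟩ := Cfsg.Agent.Lib.Golay.oct0_pts
  refine ⟨?_, ?_, ?_⟩
  · obtain ⟨k, hk, kp, kq⟩ := Cfsg.Agent.Lib.Golay.exists_map_pair (p := Cfsg.Agent.Lib.Golay.pt 0) (q := Cfsg.Agent.Lib.Golay.pt 4) (by decide) hpq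
    rw [← Cfsg.Agent.Lib.Golay.cnt_pair (by norm_num) (by norm_num) hk kp kq true false 176 (by decide +kernel)]
    congr 1; ext x
    constructor
    · rintro ⟨a1, a2, a3⟩; exact ⟨a1, ⟨fun _ => rfl, fun _ => a2⟩, ⟨fun hh => absurd hh a3, fun hh => absurd hh (by decide)⟩⟩
    · rintro ⟨a1, a2, a3⟩; exact ⟨a1, a2.2 rfl, fun hh => absurd (a3.1 hh) (by decide)⟩
  · rintro o o' ⟨ho, hp, hq⟩ ⟨ho', hp', hq'⟩
    obtain ⟨b, hb, hbp⟩ := Cfsg.Agent.Lib.Golay.exists_in ho p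
    obtain ⟨b', hb', hbp'⟩ := Cfsg.Agent.Lib.Golay.exists_in ho' p
    obtain ⟨g, hg, e1, _, e3, e4⟩ := Cfsg.Agent.Lib.Golay.std_map ho ho' hp hb hbp.symm hp' hb' hbp'.symm hq hq'
    exact ⟨g, hg, e1, e3, e4⟩
  · rintro o ⟨ho, hp, hq⟩
    obtain ⟨b, hb, hbp⟩ := Cfsg.Agent.Lib.Golay.exists_in ho p
    obtain ⟨k, hk, kp, _, kq, ko⟩ := Cfsg.Agent.Lib.Golay.std_map Cfsg.Agent.Lib.Golay.oct0_mem ho h0 h1 (by decide) hp hb hbp.symm h4 hq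
    have c1 := Cfsg.Agent.Lib.Golay.cnt_conj (by norm_num) (by norm_num) hk ko kp kq true false 2 70 (by decide +kernel)
    have c2 := Cfsg.Agent.Lib.Golay.cnt_conj (by norm_num) (by norm_num) hk ko kp kq true false 4 105 (by decide +kernel)
    refine ⟨?_, ?_, ?_⟩
    · rw [← c1]; congr 1; ext x
      constructor
      · rintro ⟨⟨a1, a2, a3⟩, a4⟩; exact ⟨a1, a4, ⟨fun _ => rfl, fun _ => a2⟩, ⟨fun hh => absurd hh a3, fun hh => absurd hh (by decide)⟩⟩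
      · rintro ⟨a1, a2, a3, a4⟩; exact ⟨⟨a1, a3.2 rfl, fun hh => absurd (a4.1 hh) (by decide)⟩, a2⟩
    · rw [← c2]; congr 1; ext x
      constructor
      · rintro ⟨⟨a1, a2, a3⟩, a4⟩; exact ⟨a1, a4, ⟨fun _ => rfl, fun _ => a2⟩, ⟨fun hh => absurd hh a3, fun hh => absurd hh (by decide)⟩⟩
      · rintro ⟨a1, a2, a3, a4⟩; exact ⟨⟨a1, a3.2 rfl, fun hh => absurd (a4.1 hh) (by decide)⟩, a2⟩
    · rintro o' o'' ⟨ho', hp', hq'⟩ ⟨ho'', hp'', hq''⟩ h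
      obtain ⟨g, hg, e1, e2, e3, e4⟩ := Cfsg.Agent.Lib.Golay.rel_conj hk ko kp kq Cfsg.Agent.Lib.Golay.resQB o' ho' o'' ho'' h
        ⟨fun _ => hp'', fun _ => hp'⟩ ⟨fun hh => absurd hh hq', fun hh => absurd hh hq''⟩
      exact ⟨g, hg, e2, e3, e1, e4⟩

end Cfsg.Agent.S1605
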