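import Cfsg.Statements.S1606
import Cfsg.Agent.Lib.M22Sub.Big2
import Cfsg.Agent.S0378

set_option autoImplicit false
open scoped Pointwise
open Cfsg

namespace Cfsg.Agent.S1606

/-- The stabiliser of two points in the group of the length-24 code has no subgroups of index 56 or 210. -/
theorem result (p q : Cfsg.GolayPt) (hpq : p ≠ q) (H : Subgroup ↥(MulAction.stabilizer Cfsg.M24 p ⊓ MulAction.stabilizer Cfsg.M24 q)) : H.index ≠ 56 ∧ H.index ≠ 210 := by
  have hG := S0378.result p q hpq
  let f : ↥(MulAction.stabilizer Cfsg.M24 p ⊓ MulAction.stabilizer Cfsg.M24 q) →* Equiv.Perm Cfsg.GolayPt :=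
    (Subgroup.subtype Cfsg.M24).comp (Subgroup.subtype _)
  have hf : Function.Injective f := fun x y h => Subtype.ext (Subtype.ext h)
  have hT : Lib.M22Sub.Two (H.map f) p q := by
    refine ⟨?_, hpq, ?_, ?_⟩
    · rintro _ ⟨g, _, rfl⟩; exact (g : ↥Cfsg.M24).2
    · rintro _ ⟨g, _, rfl⟩; exact g.2.1
    · rintro _ ⟨g, _, rfl⟩; exact g.2.2
  have hc : Nat.card ↥(H.map f) = Nat.card H := (Nat.card_congr (Subgroup.equivMapOfInjective H f hf).toEquiv).symm
  have hi := H.card_mul_index
  rw [hG] at hi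
  constructor
  · intro h
    rw [h] at hi
    exact Lib.M22Sub.not_7920 hT (by rw [hc]; omega)
  · intro h
    rw [h] at hi
    exact Lib.M22Sub.not_2112 hT (by rw [hc]; omega)

end Cfsg.Agent.S1606
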