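import Cfsg.Statements.S1607
import Cfsg.Agent.Lib.Golay.OrbQ

set_option autoImplicit false
open scoped Pointwise
open Cfsg

namespace Cfsg.Agent.S1607

/-- The point stabiliser acts on the 253 heptads of its S(4, 7, 23) with rank 3 and subdegrees 1, 112, 140 (intersections 8, 2, 4). -/
theorem result (x : Cfsg.GolayPt) (o : Finset Cfsg.GolayPt) (ho : o ∈ Cfsg.octads) (hx : x ∈ o) : {o' : Finset Cfsg.GolayPt | o' ∈ Cfsg.octads ∧ x ∈ o' ∧ (o ∩ o').card = 2}.ncard = 112 ∧ {o' : Finset Cfsg.GolayPt | o' ∈ Cfsg.octads ∧ x ∈ o' ∧ (o ∩ o').card = 4}.ncard = 140 ∧ ∀ o' o'' : Finset Cfsg.GolayPt, o' ∈ Cfsg.octads → o'' ∈ Cfsg.octads → x ∈ o' → x ∈ o'' → (o ∩ o').card = (o ∩ o'').card → ∃ g : Equiv.Perm Cfsg.GolayPt, g ∈ Cfsg.M24 ∧ g x = x ∧ g • o = o ∧ g • o' = o'' := by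
  obtain ⟨h0, h1, h4⟩ := Cfsg.Agent.Lib.Golay.oct0_pts
  obtain ⟨b, hb, hbp⟩ := Cfsg.Agent.Lib.Golay.exists_in ho x
  obtain ⟨c, hc⟩ := Cfsg.Agent.Lib.Golay.exists_out ho
  obtain ⟨k, hk, kp, _, _, ko⟩ := Cfsg.Agent.Lib.Golay.std_map Cfsg.Agent.Lib.Golay.oct0_mem ho h0 h1 (by decide) hx hb hbp.symm h4 hc
  have c1 := Cfsg.Agent.Lib.Golay.cnt_conj (by norm_num) (by norm_num) hk ko kp kp true true 2 112 (by decide +kernel)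
  have c2 := Cfsg.Agent.Lib.Golay.cnt_conj (by norm_num) (by norm_num) hk ko kp kp true true 4 140 (by decide +kernel)
  refine ⟨?_, ?_, ?_⟩
  · rw [← c1]; congr 1; ext y
    constructor
    · rintro ⟨a1, a2, a4⟩; exact ⟨a1, a4, ⟨fun _ => rfl, fun _ => a2⟩, ⟨fun _ => rfl, fun _ => a2⟩⟩
    · rintro ⟨a1, a2, a3, a4⟩; exact ⟨a1, a3.2 rfl, a2⟩
  · rw [← c2]; congr 1; ext y
    constructor
    · rintro ⟨a1, a2, a4⟩; exact ⟨a1, a4, ⟨fun _ => rfl, fun _ => a2⟩, ⟨fun _ => rfl, fun _ => a2⟩⟩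
    · rintro ⟨a1, a2, a3, a4⟩; exact ⟨a1, a3.2 rfl, a2⟩
  · intro o' o'' ho' ho'' hx' hx'' h
    obtain ⟨g, hg, e1, e2, e3, e4⟩ := Cfsg.Agent.Lib.Golay.rel_conj hk ko kp kp Cfsg.Agent.Lib.Golay.resQC o' ho' o'' ho'' h
      ⟨fun _ => hx'', fun _ => hx'⟩ ⟨fun _ => hx'', fun _ => hx'⟩
    exact ⟨g, hg, e2, e1, e4⟩

end Cfsg.Agent.S1607
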