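import Cfsg.Statements.S1608
import Cfsg.Agent.Lib.Golay.OrbQ

set_option autoImplicit false
open scoped Pointwise
open Cfsg

namespace Cfsg.Agent.S1608

/-- The point stabiliser acts on the 506 octads avoiding the point with rank 4 and subdegrees 1, 15, 210, 280, the suborbits being given by intersection size with the fixed octad. -/
theorem result (x : Cfsg.GolayPt) (o : Finset Cfsg.GolayPt) (ho : o ∈ Cfsg.octads) (hx : x ∉ o) : {o' : Finset Cfsg.GolayPt | o' ∈ Cfsg.octads ∧ x ∉ o' ∧ (o ∩ o').card = 0}.ncard = 15 ∧ {o' : Finset Cfsg.GolayPt | o' ∈ Cfsg.octads ∧ x ∉ o' ∧ (o ∩ o').card = 4}.ncard = 210 ∧ {o' : Finset Cfsg.GolayPt | o' ∈ Cfsg.octads ∧ x ∉ o' ∧ (o ∩ o').card = 2}.ncard = 280 ∧ ∀ o' o'' : Finset Cfsg.GolayPt, o' ∈ Cfsg.octads → o'' ∈ Cfsg.octads → x ∉ o' → x ∉ o'' → (o ∩ o').card = (o ∩ o'').card → ∃ g : Equiv.Perm Cfsg.GolayPt, g ∈ Cfsg.M24 ∧ g x = x ∧ g • o = o ∧ g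 • o' = o'' := by
  obtain ⟨h0, h1, h4⟩ := Cfsg.Agent.Lib.Golay.oct0_pts
  obtain ⟨d, hd⟩ := Cfsg.Agent.Lib.Golay.exists_in ho x
  obtain ⟨b, hb, hbp⟩ := Cfsg.Agent.Lib.Golay.exists_in ho d
  obtain ⟨k, hk, _, _, kp, ko⟩ := Cfsg.Agent.Lib.Golay.std_map Cfsg.Agent.Lib.Golay.oct0_mem ho h0 h1 (by decide) hd.1 hb hbp.symm h4 hx
  have c0 := Cfsg.Agent.Lib.Golay.cnt_conj (by norm_num) (by norm_num) hk ko kp kp false false 0 15 (by decide +kernel)
  have c1 := Cfsg.Agent.Lib.Golay.cnt_conj (by norm_num) (by norm_num) hk ko kp kp false false 4 210 (by decide +kernel)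
  have c2 := Cfsg.Agent.Lib.Golay.cnt_conj (by norm_num) (by norm_num) hk ko kp kp false false 2 280 (by decide +kernel)
  refine ⟨?_, ?_, ?_, ?_⟩
  · rw [← c0]; congr 1; ext y
    constructor
    · rintro ⟨a1, a2, a4⟩; exact ⟨a1, a4, ⟨fun hh => absurd hh a2, fun hh => absurd hh (by decide)⟩, ⟨fun hh => absurd hh a2, fun hh => absurd hh (by decide)⟩⟩
    · rintro ⟨a1, a2, a3, a4⟩; exact ⟨a1, fun hh => absurd (a3.1 hh) (by decide), a2⟩
  · rw [← c1]; congr 1; ext y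
    constructor
    · rintro ⟨a1, a2, a4⟩; exact ⟨a1, a4, ⟨fun hh => absurd hh a2, fun hh => absurd hh (by decide)⟩, ⟨fun hh => absurd hh a2, fun hh => absurd hh (by decide)⟩⟩
    · rintro ⟨a1, a2, a3, a4⟩; exact ⟨a1, fun hh => absurd (a3.1 hh) (by decide), a2⟩
  · rw [← c2]; congr 1; ext y
    constructor
    · rintro ⟨a1, a2, a4⟩; exact ⟨a1, a4, ⟨fun hh => absurd hh a2, fun hh => absurd hh (by decide)⟩, ⟨fun hh => absurd hh a2, fun hh => absurd hh (by decide)⟩⟩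
    · rintro ⟨a1, a2, a3, a4⟩; exact ⟨a1, fun hh => absurd (a3.1 hh) (by decide), a2⟩
  · intro o' o'' ho' ho'' hx' hx'' h
    obtain ⟨g, hg, e1, e2, e3, e4⟩ := Cfsg.Agent.Lib.Golay.rel_conj hk ko kp kp Cfsg.Agent.Lib.Golay.resQD o' ho' o'' ho'' h
      ⟨fun hh => absurd hh hx', fun hh => absurd hh hx''⟩ ⟨fun hh => absurd hh hx', fun hh => absurd hh hx''⟩
    exact ⟨g, hg, e2, e1, e4⟩

end Cfsg.Agent.S1608
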