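import Cfsg.Statements.S1612
import Cfsg.Agent.Lib.ThreeT.Struct3

set_option autoImplicit false
open Cfsg

namespace Cfsg.Agent.S1612

/-- In a 3-transposition group (no solvable normal subgroup, perfect derived group), the normaliser of a commuting set of transpositions of maximum size contains a Sylow 2-subgroup and is doubly transitive on the set. -/
theorem result {G : Type*} [Group G] [Finite G] (hsol : ∀ N : Subgroup G, N.Normal → Group.IsSolvable ↥N → N = ⊥) (hperf : ⁅commutator G, commutator G⁆ = commutator G) {D : Set G} (hD : Cfsg.IsThreeTranspositionClass D) {E : Set G} (hE : E ⊆ D) (hc : ∀ a ∈ E, ∀ b ∈ E, Commute a b) (hmax : ∀ E' : Set G, E' ⊆ D → (∀ a ∈ E', ∀ b ∈ E', Commute a b) → E'.ncard ≤ E.ncard) : (∃ P : Sylow 2 G, (P : Subgroup G) ≤ Subgroup.normalizer E) ∧ ∀ a ∈ E, ∀ b ∈ E, ∀ c ∈ E, ∀ d ∈ E, a ≠ b → c ≠ d → ∃ g ∈ Subgroup.normalizer E, g * a * g⁻¹ = c ∧ g * b * g⁻¹ = d := by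
  classical
  haveI : Fact (Nat.Prime 2) := ⟨Nat.prime_two⟩
  have hconj := Cfsg.Agent.Lib.ThreeT.class_conj hD
  -- a maximal commuting set is the intersection of `D` with any 2-subgroup containing it
  have hinter : ∀ F : Set G, F ⊆ D → F.ncard = E.ncard → ∀ T : Subgroup G, IsPGroup 2 T → F ⊆ T →
      F = {d | d ∈ D ∧ d ∈ T} := by
    intro F hF hFE T hT hFT
    have hsub : F ⊆ {d | d ∈ D ∧ d ∈ T} := fun x hx => ⟨hF hx, hFT hx⟩
    apply Set.eq_of_subset_of_ncard_le hsub _ (Set.toFinite _)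
    rw [hFE]
    apply hmax _ (fun x hx => hx.1)
    intro a ha b hb
    exact Cfsg.Agent.Lib.ThreeT.comm_of_mem_two hD.1 hT ha.1 hb.1 ha.2 hb.2
  constructor
  · obtain ⟨T, hT⟩ := (Cfsg.Agent.Lib.ThreeT.isPGroup_closure hD.1 hE hc).exists_le_sylow
    refine ⟨T, ?_⟩
    have hET := hinter E hE rfl T T.2 (fun x hx => hT (Subgroup.subset_closure hx))
    have key : ∀ t ∈ (T : Subgroup G), ∀ x ∈ E, t * x * t⁻¹ ∈ E := by
      intro t ht x hx
      rw [hET] at hx ⊢
      exact ⟨hconj t x hx.1, T.mul_mem (T.mul_mem ht hx.2) (T.inv_mem ht)⟩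
    intro t ht
    rw [Subgroup.mem_set_normalizer_iff]
    intro x
    refine ⟨key t ht x, fun hx => ?_⟩
    have := key t⁻¹ (T.inv_mem ht) _ hx
    have e : t⁻¹ * (t * x * t⁻¹) * t⁻¹⁻¹ = x := by group
    rwa [e] at this
  · intro a ha b hb c hcE d hd hab hcd
    have P : Cfsg.Agent.Lib.ThreeT.Prim D := Cfsg.Agent.Lib.ThreeT.Prim.of_perfect hD hsol hperf
      ⟨a, hE ha, b, hE hb, hab, hc a ha b hb⟩
    -- move the pair
    obtain ⟨g, hg⟩ := P.prim.1 a (hE ha) c (hE hcE)
    have hgb : g * b * g⁻¹ ∈ Cfsg.Agent.Lib.ThreeT.A D c := by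
      rw [← hg, Cfsg.Agent.Lib.ThreeT.mem_A_conj hconj]
      exact ⟨hE hb, hab.symm, hc a ha b hb⟩
    obtain ⟨h, hh, hhd⟩ := P.trans_A (hE hcE) hgb ⟨hE hd, hcd.symm, hc c hcE d hd⟩
    set k := h * g with hk
    have hka : k * a * k⁻¹ = c := by
      have e : k * a * k⁻¹ = h * (g * a * g⁻¹) * h⁻¹ := by rw [hk]; group
      rw [e, hg, ← (Cfsg.Agent.Lib.ThreeT.commute_closure_A hh).eq]; group
    have hkb : k * b * k⁻¹ = d := by
      rw [← hhd, hk]; group
    -- the centralizer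
    set C : Subgroup G := Subgroup.centralizer ({c, d} : Set G) with hC
    set F : Set G := (fun x => k * x * k⁻¹) '' E with hF
    have hFD : F ⊆ D := by rintro _ ⟨x, hx, rfl⟩; exact hconj k x (hE hx)
    have hFc : ∀ x ∈ F, ∀ y ∈ F, Commute x y := by
      rintro _ ⟨x, hx, rfl⟩ _ ⟨y, hy, rfl⟩
      rw [Cfsg.Agent.Lib.ThreeT.commute_conj_iff]
      exact hc x hx y hy
    have hFn : F.ncard = E.ncard :=
      Set.ncard_image_of_injective _ (Cfsg.Agent.Lib.ThreeT.conj_injective k)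
    have hcF : c ∈ F := ⟨a, ha, hka⟩
    have hdF : d ∈ F := ⟨b, hb, hkb⟩
    have hmemC : ∀ S : Set G, (∀ x ∈ S, ∀ y ∈ S, Commute x y) → c ∈ S → d ∈ S →
        Subgroup.closure S ≤ C := by
      intro S hS hcS hdS
      rw [Subgroup.closure_le]
      intro x hx
      rw [hC, SetLike.mem_coe, Subgroup.mem_centralizer_iff]
      rintro y (rfl | rfl)
      · exact (hS _ hcS x hx)
      · exact (hS _ hdS x hx)
    have hEC := hmemC E hc hcE hd
    have hFC := hmemC F hFc hcF hdF
    have pE : IsPGroup 2 ((Subgroup.closure E).subgroupOf C) :=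
      (Cfsg.Agent.Lib.ThreeT.isPGroup_closure hD.1 hE hc).comap_subtype
    have pF : IsPGroup 2 ((Subgroup.closure F).subgroupOf C) :=
      (Cfsg.Agent.Lib.ThreeT.isPGroup_closure hD.1 hFD hFc).comap_subtype
    obtain ⟨T0, hT0⟩ := pE.exists_le_sylow
    obtain ⟨T1, hT1⟩ := pF.exists_le_sylow
    obtain ⟨z, hz⟩ := MulAction.exists_smul_eq C T1 T0
    set T : Subgroup G := (T0 : Subgroup C).map C.subtype with hT
    have hTp : IsPGroup 2 T := T0.2.map _
    have hET : E ⊆ T := by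
      intro x hx
      exact ⟨⟨x, hEC (Subgroup.subset_closure hx)⟩, hT0 (by
        rw [Subgroup.mem_subgroupOf]; exact Subgroup.subset_closure hx), rfl⟩
    have hEeq := hinter E hE rfl T hTp hET
    have hFT : (fun x => (z : G) * x * (z : G)⁻¹) '' F ⊆ T := by
      rintro _ ⟨x, hx, rfl⟩
      have h1 : (⟨x, hFC (Subgroup.subset_closure hx)⟩ : C) ∈ (T1 : Subgroup C) := hT1 (by
        rw [Subgroup.mem_subgroupOf]; exact Subgroup.subset_closure hx)
      have h2 : z * ⟨x, hFC (Subgroup.subset_closure hx)⟩ * z⁻¹ ∈ (T0 : Subgroup C) := by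
        rw [← hz, Sylow.coe_subgroup_smul, Subgroup.mem_pointwise_smul_iff_inv_smul_mem, ← map_inv,
          MulAut.smul_def, MulAut.conj_apply, inv_inv]
        have : z⁻¹ * (z * ⟨x, hFC (Subgroup.subset_closure hx)⟩ * z⁻¹) * z =
          ⟨x, hFC (Subgroup.subset_closure hx)⟩ := by group
        rw [this]; exact h1
      exact ⟨_, h2, rfl⟩
    have hFD' : (fun x => (z : G) * x * (z : G)⁻¹) '' F ⊆ D := by
      rintro _ ⟨x, hx, rfl⟩; exact hconj _ x (hFD hx)
    have hFeq := hinter _ hFD' (by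
      rw [Set.ncard_image_of_injective _ (Cfsg.Agent.Lib.ThreeT.conj_injective _), hFn]) T hTp hFT
    rw [← hEeq] at hFeq
    have hzc : (z : G) * c * (z : G)⁻¹ = c := by
      have := Subgroup.mem_centralizer_iff.1 z.2 c (Or.inl rfl)
      rw [← this]; group
    have hzd : (z : G) * d * (z : G)⁻¹ = d := by
      have := Subgroup.mem_centralizer_iff.1 z.2 d (Or.inr rfl)
      rw [← this]; group
    refine ⟨(z : G) * k, ?_, ?_, ?_⟩
    · have hkey : (fun x => ((z : G) * k) * x * ((z : G) * k)⁻¹) '' E = E := by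
        conv_rhs => rw [← hFeq]
        rw [hF, Set.image_image]
        apply Set.image_congr
        intro x _
        group
      rw [Subgroup.mem_set_normalizer_iff]
      intro x
      constructor
      · intro hx
        rw [← hkey]
        exact ⟨x, hx, rfl⟩
      · intro hx
        rw [← hkey] at hx
        obtain ⟨y, hy, hyx⟩ := hx
        have := Cfsg.Agent.Lib.ThreeT.conj_injective _ hyx
        rwa [← this]
    · have e : (z : G) * k * a * ((z : G) * k)⁻¹ = (z : G) * (k * a * k⁻¹) * (z : G)⁻¹ := by group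
      rw [e, hka, hzc]
    · have e : (z : G) * k * b * ((z : G) * k)⁻¹ = (z : G) * (k * b * k⁻¹) * (z : G)⁻¹ := by group
      rw [e, hkb, hzd]

end Cfsg.Agent.S1612
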