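import Cfsg.Statements.S1635
import Cfsg.Agent.Lib.Golay.Coset

set_option autoImplicit false
open Cfsg

namespace Cfsg.Agent.S1635

open Cfsg Cfsg.Agent.Lib.Golay

/-- Coset leaders of the length-24 code: a coset contains a unique word of weight ≤ 3, or else exactly six words of weight 4 and none lighter. -/
theorem result (w : Cfsg.GolayPt → ZMod 2) : ({v : Cfsg.GolayPt → ZMod 2 | hammingNorm v ≤ 4 ∧ w - v ∈ Cfsg.golayCode}.ncard = 1 ∧ ∃ v : Cfsg.GolayPt → ZMod 2, hammingNorm v ≤ 3 ∧ w - v ∈ Cfsg.golayCode) ∨ ({v : Cfsg.GolayPt → ZMod 2 | hammingNorm v ≤ 4 ∧ w - v ∈ Cfsg.golayCode}.ncard = 6 ∧ ∀ v : Cfsg.GolayPt → ZMod 2, w - v ∈ Cfsg.golayCode → hammingNorm v ≤ 4 → hammingNorm v = 4) := by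
  have e : {v : Cfsg.GolayPt → ZMod 2 | hammingNorm v ≤ 4 ∧ w - v ∈ Cfsg.golayCode}.ncard =
      {t : Finset GolayPt | t.card ≤ 4 ∧ IsWord (symmDiff (support₂ w) t)}.ncard := by
    rw [← ncard_supp (fun t => t.card ≤ 4 ∧ IsWord (symmDiff (support₂ w) t))]
    congr 1
    ext v
    rw [Set.mem_setOf_eq, Set.mem_setOf_eq, mem_golay_iff, supp_sub, hamming_eq]
  rcases leaders (support₂ w) with ⟨v, hv, h⟩ | ⟨v, hv, h⟩
  · left
    rw [e, h, Set.ncard_singleton]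
    refine ⟨rfl, ofSet v, ?_, ?_⟩
    · rw [hamming_eq, supp_ofSet]; exact hv
    · rw [mem_golay_iff, supp_sub, supp_ofSet]
      have : v ∈ {t : Finset GolayPt | t.card ≤ 4 ∧ IsWord (symmDiff (support₂ w) t)} := by rw [h]; rfl
      exact this.2
  · right
    rw [e, h, Set.ncard_coe_finset, (sext_mem hv).1]
    refine ⟨rfl, ?_⟩
    intro u hu1 hu2
    rw [mem_golay_iff, supp_sub] at hu1
    have : support₂ u ∈ {t : Finset GolayPt | t.card ≤ 4 ∧ IsWord (symmDiff (support₂ w) t)} := ⟨hu2, hu1⟩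
    rw [h] at this
    rw [hamming_eq]
    exact (sext_mem hv).2.1 _ this

end Cfsg.Agent.S1635
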