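import Cfsg.Statements.S1636
import Cfsg.Agent.Lib.Golay.Coset
import Cfsg.Agent.Lib.Golay.Misc

set_option autoImplicit false
open Cfsg

namespace Cfsg.Agent.S1636

open Cfsg Cfsg.Agent.Lib.Golay

/-- restriction to the 23 coordinates -/
def res (w : GolayPt → ZMod 2) : ZMod 23 → ZMod 2 := fun x => w (some x)

theorem norm_res (w : GolayPt → ZMod 2) : hammingNorm (res w) = ((support₂ w).erase none).card := by
  unfold hammingNorm
  rw [← Finset.card_map Function.Embedding.some]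
  congr 1
  ext p
  rw [Finset.mem_map, Finset.mem_erase]
  constructor
  · rintro ⟨x, hx, rfl⟩
    exact ⟨by simp, Finset.mem_filter.2 ⟨Finset.mem_univ _, (Finset.mem_filter.1 hx).2⟩⟩
  · rintro ⟨h1, h2⟩
    match p, h1, h2 with
    | some x, _, h2 => exact ⟨x, Finset.mem_filter.2 ⟨Finset.mem_univ _, (Finset.mem_filter.1 h2).2⟩, rfl⟩

theorem res_inj {v w : GolayPt → ZMod 2} (hv : v ∈ golayCode) (hw : w ∈ golayCode) (h : res v = res w) : v = w := by
  have h1 : w - v ∈ golayCode := Submodule.sub_mem _ hw hv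
  rw [mem_golay_iff] at h1
  have h2 : (support₂ (w - v)).card ≤ 1 := by
    apply Finset.card_le_one.2
    have h3 : ∀ p ∈ support₂ (w - v), p = none := by
      intro p hp
      match p, hp with
      | none, _ => rfl
      | some x, hp =>
        exfalso
        have h4 : (w - v) (some x) ≠ 0 := (Finset.mem_filter.1 hp).2
        apply h4
        have h5 := congrFun h x
        show w (some x) - v (some x) = 0
        rw [sub_eq_zero]; exact h5.symm
    intro a ha b hb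
    rw [h3 a ha, h3 b hb]
  have h6 := word_small h1 (by omega)
  have h7 : w - v = 0 := support_inj (by rw [h6]; decide)
  exact (sub_eq_zero.1 h7).symm

theorem set_eq : {u : ZMod 23 → ZMod 2 | ∃ w ∈ Cfsg.golayCode, ∀ x : ZMod 23, u x = w (some x)} = res '' (golayCode : Set (GolayPt → ZMod 2)) := by
  ext u
  constructor
  · rintro ⟨w, hw, h⟩; exact ⟨w, hw, (funext h).symm⟩
  · rintro ⟨w, hw, rfl⟩; exact ⟨w, hw, fun x => rfl⟩

theorem count (F : ℕ → Prop) [DecidablePred F] : {u : ZMod 23 → ZMod 2 | u ∈ {u : ZMod 23 → ZMod 2 | ∃ w ∈ Cfsg.golayCode, ∀ x : ZMod 23, u x = w (some x)} ∧ F (hammingNorm u)}.ncard =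
    countB (fun c => decide (F (pc (comb c &&& 0x7fffff)))) 0 12 := by
  have h1 : {u : ZMod 23 → ZMod 2 | u ∈ {u : ZMod 23 → ZMod 2 | ∃ w ∈ Cfsg.golayCode, ∀ x : ZMod 23, u x = w (some x)} ∧ F (hammingNorm u)} =
      res '' {w : GolayPt → ZMod 2 | w ∈ golayCode ∧ F (hammingNorm (res w))} := by
    rw [set_eq]
    ext u
    constructor
    · rintro ⟨⟨w, hw, rfl⟩, h⟩; exact ⟨w, ⟨hw, h⟩, rfl⟩
    · rintro ⟨w, ⟨hw, h⟩, rfl⟩; exact ⟨⟨w, hw, rfl⟩, h⟩
  rw [h1, Set.InjOn.ncard_image (fun a ha b hb h => res_inj ha.1 hb.1 h)]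
  have h2 := ncard_words_pred (F := fun s => F (s.erase none).card) (f := fun m => decide (F (pc (m &&& 0x7fffff)))) (by
    intro s
    have h3 : s.erase none = st (mk s &&& 0x7fffff) := by
      rw [st_and, st_mk]
      have h4 : st 0x7fffff = Finset.univ.erase none := by decide +kernel
      rw [h4]
      ext p; simp [Finset.mem_erase]; tauto
    rw [decide_eq_true_eq, h3, card_st])
  rw [← h2, ← ncard_supp (fun s => IsWord s ∧ F (s.erase none).card)]
  congr 1
  ext w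
  rw [Set.mem_setOf_eq, Set.mem_setOf_eq, mem_golay_iff, norm_res]

theorem counts : ∀ k n : ℕ, countB (fun c => decide (pc (comb c &&& 0x7fffff) = k)) 0 12 = n →
    {u : ZMod 23 → ZMod 2 | u ∈ {u : ZMod 23 → ZMod 2 | ∃ w ∈ Cfsg.golayCode, ∀ x : ZMod 23, u x = w (some x)} ∧ hammingNorm u = k}.ncard = n := by
  intro k n h
  rw [← h]
  exact count (fun m => m = k)

/-- The punctured length-23 code has weight distribution 0^1 7^253 8^506 11^1288 12^1288 15^506 16^253 23^1. -/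
theorem result : {u : ZMod 23 → ZMod 2 | ∃ w ∈ Cfsg.golayCode, ∀ x : ZMod 23, u x = w (some x)}.ncard = 4096 ∧ {u : ZMod 23 → ZMod 2 | u ∈ {u : ZMod 23 → ZMod 2 | ∃ w ∈ Cfsg.golayCode, ∀ x : ZMod 23, u x = w (some x)} ∧ hammingNorm u = 7}.ncard = 253 ∧ {u : ZMod 23 → ZMod 2 | u ∈ {u : ZMod 23 → ZMod 2 | ∃ w ∈ Cfsg.golayCode, ∀ x : ZMod 23, u x = w (some x)} ∧ hammingNorm u = 8}.ncard = 506 ∧ {u : ZMod 23 → ZMod 2 | u ∈ {u : ZMod 23 → ZMod 2 | ∃ w ∈ Cfsg.golayCode, ∀ x : ZMod 23, u x = w (some x)} ∧ hammingNorm u = 11}.ncard = 1288 ∧ {u : ZMod 23 → ZMod 2 | u ∈ {u : ZMod 23 → ZMod 2 | ∃ w ∈ Cfsg.golayCode, ∀ x : ZMod 23, u x = w (some x)} ∧ hammingNorm u = 12}.ncard = 1288 ∧ {u : ZMod 23 → ZMod 2 | u ∈ {u : ZMod 23 → ZMod 2 | ∃ w ∈ Cfsg.golayCode, ∀ x : ZMod 23, u x = w (some x)} ∧ hammingNorm u = 15}.ncard = 506 ∧ {u : ZMod 23 → ZMod 2 | u ∈ {u : ZMod 23 → ZMod 2 | ∃ w ∈ Cfsg.golayCode, ∀ x : ZMod 23, u x = w (some x)} ∧ hammingNorm u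 = 16}.ncard = 253 ∧ ∀ u ∈ {u : ZMod 23 → ZMod 2 | ∃ w ∈ Cfsg.golayCode, ∀ x : ZMod 23, u x = w (some x)}, u ≠ 0 → 7 ≤ hammingNorm u := by
  refine ⟨?_, counts 7 253 (by decide +kernel), counts 8 506 (by decide +kernel), counts 11 1288 (by decide +kernel),
    counts 12 1288 (by decide +kernel), counts 15 506 (by decide +kernel), counts 16 253 (by decide +kernel), ?_⟩
  · have h := count (fun _ => True)
    simp only [and_true] at h
    have e : ({u : ZMod 23 → ZMod 2 | u ∈ {u : ZMod 23 → ZMod 2 | ∃ w ∈ Cfsg.golayCode, ∀ x : ZMod 23, u x = w (some x)}}).ncard = 4096 := by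
      rw [h]; decide +kernel
    exact e
  · rintro u ⟨w, hw, h⟩ hu
    have hu' : u = res w := funext h
    have h1 : support₂ w ≠ ∅ := by
      intro h2
      apply hu
      have : w = 0 := support_inj (by rw [h2]; decide)
      rw [hu', this]; rfl
    rw [hu', norm_res]
    rw [mem_golay_iff] at hw
    have h3 := hw.card
    have h4 := Finset.pred_card_le_card_erase (s := support₂ w) (a := none)
    have h5 := Finset.card_pos.2 (Finset.nonempty_iff_ne_empty.2 h1)
    omega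

end Cfsg.Agent.S1636
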