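import Cfsg.Statements.S1637
import Cfsg.Agent.S1636

set_option autoImplicit false
open Cfsg

namespace Cfsg.Agent.S1637

open Cfsg Cfsg.Agent.Lib.Golay Cfsg.Agent.S1636

/-- The punctured length-23 code is a perfect 3-error-correcting code: each word of length 23 is within distance 3 of exactly one codeword. -/
theorem result (u : ZMod 23 → ZMod 2) : ∃! c : ZMod 23 → ZMod 2, c ∈ {u : ZMod 23 → ZMod 2 | ∃ w ∈ Cfsg.golayCode, ∀ x : ZMod 23, u x = w (some x)} ∧ hammingDist u c ≤ 3 := by
  let w : GolayPt → ZMod 2 := fun p => match p with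
    | none => 0
    | some x => u x
  have hres : res w = u := rfl
  have main : ∃ t : Finset GolayPt, (t.erase none).card ≤ 3 ∧ IsWord (symmDiff (support₂ w) t) := by
    rcases leaders (support₂ w) with ⟨v, hv, h⟩ | ⟨v, hv, h⟩
    · refine ⟨v, le_trans (Finset.card_le_card (Finset.erase_subset _ _)) hv, ?_⟩
      have : v ∈ {t : Finset GolayPt | t.card ≤ 4 ∧ IsWord (symmDiff (support₂ w) t)} := by rw [h]; rfl
      exact this.2
    · have hS := sext_mem hv
      have hun : (sext v).biUnion (fun t => t) = Finset.univ := by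
        apply Finset.eq_of_subset_of_card_le (Finset.subset_univ _)
        rw [Finset.card_biUnion (fun t ht u hu htu => sextet_disjoint hS ht hu htu), show (Finset.univ : Finset GolayPt).card = 24 by decide]
        rw [show ∑ t ∈ sext v, t.card = ∑ t ∈ sext v, 4 from Finset.sum_congr rfl (fun t ht => hS.2.1 t ht), Finset.sum_const, hS.1]
        norm_num
      have h1 := Finset.mem_univ (none : GolayPt)
      rw [← hun, Finset.mem_biUnion] at h1
      obtain ⟨t, ht, hnt⟩ := h1
      refine ⟨t, by rw [Finset.card_erase_of_mem hnt, hS.2.1 t ht], ?_⟩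
      have : t ∈ {t : Finset GolayPt | t.card ≤ 4 ∧ IsWord (symmDiff (support₂ w) t)} := by rw [h]; exact ht
      exact this.2
  obtain ⟨t, ht, hw⟩ := main
  have hd : ∀ a b : GolayPt → ZMod 2, hammingDist (res a) (res b) = ((support₂ (a - b)).erase none).card := by
    intro a b
    rw [hammingDist_comm, hammingDist_eq_hammingNorm, neg_add_eq_sub, ← norm_res]; rfl
  refine ⟨res (w - ofSet t), ⟨⟨w - ofSet t, ?_, fun x => rfl⟩, ?_⟩, ?_⟩
  · rw [mem_golay_iff, supp_sub, supp_ofSet]; exact hw
  · rw [← hres, hd, sub_sub_cancel, supp_ofSet]; exact ht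
  · rintro c ⟨⟨w', hw', hc⟩, hdist⟩
    have hc' : c = res w' := funext hc
    rw [hc', ← hres, hd] at hdist
    rw [hc']
    congr 1
    have h1 : w' - (w - ofSet t) ∈ golayCode := Submodule.sub_mem _ hw' (by rw [mem_golay_iff, supp_sub, supp_ofSet]; exact hw)
    have h1' := h1
    rw [mem_golay_iff] at h1
    have h2 : w' - (w - ofSet t) = ofSet t - (w - w') := by abel
    have h3 : (support₂ (w' - (w - ofSet t))).card ≤ 7 := by
      rw [h2, supp_sub, supp_ofSet]
      have h4 : (symmDiff t (support₂ (w - w'))) ⊆ insert none ((t.erase none) ∪ ((support₂ (w - w')).erase none)) := by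
        intro p hp
        rw [Finset.mem_symmDiff] at hp
        rw [Finset.mem_insert, Finset.mem_union, Finset.mem_erase, Finset.mem_erase]
        by_cases h0 : p = none
        · exact Or.inl h0
        · rcases hp with ⟨h, _⟩ | ⟨h, _⟩
          · exact Or.inr (Or.inl ⟨h0, h⟩)
          · exact Or.inr (Or.inr ⟨h0, h⟩)
      have h5 := Finset.card_le_card h4
      have h6 := Finset.card_insert_le none ((t.erase none) ∪ ((support₂ (w - w')).erase none))
      have h7 := Finset.card_union_le (t.erase none) ((support₂ (w - w')).erase none)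
      omega
    have h8 := word_small h1 (by omega)
    have h9 : w' - (w - ofSet t) = 0 := support_inj (by rw [h8]; decide)
    exact sub_eq_zero.1 h9

end Cfsg.Agent.S1637
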