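import Cfsg.Statements.S1638
import Cfsg.Agent.Lib.Golay.Elem
import Cfsg.Agent.Lib.Golay.Sextet
import Cfsg.Agent.Lib.Golay.Sets

set_option autoImplicit false
open scoped Pointwise
open Cfsg

namespace Cfsg.Agent.S1638

open Cfsg Cfsg.Agent.Lib.Golay Finset
open scoped Pointwise

theorem pair_of {s : Finset GolayPt} (h : s.card = 2) {a : GolayPt} (ha : a ∈ s) : ∃ b, b ≠ a ∧ s = {a, b} := by
  obtain ⟨x, y, hxy, rfl⟩ := card_eq_two.1 h
  rw [mem_insert, mem_singleton] at ha
  rcases ha with rfl | rfl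
  · exact ⟨y, hxy.symm, rfl⟩
  · exact ⟨x, hxy, by rw [pair_comm]⟩

theorem smul_pair (g : Equiv.Perm GolayPt) (a b : GolayPt) : g • ({a, b} : Finset GolayPt) = {g a, g b} := by
  rw [smul_finset_insert, smul_finset_singleton]; rfl

theorem count30 {p q : GolayPt} {s : Finset GolayPt} (hpq : p ≠ q) (hs : s.card = 2) (hp : p ∉ s) (hq : q ∉ s) :
    {t : Finset GolayPt | (t.card = 2 ∧ p ∉ t ∧ q ∉ t) ∧ Disjoint s t ∧ (∃ o ∈ octads, p ∈ o ∧ q ∈ o ∧ s ∪ t ⊆ o)}.ncard = 30 := by
  have hT : (insert p (insert q s)).card = 4 := by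
    rw [card_insert_of_notMem, card_insert_of_notMem hq, hs]
    rw [mem_insert, not_or]; exact ⟨hpq, hp⟩
  have hS := sext_mem hT
  have hself := mem_sext_self (insert p (insert q s))
  -- the pairs are the pairs inside the five other tetrads
  have key : {t : Finset GolayPt | (t.card = 2 ∧ p ∉ t ∧ q ∉ t) ∧ Disjoint s t ∧ (∃ o ∈ octads, p ∈ o ∧ q ∈ o ∧ s ∪ t ⊆ o)} =
      ((((sext (insert p (insert q s))).erase (insert p (insert q s))).biUnion (fun u => u.powersetCard 2) : Finset (Finset GolayPt)) : Set (Finset GolayPt)) := by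
    ext t
    simp only [Set.mem_setOf_eq, coe_biUnion, Set.mem_iUnion, mem_coe, mem_powersetCard, mem_erase, exists_prop]
    constructor
    · rintro ⟨⟨h1, h2, h3⟩, h4, o, ho, hpo, hqo, hso⟩
      have hTo : insert p (insert q s) ⊆ o := by
        intro x hx
        simp only [mem_insert] at hx
        rcases hx with rfl | rfl | hx
        · exact hpo
        · exact hqo
        · exact hso (mem_union_left _ hx)
      refine ⟨o \ insert p (insert q s), ⟨?_, sdiff_mem_sext' ho hTo⟩, ?_, h1⟩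
      · intro h5
        have h6 : (p : GolayPt) ∈ o \ insert p (insert q s) := by rw [h5]; exact mem_insert_self _ _
        exact (mem_sdiff.1 h6).2 (mem_insert_self _ _)
      · intro x hx
        rw [mem_sdiff]
        refine ⟨hso (mem_union_right _ hx), ?_⟩
        simp only [mem_insert, not_or]
        exact ⟨fun h => h2 (h ▸ hx), fun h => h3 (h ▸ hx), fun h => disjoint_left.1 h4 h hx⟩
    · rintro ⟨u, ⟨h1, h2⟩, h3, h4⟩
      have hd := sextet_disjoint hS h2 hself h1
      have ho := hS.2.2 u h2 _ hself h1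
      have hn : ∀ x ∈ insert p (insert q s), x ∉ t := fun x hx hxt => disjoint_left.1 hd (h3 hxt) hx
      refine ⟨⟨h4, hn p (by simp), hn q (by simp)⟩, ?_, u ∪ insert p (insert q s), ho, by simp, by simp, ?_⟩
      · rw [disjoint_left]; intro x hx; exact hn x (by simp [hx])
      · intro x hx
        rw [mem_union] at hx ⊢
        rcases hx with hx | hx
        · right; simp [hx]
        · left; exact h3 hx
  rw [key, Set.ncard_coe_finset, card_biUnion]
  · rw [sum_congr rfl (g := fun _ => 6) (fun u hu => by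
      rw [card_powersetCard, hS.2.1 u (mem_of_mem_erase hu)]; rfl), sum_const, card_erase_of_mem hself, hS.1]
    rfl
  · intro u hu v hv huv
    show Disjoint (powersetCard 2 u) (powersetCard 2 v)
    rw [disjoint_left]
    intro t ht ht'
    rw [mem_powersetCard] at ht ht'
    have hd := sextet_disjoint hS (mem_of_mem_erase hu) (mem_of_mem_erase hv) huv
    obtain ⟨x, hx⟩ : t.Nonempty := by rw [← card_pos]; omega
    exact disjoint_left.1 hd (ht.1 hx) (ht'.1 hx)
where
  sdiff_mem_sext' {t u : Finset GolayPt} (hu : u ∈ octads) (h : t ⊆ u) : u \ t ∈ sext t := by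
    unfold sext
    rw [mem_insert]
    right
    rw [mem_image]
    refine ⟨u, ?_, rfl⟩
    rw [mem_filter]
    refine ⟨?_, h⟩
    simpa [Lib.Steiner.blk] using hu

theorem count190 {p q : GolayPt} {s : Finset GolayPt} (hpq : p ≠ q) (hs : s.card = 2) (hp : p ∉ s) (hq : q ∉ s) :
    {t : Finset GolayPt | (t.card = 2 ∧ p ∉ t ∧ q ∉ t) ∧ Disjoint s t}.ncard = 190 := by
  have hT : (insert p (insert q s)).card = 4 := by
    rw [card_insert_of_notMem, card_insert_of_notMem hq, hs]
    rw [mem_insert, not_or]; exact ⟨hpq, hp⟩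
  have : {t : Finset GolayPt | (t.card = 2 ∧ p ∉ t ∧ q ∉ t) ∧ Disjoint s t} = (((insert p (insert q s))ᶜ.powersetCard 2 : Finset (Finset GolayPt)) : Set (Finset GolayPt)) := by
    ext t
    simp only [Set.mem_setOf_eq, mem_coe, mem_powersetCard]
    constructor
    · rintro ⟨⟨h1, h2, h3⟩, h4⟩
      refine ⟨?_, h1⟩
      intro x hx
      simp only [mem_compl, mem_insert, not_or]
      exact ⟨fun h => h2 (h ▸ hx), fun h => h3 (h ▸ hx), fun h => disjoint_left.1 h4 h hx⟩
    · rintro ⟨h1, h2⟩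
      have hn : ∀ x ∈ insert p (insert q s), x ∉ t := fun x hx hxt => (mem_compl.1 (h1 hxt)) hx
      refine ⟨⟨h2, hn p (by simp), hn q (by simp)⟩, ?_⟩
      rw [disjoint_left]; intro x hx; exact hn x (by simp [hx])
  rw [this, Set.ncard_coe_finset, card_powersetCard, card_compl, hT, show Fintype.card GolayPt = 24 by decide]
  decide

/-- Fix two points p ≠ q and a pair s of two further points. Among the pairs avoiding p, q and disjoint from s, exactly 30 lie in an octad together with p, q and s and exactly 160 do not; and any two pairs other than s that meet s in equally many points and agree on that octad property are carried to one another by an element of the group of the length-24 code fixing p, q and s. -/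
theorem result (p q : Cfsg.GolayPt) (hpq : p ≠ q) (s : Finset Cfsg.GolayPt) (hs : (s.card = 2 ∧ p ∉ s ∧ q ∉ s)) : {t : Finset Cfsg.GolayPt | (t.card = 2 ∧ p ∉ t ∧ q ∉ t) ∧ Disjoint s t ∧ (∃ o ∈ Cfsg.octads, p ∈ o ∧ q ∈ o ∧ s ∪ t ⊆ o)}.ncard = 30 ∧ {t : Finset Cfsg.GolayPt | (t.card = 2 ∧ p ∉ t ∧ q ∉ t) ∧ Disjoint s t ∧ ¬ (∃ o ∈ Cfsg.octads, p ∈ o ∧ q ∈ o ∧ s ∪ t ⊆ o)}.ncard = 160 ∧ ∀ t t' : Finset Cfsg.GolayPt, (t.card = 2 ∧ p ∉ t ∧ q ∉ t) → (t'.card = 2 ∧ p ∉ t' ∧ q ∉ t') → t ≠ s → t' ≠ s → (s ∩ t).card = (s ∩ t').card → ((∃ o ∈ Cfsg.octads, p ∈ o ∧ q ∈ o ∧ s ∪ t ⊆ o) ↔ (∃ o ∈ Cfsg.octads, p ∈ o ∧ q ∈ o ∧ s ∪ t' ⊆ o)) → ∃ g : Equiv.Perm Cfsg.GolayPt, g ∈ Cfsg.M24 ∧ g p = p ∧ g q = q ∧ g • s = s ∧ g • t = t' := by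
  obtain ⟨hs2, hps, hqs⟩ := hs
  have c30 := count30 hpq hs2 hps hqs
  have c190 := count190 hpq hs2 hps hqs
  refine ⟨c30, ?_, ?_⟩
  · have hun : {t : Finset GolayPt | (t.card = 2 ∧ p ∉ t ∧ q ∉ t) ∧ Disjoint s t} =
        {t : Finset GolayPt | (t.card = 2 ∧ p ∉ t ∧ q ∉ t) ∧ Disjoint s t ∧ (∃ o ∈ octads, p ∈ o ∧ q ∈ o ∧ s ∪ t ⊆ o)} ∪
        {t : Finset GolayPt | (t.card = 2 ∧ p ∉ t ∧ q ∉ t) ∧ Disjoint s t ∧ ¬ (∃ o ∈ octads, p ∈ o ∧ q ∈ o ∧ s ∪ t ⊆ o)} := by
      ext t
      constructor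
      · rintro ⟨h1, h2⟩
        by_cases h : ∃ o ∈ octads, p ∈ o ∧ q ∈ o ∧ s ∪ t ⊆ o
        · exact Or.inl ⟨h1, h2, h⟩
        · exact Or.inr ⟨h1, h2, h⟩
      · rintro (⟨h1, h2, -⟩ | ⟨h1, h2, -⟩)
        · exact ⟨h1, h2⟩
        · exact ⟨h1, h2⟩
    rw [hun, Set.ncard_union_eq (by
      rw [Set.disjoint_left]
      rintro t ⟨_, _, h1⟩ ⟨_, _, h2⟩
      exact h2 h1) (Set.toFinite _) (Set.toFinite _), c30] at c190
    omega
  · intro t t' ⟨ht, hpt, hqt⟩ ⟨ht', hpt', hqt'⟩ hts hts' hi hoct
    obtain ⟨a, b, hab, rfl⟩ := card_eq_two.1 hs2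
    simp only [mem_insert, mem_singleton, not_or] at hps hqs
    by_cases h0 : (({a, b} : Finset GolayPt) ∩ t).card = 0
    · have h0' : (({a, b} : Finset GolayPt) ∩ t').card = 0 := by rw [← hi]; exact h0
      rw [card_eq_zero, ← disjoint_iff_inter_eq_empty] at h0 h0'
      obtain ⟨c, d, hcd, rfl⟩ := card_eq_two.1 ht
      obtain ⟨c', d', hcd', rfl⟩ := card_eq_two.1 ht'
      have n1 : a ∉ ({c, d} : Finset GolayPt) := fun h => disjoint_left.1 h0 (by simp) h
      have n2 : b ∉ ({c, d} : Finset GolayPt) := fun h => disjoint_left.1 h0 (by simp) h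
      have n1' : a ∉ ({c', d'} : Finset GolayPt) := fun h => disjoint_left.1 h0' (by simp) h
      have n2' : b ∉ ({c', d'} : Finset GolayPt) := fun h => disjoint_left.1 h0' (by simp) h
      simp only [mem_insert, mem_singleton, not_or] at n1 n2 n1' n2' hpt hqt hpt' hqt'
      have nd : [p, q, a, b, c].Nodup := by
        simp only [List.nodup_cons, List.mem_cons, List.not_mem_nil, or_false, not_or, List.nodup_nil, and_true,
          not_false_eq_true]
        exact ⟨⟨hpq, hps.1, hps.2, hpt.1⟩, ⟨hqs.1, hqs.2, hqt.1⟩, ⟨hab, n1.1⟩, n2.1⟩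
      have nd' : [p, q, a, b, c'].Nodup := by
        simp only [List.nodup_cons, List.mem_cons, List.not_mem_nil, or_false, not_or, List.nodup_nil, and_true,
          not_false_eq_true]
        exact ⟨⟨hpq, hps.1, hps.2, hpt'.1⟩, ⟨hqs.1, hqs.2, hqt'.1⟩, ⟨hab, n1'.1⟩, n2'.1⟩
      have hd : ∀ i < 5, sq5 p q a b c i ≠ d := by
        intro i hi
        interval_cases i
        · exact hpt.2
        · exact hqt.2
        · exact n1.2
        · exact n2.2
        · exact hcd
      have hd' : ∀ i < 5, sq5 p q a b c' i ≠ d' := by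
        intro i hi
        interval_cases i
        · exact hpt'.2
        · exact hqt'.2
        · exact n1'.2
        · exact n2'.2
        · exact hcd'
      have all5 : ∀ {o : Finset GolayPt} {c : GolayPt}, (∀ i < 5, sq5 p q a b c i ∈ o) ↔ p ∈ o ∧ q ∈ o ∧ a ∈ o ∧ b ∈ o ∧ c ∈ o := by
        intro o c
        constructor
        · intro h; exact ⟨h 0 (by norm_num), h 1 (by norm_num), h 2 (by norm_num), h 3 (by norm_num), h 4 (by norm_num)⟩
        · rintro ⟨h1, h2, h3, h4, h5⟩ i hi
          interval_cases i <;> simpa [sq5]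
      have fin : ∀ g : Equiv.Perm GolayPt, g ∈ M24 → (∀ i < 5, g (sq5 p q a b c i) = sq5 p q a b c' i) → g d = d' →
          ∃ g : Equiv.Perm GolayPt, g ∈ M24 ∧ g p = p ∧ g q = q ∧ g • ({a, b} : Finset GolayPt) = {a, b} ∧ g • ({c, d} : Finset GolayPt) = {c', d'} := by
        intro g hg h h'
        refine ⟨g, hg, h 0 (by norm_num), h 1 (by norm_num), ?_, ?_⟩
        · rw [smul_pair, show g a = a from h 2 (by norm_num), show g b = b from h 3 (by norm_num)]
        · rw [smul_pair, show g c = c' from h 4 (by norm_num), h']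
      have oct5 : ∀ c : GolayPt, [p, q, a, b, c].Nodup → ∃ o ∈ octads, ∀ i < 5, sq5 p q a b c i ∈ o := by
        intro c nd
        have hc5 : ([p, q, a, b, c].toFinset).card = 5 := List.toFinset_card_of_nodup nd
        obtain ⟨o, ⟨ho, hs⟩, -⟩ := steiner.2 _ hc5
        refine ⟨o, ho, all5.2 ?_⟩
        have : ∀ x ∈ [p, q, a, b, c], x ∈ o := fun x hx => hs (List.mem_toFinset.2 hx)
        exact ⟨this p (by simp), this q (by simp), this a (by simp), this b (by simp), this c (by simp)⟩
      obtain ⟨o, ho, h5⟩ := oct5 c nd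
      obtain ⟨o', ho', h5'⟩ := oct5 c' nd'
      have hin : ∀ {c d : GolayPt} {o : Finset GolayPt}, [p, q, a, b, c].Nodup → o ∈ octads → (∀ i < 5, sq5 p q a b c i ∈ o) →
          ((∃ o ∈ octads, p ∈ o ∧ q ∈ o ∧ ({a, b} : Finset GolayPt) ∪ {c, d} ⊆ o) ↔ d ∈ o) := by
        intro c d o nd ho h5
        constructor
        · rintro ⟨w, hw, hpw, hqw, hsub⟩
          have hw5 : ∀ i < 5, sq5 p q a b c i ∈ w := all5.2 ⟨hpw, hqw, hsub (by simp), hsub (by simp), hsub (by simp)⟩
          have : w = o := by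
            apply octad_eq hw ho
            have h6 : [p, q, a, b, c].toFinset ⊆ w ∩ o := by
              intro x hx
              rw [List.mem_toFinset] at hx
              obtain ⟨w1, w2, w3, w4, w5⟩ := all5.1 hw5
              obtain ⟨o1, o2, o3, o4, o5⟩ := all5.1 h5
              simp only [List.mem_cons, List.not_mem_nil, or_false] at hx
              rcases hx with rfl | rfl | rfl | rfl | rfl
              · exact mem_inter.2 ⟨w1, o1⟩
              · exact mem_inter.2 ⟨w2, o2⟩
              · exact mem_inter.2 ⟨w3, o3⟩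
              · exact mem_inter.2 ⟨w4, o4⟩
              · exact mem_inter.2 ⟨w5, o5⟩
            have h7 := card_le_card h6
            rw [List.toFinset_card_of_nodup nd] at h7
            exact h7
          rw [← this]; exact hsub (by simp)
        · intro hd
          obtain ⟨o1, o2, o3, o4, o5⟩ := all5.1 h5
          refine ⟨o, ho, o1, o2, ?_⟩
          intro x hx
          simp only [mem_union, mem_insert, mem_singleton] at hx
          rcases hx with (rfl | rfl) | (rfl | rfl) <;> assumption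
      rw [hin nd ho h5, hin nd' ho' h5'] at hoct
      by_cases hdo : d ∈ o
      · obtain ⟨g, hg, g1, g2, -⟩ := six_in (sq5_inj le_rfl nd) (sq5_inj le_rfl nd') ho ho' h5 h5' hdo (hoct.1 hdo) hd hd'
        exact fin g hg g1 g2
      · obtain ⟨g, hg, g1, g2, -⟩ := six_out (sq5_inj le_rfl nd) (sq5_inj le_rfl nd') ho ho' h5 h5' hdo (fun h => hdo (hoct.2 h))
        exact fin g hg g1 g2
    · -- they share one point
      have hne2 : ∀ {t : Finset GolayPt}, t.card = 2 → t ≠ {a, b} → (({a, b} : Finset GolayPt) ∩ t).card ≠ 2 := by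
        intro t h1 h2 h3
        apply h2
        have h4 : ({a, b} : Finset GolayPt) ∩ t = t := Finset.eq_of_subset_of_card_le inter_subset_right (by rw [h3, h1])
        have h5 : ({a, b} : Finset GolayPt) ∩ t = {a, b} := Finset.eq_of_subset_of_card_le inter_subset_left (by rw [h3, card_pair hab])
        rw [← h4, h5]
      have hle : (({a, b} : Finset GolayPt) ∩ t).card ≤ 2 := by rw [← ht]; exact card_le_card inter_subset_right
      have h1 : (({a, b} : Finset GolayPt) ∩ t).card = 1 := by have := hne2 ht hts; omega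
      have h1' : (({a, b} : Finset GolayPt) ∩ t').card = 1 := by rw [← hi]; exact h1
      have shape : ∀ {t : Finset GolayPt}, t.card = 2 → (({a, b} : Finset GolayPt) ∩ t).card = 1 → p ∉ t → q ∉ t →
          ∃ x y z : GolayPt, ({a, b} : Finset GolayPt) = {x, y} ∧ t = {x, z} ∧ [p, q, x, y, z].Nodup := by
        intro t ht h1 hp hq
        obtain ⟨x, hx⟩ := card_eq_one.1 h1
        have hxm : x ∈ ({a, b} : Finset GolayPt) ∩ t := by rw [hx]; exact mem_singleton_self x
        rw [mem_inter] at hxm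
        obtain ⟨y, hy, e1⟩ := pair_of (card_pair hab) hxm.1
        obtain ⟨z, hz, e2⟩ := pair_of ht hxm.2
        refine ⟨x, y, z, e1, e2, ?_⟩
        have hyt : y ∉ t := by
          intro h
          have : y ∈ ({a, b} : Finset GolayPt) ∩ t := mem_inter.2 ⟨by rw [e1]; simp, h⟩
          rw [hx, mem_singleton] at this
          exact hy this
        have hyz : y ≠ z := by rintro rfl; apply hyt; rw [e2]; simp
        have hab' : ∀ w ∈ ({a, b} : Finset GolayPt), p ≠ w ∧ q ≠ w := by
          intro w hw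
          rw [mem_insert, mem_singleton] at hw
          rcases hw with rfl | rfl
          · exact ⟨hps.1, hqs.1⟩
          · exact ⟨hps.2, hqs.2⟩
        have px := hab' x hxm.1
        have py := hab' y (by rw [e1]; simp)
        have pz : p ≠ z := by rintro rfl; apply hp; rw [e2]; simp
        have qz : q ≠ z := by rintro rfl; apply hq; rw [e2]; simp
        simp only [List.nodup_cons, List.mem_cons, List.not_mem_nil, or_false, not_or, List.nodup_nil, and_true,
          not_false_eq_true]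
        exact ⟨⟨hpq, px.1, py.1, pz⟩, ⟨px.2, py.2, qz⟩, ⟨hy.symm, hz.symm⟩, hyz⟩
      obtain ⟨x, y, z, e1, e2, nd⟩ := shape ht h1 hpt hqt
      obtain ⟨x', y', z', e1', e2', nd'⟩ := shape ht' h1' hpt' hqt'
      obtain ⟨g, hg, g1, g2, g3, g4, g5⟩ := exists_map_five nd nd'
      refine ⟨g, hg, g1, g2, ?_, ?_⟩
      · nth_rewrite 1 [e1]
        rw [e1', smul_pair, g3, g4]
      · rw [e2, e2', smul_pair, g3, g5]

end Cfsg.Agent.S1638
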