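import Cfsg.Statements.S1639
import Cfsg.Agent.Lib.Golay.OrbD

set_option autoImplicit false
open scoped Pointwise
open Cfsg

namespace Cfsg.Agent.S1639

open Cfsg Cfsg.Agent.Lib.Golay Finset
open scoped Pointwise

theorem std (x : GolayPt) (d : Finset GolayPt) (hd : d ∈ dodecads) (hx : x ∈ d) :
    ∃ k ∈ M24, k • d = st dodU ∧ k x = pt 0 := by
  obtain ⟨k, hk, e⟩ := dodecads_transitive hd dodU_mem
  have h1 : k x ∈ st dodU := by rw [← e]; exact (smul_mem_smul_iff' k d x).2 hx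
  obtain ⟨g, hg, e1, e2⟩ := dod_one dodU_mem h1 dodPt_mem
  exact ⟨g * k, M24.mul_mem hg hk, by rw [mul_smul, e, e1], e2⟩

theorem cls_iff {y : Finset GolayPt} (hy : y ∈ dodecads) :
    (clsMD y = 3 ↔ pt 0 ∈ y ∧ (st dodU ∩ y).card = 4) ∧ (clsMD y = 4 ↔ pt 0 ∈ y ∧ (st dodU ∩ y).card = 8) ∧
    (clsMD y = 6 ↔ pt 0 ∈ y ∧ (st dodU ∩ y).card = 6) := by
  have h := dod_inter dodU_mem hy
  have h0 : (y ∩ st dodU).card = (st dodU ∩ y).card := by rw [inter_comm]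
  unfold clsMD
  rw [h0]
  by_cases hp : pt 0 ∈ y
  · simp only [hp, if_true, true_and]
    rcases h with h | h | h | h | h <;> rw [h] <;> decide
  · simp only [hp, if_false, false_and, iff_false]
    rcases h with h | h | h | h | h <;> rw [h] <;> decide

theorem cnt {x : GolayPt} {d : Finset GolayPt} (hd : d ∈ dodecads) (hx : x ∈ d) {i k n : ℕ}
    (hcls : ∀ y ∈ dodecads, clsMD y = k ↔ pt 0 ∈ y ∧ (st dodU ∩ y).card = i)
    (hn : countB (fun e => Nat.blt e 2576 && tabAt dMD.R 4 e == k) 0 12 = n) :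
    {d' : Finset GolayPt | d' ∈ dodecads ∧ x ∈ d' ∧ (d ∩ d').card = i}.ncard = n := by
  obtain ⟨g, hg, e1, e2⟩ := std x d hd hx
  rw [← hn, ← orbMD.2.1 k]
  have : {y | y ∈ dodecads ∧ clsMD y = k} = (fun y => g • y) '' {d' : Finset GolayPt | d' ∈ dodecads ∧ x ∈ d' ∧ (d ∩ d').card = i} := by
    ext y
    constructor
    · rintro ⟨h1, h2⟩
      rw [hcls y h1] at h2
      refine ⟨g⁻¹ • y, ⟨smul_mem_dodecads (M24.inv_mem hg) h1, ?_, ?_⟩, smul_inv_smul g y⟩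
      · rw [mem_smul_iff]
        show g x ∈ y
        rw [e2]; exact h2.1
      · rw [← card_smul_inter g, smul_inv_smul, e1]; exact h2.2
    · rintro ⟨z, ⟨h1, h2, h3⟩, rfl⟩
      refine ⟨smul_mem_dodecads hg h1, (hcls _ (smul_mem_dodecads hg h1)).2 ⟨?_, ?_⟩⟩
      · show pt 0 ∈ g • z
        rw [← e2]; exact (smul_mem_smul_iff' g z x).2 h2
      · show (st dodU ∩ g • z).card = i
        rw [← e1, card_smul_inter]; exact h3
  rw [this, Set.ncard_image_of_injective _ (MulAction.injective g)]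

/-- The point stabiliser acts on the 1288 dodecads through the point with rank 4 and subdegrees 1, 165, 330, 792, distinguished by intersection 4, 8, 6 with the fixed dodecad. -/
theorem result (x : Cfsg.GolayPt) (d : Finset Cfsg.GolayPt) (hd : d ∈ Cfsg.dodecads) (hx : x ∈ d) : {d' : Finset Cfsg.GolayPt | d' ∈ Cfsg.dodecads ∧ x ∈ d' ∧ (d ∩ d').card = 4}.ncard = 165 ∧ {d' : Finset Cfsg.GolayPt | d' ∈ Cfsg.dodecads ∧ x ∈ d' ∧ (d ∩ d').card = 8}.ncard = 330 ∧ {d' : Finset Cfsg.GolayPt | d' ∈ Cfsg.dodecads ∧ x ∈ d' ∧ (d ∩ d').card = 6}.ncard = 792 ∧ ∀ d' d'' : Finset Cfsg.GolayPt, d' ∈ Cfsg.dodecads → d'' ∈ Cfsg.dodecads → x ∈ d' → x ∈ d'' → (d ∩ d').card = (d ∩ d'').card → ∃ g : Equiv.Perm Cfsg.GolayPt, g ∈ Cfsg.M24 ∧ g x = x ∧ g • d = d ∧ g • d' = d'' := by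
  refine ⟨cnt hd hx (fun y hy => (cls_iff hy).1) cntMD.1, cnt hd hx (fun y hy => (cls_iff hy).2.1) cntMD.2.1,
    cnt hd hx (fun y hy => (cls_iff hy).2.2) cntMD.2.2, ?_⟩
  intro d' d'' h1 h2 h3 h4 h5
  obtain ⟨k, hk, e1, e2⟩ := std x d hd hx
  have key : clsMD (k • d') = clsMD (k • d'') := by
    unfold clsMD
    have i1 : (k • d' ∩ st dodU).card = (k • d'' ∩ st dodU).card := by
      rw [← e1, card_smul_inter, card_smul_inter, inter_comm d', inter_comm d'', h5]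
    have p1 : pt 0 ∈ k • d' := by rw [← e2]; exact (smul_mem_smul_iff' k d' x).2 h3
    have p2 : pt 0 ∈ k • d'' := by rw [← e2]; exact (smul_mem_smul_iff' k d'' x).2 h4
    rw [i1, if_pos p1, if_pos p2]
  obtain ⟨g, hg, e⟩ := orbMD.1 _ (smul_mem_dodecads hk h1) _ (smul_mem_dodecads hk h2) key
  refine ⟨k⁻¹ * g * k, M24.mul_mem (M24.mul_mem (M24.inv_mem hk) hg.1.1) hk, ?_, ?_, ?_⟩
  · rw [Equiv.Perm.mul_apply, Equiv.Perm.mul_apply, e2, show g (pt 0) = pt 0 from hg.2, ← e2]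
    exact k.symm_apply_apply x
  · rw [mul_smul, mul_smul, e1, show g • st dodU = st dodU from hg.1.2, ← e1, inv_smul_smul]
  · rw [mul_smul, mul_smul, e, inv_smul_smul]

end Cfsg.Agent.S1639
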