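import Cfsg.Statements.S1640
import Cfsg.Agent.Lib.Golay.LeechHS

set_option autoImplicit false
open Cfsg

namespace Cfsg.Agent.S1640

/-- The stabiliser of a vector of customary norm 6 is transitive on the 11178 minimal vectors of customary inner product −2 with it. -/
theorem result (u : ↥Cfsg.leechLattice) (hu : Cfsg.sqNorm (u : Cfsg.GolayPt → ℤ) = 48) : {x : ↥Cfsg.leechLattice | Cfsg.sqNorm (x : Cfsg.GolayPt → ℤ) = 32 ∧ Cfsg.dotInt (u : Cfsg.GolayPt → ℤ) (x : Cfsg.GolayPt → ℤ) = -16}.ncard = 11178 ∧ ∀ x ∈ {x : ↥Cfsg.leechLattice | Cfsg.sqNorm (x : Cfsg.GolayPt → ℤ) = 32 ∧ Cfsg.dotInt (u : Cfsg.GolayPt → ℤ) (x : Cfsg.GolayPt → ℤ) = -16}, ∀ x' ∈ {x : ↥Cfsg.leechLattice | Cfsg.sqNorm (x : Cfsg.GolayPt → ℤ) = 32 ∧ Cfsg.dotInt (u : Cfsg.GolayPt → ℤ) (x : Cfsg.GolayPt → ℤ) = -16}, ∃ g : ↥Cfsg.Co0, g • u = u ∧ g • x = x' :=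 by
  open Cfsg.Agent.Lib.Golay in
  obtain ⟨g, hg⟩ := toR5 u.2 hu
  refine ⟨?_, ?_⟩
  · rw [ncard_sub _ (fun x => sqNorm x = 32 ∧ dotInt (u : GolayPt → ℤ) x = -16) (fun x => Iff.rfl)]
    exact (ncard_dot1 g u.2 hg _ _).trans c_11178
  · rintro x ⟨h1, h2⟩ x' ⟨h1', h2'⟩
    rw [dotInt_comm] at h2 h2'
    obtain ⟨k, k1, k2⟩ := Eqv.two ((TH x.2 u.2 h1 hu h2).trans (TH x'.2 u.2 h1' hu h2').symm)
    exact ⟨k, k2, k1⟩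

end Cfsg.Agent.S1640
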