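import Cfsg.Statements.S1642
import Cfsg.Agent.Lib.Golay.LeechHS
import Cfsg.Agent.Lib.Golay.Misc

set_option autoImplicit false
open Cfsg

namespace Cfsg.Agent.S1642

open Cfsg.Agent.Lib.Golay Finset in
theorem main : ∃ v w : Vec, v ∈ leechLattice ∧ w ∈ leechLattice ∧ sqNorm v = 48 ∧ sqNorm w = 48 ∧ dotInt v w = -32 ∧
    ∃ g : Co0, app g v = v ∧ app g w = w ∧ (∃ z ∈ leechLattice, app g z ≠ z) ∧ (∀ z ∈ leechLattice, app g (app g z) = z) ∧
      ∀ x ∈ leechLattice, sqNorm x = 32 → dotInt v x = 24 → app g x ≠ x := by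
  have hD := dodU_mem
  have hDw := mem_dodecads.1 hD
  set D := st dodU with hDdef
  have hcompl : IsWord Dᶜ := hDw.1.compl
  have hcard : Dᶜ.card = 12 := by rw [card_compl, hDw.2, card_golayPt]
  obtain ⟨p, q, hp, hq, hpq⟩ : ∃ p q, p ∈ Dᶜ ∧ q ∈ Dᶜ ∧ p ≠ q := by
    obtain ⟨p, hp, q, hq, h⟩ := one_lt_card.1 (by rw [hcard]; norm_num : 1 < Dᶜ.card)
    exact ⟨p, q, hp, hq, h⟩
  let v : Vec := fun k => if k ∈ Dᶜ then 2 else 0
  have hv : v ∈ leechLattice := by
    refine mem_leech.2 ⟨0, ?_, ?_, ?_⟩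
    · intro k; simp only [v]; split_ifs <;> omega
    · have : ∑ k, v k = 24 := by
        simp only [v]; rw [sum_ind, hcard]; norm_num
      rw [this]; norm_num
    · have : cls v (0 + 2) = Dᶜ := by
        ext k
        rw [mem_cls]
        simp only [v]
        split_ifs with h
        · simp [h]
        · simp only [h, iff_false]; omega
      rw [this]; exact hcompl
  have dv : ∀ x : Vec, dotInt v x = 2 * ∑ k ∈ Dᶜ, x k := by
    intro x
    rw [dot_eq_sum_of_zero (O := Dᶜ) (fun k hk => by simp only [v]; rw [if_neg hk]), mul_sum]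
    refine sum_congr rfl (fun k hk => ?_)
    simp only [v]; rw [if_pos hk]
  have nv : sqNorm v = 48 := by
    rw [← dotInt_self, dv, sum_congr rfl (fun k hk => by simp only [v]; rw [if_pos hk]), sum_const, hcard]; norm_num
  have hs : sg p 4 + sg q 4 ∈ leechLattice := sg_add_mem hpq (Or.inl rfl) (Or.inl rfl)
  have ns : sqNorm (sg p 4 + sg q 4) = 32 := sqNorm_sg_add hpq (Or.inl rfl) (Or.inl rfl)
  have ds : dotInt v (sg p 4 + sg q 4) = 16 := by
    rw [dotInt_comm, dot_sg_add]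
    simp only [v]; rw [if_pos hp, if_pos hq]; norm_num
  obtain ⟨g, hg⟩ := exists_sgn hDw.1
  have gv : app g v = v := by
    rw [hg v hv]
    ext k
    unfold Cfsg.Agent.Lib.Golay.sgn
    simp only [v]
    split_ifs with h1 h2
    · exact absurd h1 (mem_compl.1 h2)
    · norm_num
    · rfl
    · rfl
  have gs : app g (sg p 4 + sg q 4) = sg p 4 + sg q 4 := by
    rw [hg _ hs, sgn_add, sgn_sg_of_notMem (mem_compl.1 hp), sgn_sg_of_notMem (mem_compl.1 hq)]
  refine ⟨v, -v + (sg p 4 + sg q 4), hv, add_mem (neg_mem hv) hs, nv, ?_, ?_, g, gv, ?_, ?_, ?_, ?_⟩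
  · rw [sqNorm_add, sqNorm_neg, dotInt_neg_left, nv, ns, ds]; norm_num
  · rw [dotInt_add_right, dotInt_neg_right, dotInt_self, nv, ds]; norm_num
  · rw [app_add g (neg_mem hv) hs, app_neg g hv, gv, gs]
  · obtain ⟨a, ha, b, hb, hab⟩ := one_lt_card.1 (by rw [hDw.2]; norm_num : 1 < D.card)
    refine ⟨sg a 4 + sg b 4, sg_add_mem hab (Or.inl rfl) (Or.inl rfl), ?_⟩
    rw [hg _ (sg_add_mem hab (Or.inl rfl) (Or.inl rfl))]
    intro h
    have h1 := congrFun h a
    unfold Cfsg.Agent.Lib.Golay.sgn sg at h1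
    simp only [ha, if_true, Pi.add_apply, if_neg hab, add_zero] at h1
    norm_num at h1
  · intro z hz
    rw [hg z hz, hg _ (sgn_mem hz hDw.1), sgn_sgn]
  · intro x hx hn hd hgx
    rw [hg x hx] at hgx
    have h0 : ∀ k ∈ D, x k = 0 := by
      intro k hk
      have := congrFun hgx k
      unfold Cfsg.Agent.Lib.Golay.sgn at this
      rw [if_pos hk] at this
      omega
    rcases shape32 hx hn with ⟨i, j, h⟩ | ⟨O, h⟩ | ⟨j, h⟩
    · have h1 : ∑ k ∈ Dᶜ, x k = x i + x j := by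
        rw [← h.sum]
        exact sum_subset (subset_univ _) (fun k _ hk => h0 k (by
          rwa [mem_compl, not_not] at hk))
      rw [dv, h1] at hd
      have := h.2.1
      have := h.2.2.1
      omega
    · have h1 := octad_dodecad_inter h.1 hD
      have h2 : (O ∩ D) = ∅ := by
        ext k
        simp only [mem_inter, notMem_empty, iff_false]
        rintro ⟨h3, h4⟩
        have := h.2.1 k h3
        have := h0 k h4
        omega
      rw [h2, card_empty] at h1
      omega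
    · obtain ⟨k, hk⟩ : D.Nonempty := by rw [← card_pos, hDw.2]; norm_num
      have h1 := h0 k hk
      by_cases hkj : k = j
      · have := h.1; rw [← hkj] at this; omega
      · have := h.2 k hkj; omega

/-- Some involution of the Higman–Sims group acts without fixed points on its 100 points. -/
theorem result (v w : ↥Cfsg.leechLattice) (hv : Cfsg.sqNorm (v : Cfsg.GolayPt → ℤ) = 48) (hw : Cfsg.sqNorm (w : Cfsg.GolayPt → ℤ) = 48) (hvw : Cfsg.dotInt (v : Cfsg.GolayPt → ℤ) (w : Cfsg.GolayPt → ℤ) = -32) : ∃ g : ↥Cfsg.Co0, g • v = v ∧ g • w = w ∧ orderOf g = 2 ∧ ∀ x ∈ {x : ↥Cfsg.leechLattice | Cfsg.sqNorm (x : Cfsg.GolayPt → ℤ) = 32 ∧ Cfsg.dotInt (v : Cfsg.GolayPt → ℤ) (x : Cfsg.GolayPt → ℤ) = 24 ∧ Cfsg.dotInt (w : Cfsg.GolayPt → ℤ) (x : Cfsg.GolayPt → ℤ) = -24}, g • x ≠ x := by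
  open Cfsg.Agent.Lib.Golay in
  obtain ⟨v1, w1, hv1, hw1, n1, n2, d1, g, g1, g2, ⟨z, hz, hzne⟩, gg, g5⟩ := main
  obtain ⟨h1, h2, h3⟩ := hs_third hv hw hvw
  obtain ⟨h1', h2', h3'⟩ := hs_third n1 n2 d1
  have hm : -((v : GolayPt → ℤ) + (w : GolayPt → ℤ)) ∈ leechLattice := neg_mem (add_mem v.2 w.2)
  have hm' : -(v1 + w1) ∈ leechLattice := neg_mem (add_mem hv1 hw1)
  obtain ⟨k, hk⟩ := (TH hm v.2 h1 hv h2).trans (TH hm' hv1 h1' n1 h2').symm
  simp only [List.map_cons, List.map_nil, List.cons.injEq, and_true] at hk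
  have kw : app k w = w1 := by
    have e : (w : GolayPt → ℤ) = -(-((v : GolayPt → ℤ) + (w : GolayPt → ℤ)) + v) := by abel
    conv_lhs => rw [e]
    rw [app_neg k (add_mem hm v.2), app_add k hm v.2, hk.1, hk.2]; abel
  have kinv : ∀ {a b : GolayPt → ℤ}, app k a = b → app k⁻¹ b = a := by
    intro a b h; rw [← h, app_inv_app]
  refine ⟨k⁻¹ * g * k, smul_eq_iff_app.2 ?_, smul_eq_iff_app.2 ?_, ?_, ?_⟩
  · rw [app_mul, app_mul, hk.2, g1]; exact kinv hk.2
  · rw [app_mul, app_mul, kw, g2]; exact kinv kw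
  · apply orderOf_eq_prime
    · rw [pow_two]
      have : g * g = 1 := by
        apply ext_app
        intro x hx
        rw [app_mul, gg x hx, app_one]
      calc k⁻¹ * g * k * (k⁻¹ * g * k) = k⁻¹ * (g * g) * k := by group
        _ = 1 := by rw [this]; group
    · intro h
      apply hzne
      have h4 : g = 1 := by
        calc g = k * (k⁻¹ * g * k) * k⁻¹ := by group
          _ = 1 := by rw [h]; group
      rw [h4, app_one]
  · rintro x ⟨e1, e2, e3⟩ hx
    have h4 := smul_eq_iff_app.1 hx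
    rw [app_mul, app_mul] at h4
    have h5 : app g (app k x) = app k x := by
      have := congrArg (app k) h4
      rwa [app_app_inv] at this
    exact g5 (app k x) (app_mem k x.2) (by rw [app_norm k x.2, e1]) (by rw [← hk.2, app_dot k v.2 x.2, e2]) h5

end Cfsg.Agent.S1642
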