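import Cfsg.Statements.S1753

set_option autoImplicit false
universe u
open Cfsg

namespace Cfsg.Agent.S1753

open Subgroup

/-- Let K be any property of groups. (1) If G is a minimal counterexample relative to K — a finite non-abelian simple group not satisfying K such that every finite non-abelian simple group of smaller order satisfies K — then every proper subgroup of G is a K-group (all its non-abelian simple sections satisfy K), since such sections have smaller order than G. (2) Consequently (induction on the order), if every finite non-abelian simple group all of whose proper subgroups are K-groups satisfies K, then every finite non-abelian simple group satisfies K. -/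
theorem result (K : ∀ (X : Type u) [Group X], Prop) :
    (∀ (G : Type u) [Group G], Cfsg.IsMinCounterexampleWith K G → Cfsg.IsKProperWith K G) ∧
      ((∀ (X : Type u) [Group X] [Finite X], IsSimpleGroup X → ¬ IsMulCommutative X → Cfsg.IsKProperWith K X → K X) →
        ∀ (G : Type u) [Group G] [Finite G], IsSimpleGroup G → ¬ IsMulCommutative G → K G) := by
  have key : ∀ (G : Type u) [Group G] [Finite G], (∀ (X : Type u) [Group X] [Finite X],
      IsSimpleGroup X → ¬ IsMulCommutative X → Nat.card X < Nat.card G → K X) → Cfsg.IsKProperWith K G := by
    intro G _ _ hG H hH H' N _ hs hc
    refine hG _ hs hc ?_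
    calc Nat.card (H' ⧸ N) ≤ Nat.card H' := Nat.card_le_card_of_surjective _ (QuotientGroup.mk'_surjective N)
      _ ≤ Nat.card H := Subgroup.card_le_card_group H'
      _ < Nat.card G := by
        rcases (Subgroup.card_le_card_group H).lt_or_eq with h | h
        · exact h
        · exact absurd (Subgroup.eq_top_of_card_eq H h) hH
  refine ⟨?_, ?_⟩
  · intro G _ ⟨hf, _, _, _, h⟩
    haveI := hf
    exact key G h
  · intro hK
    have main : ∀ (n : ℕ) (G : Type u) [Group G] [Finite G], Nat.card G ≤ n → IsSimpleGroup G →
        ¬ IsMulCommutative G → K G := by
      intro n
      induction n with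
      | zero => intro G _ _ hn; exact absurd (Nat.le_zero.mp hn) Nat.card_pos.ne'
      | succ n ih =>
        intro G _ _ hn hs hc
        refine hK G hs hc (key G ?_)
        intro X _ _ hXs hXc hlt
        exact ih X (by omega) hXs hXc
    intro G _ _ hs hc
    exact main (Nat.card G) G le_rfl hs hc

end Cfsg.Agent.S1753
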