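import Cfsg.Statements.S1754
import Cfsg.Agent.Lib.Components
import Cfsg.Agent.Lib.TiSub

set_option autoImplicit false
open Cfsg

namespace Cfsg.Agent.S1754

open Subgroup

/-- Let A be a standard subgroup of the finite group G (A quasisimple, C_G(A) tightly embedded of even order, A commuting elementwise with no other conjugate of itself, and N_G(A) = N_G(C_G(A))), and let t be an involution of G centralizing A. Then the centralizer of t lies in the normalizer of A; in particular A, viewed inside C_G(t), is a component of C_G(t). -/
theorem result {G : Type*} [Group G] [Finite G]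
    (A : Subgroup G) (hA : Cfsg.IsStandardSubgroup A) (t : G) (ht : orderOf t = 2) (htA : t ∈ Subgroup.centralizer (A : Set G)) :
    Subgroup.centralizer ({t} : Set G) ≤ Subgroup.normalizer (A : Set G) ∧
      Cfsg.IsComponent (A.subgroupOf (Subgroup.centralizer ({t} : Set G))) := by
  obtain ⟨hq, ⟨_, ht2⟩, _, hN⟩ := hA
  have hCN : centralizer ({t} : Set G) ≤ normalizer (A : Set G) := by
    intro g hg
    rw [hN]
    by_contra hcon
    have h1 := ht2 g hcon
    have h2 : t ∈ (centralizer (A : Set G)) ⊓ (centralizer (A : Set G)).map (MulAut.conj g).toMonoidHom := by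
      refine mem_inf.mpr ⟨htA, ⟨t, htA, ?_⟩⟩
      change g * t * g⁻¹ = t
      rw [mem_centralizer_singleton_iff.mp hg, mul_inv_cancel_right]
    have h3 : 2 ∣ Nat.card ↥((centralizer (A : Set G)) ⊓ (centralizer (A : Set G)).map (MulAut.conj g).toMonoidHom) := by
      rw [← ht, ← orderOf_mk t h2]
      exact orderOf_dvd_natCard _
    exact (Nat.not_even_iff_odd.mpr h1) (even_iff_two_dvd.mpr h3)
  refine ⟨hCN, ?_, ?_⟩
  · have h1 : (A.subgroupOf (centralizer ({t} : Set G))).Normal := by
      refine ⟨fun x hx g => ?_⟩
      rw [mem_subgroupOf] at hx ⊢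
      exact (mem_normalizer_iff.mp (hCN g.2) x).mp hx
    exact h1.isSubnormal
  · have hle : A ≤ centralizer ({t} : Set G) := by
      intro a ha
      rw [mem_centralizer_singleton_iff]
      exact mem_centralizer_iff.mp htA a ha
    exact Cfsg.Agent.Lib.Components.quasisimple_of_equiv (subgroupOfEquivOfLe hle).symm hq

end Cfsg.Agent.S1754
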