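import Cfsg.Statements.S1755
import Cfsg.Agent.Lib.Components
import Cfsg.Agent.Lib.TiSub

set_option autoImplicit false
open Cfsg

namespace Cfsg.Agent.S1755

open Subgroup Cfsg.Agent.Lib.TiSub

/-- Let G be a finite group and let z be an involution of G such that Q, the generalized Fitting subgroup of the centralizer C of z, is a 2-group of symplectic type (every characteristic abelian subgroup of Q is cyclic). Let B be a characteristic abelian subgroup of Q, viewed as a subgroup of G. Then for every g in G, the conjugate of B by g either equals B or meets B trivially. -/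
theorem result {G : Type*} [Group G] [Finite G] (z : G) (hz : orderOf z = 2) (hQ : Cfsg.IsOfSymplecticType ↥(Cfsg.generalizedFittingSubgroup ↥(Subgroup.centralizer ({z} : Set G))))
    (B : Subgroup ↥(Cfsg.generalizedFittingSubgroup ↥(Subgroup.centralizer ({z} : Set G)))) (hBc : B.Characteristic) (hBa : IsMulCommutative ↥B) (g : G) :
    ((B.map (Cfsg.generalizedFittingSubgroup ↥(Subgroup.centralizer ({z} : Set G))).subtype).map (Subgroup.centralizer ({z} : Set G)).subtype).map (MulAut.conj g).toMonoidHom =
        (B.map (Cfsg.generalizedFittingSubgroup ↥(Subgroup.centralizer ({z} : Set G))).subtype).map (Subgroup.centralizer ({z} : Set G)).subtype ∨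
      ((B.map (Cfsg.generalizedFittingSubgroup ↥(Subgroup.centralizer ({z} : Set G))).subtype).map (Subgroup.centralizer ({z} : Set G)).subtype).map (MulAut.conj g).toMonoidHom ⊓
        (B.map (Cfsg.generalizedFittingSubgroup ↥(Subgroup.centralizer ({z} : Set G))).subtype).map (Subgroup.centralizer ({z} : Set G)).subtype = ⊥ := by
  have hzC : z ∈ centralizer ({z} : Set G) := by rw [mem_centralizer_singleton_iff]
  have hzF : (⟨z, hzC⟩ : centralizer ({z} : Set G)) ∈ Cfsg.generalizedFittingSubgroup ↥(centralizer ({z} : Set G)) := by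
    have h1 : (zpowers (⟨z, hzC⟩ : centralizer ({z} : Set G))).Normal := by
      refine ⟨fun y hy g => ?_⟩
      obtain ⟨k, rfl⟩ := mem_zpowers_iff.mp hy
      have h4 : g * (⟨z, hzC⟩ : centralizer ({z} : Set G)) = (⟨z, hzC⟩ : centralizer ({z} : Set G)) * g :=
        Subtype.ext (mem_centralizer_singleton_iff.mp g.2)
      have h5 : g * (⟨z, hzC⟩ : centralizer ({z} : Set G)) ^ k = (⟨z, hzC⟩ : centralizer ({z} : Set G)) ^ k * g :=
        ((show Commute g (⟨z, hzC⟩ : centralizer ({z} : Set G)) from h4).zpow_right k).eq
      rw [h5, mul_inv_cancel_right]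
      exact hy
    have h2 : zpowers (⟨z, hzC⟩ : centralizer ({z} : Set G)) ≤ Cfsg.fittingSubgroup _ :=
      Cfsg.Agent.Lib.Components.subnormal_nilpotent_le_fitting h1.isSubnormal
        (Cfsg.Agent.Lib.Components.isNilpotent_of_isMulCommutative inferInstance)
    exact Cfsg.Agent.Lib.Components.fitting_le_generalizedFitting (h2 (mem_zpowers _))
  exact sympl_ti hz rfl Cfsg.Agent.Lib.Components.generalizedFitting_normal hzC hzF hQ B hBc hBa g

end Cfsg.Agent.S1755
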