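import Cfsg.Statements.S5395
import Cfsg.Agent.Lib.ExSp

set_option autoImplicit false
open Cfsg

namespace Cfsg.Agent.S5395

open Subgroup Cfsg.Agent.Lib.ExSp
open scoped commutatorElement

/-- For a finite extraspecial 2-group E, an automorphism of E that induces the identity on E modulo its centre is inner (so these automorphisms form exactly the inner automorphism group, an elementary abelian 2-group of order |E|/2). -/
theorem result {E : Type*} [Group E] [Finite E] (hE : Cfsg.IsExtraspecial 2 E) (φ : E ≃* E) (hφ : ∀ x : E, φ x * x⁻¹ ∈ Subgroup.center E) : ∃ g : E, ∀ x : E, φ x = g * x * g⁻¹ := by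
  classical
  haveI : Fact (Nat.Prime 2) := ⟨Nat.prime_two⟩
  obtain ⟨z, D⟩ := dat_of hE
  have hcz : ∀ c : E, c ∈ center E → c = 1 ∨ c = z := by
    intro c hc
    have h1 : c ∈ zpowers z := D.cen c (fun y => ((mem_center_iff.mp hc) y).symm)
    obtain ⟨n, rfl⟩ := mem_zpowers_iff.mp h1
    have h2 : z ^ 2 = 1 := by rw [← D.ord, pow_orderOf_eq_one]
    rcases Int.even_or_odd' n with ⟨m, hm | hm⟩
    · left; rw [hm, zpow_mul, zpow_ofNat, h2, one_zpow]
    · right; rw [hm, zpow_add, zpow_mul, zpow_ofNat, h2, one_zpow, one_mul, zpow_one]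
  have hz1 : z ≠ 1 := fun h => by have := D.ord; rw [h, orderOf_one] at this; norm_num at this
  by_cases hid : ∀ x : E, φ x = x
  · exact ⟨1, fun x => by rw [hid x]; group⟩
  let H : Subgroup E := 
    { carrier := {x | φ x = x}
      one_mem' := map_one φ
      mul_mem' := fun {a b} ha hb => by
        change φ (a * b) = a * b
        rw [map_mul, show φ a = a from ha, show φ b = b from hb]
      inv_mem' := fun {a} ha => by
        change φ a⁻¹ = a⁻¹
        rw [map_inv, show φ a = a from ha] }
  have hmul : ∀ x y : E, φ (x * y) * (x * y)⁻¹ = (φ x * x⁻¹) * (φ y * y⁻¹) := by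
    intro x y
    have h1 := mem_center_iff.mp (hφ y) (φ x)
    calc φ (x * y) * (x * y)⁻¹ = (φ x * (φ y * y⁻¹)) * x⁻¹ := by rw [map_mul]; group
      _ = (φ y * y⁻¹) * (φ x * x⁻¹) := by rw [h1]; group
      _ = (φ x * x⁻¹) * (φ y * y⁻¹) := (mem_center_iff.mp (hφ y) _).symm
  have hHm : ∀ x, x ∈ H ↔ φ x * x⁻¹ = 1 := fun x => by
    rw [mul_inv_eq_one]; exact Iff.rfl
  have hout : ∀ x, x ∉ H → φ x * x⁻¹ = z := fun x hx =>
    (hcz _ (hφ x)).resolve_left (fun h => hx ((hHm x).mpr h))
  have hzz : z * z = 1 := by rw [← pow_two, ← D.ord, pow_orderOf_eq_one]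
  push Not at hid
  obtain ⟨a, ha⟩ := hid
  have haH : a ∉ H := ha
  have hidx : H.index = 2 := by
    rw [index_eq_two_iff]
    refine ⟨a, fun b => ?_⟩
    by_cases hb : b ∈ H
    · right
      refine ⟨hb, fun h => haH ?_⟩
      rw [hHm] at h hb ⊢
      rw [hmul, hb, one_mul] at h
      exact h
    · left
      refine ⟨?_, hb⟩
      rw [hHm, hmul, hout b hb, hout a haH, hzz]
  have hzH : z ∈ H := by
    rw [hHm]
    rcases hcz _ (hφ z) with h | h
    · exact h
    · exfalso
      have : φ z = 1 := by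
        calc φ z = (φ z * z⁻¹) * z := by group
          _ = 1 := by rw [h, hzz]
      exact hz1 (by rw [← map_one φ] at this; exact φ.injective this)
  have hw : ∃ w ∈ H, (∀ y ∈ H, w * y = y * w) ∧ w ∉ zpowers z := by
    by_contra hcon
    push Not at hcon
    have DH : Dat 2 (⟨z, hzH⟩ : H) := by
      have hz' : ∀ c : H, (c : E) ∈ zpowers z → c ∈ zpowers (⟨z, hzH⟩ : H) := by
        intro c hc
        obtain ⟨n, hn⟩ := mem_zpowers_iff.mp hc
        exact mem_zpowers_iff.mpr ⟨n, Subtype.ext (by simpa using hn)⟩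
      refine ⟨by rw [orderOf_mk]; exact D.ord, fun x => Subtype.ext (D.zc x), fun x y => hz' _ ?_, fun x hx => hz' _ ?_⟩
      · exact D.comm x y
      · exact hcon x x.2 (fun y hy => congrArg Subtype.val (hx ⟨y, hy⟩))
    obtain ⟨m, hm⟩ := card_odd (Nat.card E) E z D le_rfl
    obtain ⟨n, hn⟩ := card_odd (Nat.card H) H _ DH le_rfl
    have h1 := H.card_mul_index
    rw [hidx, hm, hn, ← pow_succ] at h1
    have := Nat.pow_right_injective le_rfl h1
    omega
  obtain ⟨w, hwH, hwc, hwz⟩ := hw
  refine ⟨w, fun x => ?_⟩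
  have hwx : ⁅w, x⁆ = φ x * x⁻¹ := by
    by_cases hx : x ∈ H
    · rw [(hHm x).mp hx, commutatorElement_eq_one_iff_mul_comm]
      exact hwc x hx
    · rw [hout x hx]
      have h1 : ⁅w, x⁆ ∈ center E := by
        rw [mem_center_iff]; intro y; exact (D.comm_c w x y).eq
      rcases hcz _ h1 with h | h
      · exfalso
        apply hwz
        apply D.cen
        intro y
        by_cases hy : y ∈ H
        · exact hwc y hy
        · have h2 : y * x⁻¹ ∈ H := by
            rw [mul_mem_iff_of_index_two hidx]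
            exact ⟨fun h => absurd h hy, fun h => absurd (inv_mem_iff.mp h) hx⟩
          have h3 : w * x = x * w := commutatorElement_eq_one_iff_mul_comm.mp h
          calc w * y = (w * (y * x⁻¹)) * x := by group
            _ = (y * x⁻¹) * (w * x) := by rw [hwc _ h2, mul_assoc]
            _ = y * w := by rw [h3]; group
      · exact h
  calc φ x = (φ x * x⁻¹) * x := by group
    _ = ⁅w, x⁆ * x := by rw [hwx]
    _ = w * x * w⁻¹ := by rw [commutatorElement_def]; group

end Cfsg.Agent.S5395
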