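import Cfsg.Statements.S1756
import Cfsg.Agent.Lib.ExSpC
import Cfsg.Agent.S5395

set_option autoImplicit false
open Cfsg

namespace Cfsg.Agent.S1756

open Subgroup Cfsg.Agent.Lib.ExSp Cfsg.Agent.Lib.ExSpC

/-- Let Q be an extraspecial 2-subgroup of the finite group G (special with centre of order 2) and t an involution of G normalizing Q such that the centralizer of t in Q has index at most 2 in Q. Then t lies in the product of Q with the centralizer of Q. -/
theorem result {G : Type*} [Group G] [Finite G] (Q : Subgroup G)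
    (hQ : Cfsg.IsExtraspecial 2 ↥Q) (t : G) (ht : orderOf t = 2) (htN : t ∈ Subgroup.normalizer (Q : Set G))
    (hi : (Subgroup.centralizer ({t} : Set G) ⊓ Q).relIndex Q ≤ 2) :
    t ∈ Q ⊔ Subgroup.centralizer (Q : Set G) := by
  obtain ⟨z, D⟩ := dat_of hQ
  have htt : t * t = 1 := by rw [← pow_two, ← ht, pow_orderOf_eq_one]
  let φ : MulAut Q := Q.normalizerMonoidHom ⟨t, htN⟩
  have hφ : ∀ b : Q, ((φ b : Q) : G) = t * b * t⁻¹ := fun b => rfl
  have h2 : ∀ b : Q, φ (φ b) = b := by
    intro b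
    apply Subtype.ext
    rw [hφ, hφ]
    calc t * (t * b * t⁻¹) * t⁻¹ = (t * t) * b * (t * t)⁻¹ := by group
      _ = b := by rw [htt]; group
  have hcen := central_of_index_two D φ h2 ((centralizer ({t} : Set G) ⊓ Q).subgroupOf Q) (by
    intro x hx
    apply Subtype.ext
    rw [hφ]
    have h3 := mem_centralizer_singleton_iff.mp (mem_inf.mp (mem_subgroupOf.mp hx)).1
    rw [← h3, mul_inv_cancel_right]) hi
  obtain ⟨g, hg⟩ := Cfsg.Agent.S5395.result hQ φ hcen
  have h3 : (g : G)⁻¹ * t ∈ centralizer (Q : Set G) := by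
    rw [mem_centralizer_iff]
    intro q hq
    have h4 := congrArg Subtype.val (hg ⟨q, hq⟩)
    rw [hφ] at h4
    have h5 : t * q * t⁻¹ = g * q * (g : G)⁻¹ := h4
    calc q * ((g : G)⁻¹ * t) = (g : G)⁻¹ * (g * q * (g : G)⁻¹) * t := by group
      _ = (g : G)⁻¹ * t * q := by rw [← h5]; group
  have h4 : t = g * ((g : G)⁻¹ * t) := by group
  rw [h4]
  exact mul_mem (mem_sup_left g.2) (mem_sup_right h3)

end Cfsg.Agent.S1756
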