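import Cfsg.Statements.S1958
import Cfsg.Agent.Lib.PConB
import Cfsg.Agent.Lib.PSolB

set_option autoImplicit false
open Cfsg
open Cfsg Subgroup Cfsg.Agent.Lib Cfsg.Agent.Lib.Basic Cfsg.Agent.Lib.Cores Cfsg.Agent.Lib.Coprime Cfsg.Agent.Lib.PCon Cfsg.Agent.Lib.PConB

namespace Cfsg.Agent.S1958

theorem cen_le {G : Type*} [Group G] [Finite G] {p : ℕ} [Fact p.Prime] [(Cfsg.pPrimeCore p G).Normal]
    (h : Cst p (G ⧸ Cfsg.pPrimeCore p G)) {P : Subgroup G}
    (hP : IsPGroup p P) : (Cfsg.pPrimeCore p (centralizer (P : Set G))).map (centralizer (P : Set G)).subtype ≤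
      Cfsg.pPrimeCore p G := by
  have hO := pPrimeCore_coprime (G := G) p
  set N := centralizer (P : Set G) with hNd
  set π := QuotientGroup.mk' (Cfsg.pPrimeCore p G) with hπ
  have hN : N.map π = centralizer ((P.map π : Subgroup _) : Set _) :=
    le_antisymm (centralizer_le_map π P) (Cfsg.Agent.Lib.ThompsonP.centralizer_map_le hP hO)
  have h1 := pPrimeCore_eq_bot_of_cst (cst_centralizer h (hP.map π))
  rw [← hN] at h1
  have h2 := pPrimeCore_map_le p (π.subgroupMap N) (MonoidHom.subgroupMap_surjective _ N)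
  rw [h1] at h2
  rintro _ ⟨x, hx, rfl⟩
  have h3 := h2 (mem_map_of_mem _ hx)
  rw [mem_bot] at h3
  exact (QuotientGroup.eq_one_iff _).mp (congrArg Subtype.val h3)

theorem half {G : Type*} [Group G] [Finite G]
    (p : ℕ) [Fact p.Prime] (x y : G) (hx : orderOf x = p) (hxy : x * y = y * x)
    (hCy : Group.IsSolvable ↥(Subgroup.centralizer ({y} : Set G))) :
    Cfsg.centralizerPPrimeCore p x ⊓ Subgroup.centralizer {y} ≤ Cfsg.centralizerPPrimeCore p y := by
  set Y := Subgroup.centralizer ({y} : Set G) with hY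
  have hxY : x ∈ Y := Subgroup.mem_centralizer_singleton_iff.2 hxy
  let x' : Y := ⟨x, hxY⟩
  have hx' : IsPGroup p (Subgroup.zpowers x') := by
    refine IsPGroup.of_card (n := 1) ?_
    rw [Nat.card_zpowers, pow_one, ← hx]
    exact (Subgroup.orderOf_coe x').symm
  haveI := pPrimeCore_normal (G := Y) p
  have hps : Cfsg.IsPSolvable p Y := PSolB.of_isSolvable _ Y p le_rfl hCy
  have h1 := cen_le (cst_of_isPSolvable hps) hx'
  set C := centralizer ((Subgroup.zpowers x' : Subgroup Y) : Set Y) with hC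
  have hCx : ∀ c ∈ C, (c : G) ∈ Subgroup.centralizer ({x} : Set G) := by
    intro c hc
    have h2 := (Subgroup.mem_centralizer_iff.1 hc) x' (Subgroup.mem_zpowers x')
    exact Subgroup.mem_centralizer_singleton_iff.2 (congrArg Subtype.val h2).symm
  let K : Subgroup Y := (Cfsg.centralizerPPrimeCore p x).subgroupOf Y
  have hKC : K ≤ C := by
    intro k hk
    have hk' : (k : G) ∈ Cfsg.centralizerPPrimeCore p x := hk
    obtain ⟨k0, hk0, hk1⟩ := hk'
    have h2 : (k : G) * x = x * (k : G) := by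
      rw [← hk1]
      exact Subgroup.mem_centralizer_singleton_iff.1 k0.2
    rw [hC, Subgroup.mem_centralizer_iff]
    intro z hz
    have h3 : Commute (k : Y) x' := Subtype.ext h2
    obtain ⟨m, rfl⟩ := Subgroup.mem_zpowers_iff.1 hz
    exact (h3.zpow_right m).eq.symm
  have hKn : (K.subgroupOf C).Normal := by
    refine ⟨fun k hk c => ?_⟩
    have hk' : ((k : Y) : G) ∈ Cfsg.centralizerPPrimeCore p x := hk
    obtain ⟨k0, hk0, hk1⟩ := hk'
    haveI := pPrimeCore_normal (G := Subgroup.centralizer ({x} : Set G)) p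
    have hc : ((c : Y) : G) ∈ Subgroup.centralizer ({x} : Set G) := hCx c c.2
    have h2 := Subgroup.Normal.conj_mem this k0 hk0 ⟨((c : Y) : G), hc⟩
    show (((c * k * c⁻¹ : C) : Y) : G) ∈ Cfsg.centralizerPPrimeCore p x
    refine ⟨_, h2, ?_⟩
    show ((c : Y) : G) * (k0 : G) * ((c : Y) : G)⁻¹ = ((c : Y) : G) * ((k : Y) : G) * ((c : Y) : G)⁻¹
    rw [← hk1]; rfl
  have hKc : (Nat.card (K.subgroupOf C)).Coprime p := by
    have h2 : Nat.card (K.subgroupOf C) = Nat.card K := Nat.card_congr (Subgroup.subgroupOfEquivOfLe hKC).toEquiv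
    have h3 : Nat.card K ∣ Nat.card (Cfsg.centralizerPPrimeCore p x) := by
      have h4 : Nat.card (K.map Y.subtype) = Nat.card K := Subgroup.card_map_of_injective Y.subtype_injective
      rw [← h4]
      apply Subgroup.card_dvd_of_le
      rintro _ ⟨k, hk, rfl⟩
      exact hk
    have h4 : Nat.card (Cfsg.centralizerPPrimeCore p x) = Nat.card (pPrimeCore p (Subgroup.centralizer ({x} : Set G))) :=
      Subgroup.card_map_of_injective (Subgroup.subtype_injective _)
    rw [h2]
    exact Nat.Coprime.coprime_dvd_left (h3.trans h4.dvd) (pPrimeCore_coprime p)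
  have h2 := le_pPrimeCore hKn hKc
  rintro g ⟨hg1, hg2⟩
  have h3 : (⟨g, hg2⟩ : Y) ∈ K := hg1
  have h4 : (⟨⟨g, hg2⟩, hKC h3⟩ : C) ∈ K.subgroupOf C := h3
  have h5 : (⟨g, hg2⟩ : Y) ∈ pPrimeCore p Y := h1 ⟨_, h2 h4, rfl⟩
  exact ⟨_, h5, rfl⟩

/-- Let `G` be a finite group, `p` a prime, and `x, y` commuting elements of order `p` whose centralizers `C_G(x)` and `C_G(y)` are both solvable. Then `O_{p'}(C_G(x)) ∩ C_G(y) = O_{p'}(C_G(y)) ∩ C_G(x)` (balance). -/
theorem result {G : Type*} [Group G] [Finite G]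
    (p : ℕ) [Fact p.Prime] (x y : G) (hx : orderOf x = p) (hy : orderOf y = p) (hxy : x * y = y * x)
    (hCx : Group.IsSolvable ↥(Subgroup.centralizer ({x} : Set G))) (hCy : Group.IsSolvable ↥(Subgroup.centralizer ({y} : Set G))) :
    Cfsg.centralizerPPrimeCore p x ⊓ Subgroup.centralizer {y} = Cfsg.centralizerPPrimeCore p y ⊓ Subgroup.centralizer {x} := by
  apply le_antisymm
  · exact le_inf (half p x y hx hxy hCy) (inf_le_left.trans (by
      rintro _ ⟨k, -, rfl⟩
      exact k.2))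
  · exact le_inf (half p y x hy hxy.symm hCx) (inf_le_left.trans (by
      rintro _ ⟨k, -, rfl⟩
      exact k.2))

end Cfsg.Agent.S1958
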