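import Cfsg.Statements.S1965
import Cfsg.Agent.Lib.CFunA

set_option autoImplicit false
open Cfsg
open Cfsg.Agent.Lib.CFunA Cfsg.Agent.Lib.SylRel

namespace Cfsg.Agent.S1965

/-- Let p be a prime, G a finite group with Sylow p-subgroup S and 𝓕 a set of subgroups of S. Suppose that every subgroup T of S is G-conjugate to some member U of 𝓕 for which N_S(U) is a Sylow p-subgroup of N_G(U). Then 𝓕 is a conjugation family for S in G. -/
theorem result {G : Type*} [Group G] [Finite G] {p : ℕ} [Fact p.Prime] (S : Sylow p G) (𝓕 : Set (Subgroup G)) (h𝓕 : ∀ U ∈ 𝓕, U ≤ (S : Subgroup G)) (h : ∀ T : Subgroup G, T ≤ (S : Subgroup G) → ∃ U ∈ 𝓕, (∃ g : G, T.map (MulAut.conj g).toMonoidHom = U) ∧ ¬ p ∣ ((S : Subgroup G) ⊓ Subgroup.normalizer ((U : Subgroup G) : Set G)).relIndex (Subgroup.normalizer ((U : Subgroup G) : Set G))) : Cfsg.IsConjugationFamily 𝓕 (S : Subgroup G) := by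
  refine conjugationFamily_of (sylIn_of_sylow S) 𝓕 h𝓕 fun T hT => ?_
  obtain ⟨U, hU, ⟨g, hg⟩, hs⟩ := h T hT
  subst hg
  exact ⟨g, hU, h𝓕 _ hU, (sylIn_inf_iff (sylIn_of_sylow S)).2 hs⟩

end Cfsg.Agent.S1965
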