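import Cfsg.Statements.S1966
import Cfsg.Agent.Lib.CFunA
import Cfsg.Agent.Lib.Cores

set_option autoImplicit false
open Cfsg
open Cfsg.Agent.Lib.CFunA Cfsg.Agent.Lib.SylRel

namespace Cfsg.Agent.S1966

/-- Let p be a prime, G a finite group with Sylow p-subgroup S and 𝓕 a conjugation family for S in G. Then the members of 𝓕 containing O_p(G) still form a conjugation family for S in G. -/
theorem result {G : Type*} [Group G] [Finite G] {p : ℕ} [Fact p.Prime] (S : Sylow p G) (𝓕 : Set (Subgroup G)) (h : Cfsg.IsConjugationFamily 𝓕 (S : Subgroup G)) : Cfsg.IsConjugationFamily {T : Subgroup G | T ∈ 𝓕 ∧ Cfsg.pCore p G ≤ T} (S : Subgroup G) := by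
  refine ⟨fun T hT => h.1 T hT.1, fun A g hAn hA hgA => ?_⟩
  have hO := Cfsg.Agent.Lib.Cores.pCore_le_sylow (p := p) S
  have hn := Cfsg.Agent.Lib.Cores.pCore_normal (G := G) p
  have hOc : ∀ x : G, (fun a => x⁻¹ * a * x) '' ((pCore p G : Subgroup G) : Set G) = ((pCore p G : Subgroup G) : Set G) := by
    intro x
    ext y
    constructor
    · rintro ⟨a, ha, rfl⟩
      have := hn.conj_mem a ha x⁻¹
      rwa [inv_inv] at this
    · intro hy
      refine ⟨x * y * x⁻¹, hn.conj_mem y hy x, by group⟩
  obtain ⟨n, T, x, h1, h2, h3, h4, h5⟩ := h.2 (A ∪ ((pCore p G : Subgroup G) : Set G)) g (hAn.inl) (Set.union_subset hA hO) (by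
    rw [Set.image_union, hOc]; exact Set.union_subset hgA hO)
  refine ⟨n, T, x, h1, ?_, h3, fun hn0 => (Set.subset_union_left).trans (h4 hn0), fun i hi => ?_⟩
  · intro i
    refine ⟨h2 i, ?_⟩
    obtain ⟨iv, hiv⟩ := i
    cases iv with
    | zero => exact (Set.subset_union_right).trans (h4 hiv)
    | succ j =>
      have := h5 ⟨j, by omega⟩ hiv
      rw [Set.image_union, hOc] at this
      exact (Set.subset_union_right).trans this
  · have := h5 i hi
    rw [Set.image_union] at this
    exact (Set.subset_union_left).trans this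

end Cfsg.Agent.S1966
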