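import Cfsg.Statements.S1969
import Cfsg.Agent.Lib.CSecC

set_option autoImplicit false
universe u
open Cfsg
open Cfsg.Agent.Lib.CSecA Cfsg.Agent.Lib.CSecB Cfsg.Agent.Lib.CSecC Cfsg.Agent.Lib.SylRel Cfsg.Agent.Lib.CFunC

namespace Cfsg.Agent.S1969

/-- Let p be a prime, G a finite group and W an isomorphism-invariant p-group functor (W assigns to every group Q a subgroup W(Q), nontrivial whenever Q is a nontrivial finite p-group, and every isomorphism from a finite p-group Q onto a group R carries W(Q) onto W(R)). Suppose that W(S*) is normal in G* whenever G* = K/R is a section of G with C_{G*}(O_p(G*)) ≤ O_p(G*) and S* is a Sylow p-subgroup of G*. Then W controls strong fusion in every section of G: for every section K/R and every Sylow p-subgroup T of K/R, the subgroup W(T) controls strong fusion in K/R. -/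
theorem result {G : Type u} [Group G] [Finite G] {p : ℕ} [Fact p.Prime] (W : ∀ (Q : Type u) [Group Q], Subgroup Q) (hW : Cfsg.IsCharPFunctor.{u} p W) (hloc : ∀ (K R : Subgroup G) [hR : (R.subgroupOf K).Normal], Subgroup.centralizer ((Cfsg.pCore p (↥K ⧸ R.subgroupOf K) : Subgroup (↥K ⧸ R.subgroupOf K)) : Set (↥K ⧸ R.subgroupOf K)) ≤ Cfsg.pCore p (↥K ⧸ R.subgroupOf K) → ∀ T : Sylow p (↥K ⧸ R.subgroupOf K), (Cfsg.inducedFunctor (G := (↥K ⧸ R.subgroupOf K)) W ((T : Subgroup (↥K ⧸ R.subgroupOf K)))).Normal) : ∀ (K R : Subgroup G) [hR : (R.subgroupOf K).Normal], ∀ T : Sylow p (↥K ⧸ R.subgroupOf K), Cfsg.ControlsStrongFusion p (Cfsg.inducedFunctor (G := (↥K ⧸ R.subgroupOf K)) W ((T : Subgroup (↥K ⧸ R.subgroupOf K)))) := by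
  have h𝓦 : ∀ V ∈ ({W} : Set (∀ (Q : Type u) [Group Q], Subgroup Q)), IsCharPFunctor.{u} p V := by
    rintro _ rfl; exact hW
  have hsec : Sec (fun (X : Type u) [Group X] => ∀ _ : Finite X, Constrained p X →
      ∀ S : Subgroup X, SylIn p S ⊤ → (inducedFunctor (G := X) W S).Normal) G := by
    refine sec_of_forall ?_ ?_
    · intro X Y _ _ e h _ hY S hS
      haveI : Finite X := Finite.of_equiv Y e.symm.toEquiv
      have h1 := h inferInstance (constrained_equiv e.symm hY) (S.map e.symm.toMonoidHom) (sylIn_equiv e.symm hS)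
      rw [← ind_equiv e hW hS]
      exact h1.map _ e.surjective
    · intro K L _ _ hc S hS
      obtain ⟨P, rfl⟩ := sylIn_exists hS
      exact hloc K L hc P
  intro K R _ T
  refine controls_of_fs hW ?_ T
  refine FS_ind h𝓦 (sec_closed _) (fun X _ _ hX _ hc S hS A g hA hgA => ?_) _ (hsec.section K R)
  have hn := hX.self inferInstance hc S hS
  have hg : g ∈ NW ({W} : Set (∀ (Q : Type u) [Group Q], Subgroup Q)) S := by
    rw [nw_singleton, Subgroup.normalizer_eq_top_iff.2 hn]; trivial
  have := FDec.step (A : Set X) g 1 hA hg (FDec.refl _ _ (by rw [← coe_cj]; exact hgA) (fun a _ => by group))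
  rwa [one_mul] at this

end Cfsg.Agent.S1969
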