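import Cfsg.Statements.S1970
import Cfsg.Agent.Lib.CSecD

set_option autoImplicit false
universe u
open Cfsg
open Cfsg.Agent.Lib.CSecA Cfsg.Agent.Lib.CSecB Cfsg.Agent.Lib.CSecC Cfsg.Agent.Lib.CSecD Cfsg.Agent.Lib.SylRel

namespace Cfsg.Agent.S1970

/-- Let p be a prime, G a finite group and W an isomorphism-invariant p-group functor (W assigns to every group Q a subgroup W(Q), nontrivial whenever Q is a nontrivial finite p-group, and every isomorphism from a finite p-group Q onto a group R carries W(Q) onto W(R)). Suppose that for every section G* = K/R of G with C_{G*}(O_p(G*)) ≤ O_p(G*) and every Sylow p-subgroup S* of G*, one has O_p(G*) ∩ (G*)' = O_p(G*) ∩ (N_{G*}(W(S*)))'. Then W controls transfer in every section G* of G: S* ∩ (G*)' = S* ∩ (N_{G*}(W(S*)))' for a Sylow p-subgroup S* of G*. -/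
theorem result {G : Type u} [Group G] [Finite G] {p : ℕ} [Fact p.Prime] (W : ∀ (Q : Type u) [Group Q], Subgroup Q) (hW : Cfsg.IsCharPFunctor.{u} p W) (hloc : ∀ (K R : Subgroup G) [hR : (R.subgroupOf K).Normal], Subgroup.centralizer ((Cfsg.pCore p (↥K ⧸ R.subgroupOf K) : Subgroup (↥K ⧸ R.subgroupOf K)) : Set (↥K ⧸ R.subgroupOf K)) ≤ Cfsg.pCore p (↥K ⧸ R.subgroupOf K) → ∀ T : Sylow p (↥K ⧸ R.subgroupOf K), Cfsg.pCore p (↥K ⧸ R.subgroupOf K) ⊓ commutator (↥K ⧸ R.subgroupOf K) = Cfsg.pCore p (↥K ⧸ R.subgroupOf K) ⊓ ⁅Subgroup.normalizer ((Cfsg.inducedFunctor (G := (↥K ⧸ R.subgroupOf K)) W ((T : Subgroup (↥K ⧸ R.subgroupOf K))) : Subgroup (↥K ⧸ R.subgroupOf K)) : Set (↥K ⧸ R.subgroupOf K)), Subgroup.normalizer ((Cfsg.inducedFunctor (G := (↥K ⧸ R.subgroupOf K)) W ((T : Subgroup (↥K ⧸ R.subgroupOf K))) : Subgroup (↥K ⧸ R.subgroupOf K)) : Set (↥K ⧸ R.subgroupOf K))⁆) : ∀ (K R : Subgroup G) [hR : (R.subgroupOf K).Normal], Cfsg.ControlsTransferIn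 p (Cfsg.inducedFunctor (G := (↥K ⧸ R.subgroupOf K)) W) ⊤ := by
  have h𝓦 : ∀ V ∈ ({W} : Set (∀ (Q : Type u) [Group Q], Subgroup Q)), IsCharPFunctor.{u} p V := by
    rintro _ rfl; exact hW
  have hsec : Sec (fun (X : Type u) [Group X] => ∀ _ : Finite X, Constrained p X → ∀ S : Subgroup X, SylIn p S ⊤ →
      pCore p X ⊓ ⁅(⊤ : Subgroup X), (⊤ : Subgroup X)⁆ ≤ Th {W} S) G := by
    refine sec_of_forall ?_ ?_
    · intro X Y _ _ e h _ hY S hS
      haveI : Finite X := Finite.of_equiv Y e.symm.toEquiv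
      have h1 := h inferInstance (constrained_equiv e.symm hY) _ (sylIn_equiv e.symm hS)
      have h2 := Subgroup.map_mono (f := e.toMonoidHom) h1
      rw [th_equiv h𝓦 e (sylIn_equiv e.symm hS), Subgroup.map_inf _ _ _ e.injective, Subgroup.map_commutator,
        Subgroup.map_top_of_surjective _ e.surjective, map_symm_map] at h2
      have h3 : (pCore p X).map e.toMonoidHom = pCore p Y := Cfsg.Agent.Lib.Cores.pCore_map_equiv p e
      rwa [h3] at h2
    · intro K L _ _ hc S hS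
      obtain ⟨P, rfl⟩ := sylIn_exists hS
      have h1 := hloc K L hc P
      rw [← commutator_def, h1]
      refine le_trans (inf_le_inf_right _ (Cfsg.Agent.Lib.Cores.pCore_le_sylow P)) ?_
      exact le_th (Set.mem_singleton W)
  intro K R _
  rw [ft_iff_single hW]
  refine FT_ind h𝓦 (sec_closed _) (fun X _ _ hX _ hc S hS => ?_) _ (hsec.section K R)
  exact (Sec.self hX : ∀ _ : Finite X, Constrained p X → ∀ S : Subgroup X, SylIn p S ⊤ →
      pCore p X ⊓ ⁅(⊤ : Subgroup X), (⊤ : Subgroup X)⁆ ≤ Th {W} S) inferInstance hc S hS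

end Cfsg.Agent.S1970
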