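import Cfsg.Statements.S1972
import Cfsg.Agent.Lib.CSecE

set_option autoImplicit false
universe u
open Cfsg
open Cfsg.Agent.Lib.CSecA Cfsg.Agent.Lib.CSecB Cfsg.Agent.Lib.CSecC Cfsg.Agent.Lib.CSecD Cfsg.Agent.Lib.CSecE Cfsg.Agent.Lib.SylRel Cfsg.Agent.Lib.TraceB

namespace Cfsg.Agent.S1972

/-- Let p be a prime, G a finite group and W an isomorphism-invariant p-group functor (W assigns to every group Q a subgroup W(Q), nontrivial whenever Q is a nontrivial finite p-group, and every isomorphism from a finite p-group Q onto a group R carries W(Q) onto W(R)). Suppose that whenever G* = K/R is a section of G with C_{G*}(O_p(G*)) ≤ O_p(G*) and S* is a Sylow p-subgroup of G* with W(S*) not normal in G*, there is an element g of S* outside O_p(G*) such that [X, g, …, g] ≤ Y with p − 1 entries g, for every chief factor X/Y of G* with X ≤ O_p(G*). Then W controls transfer in every section of G. -/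
theorem result {G : Type u} [Group G] [Finite G] {p : ℕ} [Fact p.Prime] (W : ∀ (Q : Type u) [Group Q], Subgroup Q) (hW : Cfsg.IsCharPFunctor.{u} p W) (hloc : ∀ (K R : Subgroup G) [hR : (R.subgroupOf K).Normal], Subgroup.centralizer ((Cfsg.pCore p (↥K ⧸ R.subgroupOf K) : Subgroup (↥K ⧸ R.subgroupOf K)) : Set (↥K ⧸ R.subgroupOf K)) ≤ Cfsg.pCore p (↥K ⧸ R.subgroupOf K) → ∀ T : Sylow p (↥K ⧸ R.subgroupOf K), ¬ (Cfsg.inducedFunctor (G := (↥K ⧸ R.subgroupOf K)) W ((T : Subgroup (↥K ⧸ R.subgroupOf K)))).Normal → ∃ g : (↥K ⧸ R.subgroupOf K), g ∈ (T : Subgroup (↥K ⧸ R.subgroupOf K)) ∧ g ∉ Cfsg.pCore p (↥K ⧸ R.subgroupOf K) ∧ ∀ U V : Subgroup (↥K ⧸ R.subgroupOf K), Cfsg.IsChiefFactor U V → U ≤ Cfsg.pCore p (↥K ⧸ R.subgroupOf K) → Cfsg.iterCommutator U (Subgroup.zpowers g) (p - 1) ≤ V) : ∀ (K R : Subgroup G) [hR : (R.subgroupOf K).Normal], Cfsg.ControlsTransferIn p (Cfsg.inducedFunctor (G := (↥K ⧸ R.subgroupOf K)) W) ⊤ := by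
  have h𝓦 : ∀ V ∈ ({W} : Set (∀ (Q : Type u) [Group Q], Subgroup Q)), IsCharPFunctor.{u} p V := by
    rintro _ rfl; exact hW
  have hsec : Sec (fun (X : Type u) [Group X] => ∀ _ : Finite X, Constrained p X → ∀ S : Subgroup X, SylIn p S ⊤ →
      ¬ (inducedFunctor (G := X) W S).Normal → ∃ g : X, g ∈ S ∧ g ∉ pCore p X ∧ ∀ U V : Subgroup X, IsChiefFactor U V →
        U ≤ pCore p X → iterCommutator U (Subgroup.zpowers g) (p - 1) ≤ V) G := by
    refine sec_of_forall ?_ ?_
    · intro X Y _ _ e h _ hY S hS hnn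
      haveI : Finite X := Finite.of_equiv Y e.symm.toEquiv
      have hpc : (pCore p X).map e.toMonoidHom = pCore p Y := Cfsg.Agent.Lib.Cores.pCore_map_equiv p e
      obtain ⟨g, hg1, hg2, hg3⟩ := h inferInstance (constrained_equiv e.symm hY) _ (sylIn_equiv e.symm hS) (by
        intro hn
        apply hnn
        rw [← ind_equiv e hW hS]
        exact hn.map _ e.surjective)
      obtain ⟨s, hs, hsg⟩ := hg1
      have hes : e g = s := by rw [← hsg]; exact e.apply_symm_apply s
      refine ⟨e g, hes ▸ hs, fun hc => hg2 ?_, fun U V hUV hUp => ?_⟩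
      · rw [← hpc] at hc
        obtain ⟨y, hy, hyg⟩ := hc
        rwa [e.injective hyg] at hy
      · have h1 := hg3 (U.map e.symm.toMonoidHom) (V.map e.symm.toMonoidHom) (chief_equiv e.symm hUV) (by
          rintro _ ⟨x, hx, rfl⟩
          have h2 := hUp hx
          rw [← hpc] at h2
          obtain ⟨y, hy, hyx⟩ := h2
          have : e.symm x = y := by rw [← hyx]; exact e.symm_apply_apply y
          show e.symm x ∈ _
          rw [this]; exact hy)
        have h2 := Subgroup.map_mono (f := e.toMonoidHom) h1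
        rw [iter_map, map_symm_map, map_symm_map, MonoidHom.map_zpowers] at h2
        exact h2
    · intro K L _ _ hc S hS
      obtain ⟨P, rfl⟩ := sylIn_exists hS
      exact hloc K L hc P
  intro K R _
  rw [ft_iff_single hW]
  refine FT_ind h𝓦 (sec_closed _) (fun X _ _ hX IH hc S hS => ?_) _ (hsec.section K R)
  by_cases hn : (inducedFunctor (G := X) W S).Normal
  · refine le_trans (inf_le_inf_right _ (pCore_le_syl hS)) ?_
    refine le_trans ?_ (le_th (Set.mem_singleton W))
    rw [Subgroup.normalizer_eq_top_iff.2 hn]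
  · obtain ⟨g, hg1, hg2, hg3⟩ := (Sec.self hX : ∀ _ : Finite X, Constrained p X → ∀ S : Subgroup X, SylIn p S ⊤ →
      ¬ (inducedFunctor (G := X) W S).Normal → ∃ g : X, g ∈ S ∧ g ∉ pCore p X ∧ ∀ U V : Subgroup X, IsChiefFactor U V →
        U ≤ pCore p X → iterCommutator U (Subgroup.zpowers g) (p - 1) ≤ V) inferInstance hc S hS hn
    exact local_transfer h𝓦 hS (fun H hH => IH H ((sec_closed _).sub X H hX) (Cfsg.Agent.Lib.Basic.card_lt_of_ne_top hH)) hg1 hg2 hg3

end Cfsg.Agent.S1972
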