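import Cfsg.Statements.S1981
import Cfsg.Agent.Lib.KInf

set_option autoImplicit false
open Cfsg
open Cfsg.Agent.Lib.KInf

namespace Cfsg.Agent.S1981

/-- Let P be a finite p-group generated by its abelian normal subgroups. Then both K-infinity subgroups of P equal P. -/
theorem result {P : Type*} [Group P] [Finite P] {p : ℕ} [Fact p.Prime] (hP : IsPGroup p P) (hgen : ⨆ A ∈ {A : Subgroup P | A.Normal ∧ IsMulCommutative ↥A}, A = ⊤) : Cfsg.kInfLower P = ⊤ ∧ Cfsg.kInfUpper P = ⊤ := by
  have hab : ∀ A : Subgroup P, A.Normal → IsMulCommutative ↥A → ∀ x ∈ A, ∀ y ∈ A, x * y = y * x := fun A _ hA x hx y hy =>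
    congrArg Subtype.val (hA.1.1 ⟨x, hx⟩ ⟨y, hy⟩)
  constructor
  · rw [eq_top_iff, ← hgen]
    refine iSup₂_le fun A hA => ?_
    haveI := hA.1
    exact (le_sSup (normal_abelian_mem (hab A hA.1 hA.2) (kSeqOdd P 0)).2.1).trans (le_iSup (kSeqEven P) 0)
  · rw [eq_top_iff, ← hgen]
    refine iSup₂_le fun A hA => ?_
    haveI := hA.1
    refine le_iInf fun n => ?_
    cases n with
    | zero => exact le_top
    | succ n => exact le_sSup (normal_abelian_mem (hab A hA.1 hA.2) (kSeqEven P n)).2.2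

end Cfsg.Agent.S1981
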