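import Cfsg.Statements.S1985
import Cfsg.Agent.Lib.KThm

set_option autoImplicit false
universe u
open Cfsg
open Cfsg.Agent.Lib.KThm Cfsg.Agent.Lib.CWitB Cfsg.Agent.Lib.KInf Cfsg.Agent.Lib.SylRel Cfsg.Agent.Lib.ChiefNine Cfsg.Agent.Lib.CSecE Cfsg.Agent.Lib.CSecA

namespace Cfsg.Agent.S1985

/-- Let p be an odd prime and G a finite group. Then the lower K-infinity subgroup controls weak closure of elements in G: the lower K-infinity subgroup of every p-subgroup P of G contains Z(P), and for some (equivalently, every) Sylow p-subgroup S of G, with K the lower K-infinity subgroup of S, every element of S commuting with all of N_G(K) is weakly closed in S with respect to G (every G-conjugate of it lying in S equals it). -/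
theorem result {G : Type u} [Group G] [Finite G] {p : ℕ} [Fact p.Prime] (hp : p ≠ 2) : Cfsg.ControlsWeakClosureOfElementsIn p (Cfsg.inducedFunctor (G := G) Cfsg.kInfLower) ⊤ := by
  refine ⟨z_le_kInf, ?_⟩
  obtain ⟨P⟩ : Nonempty (Sylow p G) := inferInstance
  have hS : SylIn p (P : Subgroup G) ⊤ := sylIn_of_sylow P
  refine ⟨P, hS.le, hS.isPGroup, hS.not_dvd, ?_⟩
  rintro x ⟨hx, hxC⟩ h _ hh
  rw [top_inf_eq] at hxC
  refine weak_elements hS (isConjugacyFunctor_ind (charPFunctor_lower p)) z_le_kInf ?_ hx hxC hh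
  intro H T hT hn
  obtain ⟨g, h1, h2, h3⟩ := kfour_rel hT hn
  refine ⟨g, h1, h2, fun U V hUV hU => ?_⟩
  have h4 : iterCommutator (U.map H.subtype) (Subgroup.zpowers g) 2 ≤ ⊥ := by
    rw [← h3]
    exact Subgroup.commutator_mono (Subgroup.commutator_mono hU le_rfl) le_rfl
  have hp2 : 2 ≤ p - 1 := by
    have := (Fact.out : p.Prime).two_le
    omega
  exact (iter_le_of_le hp2 h4).trans bot_le

end Cfsg.Agent.S1985
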