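import Cfsg.Statements.S1986
import Cfsg.Agent.Lib.KThm

set_option autoImplicit false
universe u
open Cfsg
open Cfsg.Agent.Lib.KThm Cfsg.Agent.Lib.CWit Cfsg.Agent.Lib.KInf Cfsg.Agent.Lib.SylRel Cfsg.Agent.Lib.WCl Cfsg.Agent.Lib.CFunA Cfsg.Agent.Lib.CSecA

namespace Cfsg.Agent.S1986

/-- Let p be a prime, G a finite group with Sylow p-subgroup S, K the lower K-infinity subgroup of S, and Z the subgroup of p-th powers of elements of Z(S). Then every element of Z commuting with all of N_G(K) is weakly closed in S with respect to G, and every subgroup of Z that is normal in N_G(K) is weakly closed in S with respect to G. -/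
theorem result {G : Type u} [Group G] [Finite G] {p : ℕ} [Fact p.Prime] (S : Sylow p G) (Z : Subgroup G) (hZ : Z = Subgroup.closure ((fun z : G => z ^ p) '' (((S : Subgroup G) ⊓ Subgroup.centralizer (((S : Subgroup G) : Subgroup G) : Set G) : Subgroup G) : Set G))) : (∀ x ∈ Z ⊓ Subgroup.centralizer ((Subgroup.normalizer ((Cfsg.inducedFunctor Cfsg.kInfLower (S : Subgroup G) : Subgroup G) : Set G) : Subgroup G) : Set G), ∀ g : G, g * x * g⁻¹ ∈ (S : Subgroup G) → g * x * g⁻¹ = x) ∧ ∀ A : Subgroup G, A ≤ Z → Subgroup.normalizer ((Cfsg.inducedFunctor Cfsg.kInfLower (S : Subgroup G) : Subgroup G) : Set G) ≤ Subgroup.normalizer ((A : Subgroup G) : Set G) → Cfsg.IsWeaklyClosed A (S : Subgroup G) := by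
  have hS : SylIn p (S : Subgroup G) ⊤ := sylIn_of_sylow S
  have hW := isConjugacyFunctor_ind (G := G) (charPFunctor_lower p)
  have hloc : ∀ H T : Subgroup G, SylIn p T H → ¬ H ≤ Subgroup.normalizer ((inducedFunctor (G := G) kInfLower T : Subgroup G) : Set G) →
    ∃ g : G, g ∈ T ∧ g ∉ pCoreOf p H ∧
      ⁅⁅pCoreOf p H ⊓ Subgroup.centralizer ((pCoreOf p H : Subgroup G) : Set G), Subgroup.zpowers g⁆, Subgroup.zpowers g⁆ = ⊥ :=
    fun H T hT hn => kfour_rel hT hn
  constructor
  · rintro x ⟨hxZ, hxC⟩ g hg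
    have h1 := quad hS hW z_le_kInf hloc (A := Subgroup.zpowers x) (D := Subgroup.centralizer ((Subgroup.zpowers x : Subgroup G) : Set G))
      (by rw [Subgroup.zpowers_le, ← hZ]; exact hxZ) (Subgroup.centralizer_le_normalizer _) le_rfl (by
        rw [Subgroup.le_centralizer_iff, Subgroup.zpowers_le]; exact hxC) (g := g) (by
        rw [MonoidHom.map_zpowers, Subgroup.zpowers_le]; exact hg)
    have h2 := Subgroup.mem_centralizer_iff.1 h1 x (Subgroup.mem_zpowers x)
    rw [← h2, mul_inv_cancel_right]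
  · intro A hAZ hNA
    rw [hZ] at hAZ
    refine ⟨hAZ.trans ((Subgroup.closure_le _).2 ?_), fun g hg => ?_⟩
    · rintro _ ⟨z, hz, rfl⟩
      exact (S : Subgroup G).pow_mem hz.1 p
    · have h1 := quad hS hW z_le_kInf hloc (A := A) (D := Subgroup.normalizer (A : Set G)) hAZ le_rfl (Subgroup.centralizer_le_normalizer _) hNA hg
      exact mem_normalizer_iff_cj.1 h1

end Cfsg.Agent.S1986
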