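import Cfsg.Statements.S2005
import Cfsg.Agent.Lib.PNInd

set_option autoImplicit false
universe u
open Cfsg
open Cfsg.Agent.Lib.PNInd Cfsg.Agent.Lib.PNilp Cfsg.Agent.Lib.SylRel Cfsg.Agent.Lib.CSecA Cfsg.Agent.Lib.CSecB Cfsg.Agent.Lib.CSecC

namespace Cfsg.Agent.S2005

theorem pNil_quot_equiv {p : ℕ} [Fact p.Prime] {X Y : Type u} [Group X] [Group Y] [Finite X] [Finite Y] (e : X ≃* Y)
    (h : PNil p (Y ⧸ pCore p Y)) : PNil p (X ⧸ pCore p X) := by
  have h1 : (pCore p X).map e.toMonoidHom = pCore p Y := Cfsg.Agent.Lib.Cores.pCore_map_equiv p e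
  exact h.of_equiv (QuotientGroup.congr (pCore p X) (pCore p Y) e h1).symm

theorem isCoatom_equiv {X Y : Type u} [Group X] [Group Y] (e : X ≃* Y) {S : Subgroup Y} (h : IsCoatom S) :
    IsCoatom (S.map e.symm.toMonoidHom) := by
  have := (OrderIso.isCoatom_iff (e.symm.mapSubgroup) S).2 h
  exact this

theorem sec_of {p : ℕ} [Fact p.Prime] {G : Type u} [Group G] [Finite G] {W : ∀ (Q : Type u) [Group Q], Subgroup Q}
    (hW : Cfsg.IsCharPFunctor.{u} p W)
    (hloc : ∀ (K R : Subgroup G) [hR : (R.subgroupOf K).Normal], Subgroup.centralizer ((Cfsg.pCore p (↥K ⧸ R.subgroupOf K) : Subgroup (↥K ⧸ R.subgroupOf K)) : Set (↥K ⧸ R.subgroupOf K)) ≤ Cfsg.pCore p (↥K ⧸ R.subgroupOf K) → Cfsg.HasNormalPComplement p ((↥K ⧸ R.subgroupOf K) ⧸ Cfsg.pCore p (↥K ⧸ R.subgroupOf K)) → ∀ T : Sylow p (↥K ⧸ R.subgroupOf K), IsCoatom (T : Subgroup (↥K ⧸ R.subgroupOf K)) → (Cfsg.inducedFunctor (G := (↥K ⧸ R.subgroupOf K)) W ((T : Subgroup (↥K ⧸ R.subgroupOf K)))).Normal) :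
    Sec (fun (X : Type u) [Group X] => ∀ _ : Finite X, Constrained p X → PNil p (X ⧸ pCore p X) →
      ∀ S : Subgroup X, SylIn p S ⊤ → IsCoatom S → (inducedFunctor (G := X) W S).Normal) G := by
  refine sec_of_forall ?_ ?_
  · intro X Y _ _ e h _ hY hn S hS hc
    haveI : Finite X := Finite.of_equiv Y e.symm.toEquiv
    have h1 := h inferInstance (constrained_equiv e.symm hY) (pNil_quot_equiv e hn) (S.map e.symm.toMonoidHom) (sylIn_equiv e.symm hS)
      (isCoatom_equiv e hc)
    rw [← ind_equiv e hW hS]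
    exact h1.map _ e.surjective
  · intro K L _ _ hc hn S hS hco
    obtain ⟨P, rfl⟩ := sylIn_exists hS
    exact hloc K L hc (hasNormalPComplement_iff.2 hn) P hco

/-- Thompson's normal p-complement criterion in functor form. Let p be a prime, G a finite group with Sylow p-subgroup S, and W an isomorphism-invariant p-group functor (W assigns to every group Q a subgroup W(Q), nontrivial whenever Q is a nontrivial finite p-group, and every isomorphism from a finite p-group Q onto a group R carries W(Q) onto W(R)). Suppose N_G(W(S)) has a normal p-complement, and that W(S*) is normal in G* whenever G* = K/R is a section of G with C_{G*}(O_p(G*)) ≤ O_p(G*) such that G*/O_p(G*) has a normal p-complement, and S* is a Sylow p-subgroup of G* that is a maximal subgroup of G*. Then G has a normal p-complement. -/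
theorem result {G : Type u} [Group G] [Finite G] {p : ℕ} [Fact p.Prime] (W : ∀ (Q : Type u) [Group Q], Subgroup Q) (hW : Cfsg.IsCharPFunctor.{u} p W) (S : Sylow p G) (hN : Cfsg.HasNormalPComplement p ↥(Subgroup.normalizer ((Cfsg.inducedFunctor (G := G) W (S : Subgroup G) : Subgroup G) : Set G))) (hloc : ∀ (K R : Subgroup G) [hR : (R.subgroupOf K).Normal], Subgroup.centralizer ((Cfsg.pCore p (↥K ⧸ R.subgroupOf K) : Subgroup (↥K ⧸ R.subgroupOf K)) : Set (↥K ⧸ R.subgroupOf K)) ≤ Cfsg.pCore p (↥K ⧸ R.subgroupOf K) → Cfsg.HasNormalPComplement p ((↥K ⧸ R.subgroupOf K) ⧸ Cfsg.pCore p (↥K ⧸ R.subgroupOf K)) → ∀ T : Sylow p (↥K ⧸ R.subgroupOf K), IsCoatom (T : Subgroup (↥K ⧸ R.subgroupOf K)) → (Cfsg.inducedFunctor (G := (↥K ⧸ R.subgroupOf K)) W ((T : Subgroup (↥K ⧸ R.subgroupOf K)))).Normal) : Cfsg.HasNormalPComplement p G := by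
  rw [hasNormalPComplement_iff] at hN ⊢
  refine PN_ind hW (sec_closed _) (fun X _ _ hX hc hn S hS hco => ?_) G (sec_of hW hloc) S (sylIn_of_sylow S) hN
  exact hX.self inferInstance hc hn S hS hco

end Cfsg.Agent.S2005
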