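import Cfsg.Statements.S2007
import Cfsg.Agent.Lib.PNInd

set_option autoImplicit false
open Cfsg
open Cfsg.Agent.Lib.PNInd Cfsg.Agent.Lib.PNilp Cfsg.Agent.Lib.SylRel Cfsg.Agent.Lib.CSecA Cfsg.Agent.Lib.CSecB Cfsg.Agent.Lib.CSecC

namespace Cfsg.Agent.S2007

universe u

theorem main {G : Type u} [Group G] [Finite G] {p : ℕ} [Fact p.Prime] {S T : Subgroup G} (hS : SylIn p S ⊤) (hTS : T ≤ S)
    (hTn : S ≤ Subgroup.normalizer (T : Set G)) (hC : S ⊓ Subgroup.centralizer (T : Set G) ≤ T)
    (hN : ∀ g ∈ Subgroup.normalizer (T : Set G), (orderOf g).Coprime p → g ∈ Subgroup.centralizer (T : Set G)) :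
    PNil p (Subgroup.normalizer (T : Set G)) := by
  set N := Subgroup.normalizer (T : Set G) with hNdef
  set C := Subgroup.centralizer (T : Set G) with hCdef
  have hCN : C ≤ N := Subgroup.centralizer_le_normalizer _
  have hNC : N ≤ Subgroup.normalizer (C : Set G) := Cfsg.Agent.Lib.CommNine.centralizer_normalized le_rfl
  haveI hCn : (C.subgroupOf N).Normal := (Subgroup.normal_subgroupOf_iff_le_normalizer hCN).2 hNC
  apply PNil.of_normal (C.subgroupOf N)
  · -- index is a power of p
    have hp : p.Prime := Fact.out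
    have h1 : IsPGroup p (N ⧸ C.subgroupOf N) := by
      intro x
      obtain ⟨x, rfl⟩ := QuotientGroup.mk'_surjective (C.subgroupOf N) x
      obtain ⟨m, n, e1, ⟨a, ha⟩, hn⟩ := Cfsg.Agent.Lib.PPart.decomp p x
      refine ⟨a, ?_⟩
      have h3 : QuotientGroup.mk' (C.subgroupOf N) (x ^ n) = 1 := by
        refine (QuotientGroup.eq_one_iff (x ^ n)).2 ?_
        exact hN ((x ^ n : N) : G) (x ^ n).2 (by rwa [Subgroup.orderOf_coe])
      rw [e1, map_mul, h3, mul_one, ← map_pow, orderOf_dvd_iff_pow_eq_one.1 ha, map_one]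
    obtain ⟨k, hk⟩ := IsPGroup.iff_card.1 h1
    exact ⟨k, hk⟩
  · have h1 : PNil p C := by
      have hSN : SylIn p S N := hS.mono hTn le_top
      have hSC : SylIn p (S ⊓ C) C := hSN.inf_normal hCN hNC
      obtain ⟨R, hR⟩ := (sylIn_iff hSC.le).1 hSC
      refine pNil_of_central_sylow R ?_
      rw [hR]
      intro x hx
      have hx1 : (x : G) ∈ T := hC hx
      rw [Subgroup.mem_center_iff]
      intro y
      exact Subtype.ext (Subgroup.mem_centralizer_iff.1 y.2 x hx1).symm
    exact h1.of_equiv (Subgroup.subgroupOfEquivOfLe hCN).symm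

/-- Let p be a prime, G a finite group with Sylow p-subgroup S, and T a normal subgroup of S containing C_S(T). If N_G(T)/C_G(T) is a p-group (every element of N_G(T) of order prime to p centralizes T), then N_G(T) has a normal p-complement. -/
theorem result {G : Type*} [Group G] [Finite G] {p : ℕ} [Fact p.Prime] (S : Sylow p G) (T : Subgroup G) (hTS : T ≤ (S : Subgroup G)) (hTn : (S : Subgroup G) ≤ Subgroup.normalizer ((T : Subgroup G) : Set G)) (hC : (S : Subgroup G) ⊓ Subgroup.centralizer ((T : Subgroup G) : Set G) ≤ T) (hN : ∀ g ∈ Subgroup.normalizer ((T : Subgroup G) : Set G), (orderOf g).Coprime p → g ∈ Subgroup.centralizer ((T : Subgroup G) : Set G)) : Cfsg.HasNormalPComplement p ↥(Subgroup.normalizer ((T : Subgroup G) : Set G)) := by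
  rw [hasNormalPComplement_iff]
  exact main (sylIn_of_sylow S) hTS hTn hC hN

end Cfsg.Agent.S2007
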