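import Cfsg.Statements.S1988
import Cfsg.Agent.Lib.AbStab
import Cfsg.Agent.S2005
import Cfsg.Agent.S2007

set_option autoImplicit false
universe u
open Cfsg
open Cfsg.Agent.Lib.AbStab Cfsg.Agent.Lib.PNInd Cfsg.Agent.Lib.PNilp Cfsg.Agent.Lib.SylRel Cfsg.Agent.Lib.CSecA Cfsg.Agent.Lib.CSecB Cfsg.Agent.Lib.CSecC Cfsg.Agent.Lib.KInf Cfsg.Agent.Lib.CFunA Cfsg.Agent.Lib.CritD

namespace Cfsg.Agent.S1988

theorem first {G : Type u} [Group G] [Finite G] {p : ℕ} [Fact p.Prime] (hp : p ≠ 2) (S : Sylow p G)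
    (h : Cfsg.HasNormalPComplement p ↥(Subgroup.normalizer ((Cfsg.inducedFunctor Cfsg.kInfLower (S : Subgroup G) : Subgroup G) : Set G))) :
    Cfsg.HasNormalPComplement p G := by
  refine Cfsg.Agent.S2005.result kInfLower (charPFunctor_lower p) S h ?_
  intro K R _ hc hn T hT
  by_contra hnot
  have hn' := hasNormalPComplement_iff.1 hn
  have hT' := sylIn_of_sylow T
  obtain ⟨g, hg1, hg2, -, -, hg3⟩ := kfour (p := p) hT'.isPGroup (pCore_le_syl hT') (Or.inl hnot)
  obtain ⟨U, V, hUV, hUT, hq, hnt⟩ := hg3 hc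
  haveI := hUV.2.2.1
  apply hnt
  refine ser_chief (ser_of hT' hT hn') hUV ((Cfsg.Agent.Lib.Cores.pCore_isPGroup p).to_le hUT)
    (T.2.to_le ((Subgroup.zpowers_le).2 hg1)) ?_
  have h3 : 2 ≤ p - 1 := by
    have := (Fact.out : p.Prime).two_le
    omega
  exact Cfsg.Agent.Lib.ChiefNine.iter_le_of_le h3 hq

/-- Let p be an odd prime, G a finite group with Sylow p-subgroup S and K the lower K-infinity subgroup of S. If N_G(K) has a normal p-complement, or if N_G(K)/C_G(K) is a p-group (every element of N_G(K) of order prime to p centralizes K), then G has a normal p-complement. -/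
theorem result {G : Type u} [Group G] [Finite G] {p : ℕ} [Fact p.Prime] (hp : p ≠ 2) (S : Sylow p G) (h : Cfsg.HasNormalPComplement p ↥(Subgroup.normalizer ((Cfsg.inducedFunctor Cfsg.kInfLower (S : Subgroup G) : Subgroup G) : Set G)) ∨ ∀ g ∈ Subgroup.normalizer ((Cfsg.inducedFunctor Cfsg.kInfLower (S : Subgroup G) : Subgroup G) : Set G), (orderOf g).Coprime p → g ∈ Subgroup.centralizer ((Cfsg.inducedFunctor Cfsg.kInfLower (S : Subgroup G) : Subgroup G) : Set G)) : Cfsg.HasNormalPComplement p G := by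
  rcases h with h | h
  · exact first hp S h
  · apply first hp S
    rw [hasNormalPComplement_iff]
    have hS := sylIn_of_sylow S
    have hCF := isConjugacyFunctor_ind (G := G) (charPFunctor_lower p)
    refine Cfsg.Agent.S2007.main hS (cfun_le hCF hS.isPGroup)
      (Subgroup.le_normalizer.trans (cfun_normalizer_le hCF hS.isPGroup)) ?_ h
    rintro x ⟨hxS, hxC⟩
    refine ⟨⟨x, hxS⟩, centralizer_lower S.2 ?_, rfl⟩
    rw [Subgroup.mem_centralizer_iff]
    intro y hy
    exact Subtype.ext (Subgroup.mem_centralizer_iff.1 hxC y ⟨y, hy, rfl⟩)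

end Cfsg.Agent.S1988
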