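import Cfsg.Statements.S1990
import Cfsg.Agent.Lib.AbStab
import Cfsg.Agent.S2005

set_option autoImplicit false
universe u
open Cfsg
open Cfsg.Agent.Lib.AbStab Cfsg.Agent.Lib.PNInd Cfsg.Agent.Lib.PNilp Cfsg.Agent.Lib.SylRel Cfsg.Agent.Lib.CSecA Cfsg.Agent.Lib.CSecB Cfsg.Agent.Lib.CSecC Cfsg.Agent.Lib.CFunA

namespace Cfsg.Agent.S1990

theorem normal_of_control {X : Type u} [Group X] [Finite X] {p : ℕ} [Fact p.Prime] {B : Subgroup X}
    (hB : ∀ T : Sylow p X, B ≤ T → pCore p X ≤ Subgroup.normalizer (B : Set X))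
    (hc : Constrained p X) (h : ControlsStrongFusion p B) : B.Normal := by
  obtain ⟨T, hBT, hT⟩ := h
  haveI hPn := Cfsg.Agent.Lib.Cores.pCore_normal (G := X) p
  apply Subgroup.normalizer_eq_top_iff.1
  rw [eq_top_iff]
  intro g _
  obtain ⟨-, h1⟩ := hT (pCore p X : Subgroup X) (Cfsg.Agent.Lib.Cores.pCore_le_sylow T)
  obtain ⟨x, hx, hxa⟩ := h1 g (by
    rintro _ ⟨a, ha, rfl⟩
    exact Cfsg.Agent.Lib.Cores.pCore_le_sylow T (hPn.conj_mem a ha g))
  have h2 : x⁻¹ * g ∈ Subgroup.centralizer ((pCore p X : Subgroup X) : Set X) := by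
    rw [Subgroup.mem_centralizer_iff]
    intro a ha
    have h3 := hxa a ha
    calc a * (x⁻¹ * g) = x⁻¹ * (x * a * x⁻¹) * g := by group
      _ = x⁻¹ * (g * a * g⁻¹) * g := by rw [h3]
      _ = x⁻¹ * g * a := by group
  have h3 := hB T hBT (hc h2)
  have e : g = x * (x⁻¹ * g) := by group
  rw [e]
  exact Subgroup.mul_mem _ hx h3

/-- Let p be an odd prime, G a finite group with Sylow p-subgroup S, and W an isomorphism-invariant p-group functor (W assigns to every group Q a subgroup W(Q), nontrivial whenever Q is a nontrivial finite p-group, and every isomorphism from a finite p-group Q onto a group R carries W(Q) onto W(R)). Suppose N_G(W(S)) has a normal p-complement, and W(T) controls strong fusion in every section G* = K/R of G all of whose sections are p-stable in the normalizer form, for every Sylow p-subgroup T of G*. Then G has a normal p-complement. -/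
theorem result {G : Type u} [Group G] [Finite G] {p : ℕ} [Fact p.Prime] (hp : p ≠ 2) (W : ∀ (Q : Type u) [Group Q], Subgroup Q) (hW : Cfsg.IsCharPFunctor.{u} p W) (S : Sylow p G) (hN : Cfsg.HasNormalPComplement p ↥(Subgroup.normalizer ((Cfsg.inducedFunctor (G := G) W (S : Subgroup G) : Subgroup G) : Set G))) (hctl : ∀ (K R : Subgroup G) [hR : (R.subgroupOf K).Normal], (∀ (K' R' : Subgroup (↥K ⧸ R.subgroupOf K)) [hR' : (R'.subgroupOf K').Normal], Cfsg.IsNormalizerPStable p (↥K' ⧸ R'.subgroupOf K')) → ∀ T : Sylow p (↥K ⧸ R.subgroupOf K), Cfsg.ControlsStrongFusion p (Cfsg.inducedFunctor (G := (↥K ⧸ R.subgroupOf K)) W (T : Subgroup (↥K ⧸ R.subgroupOf K)))) : Cfsg.HasNormalPComplement p G := by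
  refine Cfsg.Agent.S2005.result W hW S hN ?_
  intro K R _ hc hn T hT
  have hn' := hasNormalPComplement_iff.1 hn
  have hT' := sylIn_of_sylow T
  have h1 := hctl K R ((ser_of hT' hT hn').sections hp) T
  refine normal_of_control ?_ hc h1
  intro T' _
  have hCF := isConjugacyFunctor_ind (G := ↥K ⧸ R.subgroupOf K) hW
  exact (pCore_le_syl hT').trans (Subgroup.le_normalizer.trans (cfun_normalizer_le hCF hT'.isPGroup))

end Cfsg.Agent.S1990
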