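import Cfsg.Statements.S1993
import Cfsg.Agent.Lib.PStab

set_option autoImplicit false
universe u
open Cfsg
open Cfsg.Agent.Lib.PStab Cfsg.Agent.Lib.KThm Cfsg.Agent.Lib.CSecD Cfsg.Agent.Lib.KInf Cfsg.Agent.Lib.SylRel Cfsg.Agent.Lib.CSecA Cfsg.Agent.Lib.CSecB Cfsg.Agent.Lib.CSecC Cfsg.Agent.Lib.CritD

namespace Cfsg.Agent.S1993

/-- Let p be a prime, G a finite group with Sylow p-subgroup S, and K the upper K-infinity subgroup of S. If p ≥ 5 then S ∩ G' = S ∩ (N_G(K))'; and if p is odd and every section of G is p-stable in the normalizer form, then K controls strong fusion in G. -/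
theorem result {G : Type u} [Group G] [Finite G] {p : ℕ} [Fact p.Prime] (S : Sylow p G) : (5 ≤ p → (S : Subgroup G) ⊓ commutator G = (S : Subgroup G) ⊓ ⁅Subgroup.normalizer ((Cfsg.inducedFunctor Cfsg.kInfUpper (S : Subgroup G) : Subgroup G) : Set G), Subgroup.normalizer ((Cfsg.inducedFunctor Cfsg.kInfUpper (S : Subgroup G) : Subgroup G) : Set G)⁆) ∧ (p ≠ 2 → (∀ (K R : Subgroup G) [hR : (R.subgroupOf K).Normal], Cfsg.IsNormalizerPStable p (↥K ⧸ R.subgroupOf K)) → Cfsg.ControlsStrongFusion p (Cfsg.inducedFunctor Cfsg.kInfUpper (S : Subgroup G))) := by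
  have hS : SylIn p (S : Subgroup G) ⊤ := sylIn_of_sylow S
  constructor
  · intro hp
    have h1 := ft_k hp kInfUpper (Or.inr rfl) G (S : Subgroup G) hS
    unfold Th at h1
    rw [iSup_singleton, ← commutator_def] at h1
    refine le_antisymm h1 (inf_le_inf_left _ ?_)
    rw [commutator_def]
    exact Subgroup.commutator_mono le_top le_top
  · intro hp hst
    exact strong_fusion_of_stable kInfUpper (Or.inr rfl) hst S

end Cfsg.Agent.S1993
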