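import Cfsg.Statements.S1996
import Cfsg.Agent.Lib.CSecC

set_option autoImplicit false
universe u
open Cfsg
open Cfsg.Agent.Lib.CSecA Cfsg.Agent.Lib.CSecB Cfsg.Agent.Lib.CSecC Cfsg.Agent.Lib.SylRel Cfsg.Agent.Lib.CFunC Cfsg.Agent.Lib.CFunA Cfsg.Agent.Lib.WCl

namespace Cfsg.Agent.S1996

/-- Let p be a prime, G a finite group and W₁, W₂ two isomorphism-invariant p-group functors (W assigns to every group Q a subgroup W(Q), nontrivial whenever Q is a nontrivial finite p-group, and every isomorphism from a finite p-group Q onto a group R carries W(Q) onto W(R)). Suppose that G* = N_{G*}(W₁(S*)) N_{G*}(W₂(S*)) whenever G* = K/R is a section of G with C_{G*}(O_p(G*)) ≤ O_p(G*) and S* is a Sylow p-subgroup of G*. Then the pair {W₁, W₂} controls strong fusion in G. -/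
theorem result {G : Type u} [Group G] [Finite G] {p : ℕ} [Fact p.Prime] (W₁ W₂ : ∀ (Q : Type u) [Group Q], Subgroup Q) (hW₁ : Cfsg.IsCharPFunctor.{u} p W₁) (hW₂ : Cfsg.IsCharPFunctor.{u} p W₂) (hfac : ∀ (K R : Subgroup G) [hR : (R.subgroupOf K).Normal], Subgroup.centralizer ((Cfsg.pCore p (↥K ⧸ R.subgroupOf K) : Subgroup (↥K ⧸ R.subgroupOf K)) : Set (↥K ⧸ R.subgroupOf K)) ≤ Cfsg.pCore p (↥K ⧸ R.subgroupOf K) → ∀ T : Sylow p (↥K ⧸ R.subgroupOf K), ∀ x : (↥K ⧸ R.subgroupOf K), ∃ a ∈ Subgroup.normalizer ((Cfsg.inducedFunctor (G := (↥K ⧸ R.subgroupOf K)) W₁ (T : Subgroup (↥K ⧸ R.subgroupOf K)) : Subgroup (↥K ⧸ R.subgroupOf K)) : Set (↥K ⧸ R.subgroupOf K)), ∃ b ∈ Subgroup.normalizer ((Cfsg.inducedFunctor (G := (↥K ⧸ R.subgroupOf K)) W₂ (T : Subgroup (↥K ⧸ R.subgroupOf K)) : Subgroup (↥K ⧸ R.subgroupOf K)) : Set (↥K ⧸ R.subgroupOf K)), x = a * b) : Cfsg.FamilyControlsStrongFusionIn p {Cfsg.inducedFunctor (G := G) W₁,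 Cfsg.inducedFunctor (G := G) W₂} ⊤ := by
  have h𝓦 : ∀ V ∈ ({W₁, W₂} : Set (∀ (Q : Type u) [Group Q], Subgroup Q)), IsCharPFunctor.{u} p V := by
    rintro _ (rfl | rfl)
    · exact hW₁
    · exact hW₂
  have hsec : Sec (fun (X : Type u) [Group X] => ∀ _ : Finite X, Constrained p X →
      ∀ S : Subgroup X, SylIn p S ⊤ → ∀ x : X, ∃ a ∈ Subgroup.normalizer ((inducedFunctor (G := X) W₁ S : Subgroup X) : Set X),
        ∃ b ∈ Subgroup.normalizer ((inducedFunctor (G := X) W₂ S : Subgroup X) : Set X), x = a * b) G := by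
    refine sec_of_forall ?_ ?_
    · intro X Y _ _ e h _ hY S hS x
      haveI : Finite X := Finite.of_equiv Y e.symm.toEquiv
      obtain ⟨a, ha, b, hb, hab⟩ := h inferInstance (constrained_equiv e.symm hY) (S.map e.symm.toMonoidHom) (sylIn_equiv e.symm hS) (e.symm x)
      refine ⟨e a, ?_, e b, ?_, ?_⟩
      · rw [← ind_equiv e hW₁ hS]
        exact Subgroup.le_normalizer_map e.toMonoidHom ⟨a, ha, rfl⟩
      · rw [← ind_equiv e hW₂ hS]
        exact Subgroup.le_normalizer_map e.toMonoidHom ⟨b, hb, rfl⟩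
      · rw [← map_mul, ← hab, e.apply_symm_apply]
    · intro K L _ _ hc S hS
      obtain ⟨P, rfl⟩ := sylIn_exists hS
      exact hfac K L hc P
  have hmain : FS p {W₁, W₂} G := by
    refine FS_ind h𝓦 (sec_closed _) (fun X _ _ hX _ hc S hS A g hA hgA => ?_) _ hsec
    obtain ⟨a, ha, b, hb, rfl⟩ := hX.self inferInstance hc S hS g
    set N₁ := Subgroup.normalizer ((inducedFunctor (G := X) W₁ S : Subgroup X) : Set X) with hN₁
    set N₂ := Subgroup.normalizer ((inducedFunctor (G := X) W₂ S : Subgroup X) : Set X) with hN₂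
    have hS1 : S ≤ N₁ := Subgroup.le_normalizer.trans (cfun_normalizer_le (isConjugacyFunctor_ind hW₁) hS.isPGroup)
    have hS2 : S ≤ N₂ := Subgroup.le_normalizer.trans (cfun_normalizer_le (isConjugacyFunctor_ind hW₂) hS.isPGroup)
    have hSM : SylIn p S (N₁ ⊓ N₂) := hS.mono (le_inf hS1 hS2) le_top
    have hbA : A.map (MulAut.conj b).toMonoidHom ≤ N₁ ⊓ N₂ := by
      rintro _ ⟨x, hx, rfl⟩
      constructor
      · have h1 : a * b * x * (a * b)⁻¹ ∈ S := hgA (mem_cj_of hx)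
        have h2 := N₁.mul_mem (N₁.mul_mem (N₁.inv_mem ha) (hS1 h1)) ha
        have e : a⁻¹ * (a * b * x * (a * b)⁻¹) * a = b * x * b⁻¹ := by group
        rwa [e] at h2
      · exact N₂.mul_mem (N₂.mul_mem hb (hS2 (hA hx))) (N₂.inv_mem hb)
    obtain ⟨d, hd, hdA⟩ := hSM.conj_le hbA ((hS.isPGroup.to_le hA).map _)
    have hdbA : A.map (MulAut.conj (d * b)).toMonoidHom ≤ S := by
      rw [← map_conj_mul]; exact map_conj_le.2 hdA
    have h1 : d * b ∈ NW ({W₁, W₂} : Set (∀ (Q : Type u) [Group Q], Subgroup Q)) S := ⟨W₂, Or.inr rfl, N₂.mul_mem hd.2 hb⟩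
    have h2 : a * d⁻¹ ∈ NW ({W₁, W₂} : Set (∀ (Q : Type u) [Group Q], Subgroup Q)) S := ⟨W₁, Or.inl rfl, N₁.mul_mem ha (N₁.inv_mem hd.1)⟩
    have e : a * d⁻¹ * (d * b) = a * b := by group
    have h3 : FDec (NW ({W₁, W₂} : Set (∀ (Q : Type u) [Group Q], Subgroup Q)) S) (S : Set X) (cs (d * b) (A : Set X)) (1 * (a * d⁻¹)) := FDec.step (cs (d * b) (A : Set X)) (a * d⁻¹) 1 (by rw [← coe_cj]; exact hdbA) h2
      (FDec.refl _ _ (by rw [cs_cs, e, ← coe_cj]; exact hgA) (fun a _ => by group))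
    have h4 := FDec.step (A : Set X) (d * b) _ hA h1 h3
    rw [one_mul, e] at h4
    exact h4
  have := (fs_iff h𝓦).2 hmain
  rwa [Set.image_pair] at this

end Cfsg.Agent.S1996
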