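import Cfsg.Statements.S1998
import Cfsg.Agent.Lib.CSecE

set_option autoImplicit false
universe u
open Cfsg
open Cfsg.Agent.Lib.CSecA Cfsg.Agent.Lib.CSecB Cfsg.Agent.Lib.CSecC Cfsg.Agent.Lib.CSecD Cfsg.Agent.Lib.CSecE Cfsg.Agent.Lib.SylRel Cfsg.Agent.Lib.TraceB Cfsg.Agent.Lib.CFunA

namespace Cfsg.Agent.S1998

open scoped commutatorElement

/-- Let p be a prime, G a finite group with Sylow p-subgroup S, and 𝓦 a nonempty set of isomorphism-invariant p-group functors (W assigns to every group Q a subgroup W(Q), nontrivial whenever Q is a nontrivial finite p-group, and every isomorphism from a finite p-group Q onto a group R carries W(Q) onto W(R)). Suppose the induced conjugacy functors control transfer in every section of G other than G itself, but not in G. Let T be the subgroup generated by the S ∩ (N_G(W(S)))', W ∈ 𝓦, and M = N_G(T ∩ O_p(G)). Then: C_G(O_p(G)) ≤ O_p(G); M is a proper subgroup of G containing every proper subgroup of G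 that contains S (the unique maximal subgroup over S); [O_p(G), M] ≤ O_p(G) ∩ M' ≤ O_p(G) ∩ T; and every element u of S outside O_p(G) satisfies [X, u, …, u] ≰ Y with p − 1 entries u, for some chief factor X/Y of G with X ≤ O_p(G). -/
theorem result {G : Type u} [Group G] [Finite G] {p : ℕ} [Fact p.Prime] (S : Sylow p G) (𝓦 : Set (∀ (Q : Type u) [Group Q], Subgroup Q)) (h𝓦 : ∀ W ∈ 𝓦, Cfsg.IsCharPFunctor.{u} p W) (hne : 𝓦.Nonempty) (hsec : ∀ (K R : Subgroup G) [hR : (R.subgroupOf K).Normal], (K = ⊤ → R ≠ ⊥) → Cfsg.FamilyControlsTransferIn p ((fun W => Cfsg.inducedFunctor (G := (↥K ⧸ R.subgroupOf K)) W) '' 𝓦) ⊤) (hG : ¬ Cfsg.FamilyControlsTransferIn p ((fun W => Cfsg.inducedFunctor (G := G) W) '' 𝓦) ⊤) (T M : Subgroup G) (hT : T = (⨆ W ∈ 𝓦, (S : Subgroup G) ⊓ ⁅Subgroup.normalizer ((Cfsg.inducedFunctor (G := G) W (S : Subgroup G) : Subgroup G) : Set G), Subgroup.normalizer ((Cfsg.inducedFunctor (G := G) W (S : Subgroup G) : Subgroup G) : Set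 G)⁆)) (hM : M = Subgroup.normalizer ((T ⊓ Cfsg.pCore p G : Subgroup G) : Set G)) : Subgroup.centralizer ((Cfsg.pCore p G : Subgroup G) : Set G) ≤ Cfsg.pCore p G ∧ (M ≠ ⊤ ∧ ∀ H : Subgroup G, (S : Subgroup G) ≤ H → H ≠ ⊤ → H ≤ M) ∧ (⁅Cfsg.pCore p G, M⁆ ≤ Cfsg.pCore p G ⊓ ⁅M, M⁆ ∧ Cfsg.pCore p G ⊓ ⁅M, M⁆ ≤ Cfsg.pCore p G ⊓ T) ∧ ∀ u : G, u ∈ (S : Subgroup G) → u ∉ Cfsg.pCore p G → ∃ U V : Subgroup G, Cfsg.IsChiefFactor U V ∧ U ≤ Cfsg.pCore p G ∧ ¬ Cfsg.iterCommutator U (Subgroup.zpowers u) (p - 1) ≤ V := by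
  have hsec' : Sec (fun (X : Type u) [Group X] => ∀ _ : Finite X, Nat.card X < Nat.card G → FT p 𝓦 X) G := by
    refine sec_of_forall ?_ ?_
    · intro X Y _ _ e h _ hlt
      haveI : Finite X := Finite.of_equiv Y e.symm.toEquiv
      exact ft_equiv h𝓦 e (h inferInstance (by rwa [Nat.card_congr e.toEquiv]))
    · intro K L _ _ hlt
      rw [← ft_iff h𝓦]
      refine hsec K L (fun hK hL => ?_)
      rw [hL, hK] at hlt
      have h1 : Nat.card ((⊤ : Subgroup G) ⧸ (⊥ : Subgroup G).subgroupOf ⊤) = Nat.card G := by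
        rw [← Subgroup.index_eq_card]
        show ((⊥ : Subgroup G).relIndex ⊤) = _
        rw [Subgroup.relIndex_top_right, Subgroup.index_bot]
      omega
  have IHsub : ∀ H : Subgroup G, H ≠ ⊤ → FT p 𝓦 H := fun H hH =>
    ((sec_closed _).sub G H hsec').self inferInstance (Cfsg.Agent.Lib.Basic.card_lt_of_ne_top hH)
  have IHquot : ∀ (N : Subgroup G) [N.Normal], N ≠ ⊥ → FT p 𝓦 (G ⧸ N) := fun N _ hN =>
    ((sec_closed _).quot G N hsec').self inferInstance (Cfsg.Agent.Lib.Basic.card_quotient_lt hN)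
  rw [ft_iff h𝓦] at hG
  have hS : SylIn p (S : Subgroup G) ⊤ := sylIn_of_sylow S
  have hnot : ¬ (S : Subgroup G) ⊓ ⁅(⊤ : Subgroup G), (⊤ : Subgroup G)⁆ ≤ Th 𝓦 (S : Subgroup G) := by
    intro h
    apply hG
    intro S' hS'
    obtain ⟨g, -, hg⟩ := Cfsg.Agent.Lib.CFunB.exists_conj_eq hS' hS
    have h2 := Subgroup.map_mono (f := (MulAut.conj g).toMonoidHom) h
    rw [th_equiv h𝓦 (MulAut.conj g) hS, Subgroup.map_inf _ _ _ (MulAut.conj g).injective, Subgroup.map_commutator,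
      Subgroup.map_top_of_surjective _ (MulAut.conj g).surjective, ← hg] at h2
    exact h2
  have hT' : T = Th 𝓦 (S : Subgroup G) := hT
  haveI hn0 := Cfsg.Agent.Lib.Cores.pCore_normal (G := G) p
  have hPp := Cfsg.Agent.Lib.Cores.pCore_isPGroup (G := G) p
  set P := pCore p G with hP
  have hPS : P ≤ (S : Subgroup G) := pCore_le_syl hS
  obtain ⟨W, hW⟩ := hne
  have hSn : ¬ (S : Subgroup G).Normal := by
    intro hn
    apply hnot
    have hcf := isConjugacyFunctor_ind (G := G) (h𝓦 W hW)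
    have h1 : Subgroup.normalizer ((inducedFunctor (G := G) W (S : Subgroup G) : Subgroup G) : Set G) = ⊤ := by
      rw [eq_top_iff, ← Subgroup.normalizer_eq_top_iff.2 hn]
      exact cfun_normalizer_le hcf hS.isPGroup
    refine le_trans ?_ (le_th hW)
    rw [h1]
  have hNS : Subgroup.normalizer ((S : Subgroup G) : Set G) ≠ ⊤ := fun h => hSn (Subgroup.normalizer_eq_top_iff.1 h)
  have hSP : ¬ (S : Subgroup G) ≤ P := by
    intro h
    apply hSn
    have : (S : Subgroup G) = P := le_antisymm h hPS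
    rw [this]; exact hn0
  have hSt : (S : Subgroup G) ≠ ⊤ := by
    intro h; apply hSn; rw [h]; infer_instance
  have hSS : ⁅(S : Subgroup G), (S : Subgroup G)⁆ ≤ T := by
    rw [hT']
    exact (le_inf (Subgroup.commutator_le_self _) le_rfl).trans ((IHsub _ hSt).rel h𝓦 (hS.mono le_rfl le_top))
  have hloc : ∀ H : Subgroup G, (S : Subgroup G) ≤ H → H ≠ ⊤ → P ⊓ ⁅H, H⁆ ≤ P ⊓ T := by
    intro H hSH hH
    rw [hT']
    exact le_inf inf_le_left ((inf_le_inf_right _ hPS).trans ((IHsub H hH).rel h𝓦 (hS.mono hSH le_top)))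
  have hPH : ∀ H : Subgroup G, (S : Subgroup G) ≤ H → ⁅P, H⁆ ≤ P ⊓ ⁅H, H⁆ := by
    intro H hSH
    exact le_inf (Subgroup.commutator_le_left _ _) (Subgroup.commutator_mono (hPS.trans hSH) le_rfl)
  have hle : ∀ H : Subgroup G, (S : Subgroup G) ≤ H → H ≠ ⊤ → H ≤ M := by
    intro H hSH hH h hh
    rw [hM]
    refine mem_normalizer_of_le ?_
    rintro _ ⟨x, hx, rfl⟩
    have h1 : ⁅h, x⁆ ∈ P ⊓ T := by
      refine (hPH H hSH).trans (hloc H hSH hH) ?_
      rw [Subgroup.commutator_comm]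
      exact Subgroup.commutator_mem_commutator hh hx.2
    have h2 : h * x * h⁻¹ = ⁅h, x⁆ * x := by rw [commutatorElement_def]; group
    show h * x * h⁻¹ ∈ T ⊓ P
    rw [h2, inf_comm]
    exact (P ⊓ T).mul_mem h1 ⟨hx.2, hx.1⟩
  have hmod := ft_mod h𝓦 hS hSP IHsub (fun N _ h => IHquot N (by
    rintro rfl
    -- if `O_p(G) = 1` then `G` would be controlled
    apply hG
    refine ft_step h𝓦 IHsub IHquot ?_
    have h' : P = ⊥ := h.symm
    rw [← hP, h']
    intro hcon
    apply hSt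
    have h1 : (⊤ : Subgroup G) ≤ ⊥ := by
      refine le_trans ?_ hcon
      intro x _
      rw [Subgroup.mem_centralizer_iff]
      intro y hy
      have : y = 1 := hy
      rw [this, one_mul, mul_one]
    rw [eq_top_iff]
    exact h1.trans bot_le))
  have hPT : ¬ ⁅P, (⊤ : Subgroup G)⁆ ≤ T := by
    intro h
    apply hnot
    refine hmod.trans (sup_le le_rfl ?_)
    rw [← hT']
    exact (normal_focal hS hPS).trans (sup_le h hSS)
  have hMt : M ≠ ⊤ := by
    intro h
    have hn : (T ⊓ P).Normal := Subgroup.normalizer_eq_top_iff.1 (hM ▸ h)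
    -- the centralizer of P modulo T ⊓ P
    let C : Subgroup G := (Subgroup.centralizer ((P.map (QuotientGroup.mk' (T ⊓ P)) : Subgroup (G ⧸ (T ⊓ P))) : Set (G ⧸ (T ⊓ P)))).comap (QuotientGroup.mk' (T ⊓ P))
    have hCmem : ∀ H : Subgroup G, H ≤ C ↔ ⁅P, H⁆ ≤ T ⊓ P := by
      intro H
      rw [show (H ≤ C) = (H ≤ (Subgroup.centralizer ((P.map (QuotientGroup.mk' (T ⊓ P)) : Subgroup (G ⧸ (T ⊓ P))) : Set (G ⧸ (T ⊓ P)))).comap (QuotientGroup.mk' (T ⊓ P))) from rfl,
        ← Subgroup.map_le_iff_le_comap, ← Subgroup.commutator_eq_bot_iff_le_centralizer, ← Subgroup.map_commutator,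
        Subgroup.map_eq_bot_iff, QuotientGroup.ker_mk', Subgroup.commutator_comm]
    haveI : (P.map (QuotientGroup.mk' (T ⊓ P))).Normal := hn0.map _ (QuotientGroup.mk'_surjective _)
    haveI hCn : C.Normal := by
      show ((Subgroup.centralizer ((P.map (QuotientGroup.mk' (T ⊓ P)) : Subgroup (G ⧸ (T ⊓ P))) : Set (G ⧸ (T ⊓ P)))).comap (QuotientGroup.mk' (T ⊓ P))).Normal
      infer_instance
    have hHC : ∀ H : Subgroup G, (S : Subgroup G) ≤ H → H ≠ ⊤ → H ≤ C := by
      intro H hSH hH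
      rw [hCmem, inf_comm]
      exact (hPH H hSH).trans (hloc H hSH hH)
    have hCt : C = ⊤ := by
      rw [eq_top_iff]
      intro g _
      have h1 := (hS.inf_normal le_top (K := C) (by rw [Subgroup.normalizer_eq_top]))
      rw [inf_of_le_left (hHC _ le_rfl hSt)] at h1
      obtain ⟨d, hd, hdg⟩ := h1.frattini (g := g) (fun x hx => hCn.conj_mem x hx g)
      have h2 : d * g ∈ Subgroup.normalizer ((S : Subgroup G) : Set G) := mem_normalizer_of_le (map_conj_le.2 hdg)
      have h3 := hHC _ Subgroup.le_normalizer hNS h2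
      have e : g = d⁻¹ * (d * g) := by group
      rw [e]; exact C.mul_mem (C.inv_mem hd) h3
    exact hPT (((hCmem ⊤).1 hCt.ge).trans inf_le_left)
  have hSM : (S : Subgroup G) ≤ M := hle _ le_rfl hSt
  refine ⟨?_, ⟨hMt, hle⟩, ⟨hPH M hSM, hloc M hSM hMt⟩, ?_⟩
  · by_contra hcon
    exact hG (ft_step h𝓦 IHsub IHquot hcon)
  · intro u huS huP
    by_contra hcon
    push Not at hcon
    apply hnot
    refine hmod.trans (sup_le le_rfl ?_)
    exact local_transfer h𝓦 hS IHsub huS huP (fun U V h1 h2 => hcon U V h1 h2)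

end Cfsg.Agent.S1998
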