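import Cfsg.Statements.S2004
import Cfsg.Agent.Lib.QdD

set_option autoImplicit false
open Cfsg
open Cfsg.Agent.Lib.QdC Cfsg.Agent.Lib.QdD Cfsg.Agent.Lib.QdA Cfsg.Agent.Lib.Involve

namespace Cfsg.Agent.S2004

/-- Let p be an odd prime and G a finite group such that SL₂(p) is not involved in N_G(P) for any nonidentity p-subgroup P of G. Then every section of G is p-stable in the normalizer form: in each section, whenever an element of the normalizer of a p-subgroup Q acts quadratically on Q, its image in N(Q)/C(Q) lies in O_p(N(Q)/C(Q)). -/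
theorem result {G : Type*} [Group G] [Finite G] {p : ℕ} [Fact p.Prime] (hp : p ≠ 2) (h : ∀ P : Subgroup G, IsPGroup p ↥P → P ≠ ⊥ → ¬ Cfsg.Involves (Matrix.SpecialLinearGroup (Fin 2) (ZMod p)) ↥(Subgroup.normalizer ((P : Subgroup G) : Set G))) : ∀ (K R : Subgroup G) [hR : (R.subgroupOf K).Normal], Cfsg.IsNormalizerPStable p (↥K ⧸ R.subgroupOf K) := by
  classical
  intro K₀ R₀ _
  by_contra hn
  have h1 : Involves (qd p) G := involves_trans (involves_of_not_stable hp hn) (involves_trans (involves_quot _) (involves_subgroup K₀))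
  obtain ⟨K, f, hf⟩ := involves_iff.1 h1
  -- the preimage of the normal subgroup `V`
  set V : Subgroup K := ((A0 p).V).comap f with hV
  haveI : (A0 p).V.Normal := (A0 p).V_normal
  haveI : V.Normal := by rw [hV]; infer_instance
  obtain ⟨Q⟩ : Nonempty (Sylow p V) := inferInstance
  have hfr : Subgroup.normalizer (((Q : Subgroup V).map V.subtype : Subgroup K) : Set K) ⊔ V = ⊤ := Q.normalizer_sup_eq_top
  set Q' : Subgroup K := (Q : Subgroup V).map V.subtype with hQ'
  set P : Subgroup G := Q'.map K.subtype with hP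
  have hPp : IsPGroup p P := (Q.2.map _).map _
  have hQne : Q' ≠ ⊥ := by
    intro h0
    have h2 : (Q : Subgroup V) = ⊥ := (Subgroup.map_eq_bot_iff_of_injective _ V.subtype_injective).1 h0
    -- `p` divides the order of `V`
    obtain ⟨x, hx⟩ := hf (tran 1 0)
    have hxV : x ∈ V := by
      show f x ∈ (A0 p).V
      rw [hx]; exact ⟨1, 0, rfl⟩
    have h3 : ¬ p ∣ Nat.card V := by
      have h4 := Q.not_dvd_index
      rwa [h2, Subgroup.index_bot] at h4
    have h4 : f x ^ Nat.card V = 1 := by
      have h5 : (⟨x, hxV⟩ : V) ^ Nat.card V = 1 := pow_card_eq_one'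
      rw [← map_pow, show x ^ Nat.card V = 1 from congrArg Subtype.val h5, map_one]
    have h5 : f x ^ p = 1 := by
      have h6 : ∀ n : ℕ, (tran 1 0 : qd p) ^ n = tran (n : ZMod p) 0 := by
        intro n
        induction n with
        | zero => rw [pow_zero, Nat.cast_zero]; exact (A0 p).zero.symm
        | succ n ih =>
          rw [pow_succ, ih, Nat.cast_succ]
          have := (A0 p).add (n : ZMod p) 0 1 0
          rw [add_zero] at this
          exact this.symm
      rw [hx, h6, CharP.cast_eq_zero]; exact (A0 p).zero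
    have h6 : f x = 1 := by
      have h7 := Nat.dvd_gcd (orderOf_dvd_of_pow_eq_one h4) (orderOf_dvd_of_pow_eq_one h5)
      rw [Nat.coprime_comm.1 (((Fact.out : p.Prime).coprime_iff_not_dvd).2 h3), Nat.dvd_one, orderOf_eq_one_iff] at h7
      exact h7
    rw [hx] at h6
    exact one_ne_zero ((A0 p).inj 1 0 h6).1
  have hPne : P ≠ ⊥ := fun h0 => hQne ((Subgroup.map_eq_bot_iff_of_injective _ K.subtype_injective).1 h0)
  refine h P hPp hPne ?_
  -- `N_K(Q')` maps onto `SL₂(p)`
  set N := Subgroup.normalizer (Q' : Set K) with hN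
  have hsurj : Function.Surjective (((A0 p).ρ.comp f).comp N.subtype) := by
    intro g
    obtain ⟨q, rfl⟩ := (A0 p).surj g
    obtain ⟨x, rfl⟩ := hf q
    have hx : x ∈ N ⊔ V := hfr ▸ Subgroup.mem_top x
    obtain ⟨n, hn, m, hm, rfl⟩ := Subgroup.mem_sup_of_normal_right.1 hx
    refine ⟨⟨n, hn⟩, ?_⟩
    have h3 : (A0 p).ρ (f m) = 1 := by
      obtain ⟨a, b, h4⟩ := (show f m ∈ (A0 p).V from hm)
      rw [h4]; exact (A0 p).ρ_ε a b
    show (A0 p).ρ (f n) = _
    rw [map_mul, map_mul, h3, mul_one]
  refine involves_trans (involves_of_surj _ hsurj) ?_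
  have hle : N.map K.subtype ≤ Subgroup.normalizer ((P : Subgroup G) : Set G) := by
    rw [hP]; exact Subgroup.le_normalizer_map _
  exact involves_trans (involves_equiv (N.equivMapOfInjective _ K.subtype_injective)) (involves_of_inj (Subgroup.inclusion hle) (Subgroup.inclusion_injective hle))

end Cfsg.Agent.S2004
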