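import Cfsg.Statements.S2009
import Mathlib

set_option autoImplicit false
open Cfsg
open Cfsg

namespace Cfsg.Agent.S2009

theorem inv_of {H : Type*} [Group H] [Finite H] (z : H) (hz : z * z = 1) (N : Subgroup H) [N.Normal]
    (h : N ⊓ Subgroup.centralizer ({z} : Set H) = ⊥) (n : H) (hn : n ∈ N) : z * n * z⁻¹ = n⁻¹ := by
  let φ : N →* N := (MulAut.conjNormal z : MulAut N).toMonoidHom
  have hφ : ∀ n : N, ((φ n : N) : H) = z * n * z⁻¹ := fun n => MulAut.conjNormal_apply z n
  have h1 : MonoidHom.FixedPointFree φ := by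
    intro n hn
    have h2 : z * n * z⁻¹ = n := by rw [← hφ, hn]
    rw [mul_inv_eq_iff_eq_mul] at h2
    have h3 : (n : H) ∈ N ⊓ Subgroup.centralizer ({z} : Set H) := ⟨n.2, Subgroup.mem_centralizer_singleton_iff.2 h2.symm⟩
    rw [h] at h3
    exact Subtype.ext (Subgroup.mem_bot.1 h3)
  have h2 : Function.Involutive φ := by
    intro n
    apply Subtype.ext
    rw [hφ, hφ]
    have hzi : z⁻¹ = z := by rw [inv_eq_iff_mul_eq_one, hz]
    calc z * (z * n * z⁻¹) * z⁻¹ = (z * z) * n * (z⁻¹ * z⁻¹) := by group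
      _ = n := by rw [hzi, hz]; simp
  have h3 := congrFun (MonoidHom.FixedPointFree.coe_eq_inv_of_involutive h1 h2) ⟨n, hn⟩
  have h4 := congrArg Subtype.val h3
  rw [hφ] at h4
  exact h4

theorem main {H : Type*} [Group H] [Finite H] (z : H) (hN : ∀ N : Subgroup H, N.Normal → N ≠ ⊤ → N ⊓ Subgroup.centralizer ({z} : Set H) = ⊥) (E : Subgroup H) (hE : IsKleinFour ↥E) (hzE : z ∈ E) (hc : ∀ e ∈ E, e ≠ 1 → IsConj z e) (hz1 : z ≠ 1)
    (N : Subgroup H) (hNn : N.Normal) (hNt : N ≠ ⊤) : N = ⊥ := by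
  have h1 : ∀ e ∈ E, e ≠ 1 → N ⊓ Subgroup.centralizer ({e} : Set H) = ⊥ := by
    intro e he he1
    obtain ⟨c, hc⟩ := isConj_iff.1 (hc e he he1)
    rw [eq_bot_iff]
    rintro n ⟨hn1, hn2⟩
    have hn2' := Subgroup.mem_centralizer_singleton_iff.1 hn2
    have h3 : c⁻¹ * n * c ∈ N ⊓ Subgroup.centralizer ({z} : Set H) := by
      refine ⟨by simpa using hNn.conj_mem n hn1 c⁻¹, Subgroup.mem_centralizer_singleton_iff.2 ?_⟩
      have hz : z = c⁻¹ * e * c := by rw [← hc]; group
      rw [hz]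
      calc c⁻¹ * n * c * (c⁻¹ * e * c) = c⁻¹ * (n * e) * c := by group
        _ = c⁻¹ * (e * n) * c := by rw [hn2']
        _ = _ := by group
    rw [hN N hNn hNt] at h3
    have h4 := Subgroup.mem_bot.1 h3
    rw [Subgroup.mem_bot]
    have h5 : n = c * (c⁻¹ * n * c) * c⁻¹ := by group
    rw [h5, h4]; group
  have h2 : ∀ e ∈ E, e * e = 1 := by
    intro e he
    have := hE.exponent_two
    have h3 := Monoid.pow_exponent_eq_one (⟨e, he⟩ : E)
    rw [this, sq] at h3
    exact congrArg Subtype.val h3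
  -- another involution
  obtain ⟨e, he, he1, hez⟩ : ∃ e ∈ E, e ≠ 1 ∧ e ≠ z := by
    by_contra hcon
    push Not at hcon
    have h3 : E ≤ Subgroup.zpowers z := by
      intro e he
      by_cases h4 : e = 1
      · rw [h4]; exact Subgroup.one_mem _
      · rw [hcon e he h4]; exact Subgroup.mem_zpowers z
    have h4 : Nat.card E ≤ Nat.card (Subgroup.zpowers z) := Nat.card_mono (Set.toFinite _) h3
    rw [hE.card_four, Nat.card_zpowers] at h4
    have h5 : orderOf z ∣ 2 := orderOf_dvd_of_pow_eq_one (by rw [sq]; exact h2 z hzE)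
    have h6 := Nat.le_of_dvd (by norm_num) h5
    omega
  rw [eq_bot_iff]
  intro n hn
  have hze1 : z * e ≠ 1 := by
    intro h
    apply hez
    have : e = z⁻¹ := (inv_eq_of_mul_eq_one_right h).symm
    rw [this, inv_eq_iff_mul_eq_one]; exact h2 z hzE
  have i1 := inv_of z (h2 z hzE) N (h1 z hzE hz1) n hn
  have i2 := inv_of e (h2 e he) N (h1 e he he1) n⁻¹ (N.inv_mem hn)
  have i2' := inv_of e (h2 e he) N (h1 e he he1) n hn
  have i3 : (z * e) * n * (z * e)⁻¹ = n := by
    have h3 : (z * e) * n * (z * e)⁻¹ = z * (e * n * e⁻¹) * z⁻¹ := by group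
    rw [h3, i2']
    have h4 : z * n⁻¹ * z⁻¹ = (z * n * z⁻¹)⁻¹ := by group
    rw [h4, i1, inv_inv]
  rw [mul_inv_eq_iff_eq_mul] at i3
  have h3 : n ∈ N ⊓ Subgroup.centralizer ({z * e} : Set H) := ⟨hn, Subgroup.mem_centralizer_singleton_iff.2 i3.symm⟩
  rw [h1 _ (E.mul_mem hzE he) hze1] at h3
  exact h3

/-- Let H be a finite group and z an involution such that every proper normal subgroup of H meets the centralizer of z trivially, and suppose z lies in a Klein four-subgroup E of H all three of whose involutions are conjugate to z in H. Then H is simple. -/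
theorem result {H : Type*} [Group H] [Finite H] (z : H) (hz : orderOf z = 2) (hN : ∀ N : Subgroup H, N.Normal → N ≠ ⊤ → N ⊓ Subgroup.centralizer ({z} : Set H) = ⊥) (E : Subgroup H) (hE : IsKleinFour ↥E) (hzE : z ∈ E) (hc : ∀ e ∈ E, e ≠ 1 → IsConj z e) : IsSimpleGroup H := by
  have hz1 : z ≠ 1 := by
    intro h
    rw [h, orderOf_one] at hz
    exact absurd hz (by norm_num)
  haveI : Nontrivial H := ⟨z, 1, hz1⟩
  refine ⟨fun N hNn => ?_⟩
  by_cases hNt : N = ⊤
  · exact Or.inr hNt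
  · exact Or.inl (main z hN E hE hzE hc hz1 N hNn hNt)

end Cfsg.Agent.S2009
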