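import Cfsg.Statements.S2008
import Cfsg.Agent.S2009

set_option autoImplicit false
open Cfsg
open Cfsg

namespace Cfsg.Agent.S2008

/-- Let H be a finite group and z an involution such that every proper normal subgroup of H meets the centralizer of z trivially, and suppose z lies in a Klein four-subgroup E of H all three of whose involutions are conjugate to z in H. Then H has no non-trivial abelian normal subgroup. -/
theorem result {H : Type*} [Group H] [Finite H] (z : H) (hz : orderOf z = 2) (hN : ∀ N : Subgroup H, N.Normal → N ≠ ⊤ → N ⊓ Subgroup.centralizer ({z} : Set H) = ⊥) (E : Subgroup H) (hE : IsKleinFour ↥E) (hzE : z ∈ E) (hc : ∀ e ∈ E, e ≠ 1 → IsConj z e) (N : Subgroup H) [N.Normal] (hab : IsMulCommutative ↥N) : N = ⊥ := by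
  have hz1 : z ≠ 1 := by
    intro h
    rw [h, orderOf_one] at hz
    exact absurd hz (by norm_num)
  have hNn : N.Normal := inferInstance
  by_cases hNt : N = ⊤
  · exfalso
    have hcomm : ∀ a b : H, a * b = b * a := by
      intro a b
      have ha : a ∈ N := by rw [hNt]; exact Subgroup.mem_top a
      have hb : b ∈ N := by rw [hNt]; exact Subgroup.mem_top b
      have h1 := hab.is_comm.comm (⟨a, ha⟩ : N) ⟨b, hb⟩
      exact congrArg Subtype.val h1
    have h3 : E ≤ Subgroup.zpowers z := by
      intro e he
      by_cases h4 : e = 1
      · rw [h4]; exact Subgroup.one_mem _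
      · obtain ⟨c, hc'⟩ := isConj_iff.1 (hc e he h4)
        have h5 : e = z := by
          rw [← hc', hcomm c z]; group
        rw [h5]; exact Subgroup.mem_zpowers z
    have h4 : Nat.card E ≤ Nat.card (Subgroup.zpowers z) := Nat.card_mono (Set.toFinite _) h3
    rw [hE.card_four, Nat.card_zpowers, hz] at h4
    omega
  · exact Cfsg.Agent.S2009.main z hN E hE hzE hc hz1 N hNn hNt

end Cfsg.Agent.S2008
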