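import Cfsg.Statements.S2121
import Cfsg.Agent.Lib.ChevOutB
-- import your own Cfsg.Agent.* helpers here

set_option autoImplicit false
open Cfsg

namespace Cfsg.Agent.S2121

/-- Outer automorphisms of the Chevalley groups of type G₂: over a field with q = p^f (p prime) ≥ 3 elements, the outer automorphism group of G₂(q) has order f when p ≠ 3 and 2f when p = 3 (field automorphisms, and in characteristic 3 also the exceptional graph automorphism). -/
theorem result {F : Type*} [Field F] [Fintype F] (p f : ℕ) [Fact p.Prime] [CharP F p] (hF : Fintype.card F = p ^ f) (hq : 3 ≤ p ^ f) : Nat.card (Cfsg.Out ↥(Cfsg.Lie.chevG2.group F)) = (if p = 3 then 2 * f else f) := by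
  have hD : Cfsg.Lie.chevG2 ∈ [Cfsg.Lie.chevG2, Cfsg.Lie.chevB2, Cfsg.Lie.chevD4, Cfsg.Lie.chevF4, Cfsg.Lie.chevE6, Cfsg.Lie.chevE7, Cfsg.Lie.chevE8] := by simp
  obtain ⟨Q⟩ := Lib.ChevAlg.exists_chevS Cfsg.Lie.chevG2 hD F
  have hr : 0 < Cfsg.Lie.chevG2.rank := by decide
  rw [Lib.ChevAlg.card_out Q hD hr, Lib.ChevAlg.card_ringAut p f hF,
    Lib.ChevAlg.card_quot Q Lib.ChevAlg.ordG2.smith (by decide) hF]
  simp only [List.map_cons, List.map_nil, List.prod_cons, List.prod_nil, Nat.gcd_one_right, mul_one, one_mul]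
  by_cases h3 : p = 3
  · subst h3
    rw [Lib.ChevAlg.card_PG_G2 Q, if_pos rfl]
  · have hinfo : ∀ π : Equiv.Perm (Fin Cfsg.Lie.chevG2.rank), Lib.ChevAlg.PiInfo Cfsg.Lie.chevG2 F π → ∀ i, π i = i := by
      have hrc : ringChar F = p := ringChar.eq F p
      rintro π (h | h | h | ⟨-, ⟨-, h⟩ | ⟨h, -⟩ | ⟨h, -⟩⟩)
      · exact h
      · exact absurd (congrArg Cfsg.Lie.ChevalleyDatum.rank h) (by decide)
      · exact absurd (congrArg Cfsg.Lie.ChevalleyDatum.rank h) (by decide)
      · exact absurd (hrc.symm.trans h) h3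
      · exact absurd (congrArg Cfsg.Lie.ChevalleyDatum.nroots h) (by decide)
      · exact absurd (congrArg Cfsg.Lie.ChevalleyDatum.rank h) (by decide)
    rw [Lib.ChevAlg.card_PG_one Q hD hr hinfo, if_neg h3, one_mul]

end Cfsg.Agent.S2121
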