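import Cfsg.Statements.S2122
import Cfsg.Agent.Lib.ChevOutB
-- import your own Cfsg.Agent.* helpers here

set_option autoImplicit false
open Cfsg

namespace Cfsg.Agent.S2122

/-- Outer automorphisms of the Chevalley groups of type F₄: over a field with q = p^f (p prime) elements, the outer automorphism group of F₄(q) has order gcd(2, p) · f (field automorphisms, and in characteristic 2 also the exceptional graph automorphism). -/
theorem result {F : Type*} [Field F] [Fintype F] (p f : ℕ) [Fact p.Prime] [CharP F p] (hF : Fintype.card F = p ^ f) : Nat.card (Cfsg.Out ↥(Cfsg.Lie.chevF4.group F)) = Nat.gcd 2 p * f := by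
  have hD : Cfsg.Lie.chevF4 ∈ [Cfsg.Lie.chevG2, Cfsg.Lie.chevB2, Cfsg.Lie.chevD4, Cfsg.Lie.chevF4, Cfsg.Lie.chevE6, Cfsg.Lie.chevE7, Cfsg.Lie.chevE8] := by simp
  obtain ⟨Q⟩ := Lib.ChevAlg.exists_chevS Cfsg.Lie.chevF4 hD F
  have hr : 0 < Cfsg.Lie.chevF4.rank := by decide
  rw [Lib.ChevAlg.card_out Q hD hr, Lib.ChevAlg.card_ringAut p f hF,
    Lib.ChevAlg.card_quot Q Lib.ChevAlg.ordF4.smith (by decide) hF]
  simp only [List.map_cons, List.map_nil, List.prod_cons, List.prod_nil, Nat.gcd_one_right, mul_one, one_mul]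
  by_cases h2 : p = 2
  · subst h2
    rw [Lib.ChevAlg.card_PG_F4 Q]
    rfl
  · have hinfo : ∀ π : Equiv.Perm (Fin Cfsg.Lie.chevF4.rank), Lib.ChevAlg.PiInfo Cfsg.Lie.chevF4 F π → ∀ i, π i = i := by
      have hrc : ringChar F = p := ringChar.eq F p
      rintro π (h | h | h | ⟨-, ⟨h, -⟩ | ⟨h, -⟩ | ⟨-, h⟩⟩)
      · exact h
      · exact absurd (congrArg Cfsg.Lie.ChevalleyDatum.nroots h) (by decide)
      · exact absurd (congrArg Cfsg.Lie.ChevalleyDatum.rank h) (by decide)
      · exact absurd (congrArg Cfsg.Lie.ChevalleyDatum.rank h) (by decide)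
      · exact absurd (congrArg Cfsg.Lie.ChevalleyDatum.rank h) (by decide)
      · exact absurd (hrc.symm.trans h) h2
    rw [Lib.ChevAlg.card_PG_one Q hD hr hinfo]
    have hp : Nat.gcd 2 p = 1 := (Nat.coprime_primes Nat.prime_two (Fact.out : p.Prime)).2 (Ne.symm h2)
    rw [hp]

end Cfsg.Agent.S2122
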