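import Cfsg.Statements.S2123
import Cfsg.Agent.Lib.ChevOutB
-- import your own Cfsg.Agent.* helpers here

set_option autoImplicit false
open Cfsg

namespace Cfsg.Agent.S2123

/-- Outer automorphisms of the (adjoint, simple) Chevalley groups of type E₆: over a field with q = p^f (p prime) elements, the outer automorphism group of E₆(q) has order 2 · gcd(3, q − 1) · f (diagonal, field and graph automorphisms). -/
theorem result {F : Type*} [Field F] [Fintype F] (p f : ℕ) [Fact p.Prime] [CharP F p] (hF : Fintype.card F = p ^ f) : Nat.card (Cfsg.Out ↥(Cfsg.Lie.chevE6.group F)) = 2 * Nat.gcd 3 (p ^ f - 1) * f := by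
  have hD : Cfsg.Lie.chevE6 ∈ [Cfsg.Lie.chevG2, Cfsg.Lie.chevB2, Cfsg.Lie.chevD4, Cfsg.Lie.chevF4, Cfsg.Lie.chevE6, Cfsg.Lie.chevE7, Cfsg.Lie.chevE8] := by simp
  obtain ⟨Q⟩ := Lib.ChevAlg.exists_chevS Cfsg.Lie.chevE6 hD F
  have hr : 0 < Cfsg.Lie.chevE6.rank := by decide
  rw [Lib.ChevAlg.card_out Q hD hr, Lib.ChevAlg.card_PG_E6 Q, Lib.ChevAlg.card_ringAut p f hF,
    Lib.ChevAlg.card_quot Q Lib.ChevAlg.ordE6.smith (by decide) hF]
  simp only [List.map_cons, List.map_nil, List.prod_cons, List.prod_nil, Nat.gcd_one_right, mul_one, one_mul]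
  rw [Nat.gcd_comm]
  ring

end Cfsg.Agent.S2123
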