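import Cfsg.Statements.S2125
import Cfsg.Agent.Lib.ChevOut
-- import your own Cfsg.Agent.* helpers here

set_option autoImplicit false
open Cfsg

namespace Cfsg.Agent.S2125

/-- Outer automorphisms of the Chevalley groups of type E₈: over a field with p^f elements, p prime, the outer automorphism group of E₈(p^f) has order f (field automorphisms only). -/
theorem result {F : Type*} [Field F] [Fintype F] (p f : ℕ) [Fact p.Prime] [CharP F p] (hF : Fintype.card F = p ^ f) : Nat.card (Cfsg.Out ↥(Cfsg.Lie.chevE8.group F)) = f := by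
  have hD : Cfsg.Lie.chevE8 ∈ [Cfsg.Lie.chevG2, Cfsg.Lie.chevB2, Cfsg.Lie.chevD4, Cfsg.Lie.chevF4, Cfsg.Lie.chevE6, Cfsg.Lie.chevE7, Cfsg.Lie.chevE8] := by simp
  obtain ⟨Q⟩ := Lib.ChevAlg.exists_chevS Cfsg.Lie.chevE8 hD F
  have hr : 0 < Cfsg.Lie.chevE8.rank := by decide
  have hinfo : ∀ π : Equiv.Perm (Fin Cfsg.Lie.chevE8.rank), Lib.ChevAlg.PiInfo Cfsg.Lie.chevE8 F π → ∀ i, π i = i := by
    rintro π (h | h | h | ⟨-, ⟨h, -⟩ | ⟨h, -⟩ | ⟨h, -⟩⟩)
    · exact h
    all_goals exact absurd (congrArg Cfsg.Lie.ChevalleyDatum.rank h) (by decide)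
  rw [Lib.ChevAlg.card_out Q hD hr, Lib.ChevAlg.card_PG_one Q hD hr hinfo, Lib.ChevAlg.card_ringAut p f hF,
    Lib.ChevAlg.card_quot Q Lib.ChevAlg.ordE8.smith (by decide) hF]
  simp

end Cfsg.Agent.S2125
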