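import Cfsg.Statements.S2126
import Mathlib
import Cfsg.Agent.H8.SuzHom2
import Cfsg.Agent.H8.SuzLie

set_option autoImplicit false
open Cfsg

namespace Cfsg.Agent.S2126

open Cfsg.Agent.H8.Suz Cfsg.Agent.H8.Suz.Dat

theorem card_out_congr {G : Type*} {H : Type*} [Group G] [Group H] (e : G ≃* H) :
    Nat.card (MulAut G ⧸ (MulAut.conj : G →* MulAut G).range) = Nat.card (MulAut H ⧸ (MulAut.conj : H →* MulAut H).range) := by
  have hmem : ∀ α : MulAut G, α ∈ (MulAut.conj : G →* MulAut G).range ↔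
      (MulAut.congr e) α ∈ (MulAut.conj : H →* MulAut H).range := by
    intro α
    constructor
    · rintro ⟨g, rfl⟩
      refine ⟨e g, ?_⟩
      ext x
      show e g * x * (e g)⁻¹ = e (g * (e.symm x) * g⁻¹)
      rw [map_mul, map_mul, map_inv, e.apply_symm_apply]
    · rintro ⟨h, hh⟩
      refine ⟨e.symm h, ?_⟩
      ext x
      have h1 := DFunLike.congr_fun hh (e x)
      have h2 : h * e x * h⁻¹ = e (α (e.symm (e x))) := h1
      show e.symm h * x * (e.symm h)⁻¹ = α x
      apply e.injective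
      rw [map_mul, map_mul, map_inv, e.apply_symm_apply, h2, e.symm_apply_apply]
  refine Nat.card_congr (Equiv.ofBijective (Quotient.map' (MulAut.congr e) ?_) ⟨?_, ?_⟩)
  · intro a b hab
    rw [QuotientGroup.leftRel_apply] at hab ⊢
    rw [← map_inv, ← map_mul]
    exact (hmem _).1 hab
  · rintro ⟨a⟩ ⟨b⟩ h
    have h1 := QuotientGroup.eq.1 h
    rw [← map_inv, ← map_mul] at h1
    exact QuotientGroup.eq.2 ((hmem _).2 h1)
  · rintro ⟨b⟩
    refine ⟨Quotient.mk'' ((MulAut.congr e).symm b), ?_⟩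
    show Quotient.mk'' ((MulAut.congr e) ((MulAut.congr e).symm b)) = _
    rw [MulEquiv.apply_symm_apply]
    rfl

variable {F : Type*} [Field F] [Fintype F] {m : ℕ} (D : Dat F m)

/-- field automorphisms as group automorphisms -/
noncomputable def stdAut (η : F →+* F) : MulAut (Cfsg.Sz F m) :=
  MulEquiv.ofBijective (D.std D η) ((Finite.injective_iff_bijective).1 (D.std_injective D η))

theorem stdAut_apply (η : F →+* F) (x : Cfsg.Sz F m) : stdAut D η x = D.std D η x := rfl

include D in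
theorem card_out : Nat.card (MulAut (Cfsg.Sz F m) ⧸ (MulAut.conj : Cfsg.Sz F m →* MulAut (Cfsg.Sz F m)).range) =
    Nat.card (F →+* F) := by
  symm
  refine Nat.card_congr (Equiv.ofBijective (fun η : F →+* F => (QuotientGroup.mk (stdAut D η) :
    MulAut (Cfsg.Sz F m) ⧸ (MulAut.conj : Cfsg.Sz F m →* MulAut (Cfsg.Sz F m)).range)) ⟨?_, ?_⟩)
  · intro η₁ η₂ h
    obtain ⟨g, hg⟩ := QuotientGroup.eq.1 h
    -- std η₂ x = std η₁ (g x g⁻¹)
    have h1 : ∀ x, D.std D η₂ x = D.std D η₁ g * D.std D η₁ x * (D.std D η₁ g)⁻¹ := by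
      intro x
      have h2 := DFunLike.congr_fun hg x
      have h3 : g * x * g⁻¹ = (stdAut D η₁)⁻¹ (stdAut D η₂ x) := h2
      have h4 := congrArg (stdAut D η₁) h3
      rw [MulAut.apply_inv_self, stdAut_apply, stdAut_apply, map_mul, map_mul, map_inv] at h4
      exact h4.symm
    set k := D.std D η₁ g with hk
    have h2 := h1 D.t0
    have h3 := h1 D.ww
    have e1 : ∀ η : F →+* F, D.std D η D.t0 = D.t0 := by
      intro η
      show D.std D η (D.tt 0 1) = D.tt 0 1
      rw [D.std_tt, map_zero, map_one]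
    rw [e1, e1] at h2
    rw [D.std_ww, D.std_ww] at h3
    have hkU : k ∈ D.U := by
      apply D.centralizer_U D.t0_mem D.t0_ne
      calc D.t0 * k = k * D.t0 * k⁻¹ * k := by rw [← h2]
        _ = _ := by group
    obtain ⟨a, b, hab⟩ := hkU
    have hk1 : k = 1 := by
      by_contra hne
      have hne' : ¬ (a = 0 ∧ b = 0) := by
        rintro ⟨rfl, rfl⟩
        rw [D.tt_zero] at hab
        exact hne hab
      have h4 : k • (D.ww • D.inf) = D.ww • D.inf := by
        have h5 : k * D.ww = D.ww * k := by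
          calc k * D.ww = k * D.ww * k⁻¹ * k := by group
            _ = _ := by rw [← h3]
        rw [← mul_smul, h5, mul_smul, hab, D.tt_inf]
      rw [hab] at h4
      have h5 := D.tt_fix hne' h4
      rw [D.ww_inf] at h5
      exact D.pt_ne_inf 0 0 h5
    ext a
    have h6 := h1 (D.tt a 0)
    rw [hk1, D.std_tt, D.std_tt, one_mul, inv_one, mul_one] at h6
    exact (D.tt_inj h6).1.symm
  · rintro ⟨α⟩
    obtain ⟨g, η, h⟩ := D.hom_eq D α.toMonoidHom α.injective
    refine ⟨η, QuotientGroup.eq.2 ⟨(stdAut D η)⁻¹ g, ?_⟩⟩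
    ext1 x
    show (stdAut D η)⁻¹ g * x * ((stdAut D η)⁻¹ g)⁻¹ = (stdAut D η)⁻¹ (α x)
    have h1 : α x = g * stdAut D η x * g⁻¹ := h x
    rw [h1, map_mul, map_mul, map_inv, MulAut.inv_apply_self]

theorem card_hom (D : Dat F m) : Nat.card (F →+* F) = 2 * m + 1 := by
  have hc1 := D.char
  let _ : Algebra (ZMod 2) F := ZMod.algebra F 2
  have : Fact (Nat.Prime 2) := ⟨Nat.prime_two⟩
  have f1 : Module.finrank (ZMod 2) F = 2 * m + 1 := by
    have h1 := FiniteField.pow_finrank_eq_card 2 F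
    rw [D.hF] at h1
    exact Nat.pow_right_injective (le_refl 2) h1
  have h1 : Nat.card (F ≃ₐ[ZMod 2] F) = 2 * m + 1 := by
    rw [← f1]
    exact IsGalois.card_aut_eq_finrank (ZMod 2) F
  rw [← h1]
  symm
  refine Nat.card_congr (Equiv.ofBijective (fun f : F ≃ₐ[ZMod 2] F => (f : F →+* F)) ⟨?_, ?_⟩)
  · intro f g h
    ext x
    exact DFunLike.congr_fun h x
  · intro η
    have hb : Function.Bijective η := (Finite.injective_iff_bijective).1 η.injective
    refine ⟨AlgEquiv.ofRingEquiv (f := RingEquiv.ofBijective η hb) (fun r => ?_), ?_⟩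
    · show η (algebraMap (ZMod 2) F r) = algebraMap (ZMod 2) F r
      exact DFunLike.congr_fun (Subsingleton.elim (η.comp (algebraMap (ZMod 2) F)) (algebraMap (ZMod 2) F)) r
    · ext x; rfl

/-- Outer automorphisms of the Suzuki groups: for q = 2^(2m+1) with m ≥ 1 the outer automorphism group of Sz(q) has order 2m + 1 (field automorphisms only). -/
theorem result {F : Type*} [Field F] [Fintype F] {m : ℕ} (hm : 1 ≤ m) (hF : Fintype.card F = 2 ^ (2 * m + 1)) : Nat.card (Cfsg.Out ↥(Cfsg.Lie.Sz F (2 ^ (m + 1)))) = 2 * m + 1 := by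
  obtain ⟨D⟩ := exists_dat hm hF
  obtain ⟨e⟩ := D.LieSz_equiv
  exact (card_out_congr e).trans ((card_out D).trans (card_hom D))

end Cfsg.Agent.S2126
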