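import Cfsg.Statements.S2155
import Cfsg.Agent.Lib.ChevBT2
import Cfsg.Agent.Lib.H3Loc
import Cfsg.Agent.Lib.ChevS
import Cfsg.Agent.Lib.ChevG2d
import Cfsg.Agent.Lib.ChevB2d
import Cfsg.Agent.Lib.ChevD4d
import Cfsg.Agent.Lib.ChevF4d
import Cfsg.Agent.Lib.ChevE6d
import Cfsg.Agent.Lib.ChevE7d
import Cfsg.Agent.Lib.ChevE8d
-- import your own Cfsg.Agent.* helpers here

set_option autoImplicit false
open Cfsg

namespace Cfsg.Agent.S2155

/-- In a Chevalley group of type G₂, B₂, D₄, F₄, E₆, E₇ or E₈ over a finite field of characteristic p (for types G₂ and B₂ the field is assumed to have at least 3 elements, so that the group is simple), the generalized Fitting subgroup of every proper standard parabolic subgroup P_J is a p-group (P_J is p-constrained with trivial largest normal subgroup of order prime to p). -/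
theorem result {F : Type*} [Field F] [Fintype F] (p : ℕ) [Fact p.Prime] [CharP F p] (D : Cfsg.Lie.ChevalleyDatum) (hD : D ∈ [Cfsg.Lie.chevG2, Cfsg.Lie.chevB2, Cfsg.Lie.chevD4, Cfsg.Lie.chevF4, Cfsg.Lie.chevE6, Cfsg.Lie.chevE7, Cfsg.Lie.chevE8]) (hq : (D = Cfsg.Lie.chevG2 ∨ D = Cfsg.Lie.chevB2) → 3 ≤ Fintype.card F) (J : Set ℕ) (hJ : ∃ i, i < D.rank ∧ i ∉ J) : IsPGroup p ↥(Cfsg.generalizedFittingSubgroup ↥(D.parabolicSubgroup F J)) := by
  obtain ⟨Q, hS⟩ := Lib.ChevAlg.exists_chevS D hD F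
  have hc : Lib.ChevTab.ConnD D := by
    simp only [List.mem_cons, List.not_mem_nil, or_false] at hD
    rcases hD with rfl | rfl | rfl | rfl | rfl | rfl | rfl
    · exact Lib.ChevG2.conn
    · exact Lib.ChevB2.conn
    · exact Lib.ChevD4.conn
    · exact Lib.ChevF4.conn
    · exact Lib.ChevE6.conn
    · exact Lib.ChevE7.conn
    · exact Lib.ChevE8.conn
  have : Finite ↥(D.parabolicSubgroup F J) := inferInstance
  set P := D.parabolicSubgroup F J with hP
  have hRP : Lib.ChevAlg.XS Q (Lib.ChevAlg.RJ D J) ≤ P := by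
    rw [hP, ← Lib.ChevAlg.levi_decomp hS J]; exact le_sup_left
  have hPG : P ≤ D.group F := by
    rw [hP, ← Lib.ChevAlg.normalizer_radical hS J]; exact inf_le_right
  set R : Subgroup ↥P := (Lib.ChevAlg.XS Q (Lib.ChevAlg.RJ D J)).subgroupOf P with hR
  have hRn : R.Normal := by
    refine ⟨fun r hr g => ?_⟩
    rw [hR, Subgroup.mem_subgroupOf] at hr ⊢
    exact (Subgroup.mem_normalizer_iff.1 (Lib.ChevAlg.parabolic_normalizes hS J g.2) _).1 hr
  have hRp : IsPGroup p ↥R := by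
    have hU : IsPGroup p ↥(Lib.ChevAlg.XS Q (Lib.ChevAlg.Pos D)) := by
      obtain ⟨n, -, hn⟩ := FiniteField.card F p
      apply IsPGroup.of_card (n := n * (D.nroots / 2))
      rw [Lib.ChevAlg.card_U Q, hn, ← pow_mul]
    have h1 : IsPGroup p ↥(Lib.ChevAlg.XS Q (Lib.ChevAlg.RJ D J)) :=
      hU.to_le (Lib.ChevAlg.XS_mono Q fun r hr => hr.1)
    exact h1.comap_of_injective _ (Subgroup.subtype_injective _)
  have hRle : R ≤ Cfsg.pCore p ↥P := Lib.Cores.le_pCore hRn hRp
  have hcst : Lib.PCon.Cst p ↥P := by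
    intro c hcc
    apply hRle
    rw [hR, Subgroup.mem_subgroupOf]
    refine Lib.ChevAlg.cent_radical p hS hc hJ (hPG c.2) ?_
    intro y hy
    have h1 : (⟨y, hRP hy⟩ : ↥P) ∈ Cfsg.pCore p ↥P := hRle (Subgroup.mem_subgroupOf.2 hy)
    have h2 := Subgroup.mem_centralizer_iff.1 hcc _ h1
    have h3 : y * (c : GL D.Idx F) = c * y := congrArg Subtype.val h2
    rw [← h3, mul_inv_cancel_right]
  have h := Lib.H3Loc.gf_eq_pCore_iff.2 hcst
  rw [h]
  exact Lib.Cores.pCore_isPGroup p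

end Cfsg.Agent.S2155
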