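import Cfsg.Statements.S2160
import Cfsg.Agent.Lib.ChevSmall
-- import your own Cfsg.Agent.* helpers here

set_option autoImplicit false
open Cfsg

namespace Cfsg.Agent.S2160

/-- In a Chevalley group of type G₂, B₂, D₄, F₄, E₆, E₇ or E₈ over a finite field, every field automorphism commutes with every graph automorphism. -/
theorem result {F : Type*} [Field F] [Finite F] (D : Cfsg.Lie.ChevalleyDatum) (hD : D ∈ [Cfsg.Lie.chevG2, Cfsg.Lie.chevB2, Cfsg.Lie.chevD4, Cfsg.Lie.chevF4, Cfsg.Lie.chevE6, Cfsg.Lie.chevE7, Cfsg.Lie.chevE8]) (f g : ↥(D.group F) ≃* ↥(D.group F))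
    (hf : D.IsFieldAut f) (hg : D.IsGraphAut g) (y : ↥(D.group F)) : f (g y) = g (f y) := by
  classical
  obtain ⟨Q, hS⟩ := Cfsg.Agent.Lib.ChevAlg.exists_chevS D hD F
  obtain ⟨σ, hσ⟩ := hf
  obtain ⟨π, -, hπ⟩ := hg
  have h := Cfsg.Agent.Lib.ChevAlg.hom_ext_simple Q (f := (f : ↥(D.group F) →* ↥(D.group F)).comp (g : ↥(D.group F) →* ↥(D.group F)))
    (g := (g : ↥(D.group F) →* ↥(D.group F)).comp (f : ↥(D.group F) →* ↥(D.group F))) ?_ ?_
  · exact DFunLike.congr_fun h y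
  · intro i hi t
    set x : ↥(D.group F) := ⟨Cfsg.Agent.Lib.ChevAlg.xG Q (D.simple i) t, Cfsg.Agent.Lib.ChevAlg.xG_mem_group Q _ _⟩ with hx
    apply Subtype.ext
    apply Units.ext
    show ((f (g x) : GL D.Idx F) : Matrix D.Idx D.Idx F) = ((g (f x) : GL D.Idx F) : Matrix D.Idx D.Idx F)
    have h1 := (hπ x ⟨i, hi⟩ t).1 rfl
    have h2 := hσ (g x) _ _ (Q.C.simple_lt _ (π ⟨i, hi⟩).2) h1
    have h3 := hσ x (D.simple i) t (Q.C.simple_lt i hi) rfl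
    have h4 := (hπ (f x) ⟨i, hi⟩ (σ t)).1 h3
    rw [h2, h4, map_pow]
  · intro i hi t
    set x : ↥(D.group F) := ⟨Cfsg.Agent.Lib.ChevAlg.xG Q (D.nroots - 1 - D.simple i) t, Cfsg.Agent.Lib.ChevAlg.xG_mem_group Q _ _⟩ with hx
    apply Subtype.ext
    apply Units.ext
    show ((f (g x) : GL D.Idx F) : Matrix D.Idx D.Idx F) = ((g (f x) : GL D.Idx F) : Matrix D.Idx D.Idx F)
    have hn : ∀ j < D.rank, D.neg (D.simple j) = D.nroots - 1 - D.simple j := fun j hj => Q.C.neg_eq _ (Q.C.simple_lt j hj)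
    have hlt : ∀ j < D.rank, D.neg (D.simple j) < D.nroots := fun j hj => by
      rw [hn j hj]; exact Cfsg.Agent.Lib.ChevAlg.neg_lt (Q.C.simple_lt j hj)
    have hx0 : ((x : GL D.Idx F) : Matrix D.Idx D.Idx F) = D.x F (D.neg (D.simple i)) t := by
      rw [hn i hi]; rfl
    have h1 := (hπ x ⟨i, hi⟩ t).2 hx0
    have h2 := hσ (g x) _ _ (hlt _ (π ⟨i, hi⟩).2) h1
    have h3 := hσ x _ t (hlt i hi) hx0
    have h4 := (hπ (f x) ⟨i, hi⟩ (σ t)).2 h3
    rw [h2, h4, map_pow]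

end Cfsg.Agent.S2160
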