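import Cfsg.Statements.S2161
import Cfsg.Agent.Lib.ChevGr
-- import your own Cfsg.Agent.* helpers here

set_option autoImplicit false
open Cfsg

namespace Cfsg.Agent.S2161

/-- For the Chevalley groups of types D₄ and E₆ (one root length) over any field: if `π` is a symmetry of the Dynkin diagram and `φ` is an automorphism sending `x_{p_i}(t)` to `x_{p_{π i}}(t)` and `x_{-p_i}(t)` to `x_{-p_{π i}}(t)` for every fundamental root `p_i`, then for every root `r` there is a sign `ε = ±1` with `φ(x_r(t)) = x_{π·r}(ε t)` for all `t`, where `π·r` is the root whose coefficients are those of `r` permuted by `π`. -/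
theorem result {F : Type*} [Field F] (D : Cfsg.Lie.ChevalleyDatum) (hD : D ∈ [Cfsg.Lie.chevD4, Cfsg.Lie.chevE6])
    (π : Equiv.Perm (Fin D.rank)) (hπ : D.IsDiagramSymmetry π) (φ : ↥(D.group F) ≃* ↥(D.group F))
    (hφ : ∀ (g : ↥(D.group F)) (i : Fin D.rank) (t : F),
      (((g : GL D.Idx F) : Matrix D.Idx D.Idx F) = D.x F (D.simple i) t →
        ((φ g : GL D.Idx F) : Matrix D.Idx D.Idx F) = D.x F (D.simple (π i)) t) ∧
      (((g : GL D.Idx F) : Matrix D.Idx D.Idx F) = D.x F (D.neg (D.simple i)) t →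
        ((φ g : GL D.Idx F) : Matrix D.Idx D.Idx F) = D.x F (D.neg (D.simple (π i))) t))
    (r : ℕ) (hr : r < D.nroots) :
    ∃ ε : F, (ε = 1 ∨ ε = -1) ∧ ∀ (g : ↥(D.group F)) (t : F),
      ((g : GL D.Idx F) : Matrix D.Idx D.Idx F) = D.x F r t →
        ((φ g : GL D.Idx F) : Matrix D.Idx D.Idx F) = D.x F (D.permRoot π r) (ε * t) := by
  obtain ⟨Q, hS, hV⟩ := Cfsg.Agent.Lib.ChevAlg.exists_chevV D hD F
  have hc := Cfsg.Agent.Lib.ChevAlg.carSym_of hD hπ
  have hn : ∀ j < D.rank, D.neg (D.simple j) = D.nroots - 1 - D.simple j := fun j hj => Q.C.neg_eq _ (Q.C.simple_lt j hj)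
  obtain ⟨ε, h1, h2⟩ := Cfsg.Agent.Lib.ChevAlg.graph_root hV hc φ
    (fun i t => Units.ext ((hφ ⟨_, Cfsg.Agent.Lib.ChevAlg.xG_mem_group Q _ _⟩ i t).1 rfl))
    (fun i t => Units.ext (by
      have h3 := (hφ ⟨Cfsg.Agent.Lib.ChevAlg.xG Q (D.nroots - 1 - D.simple i) t, Cfsg.Agent.Lib.ChevAlg.xG_mem_group Q _ _⟩ i t).2
        (by rw [hn i i.2]; rfl)
      rw [h3, hn _ (π i).2]; rfl)) ⟨r, hr⟩
  refine ⟨ε, ?_, ?_⟩
  · rcases h1 with h1 | h1
    · left; rw [h1]; rfl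
    · right; rw [h1]; rfl
  · intro g t hg
    have h3 : g = ⟨Cfsg.Agent.Lib.ChevAlg.xG Q r t, Cfsg.Agent.Lib.ChevAlg.xG_mem_group Q _ _⟩ := Subtype.ext (Units.ext hg)
    rw [h3]
    exact congrArg (fun g : GL D.Idx F => (g : Matrix D.Idx D.Idx F)) (h2 t)

end Cfsg.Agent.S2161
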