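import Cfsg.Statements.S2299
import Mathlib
import Cfsg.Agent.Lib.Tw22
-- import your own Cfsg.Agent.* helpers here

set_option autoImplicit false
open Cfsg
set_option linter.all false

namespace Cfsg.Agent.S2299

/-- Over a finite field F with q elements, q odd, every irreducible complex character of SL₂ has degree 1, q, q + 1, q − 1, (q + 1)/2 or (q − 1)/2; and when q ≥ 5 (so that these six numbers are distinct) there are exactly one irreducible character of degree 1, one of degree q, (q − 3)/2 of degree q + 1, (q − 1)/2 of degree q − 1, two of degree (q + 1)/2 and two of degree (q − 1)/2. -/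
theorem result {F : Type*} [Field F] [Fintype F] (hodd : Odd (Fintype.card F)) :
    (∀ χ : Matrix.SpecialLinearGroup (Fin 2) F → ℂ, Cfsg.IsIrrCharacter (Matrix.SpecialLinearGroup (Fin 2) F) χ →
      χ 1 = 1 ∨ χ 1 = (Fintype.card F : ℂ) ∨ χ 1 = (Fintype.card F : ℂ) + 1 ∨ χ 1 = (Fintype.card F : ℂ) - 1 ∨
        χ 1 = (((Fintype.card F + 1) / 2 : ℕ) : ℂ) ∨ χ 1 = (((Fintype.card F - 1) / 2 : ℕ) : ℂ)) ∧
    (5 ≤ Fintype.card F →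
      Nat.card {χ : Cfsg.IrrCharacter (Matrix.SpecialLinearGroup (Fin 2) F) // (χ : Matrix.SpecialLinearGroup (Fin 2) F → ℂ) 1 = 1} = 1 ∧
      Nat.card {χ : Cfsg.IrrCharacter (Matrix.SpecialLinearGroup (Fin 2) F) // (χ : Matrix.SpecialLinearGroup (Fin 2) F → ℂ) 1 = (Fintype.card F : ℂ)} = 1 ∧
      Nat.card {χ : Cfsg.IrrCharacter (Matrix.SpecialLinearGroup (Fin 2) F) // (χ : Matrix.SpecialLinearGroup (Fin 2) F → ℂ) 1 = (Fintype.card F : ℂ) + 1} = (Fintype.card F - 3) / 2 ∧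
      Nat.card {χ : Cfsg.IrrCharacter (Matrix.SpecialLinearGroup (Fin 2) F) // (χ : Matrix.SpecialLinearGroup (Fin 2) F → ℂ) 1 = (Fintype.card F : ℂ) - 1} = (Fintype.card F - 1) / 2 ∧
      Nat.card {χ : Cfsg.IrrCharacter (Matrix.SpecialLinearGroup (Fin 2) F) // (χ : Matrix.SpecialLinearGroup (Fin 2) F → ℂ) 1 = (((Fintype.card F + 1) / 2 : ℕ) : ℂ)} = 2 ∧
      Nat.card {χ : Cfsg.IrrCharacter (Matrix.SpecialLinearGroup (Fin 2) F) // (χ : Matrix.SpecialLinearGroup (Fin 2) F → ℂ) 1 = (((Fintype.card F - 1) / 2 : ℕ) : ℂ)} = 2) := by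
  classical
  refine ⟨fun χ hχ => ?_, fun h5 => ⟨?_, ?_, ?_, ?_, ?_, ?_⟩⟩
  · obtain ⟨n, hn, hc⟩ := Cfsg.Agent.Lib.Tw.deg_odd hodd hχ
    obtain ⟨k, hk⟩ := hodd
    rw [hn]
    rcases hc with ⟨_, h1⟩ | ⟨_, h1⟩ | ⟨_, h1⟩ | ⟨_, h1⟩ | ⟨_, h1⟩ | ⟨_, h1⟩
    · left; rw [h1]; norm_num
    · right; left; rw [h1]
    · right; right; left; rw [h1]; push_cast; rfl
    · right; right; right; right; left
      rw [show n = (Fintype.card F + 1) / 2 by omega]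
    · right; right; right; right; right
      rw [show n = (Fintype.card F - 1) / 2 by omega]
    · right; right; right; left
      rw [← h1]; push_cast; ring
  · rw [Nat.card_eq_one_iff_unique]
    refine ⟨⟨fun a b => ?_⟩, ⟨⟨⟨fun _ => 1, Cfsg.Agent.Lib.CharBasic.isIrr_trivial⟩, rfl⟩⟩⟩
    exact Subtype.ext (Subtype.ext ((Cfsg.Agent.Lib.Tw.eq_one_of_deg a.1.2 hodd a.2 h5).trans (Cfsg.Agent.Lib.Tw.eq_one_of_deg b.1.2 hodd b.2 h5).symm))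
  · rw [Nat.card_eq_one_iff_unique]
    refine ⟨⟨fun a b => ?_⟩, ⟨⟨⟨Cfsg.Agent.Lib.Tw.StS, Cfsg.Agent.Lib.Tw.isIrr_StS⟩, Cfsg.Agent.Lib.Tw.StS_one⟩⟩⟩
    exact Subtype.ext (Subtype.ext ((Cfsg.Agent.Lib.Tw.eq_StS a.1.2 a.2).trans (Cfsg.Agent.Lib.Tw.eq_StS b.1.2 b.2).symm))
  · have h1 := Nat.card_congr (Equiv.subtypeEquivRight (fun χ : Cfsg.IrrCharacter (Matrix.SpecialLinearGroup (Fin 2) F) =>
      (⟨fun h => Cfsg.Agent.Lib.Tw.eq_RS χ.2 h, fun ⟨α, _, h⟩ => by rw [h]; exact Cfsg.Agent.Lib.Tw.RS_one α⟩ :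
      (χ : Matrix.SpecialLinearGroup (Fin 2) F → ℂ) 1 = (Fintype.card F : ℂ) + 1 ↔ ∃ α : MulChar F ℂ, α ^ 2 ≠ 1 ∧ χ.1 = Cfsg.Agent.Lib.Tw.RS α)))
    rw [h1]
    have h2 := Cfsg.Agent.Lib.Tw.card_T3 (F := F)
    rw [Cfsg.Agent.Lib.Tw.card_quad_odd (Cfsg.Agent.Lib.Tw.two_ne_zero_of_odd hodd)] at h2
    unfold Cfsg.Agent.Lib.Tw.T3 at h2
    omega
  · have h1 := Nat.card_congr (Equiv.subtypeEquivRight (fun χ : Cfsg.IrrCharacter (Matrix.SpecialLinearGroup (Fin 2) F) =>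
      (⟨fun h => ⟨Cfsg.Agent.Lib.Tw.cusp_of_deg χ.2 h (by omega), h⟩, fun h => h.2⟩ :
      (χ : Matrix.SpecialLinearGroup (Fin 2) F → ℂ) 1 = (Fintype.card F : ℂ) - 1 ↔ Cfsg.Agent.Lib.Tw.CuspS χ.1 ∧ χ.1 1 = (Fintype.card F : ℂ) - 1)))
    exact h1.trans (Cfsg.Agent.Lib.Tw.card_q_sub hodd)
  · have h1 := Nat.card_congr (Equiv.subtypeEquivRight (fun χ : Cfsg.IrrCharacter (Matrix.SpecialLinearGroup (Fin 2) F) =>
      (⟨fun h => ⟨Cfsg.Agent.Lib.Tw.eta F, Cfsg.Agent.Lib.Tw.eta_sq, Cfsg.Agent.Lib.Tw.eta_ne (Cfsg.Agent.Lib.Tw.two_ne_zero_of_odd hodd),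
          Cfsg.Agent.Lib.Tw.half_of_deg χ.2 hodd h h5⟩, fun ⟨α, h1, h2, h3⟩ => by
          have h4 := Cfsg.Agent.Lib.Tw.half_degree h1 h2 χ.2 h3
          have h6 := Cfsg.Agent.Lib.Tw.half_cast hodd
          linear_combination (h4 - h6) / 2⟩ :
      (χ : Matrix.SpecialLinearGroup (Fin 2) F → ℂ) 1 = (((Fintype.card F + 1) / 2 : ℕ) : ℂ) ↔ ∃ α : MulChar F ℂ, α ^ 2 = 1 ∧ α ≠ 1 ∧ Cfsg.classInner (Cfsg.Agent.Lib.Tw.RS α) χ.1 ≠ 0)))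
    exact h1.trans (Cfsg.Agent.Lib.Tw.card_T4 (Cfsg.Agent.Lib.Tw.two_ne_zero_of_odd hodd))
  · have h1 := Nat.card_congr (Equiv.subtypeEquivRight (fun χ : Cfsg.IrrCharacter (Matrix.SpecialLinearGroup (Fin 2) F) =>
      (⟨fun h => ⟨Cfsg.Agent.Lib.Tw.cusp_of_half χ.2 hodd h h5, h⟩, fun h => h.2⟩ :
      (χ : Matrix.SpecialLinearGroup (Fin 2) F → ℂ) 1 = (((Fintype.card F - 1) / 2 : ℕ) : ℂ) ↔ Cfsg.Agent.Lib.Tw.CuspS χ.1 ∧ χ.1 1 = (((Fintype.card F - 1) / 2 : ℕ) : ℂ))))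
    exact h1.trans (Cfsg.Agent.Lib.Tw.card_half_sub hodd)


end Cfsg.Agent.S2299
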