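import Cfsg.Statements.S2300
import Mathlib
import Cfsg.Agent.Lib.Tw19
-- import your own Cfsg.Agent.* helpers here

set_option autoImplicit false
open Cfsg
set_option linter.all false

namespace Cfsg.Agent.S2300

/-- Over a finite field F with q elements, q even, every irreducible complex character of SL₂ has degree 1, q − 1, q or q + 1; and when q ≥ 4 (so that these four numbers are distinct) there are exactly one irreducible character of degree 1, one of degree q, (q − 2)/2 of degree q + 1 and q/2 of degree q − 1. -/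
theorem result {F : Type*} [Field F] [Fintype F] [CharP F 2] :
    (∀ χ : Matrix.SpecialLinearGroup (Fin 2) F → ℂ, Cfsg.IsIrrCharacter (Matrix.SpecialLinearGroup (Fin 2) F) χ →
      χ 1 = 1 ∨ χ 1 = (Fintype.card F : ℂ) - 1 ∨ χ 1 = (Fintype.card F : ℂ) ∨ χ 1 = (Fintype.card F : ℂ) + 1) ∧
    (4 ≤ Fintype.card F →
      Nat.card {χ : Cfsg.IrrCharacter (Matrix.SpecialLinearGroup (Fin 2) F) // (χ : Matrix.SpecialLinearGroup (Fin 2) F → ℂ) 1 = 1} = 1 ∧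
      Nat.card {χ : Cfsg.IrrCharacter (Matrix.SpecialLinearGroup (Fin 2) F) // (χ : Matrix.SpecialLinearGroup (Fin 2) F → ℂ) 1 = (Fintype.card F : ℂ)} = 1 ∧
      Nat.card {χ : Cfsg.IrrCharacter (Matrix.SpecialLinearGroup (Fin 2) F) // (χ : Matrix.SpecialLinearGroup (Fin 2) F → ℂ) 1 = (Fintype.card F : ℂ) + 1} = (Fintype.card F - 2) / 2 ∧
      Nat.card {χ : Cfsg.IrrCharacter (Matrix.SpecialLinearGroup (Fin 2) F) // (χ : Matrix.SpecialLinearGroup (Fin 2) F → ℂ) 1 = (Fintype.card F : ℂ) - 1} = Fintype.card F / 2) := by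
  classical
  refine ⟨fun χ hχ => ?_, fun h4 => ⟨?_, ?_, ?_, ?_⟩⟩
  · rcases Cfsg.Agent.Lib.Tw.deg_even hχ with h | h | ⟨α, _, h⟩ | h
    · exact Or.inl (by rw [h])
    · exact Or.inr (Or.inr (Or.inl (by rw [h, Cfsg.Agent.Lib.Tw.StS_one])))
    · exact Or.inr (Or.inr (Or.inr (by rw [h, Cfsg.Agent.Lib.Tw.RS_one])))
    · exact Or.inr (Or.inl (Cfsg.Agent.Lib.Tw.cusp_degree_even hχ h))
  · rw [Nat.card_eq_one_iff_unique]
    refine ⟨⟨fun a b => ?_⟩, ⟨⟨⟨fun _ => 1, Cfsg.Agent.Lib.CharBasic.isIrr_trivial⟩, rfl⟩⟩⟩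
    exact Subtype.ext (Subtype.ext (((Cfsg.Agent.Lib.Tw.deg_even_one a.1.2 h4).mp a.2).trans ((Cfsg.Agent.Lib.Tw.deg_even_one b.1.2 h4).mp b.2).symm))
  · rw [Nat.card_eq_one_iff_unique]
    refine ⟨⟨fun a b => ?_⟩, ⟨⟨⟨Cfsg.Agent.Lib.Tw.StS, Cfsg.Agent.Lib.Tw.isIrr_StS⟩, Cfsg.Agent.Lib.Tw.StS_one⟩⟩⟩
    exact Subtype.ext (Subtype.ext (((Cfsg.Agent.Lib.Tw.deg_even_q a.1.2).mp a.2).trans ((Cfsg.Agent.Lib.Tw.deg_even_q b.1.2).mp b.2).symm))
  · have h1 := Nat.card_congr (Equiv.subtypeEquivRight (fun χ : Cfsg.IrrCharacter (Matrix.SpecialLinearGroup (Fin 2) F) =>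
      Cfsg.Agent.Lib.Tw.deg_even_q_add χ.2))
    rw [h1]
    have h2 := Cfsg.Agent.Lib.Tw.card_T3 (F := F)
    rw [Cfsg.Agent.Lib.Tw.card_quad_even] at h2
    unfold Cfsg.Agent.Lib.Tw.T3 at h2
    omega
  · have h1 := Nat.card_congr (Equiv.subtypeEquivRight (fun χ : Cfsg.IrrCharacter (Matrix.SpecialLinearGroup (Fin 2) F) =>
      Cfsg.Agent.Lib.Tw.deg_even_q_sub χ.2 h4))
    rw [h1]
    have h2 := Cfsg.Agent.Lib.Tw.card_T5_even (F := F)
    unfold Cfsg.Agent.Lib.Tw.T5 at h2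
    omega


end Cfsg.Agent.S2300
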