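import Cfsg.Statements.S2301
import Mathlib
import Cfsg.Agent.Lib.Tw5
-- import your own Cfsg.Agent.* helpers here

set_option autoImplicit false
open Cfsg
set_option linter.all false

namespace Cfsg.Agent.S2301

/-- Over a finite field with q elements of odd characteristic p, the elements of order p of SL₂ (the non-identity unipotent elements) fall into exactly two conjugacy classes, each of size (q² − 1)/2; two upper unitriangular matrices with non-zero off-diagonal entries b and b′ are conjugate exactly when bb′ is a square. -/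
theorem result {F : Type*} [Field F] [Fintype F] (p : ℕ) [Fact p.Prime] [CharP F p] (hp : p ≠ 2) :
    Nat.card {C : ConjClasses (Matrix.SpecialLinearGroup (Fin 2) F) // ∃ g : Matrix.SpecialLinearGroup (Fin 2) F, orderOf g = p ∧ ConjClasses.mk g = C} = 2 ∧
    (∀ g : Matrix.SpecialLinearGroup (Fin 2) F, orderOf g = p → Nat.card (ConjClasses.mk g).carrier = (Fintype.card F ^ 2 - 1) / 2) ∧
    ∀ g h : Matrix.SpecialLinearGroup (Fin 2) F, (g : Matrix (Fin 2) (Fin 2) F) 0 0 = 1 → (g : Matrix (Fin 2) (Fin 2) F) 1 1 = 1 → (g : Matrix (Fin 2) (Fin 2) F) 1 0 = 0 → (g : Matrix (Fin 2) (Fin 2) F) 0 1 ≠ 0 →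
      (h : Matrix (Fin 2) (Fin 2) F) 0 0 = 1 → (h : Matrix (Fin 2) (Fin 2) F) 1 1 = 1 → (h : Matrix (Fin 2) (Fin 2) F) 1 0 = 0 → (h : Matrix (Fin 2) (Fin 2) F) 0 1 ≠ 0 →
      (IsConj g h ↔ IsSquare ((g : Matrix (Fin 2) (Fin 2) F) 0 1 * (h : Matrix (Fin 2) (Fin 2) F) 0 1)) := by
  have h2 : (2 : F) ≠ 0 := by
    intro h
    apply hp
    have h3 : ((2 : ℕ) : F) = 0 := by exact_mod_cast h
    exact (Nat.prime_dvd_prime_iff_eq (Fact.out : p.Prime) Nat.prime_two).mp ((CharP.cast_eq_zero_iff F p 2).mp h3)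
  refine ⟨Cfsg.Agent.Lib.Tw.card_classes_order h2, fun g hg => ?_, ?_⟩
  · have h5 := Cfsg.Agent.Lib.Tw.card_class_order hg
    rw [Cfsg.Agent.Lib.Tw.card_sq_one h2] at h5
    omega
  · intro g h g00 g11 g10 g01 h00 h11 h10 h01
    have e1 : g = Cfsg.Agent.Lib.SL2.t ((g : Matrix (Fin 2) (Fin 2) F) 0 1) := by
      ext i j
      fin_cases i <;> fin_cases j <;> simp [g00, g11, g10]
    have e2 : h = Cfsg.Agent.Lib.SL2.t ((h : Matrix (Fin 2) (Fin 2) F) 0 1) := by
      ext i j
      fin_cases i <;> fin_cases j <;> simp [h00, h11, h10]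
    rw [← Cfsg.Agent.Lib.Tw.isConj_t_iff g01 h01, ← e1, ← e2]


end Cfsg.Agent.S2301
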