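import Cfsg.Statements.S2302
import Mathlib
import Cfsg.Agent.Lib.Tw5
-- import your own Cfsg.Agent.* helpers here

set_option autoImplicit false
open Cfsg
set_option linter.all false

namespace Cfsg.Agent.S2302

/-- Over a finite field with q elements of characteristic 2, the involutions of SL₂ (the non-identity unipotent elements) form a single conjugacy class, of size q² − 1. -/
theorem result {F : Type*} [Field F] [Fintype F] [CharP F 2] (g h : Matrix.SpecialLinearGroup (Fin 2) F) (hg : orderOf g = 2) (hh : orderOf h = 2) :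
    IsConj g h ∧ Nat.card (ConjClasses.mk g).carrier = Fintype.card F ^ 2 - 1 := by
  haveI : Fact (Nat.Prime 2) := ⟨Nat.prime_two⟩
  have hsq : ∀ c : F, IsSquare c := by
    intro c
    exact FiniteField.isSquare_of_char_two (CharP.ringChar_of_prime_eq_zero Nat.prime_two (by
      have := CharP.cast_eq_zero F 2; exact_mod_cast this)) c
  obtain ⟨h1, h2⟩ := Cfsg.Agent.Lib.Tw.order_facts hg
  obtain ⟨h3, h4⟩ := Cfsg.Agent.Lib.Tw.order_facts hh
  refine ⟨Cfsg.Agent.Lib.Tw.isConj_SL h1 h3 (h2.trans h4.symm) (Cfsg.Agent.Lib.Tw.un_of (fun _ _ _ => hsq)), ?_⟩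
  have h5 := Cfsg.Agent.Lib.Tw.card_class_order hg
  rw [Cfsg.Agent.Lib.Tw.card_sq_one_two, mul_one] at h5
  exact h5


end Cfsg.Agent.S2302
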