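import Cfsg.Statements.S2307
import Mathlib
import Cfsg.Agent.Lib.Tw19
-- import your own Cfsg.Agent.* helpers here

set_option autoImplicit false
open Cfsg
set_option linter.all false

namespace Cfsg.Agent.S2307

/-- Over a finite field F with q elements, q odd, let α be the multiplicative character of F of order 2. The character of SL₂ induced from the linear character b ↦ α(b₁₁) of the upper triangular subgroup is the sum of two distinct irreducible characters, each of degree (q + 1)/2, which are conjugate under GL₂: some fixed element of GL₂ conjugates the one into the other. -/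
theorem result {F : Type*} [Field F] [Fintype F] [DecidableEq F] (hodd : Odd (Fintype.card F)) (α : MulChar F ℂ)
    (hα : α ^ 2 = 1) (hα1 : α ≠ 1) :
    ∃ χ₁ χ₂ : Matrix.SpecialLinearGroup (Fin 2) F → ℂ, Cfsg.IsIrrCharacter (Matrix.SpecialLinearGroup (Fin 2) F) χ₁ ∧ Cfsg.IsIrrCharacter (Matrix.SpecialLinearGroup (Fin 2) F) χ₂ ∧ χ₁ ≠ χ₂ ∧
      Cfsg.indFun ((Cfsg.upperTriangularGL 2 F).comap Matrix.SpecialLinearGroup.toGL) (fun b => α (((b : Matrix.SpecialLinearGroup (Fin 2) F) : Matrix (Fin 2) (Fin 2) F) 0 0)) = χ₁ + χ₂ ∧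
      χ₁ 1 = (((Fintype.card F + 1) / 2 : ℕ) : ℂ) ∧ χ₂ 1 = (((Fintype.card F + 1) / 2 : ℕ) : ℂ) ∧
      ∃ x : Matrix.GeneralLinearGroup (Fin 2) F, ∀ g h : Matrix.SpecialLinearGroup (Fin 2) F,
        Matrix.SpecialLinearGroup.toGL h = x * Matrix.SpecialLinearGroup.toGL g * x⁻¹ → χ₂ h = χ₁ g := by
  obtain ⟨χ₁, χ₂, a1, a2, hne, hsum, hall, b1, b2⟩ := Cfsg.Agent.Lib.Tw.halves hα hα1
  have d1 := Cfsg.Agent.Lib.Tw.half_degree hα hα1 a1 (by rw [b1]; exact one_ne_zero)
  have d2 := Cfsg.Agent.Lib.Tw.half_degree hα hα1 a2 (by rw [b2]; exact one_ne_zero)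
  have e := Cfsg.Agent.Lib.Tw.half_cast hodd
  refine ⟨χ₁, χ₂, a1, a2, hne, hsum, ?_, ?_, Cfsg.Agent.Lib.Tw.halves_conj hα hα1 a1 a2 (by rw [b1]; exact one_ne_zero) (by rw [b2]; exact one_ne_zero)⟩
  · linear_combination (d1 - e) / 2
  · linear_combination (d2 - e) / 2


end Cfsg.Agent.S2307
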