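import Cfsg.Statements.S2308
import Mathlib
import Cfsg.Agent.Lib.Tw7
import Cfsg.Agent.Lib.CharInd
-- import your own Cfsg.Agent.* helpers here

set_option autoImplicit false
open Cfsg
set_option linter.all false

namespace Cfsg.Agent.S2308

/-- Values of the permutation character of GL₂ over a finite field F with q elements on the cosets of its upper triangular subgroup (equivalently, the number of lines of F² that an element maps to themselves): q + 1 at a scalar matrix, 2 at a diagonal matrix with two different diagonal entries, 0 at an element with no eigenvector in F², and 1 at an upper triangular matrix with equal diagonal entries and non-zero upper right entry. -/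
theorem result {F : Type*} [Field F] [Fintype F] (g : Matrix.GeneralLinearGroup (Fin 2) F) :
    ((∃ a : F, (g : Matrix (Fin 2) (Fin 2) F) = a • (1 : Matrix (Fin 2) (Fin 2) F)) → Cfsg.fixedPointCharacter (Cfsg.upperTriangularGL 2 F) g = Fintype.card F + 1) ∧
    ((g : Matrix (Fin 2) (Fin 2) F) 0 1 = 0 → (g : Matrix (Fin 2) (Fin 2) F) 1 0 = 0 → (g : Matrix (Fin 2) (Fin 2) F) 0 0 ≠ (g : Matrix (Fin 2) (Fin 2) F) 1 1 →
      Cfsg.fixedPointCharacter (Cfsg.upperTriangularGL 2 F) g = 2) ∧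
    ((∀ (c : F) (v : Fin 2 → F), v ≠ 0 → (g : Matrix (Fin 2) (Fin 2) F).mulVec v ≠ c • v) → Cfsg.fixedPointCharacter (Cfsg.upperTriangularGL 2 F) g = 0) ∧
    ((g : Matrix (Fin 2) (Fin 2) F) 1 0 = 0 → (g : Matrix (Fin 2) (Fin 2) F) 0 0 = (g : Matrix (Fin 2) (Fin 2) F) 1 1 → (g : Matrix (Fin 2) (Fin 2) F) 0 1 ≠ 0 →
      Cfsg.fixedPointCharacter (Cfsg.upperTriangularGL 2 F) g = 1) := by
  classical
  have hfix : Cfsg.fixedPointCharacter (Cfsg.upperTriangularGL 2 F) =
      Cfsg.indFun (Cfsg.upperTriangularGL 2 F) (fun _ => 1) := by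
    have h1 := Cfsg.Agent.Lib.CharInd.perm_eq_indFun (G := GL (Fin 2) F) (GL (Fin 2) F ⧸ Cfsg.upperTriangularGL 2 F)
      (((1 : GL (Fin 2) F) : GL (Fin 2) F ⧸ Cfsg.upperTriangularGL 2 F))
    have h2 : ∀ K : Subgroup (GL (Fin 2) F), K = Cfsg.upperTriangularGL 2 F →
        Cfsg.indFun K (fun _ => 1) = Cfsg.indFun (Cfsg.upperTriangularGL 2 F) (fun _ => 1) := by
      rintro K rfl; rfl
    rw [← h2 _ (MulAction.stabilizer_quotient _), ← h1]
    rfl
  rw [hfix]
  have hθ : ∀ b : Cfsg.upperTriangularGL 2 F, (fun _ : Cfsg.upperTriangularGL 2 F => (1 : ℂ)) b = (fun _ _ : F => (1 : ℂ))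
    (((MonoidHom.id (GL (Fin 2) F)) b : Matrix (Fin 2) (Fin 2) F) 0 0) (((MonoidHom.id (GL (Fin 2) F)) b : Matrix (Fin 2) (Fin 2) F) 1 1) := fun _ => rfl
  refine ⟨?_, ?_, ?_, ?_⟩
  · rintro ⟨a, ha⟩
    rw [Cfsg.Agent.Lib.Tw.bdGL.val_sc (Θ := fun _ _ => 1) hθ (g := g) ha, mul_one]
  · intro h01 h10 hne
    rw [Cfsg.Agent.Lib.Tw.bdGL.val_split (Θ := fun _ _ => 1) hθ (g := g) hne (Matrix.trace_fin_two _) (by
      show (g : Matrix (Fin 2) (Fin 2) F).det = _
      rw [Matrix.det_fin_two, h01, h10]; ring)]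
    norm_num
  · intro h
    exact Cfsg.Agent.Lib.Tw.bdGL.val_ne (Θ := fun _ _ => 1) hθ (g := g) h
  · intro h10 heq h01
    rw [Cfsg.Agent.Lib.Tw.bdGL.val_par (Θ := fun _ _ => 1) hθ (g := g) (α := (g : Matrix (Fin 2) (Fin 2) F) 0 0) (fun h => h01 h.1) (by
      show (g : Matrix (Fin 2) (Fin 2) F).trace = _
      rw [Matrix.trace_fin_two, ← heq]) (by
      show (g : Matrix (Fin 2) (Fin 2) F).det = _
      rw [Matrix.det_fin_two, h10, ← heq]; ring)]


end Cfsg.Agent.S2308
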