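import Cfsg.Statements.S2309
import Mathlib
import Cfsg.Agent.Lib.Tw14
-- import your own Cfsg.Agent.* helpers here

set_option autoImplicit false
open Cfsg
set_option linter.all false

namespace Cfsg.Agent.S2309

/-- Over a finite field F with q elements: every irreducible complex character of GL₂ of degree q − 1 vanishes at every diagonal matrix with two distinct entries, and every irreducible complex character of degree q + 1 vanishes at every element with no eigenvector in F². -/
theorem result {F : Type*} [Field F] [Fintype F] (χ : Matrix.GeneralLinearGroup (Fin 2) F → ℂ) (hχ : Cfsg.IsIrrCharacter (Matrix.GeneralLinearGroup (Fin 2) F) χ) (g : Matrix.GeneralLinearGroup (Fin 2) F) :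
    (χ 1 = (Fintype.card F : ℂ) - 1 → (g : Matrix (Fin 2) (Fin 2) F) 0 1 = 0 → (g : Matrix (Fin 2) (Fin 2) F) 1 0 = 0 → (g : Matrix (Fin 2) (Fin 2) F) 0 0 ≠ (g : Matrix (Fin 2) (Fin 2) F) 1 1 → χ g = 0) ∧
    (χ 1 = (Fintype.card F : ℂ) + 1 → (∀ (c : F) (v : Fin 2 → F), v ≠ 0 → (g : Matrix (Fin 2) (Fin 2) F).mulVec v ≠ c • v) → χ g = 0) := by
  classical
  constructor
  · intro hd h01 h10 hne
    obtain ⟨x, y, hxy, rfl⟩ := Cfsg.Agent.Lib.Tw.eq_bG h01 h10 hne
    rcases Cfsg.Agent.Lib.Tw.of_deg_q_sub hχ hd with h | h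
    · exact Cfsg.Agent.Lib.Tw.cusp_split hχ h hxy
    · exfalso
      apply hxy
      have : Fintype.card Fˣ = 1 := by rw [Fintype.card_units, h]
      exact (Fintype.card_le_one_iff.mp this.le) x y
  · intro hd hne
    obtain ⟨α, β, _, rfl⟩ := Cfsg.Agent.Lib.Tw.of_deg_q_add hχ hd
    exact Cfsg.Agent.Lib.Tw.RG_ne α β hne


end Cfsg.Agent.S2309
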