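import Cfsg.Statements.S2310
import Mathlib
import Cfsg.Agent.Lib.Tw14
-- import your own Cfsg.Agent.* helpers here

set_option autoImplicit false
open Cfsg
set_option linter.all false

namespace Cfsg.Agent.S2310

/-- Over a finite field F with q ≥ 3 elements, let u be the upper unitriangular matrix of GL₂ with off-diagonal entry 1. An irreducible complex character χ of GL₂ takes at u the value 1 if χ has degree 1 or q + 1, the value −1 if χ has degree q − 1, and the value 0 if χ has degree q. -/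
theorem result {F : Type*} [Field F] [Fintype F] (hq : 3 ≤ Fintype.card F) (χ : Matrix.GeneralLinearGroup (Fin 2) F → ℂ) (hχ : Cfsg.IsIrrCharacter (Matrix.GeneralLinearGroup (Fin 2) F) χ)
    (u : Matrix.GeneralLinearGroup (Fin 2) F) (hu : (u : Matrix (Fin 2) (Fin 2) F) = !![1, 1; 0, 1]) :
    (χ 1 = 1 → χ u = 1) ∧ (χ 1 = (Fintype.card F : ℂ) + 1 → χ u = 1) ∧
    (χ 1 = (Fintype.card F : ℂ) - 1 → χ u = -1) ∧ (χ 1 = (Fintype.card F : ℂ) → χ u = 0) := by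
  classical
  have hu' : u = Cfsg.Agent.Lib.Tw.bG (1 : Fˣ) 1 (1 : F) := by
    apply Units.ext
    rw [hu, Cfsg.Agent.Lib.Tw.bG_coe]
    simp
  subst hu'
  have hns : Cfsg.Agent.Lib.Tw.NS (Cfsg.Agent.Lib.Tw.bG (1 : Fˣ) 1 (1 : F) : Matrix (Fin 2) (Fin 2) F) := by
    rintro ⟨h, _⟩
    rw [hu] at h
    exact one_ne_zero h
  have htr : (Cfsg.Agent.Lib.Tw.bG (1 : Fˣ) 1 (1 : F) : Matrix (Fin 2) (Fin 2) F).trace = 1 + 1 := by
    rw [hu, Matrix.trace_fin_two_of]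
  have hdt : (Cfsg.Agent.Lib.Tw.bG (1 : Fˣ) 1 (1 : F) : Matrix (Fin 2) (Fin 2) F).det = 1 * 1 := by
    rw [hu, Matrix.det_fin_two_of]; ring
  refine ⟨?_, ?_, ?_, ?_⟩
  · intro h
    obtain ⟨α, rfl⟩ := Cfsg.Agent.Lib.Tw.of_deg_one hχ h hq
    show α (Cfsg.Agent.Lib.Tw.bG (1 : Fˣ) 1 (1 : F) : Matrix (Fin 2) (Fin 2) F).det = 1
    rw [hdt, mul_one, map_one]
  · intro h
    obtain ⟨α, β, _, rfl⟩ := Cfsg.Agent.Lib.Tw.of_deg_q_add hχ h
    rw [Cfsg.Agent.Lib.Tw.RG_par α β hns htr hdt, map_one, map_one, mul_one]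
  · intro h
    rcases Cfsg.Agent.Lib.Tw.of_deg_q_sub hχ h with h2 | h2
    · have h3 := Cfsg.Agent.Lib.Tw.cusp_one hχ h2
      rw [h] at h3
      have h4 : ((Fintype.card F : ℂ) - 1) * (χ (Cfsg.Agent.Lib.Tw.bG (1 : Fˣ) 1 (1 : F)) + 1) = 0 := by linear_combination h3
      exact eq_neg_of_add_eq_zero_left ((mul_eq_zero.mp h4).resolve_left Cfsg.Agent.Lib.Tw.q_sub_ne)
    · omega
  · intro h
    obtain ⟨α, rfl⟩ := Cfsg.Agent.Lib.Tw.of_deg_q hχ h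
    show Cfsg.Agent.Lib.Tw.RG α α _ - α (Cfsg.Agent.Lib.Tw.bG (1 : Fˣ) 1 (1 : F) : Matrix (Fin 2) (Fin 2) F).det = 0
    rw [Cfsg.Agent.Lib.Tw.RG_par α α hns htr hdt, hdt, map_one, mul_one, mul_one, map_one, sub_self]


end Cfsg.Agent.S2310
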