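import Cfsg.Statements.S2317
import Mathlib
import Cfsg.Agent.Lib.RCF7
-- import your own Cfsg.Agent.* helpers here

set_option autoImplicit false
open Cfsg
set_option linter.all false

namespace Cfsg.Agent.S2317

/-- Over a finite field of characteristic p, the conjugacy classes of GL_n consisting of elements of p-power order (the unipotent classes) are as many as the partitions of n. -/
theorem result {F : Type*} [Field F] [Fintype F] (p : ℕ) [Fact p.Prime] [CharP F p] (n : ℕ) :
    Nat.card {C : ConjClasses (Matrix.GeneralLinearGroup (Fin n) F) //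
      ∃ g : Matrix.GeneralLinearGroup (Fin n) F, (∃ k : ℕ, orderOf g = p ^ k) ∧ ConjClasses.mk g = C} =
      Fintype.card (Nat.Partition n) := by
  rw [← Nat.card_eq_fintype_card]
  suffices h : Nat.card {C : ConjClasses (Matrix.GeneralLinearGroup (Fin n) F) //
      ∃ g : Matrix.GeneralLinearGroup (Fin n) F, ConjClasses.mk g = C ∧ (∃ k : ℕ, orderOf g = p ^ k)} = Nat.card (Nat.Partition n) by
    rw [← h]
    apply Nat.card_congr
    apply Equiv.subtypeEquivRight
    intro C
    constructor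
    · rintro ⟨g, h1, h2⟩; exact ⟨g, h2, h1⟩
    · rintro ⟨g, h1, h2⟩; exact ⟨g, h2, h1⟩
  refine Cfsg.Agent.Lib.RCF.card_of_type (G := Matrix.GeneralLinearGroup (Fin n) F) (T := Nat.Partition n)
    (fun g => ∃ k : ℕ, orderOf g = p ^ k)
    (fun g μ => Cfsg.Agent.Lib.RCF.IsType (g : Matrix (Fin n) (Fin n) F) μ.parts) ?_ ?_ ?_ ?_ ?_
  · rintro g ⟨k, hk⟩
    have hn := Cfsg.Agent.Lib.RCF.nilp_of_order (p := p) (F := F) (ι := Fin n) (Units.coeHom _) g (k := k) (by
      rw [← hk]; exact pow_orderOf_eq_one g)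
    exact Cfsg.Agent.Lib.RCF.exists_isType hn (Fintype.card_fin n)
  · intro g t t' h h'
    exact Cfsg.Agent.Lib.RCF.IsType.unique_partition h h'
  · rintro g g' t ⟨k, hk⟩ ⟨k', hk'⟩ h h'
    have hn := Cfsg.Agent.Lib.RCF.nilp_of_order (p := p) (F := F) (ι := Fin n) (Units.coeHom _) g (k := k) (by
      rw [← hk]; exact pow_orderOf_eq_one g)
    have hn' := Cfsg.Agent.Lib.RCF.nilp_of_order (p := p) (F := F) (ι := Fin n) (Units.coeHom _) g' (k := k') (by
      rw [← hk']; exact pow_orderOf_eq_one g')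
    exact Cfsg.Agent.Lib.RCF.IsType.isConj_GL h h' hn hn'
  · intro g g' t h h'
    exact Cfsg.Agent.Lib.RCF.isType_GL_conj h h'
  · intro μ
    obtain ⟨g, hg, ht⟩ := Cfsg.Agent.Lib.RCF.exists_GL_type (F := F) μ
    refine ⟨g, ?_, ht⟩
    obtain ⟨k, hk⟩ := (Cfsg.Agent.Lib.RCF.nilp_iff_pow (p := p) _).mp hg
    have h1 : g ^ (p ^ k) = 1 := by
      apply Units.ext
      rw [Units.val_pow_eq_pow_val, hk, Units.val_one]
    obtain ⟨j, -, hj⟩ := (Nat.dvd_prime_pow (Fact.out : p.Prime)).mp (orderOf_dvd_of_pow_eq_one h1)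
    exact ⟨j, hj⟩


end Cfsg.Agent.S2317
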