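import Cfsg.Statements.S2320
import Mathlib
import Cfsg.Agent.Lib.Tw14
-- import your own Cfsg.Agent.* helpers here

set_option autoImplicit false
open Cfsg
set_option linter.all false

namespace Cfsg.Agent.S2320

/-- Over a finite field F with q elements, every irreducible complex character of GL₂ of degree q takes a value of absolute value 1 at every diagonal matrix with two different diagonal entries and at every element with no eigenvector in F². -/
theorem result {F : Type*} [Field F] [Fintype F] (χ : Matrix.GeneralLinearGroup (Fin 2) F → ℂ) (hχ : Cfsg.IsIrrCharacter (Matrix.GeneralLinearGroup (Fin 2) F) χ) (hdeg : χ 1 = (Fintype.card F : ℂ)) (g : Matrix.GeneralLinearGroup (Fin 2) F) :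
    ((g : Matrix (Fin 2) (Fin 2) F) 0 1 = 0 → (g : Matrix (Fin 2) (Fin 2) F) 1 0 = 0 → (g : Matrix (Fin 2) (Fin 2) F) 0 0 ≠ (g : Matrix (Fin 2) (Fin 2) F) 1 1 → ‖χ g‖ = 1) ∧
    ((∀ (c : F) (v : Fin 2 → F), v ≠ 0 → (g : Matrix (Fin 2) (Fin 2) F).mulVec v ≠ c • v) → ‖χ g‖ = 1) := by
  classical
  obtain ⟨α, rfl⟩ := Cfsg.Agent.Lib.Tw.of_deg_q hχ hdeg
  have hd : (g : Matrix (Fin 2) (Fin 2) F).det ≠ 0 := ((Matrix.isUnit_iff_isUnit_det _).mp g.isUnit).ne_zero
  have hv : Cfsg.Agent.Lib.Tw.StG α g = Cfsg.Agent.Lib.Tw.RG α α g - α (g : Matrix (Fin 2) (Fin 2) F).det := rfl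
  constructor
  · intro h01 h10 hne
    have hdd : (g : Matrix (Fin 2) (Fin 2) F).det = (g : Matrix (Fin 2) (Fin 2) F) 0 0 * (g : Matrix (Fin 2) (Fin 2) F) 1 1 := by
      rw [Matrix.det_fin_two, h10, mul_zero, sub_zero]
    rw [hv, Cfsg.Agent.Lib.Tw.RG_split α α hne (Matrix.trace_fin_two _) hdd, hdd, map_mul,
      show ∀ a b : ℂ, a * b + b * a - a * b = b * a by intro a b; ring, ← map_mul, mul_comm, ← hdd]
    exact Cfsg.Agent.Lib.Tw.norm_mulChar α hd
  · intro hne
    rw [hv, Cfsg.Agent.Lib.Tw.RG_ne α α hne, zero_sub, norm_neg]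
    exact Cfsg.Agent.Lib.Tw.norm_mulChar α hd


end Cfsg.Agent.S2320
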