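import Cfsg.Statements.S2321
import Mathlib
import Cfsg.Agent.Lib.Tw22
-- import your own Cfsg.Agent.* helpers here

set_option autoImplicit false
open Cfsg
set_option linter.all false

namespace Cfsg.Agent.S2321

/-- Over a finite field F with q elements, an irreducible complex character of SL₂ of degree q (the Steinberg character) takes the value 1 at every diagonal matrix whose diagonal entry a has a² ≠ 1, the value −1 at every element with no eigenvector in F², and the value 0 at every upper triangular matrix with equal diagonal entries and non-zero upper right entry. -/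
theorem result {F : Type*} [Field F] [Fintype F] (χ : Matrix.SpecialLinearGroup (Fin 2) F → ℂ) (hχ : Cfsg.IsIrrCharacter (Matrix.SpecialLinearGroup (Fin 2) F) χ) (hdeg : χ 1 = (Fintype.card F : ℂ)) (g : Matrix.SpecialLinearGroup (Fin 2) F) :
    ((g : Matrix (Fin 2) (Fin 2) F) 0 1 = 0 → (g : Matrix (Fin 2) (Fin 2) F) 1 0 = 0 → (g : Matrix (Fin 2) (Fin 2) F) 0 0 ^ 2 ≠ 1 → χ g = 1) ∧
    ((∀ (c : F) (v : Fin 2 → F), v ≠ 0 → (g : Matrix (Fin 2) (Fin 2) F).mulVec v ≠ c • v) → χ g = -1) ∧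
    ((g : Matrix (Fin 2) (Fin 2) F) 1 0 = 0 → (g : Matrix (Fin 2) (Fin 2) F) 0 0 = (g : Matrix (Fin 2) (Fin 2) F) 1 1 → (g : Matrix (Fin 2) (Fin 2) F) 0 1 ≠ 0 → χ g = 0) := by
  classical
  have h := Cfsg.Agent.Lib.Tw.eq_StS hχ hdeg
  subst h
  refine ⟨fun h01 h10 ha => ?_, fun hne => ?_, fun h10 heq h01 => ?_⟩
  · obtain ⟨x, hx, rfl, _⟩ := Cfsg.Agent.Lib.Tw.eq_bMk h01 h10 ha
    show Cfsg.Agent.Lib.Tw.RS 1 _ - 1 = 1
    rw [Cfsg.Agent.Lib.Tw.RS_split 1 (x := (x : F)) (y := ((x⁻¹ : Fˣ) : F)) (fun h => hx (Units.ext h)) (by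
      rw [Cfsg.Agent.Lib.SL2.bMk_coe, Matrix.trace_fin_two_of]) x.mul_inv, MulChar.one_apply_coe, MulChar.one_apply_coe]
    norm_num
  · show Cfsg.Agent.Lib.Tw.RS 1 _ - 1 = -1
    rw [Cfsg.Agent.Lib.Tw.RS_ne 1 (g := g) hne, zero_sub]
  · show Cfsg.Agent.Lib.Tw.RS 1 _ - 1 = 0
    have hd := g.det_coe
    rw [Matrix.det_fin_two, h10, mul_zero, sub_zero, ← heq] at hd
    rw [Cfsg.Agent.Lib.Tw.RS_par 1 (x := (g : Matrix (Fin 2) (Fin 2) F) 0 0) (fun h => h01 h.1) (by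
      rw [Matrix.trace_fin_two, ← heq]) hd, MulChar.one_apply (left_ne_zero_of_mul (hd.trans_ne one_ne_zero)).isUnit, sub_self]


end Cfsg.Agent.S2321
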