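import Cfsg.Statements.S2322
import Mathlib
import Cfsg.Agent.Lib.Tw23
-- import your own Cfsg.Agent.* helpers here

set_option autoImplicit false
open Cfsg
set_option linter.all false

namespace Cfsg.Agent.S2322

/-- Over a finite field F with q elements, q odd: every irreducible complex character of SL₂ of degree q − 1 or (q − 1)/2 vanishes at every diagonal matrix whose diagonal entry a has a² ≠ 1, and every irreducible complex character of degree q + 1 or (q + 1)/2 vanishes at every element with no eigenvector in F². -/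
theorem result {F : Type*} [Field F] [Fintype F] (hodd : Odd (Fintype.card F)) (χ : Matrix.SpecialLinearGroup (Fin 2) F → ℂ) (hχ : Cfsg.IsIrrCharacter (Matrix.SpecialLinearGroup (Fin 2) F) χ) (g : Matrix.SpecialLinearGroup (Fin 2) F) :
    ((χ 1 = (Fintype.card F : ℂ) - 1 ∨ χ 1 = (((Fintype.card F - 1) / 2 : ℕ) : ℂ)) →
      (g : Matrix (Fin 2) (Fin 2) F) 0 1 = 0 → (g : Matrix (Fin 2) (Fin 2) F) 1 0 = 0 → (g : Matrix (Fin 2) (Fin 2) F) 0 0 ^ 2 ≠ 1 → χ g = 0) ∧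
    ((χ 1 = (Fintype.card F : ℂ) + 1 ∨ χ 1 = (((Fintype.card F + 1) / 2 : ℕ) : ℂ)) →
      (∀ (c : F) (v : Fin 2 → F), v ≠ 0 → (g : Matrix (Fin 2) (Fin 2) F).mulVec v ≠ c • v) → χ g = 0) := by
  classical
  have h2 := Cfsg.Agent.Lib.Tw.two_ne_zero_of_odd hodd
  have hq : 1 < Fintype.card F := Fintype.one_lt_card
  refine ⟨fun hd h01 h10 ha => ?_, fun hd hne => ?_⟩
  · obtain ⟨x, hx, rfl, hx0⟩ := Cfsg.Agent.Lib.Tw.eq_bMk h01 h10 ha
    have h3 : Fintype.card F ≠ 3 := by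
      intro h3
      apply ha
      rw [← hx0]
      have h4 := FiniteField.pow_card_sub_one_eq_one (x : F) x.ne_zero
      rw [h3] at h4
      exact h4
    have h5 : 5 ≤ Fintype.card F := by
      obtain ⟨k, hk⟩ := hodd; omega
    have hc : Cfsg.Agent.Lib.Tw.CuspS χ := by
      rcases hd with hd | hd
      · exact Cfsg.Agent.Lib.Tw.cusp_of_deg hχ hd (by omega)
      · exact Cfsg.Agent.Lib.Tw.cusp_of_half hχ hodd hd h5
    exact Cfsg.Agent.Lib.Tw.cusp_split_S hχ hc hx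
  · rcases hd with hd | hd
    · obtain ⟨α, _, rfl⟩ := Cfsg.Agent.Lib.Tw.eq_RS hχ hd
      exact Cfsg.Agent.Lib.Tw.RS_ne α (g := g) hne
    · by_cases h5 : 5 ≤ Fintype.card F
      · exact Cfsg.Agent.Lib.Tw.half_ne Cfsg.Agent.Lib.Tw.eta_sq (Cfsg.Agent.Lib.Tw.eta_ne h2) hχ (Cfsg.Agent.Lib.Tw.half_of_deg hχ hodd hd h5) (g := g) hne
      · have h3 : Fintype.card F = 3 := by obtain ⟨k, hk⟩ := hodd; omega
        obtain ⟨n, hn, hc⟩ := Cfsg.Agent.Lib.Tw.deg_odd hodd hχ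
        have hnq := Cfsg.Agent.Lib.Tw.nat_of (hn.symm.trans hd)
        rcases hc with ⟨_, h1⟩ | ⟨_, h1⟩ | ⟨_, h1⟩ | ⟨⟨α, h1, h3, h5⟩, _⟩ | ⟨_, h1⟩ | ⟨h1, _⟩
        · omega
        · omega
        · omega
        · exact Cfsg.Agent.Lib.Tw.half_ne h1 h3 hχ h5 (g := g) hne
        · omega
        · refine Cfsg.Agent.Lib.Tw.cusp_three h3 hχ h1 ?_ (g := g) hne
          rw [hn, hnq, h3]; norm_num


end Cfsg.Agent.S2322
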