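import Cfsg.Statements.S2323
import Mathlib
import Cfsg.Agent.Lib.Tw22
-- import your own Cfsg.Agent.* helpers here

set_option autoImplicit false
open Cfsg
set_option linter.all false

namespace Cfsg.Agent.S2323

/-- Over a finite field F with q ≥ 4 elements, let u be the upper unitriangular matrix of SL₂ with off-diagonal entry 1. An irreducible complex character of SL₂ takes at u the value 1 if its degree is q + 1 and the value −1 if its degree is q − 1. -/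
theorem result {F : Type*} [Field F] [Fintype F] (hq : 4 ≤ Fintype.card F) (χ : Matrix.SpecialLinearGroup (Fin 2) F → ℂ) (hχ : Cfsg.IsIrrCharacter (Matrix.SpecialLinearGroup (Fin 2) F) χ)
    (u : Matrix.SpecialLinearGroup (Fin 2) F) (hu : (u : Matrix (Fin 2) (Fin 2) F) = !![1, 1; 0, 1]) :
    (χ 1 = (Fintype.card F : ℂ) + 1 → χ u = 1) ∧ (χ 1 = (Fintype.card F : ℂ) - 1 → χ u = -1) := by
  classical
  have hu' : u = Cfsg.Agent.Lib.SL2.t 1 := Subtype.ext hu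
  subst hu'
  have hns : Cfsg.Agent.Lib.Tw.NS (Cfsg.Agent.Lib.SL2.t (1 : F) : Matrix (Fin 2) (Fin 2) F) := by
    rintro ⟨h, _⟩
    rw [hu] at h
    exact one_ne_zero h
  refine ⟨fun h => ?_, fun h => ?_⟩
  · obtain ⟨α, _, rfl⟩ := Cfsg.Agent.Lib.Tw.eq_RS hχ h
    rw [Cfsg.Agent.Lib.Tw.RS_par α (x := 1) hns (by rw [hu, Matrix.trace_fin_two_of]) (mul_one 1), map_one]
  · have hc := Cfsg.Agent.Lib.Tw.cusp_of_deg hχ h hq
    obtain ⟨θ, hθ, hcθ, hres⟩ := Cfsg.Agent.Lib.Tw.cusp_ext hχ hc h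
    have h1 := Cfsg.Agent.Lib.Tw.cusp_one hθ hcθ
    have h2 : Matrix.SpecialLinearGroup.toGL (Cfsg.Agent.Lib.SL2.t (1 : F)) = Cfsg.Agent.Lib.Tw.bG (1 : Fˣ) 1 (1 : F) := by
      apply Units.ext
      show (Cfsg.Agent.Lib.SL2.t (1 : F) : Matrix (Fin 2) (Fin 2) F) = _
      rw [hu, Cfsg.Agent.Lib.Tw.bG_coe, Units.val_one]
    rw [hres, h2]
    rw [Cfsg.Agent.Lib.Tw.cusp_degree_G hθ hcθ] at h1
    have h4 : ((Fintype.card F : ℂ) - 1) * (θ (Cfsg.Agent.Lib.Tw.bG (1 : Fˣ) 1 (1 : F)) + 1) = 0 := by linear_combination h1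
    exact eq_neg_of_add_eq_zero_left ((mul_eq_zero.mp h4).resolve_left Cfsg.Agent.Lib.Tw.q_sub_ne)


end Cfsg.Agent.S2323
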