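import Cfsg.Statements.S2324
import Mathlib
import Cfsg.Agent.Lib.Tw24
-- import your own Cfsg.Agent.* helpers here

set_option autoImplicit false
open Cfsg
set_option linter.all false

namespace Cfsg.Agent.S2324

/-- Over a finite field F with q elements, q odd and q ≥ 5, let u be the upper unitriangular matrix of SL₂ with off-diagonal entry 1 and let δ = (−1)^((q−1)/2). Every irreducible complex character χ of SL₂ of degree (q + 1)/2 satisfies (2χ(u) − 1)² = δq, and every irreducible complex character χ of degree (q − 1)/2 satisfies (2χ(u) + 1)² = δq; that is, χ(u) = (1 ± √(δq))/2 in the first case and χ(u) = (−1 ± √(δq))/2 in the second. Moreover two different irreducible characters of degree (q + 1)/2 take the two different values (their values at u add up to 1), and likewise for degree (q − 1)/2 (values adding up to −1). -/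
theorem result {F : Type*} [Field F] [Fintype F] (hodd : Odd (Fintype.card F)) (hq : 5 ≤ Fintype.card F)
    (u : Matrix.SpecialLinearGroup (Fin 2) F) (hu : (u : Matrix (Fin 2) (Fin 2) F) = !![1, 1; 0, 1]) :
    (∀ χ : Matrix.SpecialLinearGroup (Fin 2) F → ℂ, Cfsg.IsIrrCharacter (Matrix.SpecialLinearGroup (Fin 2) F) χ → χ 1 = (((Fintype.card F + 1) / 2 : ℕ) : ℂ) → (2 * χ u - 1) ^ 2 = (-1 : ℂ) ^ ((Fintype.card F - 1) / 2) * (Fintype.card F : ℂ)) ∧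
    (∀ χ : Matrix.SpecialLinearGroup (Fin 2) F → ℂ, Cfsg.IsIrrCharacter (Matrix.SpecialLinearGroup (Fin 2) F) χ → χ 1 = (((Fintype.card F - 1) / 2 : ℕ) : ℂ) → (2 * χ u + 1) ^ 2 = (-1 : ℂ) ^ ((Fintype.card F - 1) / 2) * (Fintype.card F : ℂ)) ∧
    (∀ χ₁ χ₂ : Matrix.SpecialLinearGroup (Fin 2) F → ℂ, Cfsg.IsIrrCharacter (Matrix.SpecialLinearGroup (Fin 2) F) χ₁ → Cfsg.IsIrrCharacter (Matrix.SpecialLinearGroup (Fin 2) F) χ₂ → χ₁ ≠ χ₂ →
      χ₁ 1 = (((Fintype.card F + 1) / 2 : ℕ) : ℂ) → χ₂ 1 = (((Fintype.card F + 1) / 2 : ℕ) : ℂ) → χ₁ u + χ₂ u = 1) ∧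
    (∀ χ₁ χ₂ : Matrix.SpecialLinearGroup (Fin 2) F → ℂ, Cfsg.IsIrrCharacter (Matrix.SpecialLinearGroup (Fin 2) F) χ₁ → Cfsg.IsIrrCharacter (Matrix.SpecialLinearGroup (Fin 2) F) χ₂ → χ₁ ≠ χ₂ →
      χ₁ 1 = (((Fintype.card F - 1) / 2 : ℕ) : ℂ) → χ₂ 1 = (((Fintype.card F - 1) / 2 : ℕ) : ℂ) → χ₁ u + χ₂ u = -1) := by
  classical
  have h2 := Cfsg.Agent.Lib.Tw.two_ne_zero_of_odd hodd
  obtain ⟨ν, hν0, hν⟩ := Cfsg.Agent.Lib.Tw.exists_nonsq h2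
  have hu' : u = Cfsg.Agent.Lib.SL2.t 1 := Subtype.ext hu
  subst hu'
  have hns : Cfsg.Agent.Lib.Tw.NS (Cfsg.Agent.Lib.SL2.t (1 : F) : Matrix (Fin 2) (Fin 2) F) := by
    rintro ⟨h, _⟩
    rw [hu] at h
    exact one_ne_zero h
  have hplus := Cfsg.Agent.Lib.Tw.half_cast hodd
  have hminus := Cfsg.Agent.Lib.Tw.half_cast' hodd
  have key : ∀ χ : Matrix.SpecialLinearGroup (Fin 2) F → ℂ, Cfsg.IsIrrCharacter (Matrix.SpecialLinearGroup (Fin 2) F) χ →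
      χ 1 = (((Fintype.card F - 1) / 2 : ℕ) : ℂ) → χ (Cfsg.Agent.Lib.SL2.t 1) + χ (Cfsg.Agent.Lib.SL2.t ν) = -1 ∧
        (χ (Cfsg.Agent.Lib.SL2.t 1) - χ (Cfsg.Agent.Lib.SL2.t ν)) ^ 2 = (-1 : ℂ) ^ ((Fintype.card F - 1) / 2) * (Fintype.card F : ℂ) := by
    intro χ hχ hd
    have h3 := Cfsg.Agent.Lib.Tw.half_vals hodd (Cfsg.Agent.Lib.CharBasic.isChar_of_irr hχ) hν (c := 0)
      (by rw [zero_mul]; exact Cfsg.Agent.Lib.Tw.JS_eq_zero (Cfsg.Agent.Lib.CharBasic.isChar_classFn (Cfsg.Agent.Lib.CharBasic.isChar_of_irr hχ)) (Cfsg.Agent.Lib.Tw.cusp_of_half hχ hodd hd hq) 1)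
      (by rw [hd, hminus]; ring)
    exact ⟨by rw [h3.1]; ring, h3.2⟩
  refine ⟨fun χ hχ hd => ?_, fun χ hχ hd => ?_, fun χ₁ χ₂ h1 h3 hne d1 d2 => ?_, fun χ₁ χ₂ h1 h3 hne d1 d2 => ?_⟩
  · have hT := Cfsg.Agent.Lib.Tw.half_of_deg hχ hodd hd hq
    have h3 := Cfsg.Agent.Lib.Tw.half_vals hodd (Cfsg.Agent.Lib.CharBasic.isChar_of_irr hχ) hν (c := 1)
      (by rw [Cfsg.Agent.Lib.Tw.JS_half Cfsg.Agent.Lib.Tw.eta_sq (Cfsg.Agent.Lib.Tw.eta_ne h2) hχ hT, Units.val_one, map_one]; ring)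
      (by rw [hd, hplus]; ring)
    rw [← h3.2]
    have h4 := h3.1
    have : 2 * χ (Cfsg.Agent.Lib.SL2.t 1) - 1 = χ (Cfsg.Agent.Lib.SL2.t 1) - χ (Cfsg.Agent.Lib.SL2.t ν) := by linear_combination h4
    rw [this]
  · obtain ⟨h3, h4⟩ := key χ hχ hd
    rw [← h4]
    have : 2 * χ (Cfsg.Agent.Lib.SL2.t 1) + 1 = χ (Cfsg.Agent.Lib.SL2.t 1) - χ (Cfsg.Agent.Lib.SL2.t ν) := by linear_combination h3
    rw [this]
  · obtain ⟨ψ₁, ψ₂, a1, a2, hne', hsum, hall, b1, b2⟩ := Cfsg.Agent.Lib.Tw.halves (Cfsg.Agent.Lib.Tw.eta_sq (F := F)) (Cfsg.Agent.Lib.Tw.eta_ne h2)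
    have h5 := congrFun hsum (Cfsg.Agent.Lib.SL2.t 1)
    rw [Cfsg.Agent.Lib.Tw.RS_par _ (x := 1) hns (by rw [hu, Matrix.trace_fin_two_of]) (mul_one 1), map_one, Pi.add_apply] at h5
    rcases hall χ₁ h1 (Cfsg.Agent.Lib.Tw.half_of_deg h1 hodd d1 hq) with e1 | e1 <;>
      rcases hall χ₂ h3 (Cfsg.Agent.Lib.Tw.half_of_deg h3 hodd d2 hq) with e2 | e2
    · exact absurd (e1.trans e2.symm) hne
    · rw [e1, e2]; exact h5.symm
    · rw [e1, e2, add_comm]; exact h5.symm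
    · exact absurd (e1.trans e2.symm) hne
  · obtain ⟨k1, k2⟩ := key χ₁ h1 d1
    let X : Matrix.SpecialLinearGroup (Fin 2) F → ℂ := fun g => χ₁ (Cfsg.Agent.Lib.Tw.dgS (Units.mk0 ν hν0) g)
    have hX : Cfsg.IsIrrCharacter (Matrix.SpecialLinearGroup (Fin 2) F) X :=
      Cfsg.Agent.Lib.CharBasic.isIrr_comp_surjective _ (Cfsg.Agent.Lib.Tw.dgS_surj _) h1
    have hX1 : X 1 = (((Fintype.card F - 1) / 2 : ℕ) : ℂ) := by
      show χ₁ (Cfsg.Agent.Lib.Tw.dgS (Units.mk0 ν hν0) 1) = _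
      rw [map_one, d1]
    have hXt : X (Cfsg.Agent.Lib.SL2.t 1) = χ₁ (Cfsg.Agent.Lib.SL2.t ν) := by
      show χ₁ (Cfsg.Agent.Lib.Tw.dgS (Units.mk0 ν hν0) (Cfsg.Agent.Lib.SL2.t 1)) = _
      rw [Cfsg.Agent.Lib.Tw.dgS_t, one_mul]
      apply Cfsg.Agent.Lib.CharBasic.classFn_isConj (Cfsg.Agent.Lib.CharBasic.isChar_classFn (Cfsg.Agent.Lib.CharBasic.isChar_of_irr h1))
      rw [Cfsg.Agent.Lib.Tw.isConj_t_iff (Units.ne_zero _) hν0, Units.val_inv_eq_inv_val, Units.val_mk0, inv_mul_cancel₀ hν0]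
      exact IsSquare.one
    have hneX : χ₁ ≠ X := by
      intro h
      have h5 := congrFun h (Cfsg.Agent.Lib.SL2.t 1)
      rw [hXt] at h5
      rw [h5, sub_self, zero_pow two_ne_zero] at k2
      have h6 : (-1 : ℂ) ^ ((Fintype.card F - 1) / 2) ≠ 0 := pow_ne_zero _ (by norm_num)
      exact mul_ne_zero h6 Cfsg.Agent.Lib.Tw.q_ne k2.symm
    have hcard := Cfsg.Agent.Lib.Tw.card_half_sub hodd
    rw [Nat.card_eq_two_iff] at hcard
    obtain ⟨x, y, hxy, hall⟩ := hcard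
    have mem : ∀ φ : {χ : Cfsg.IrrCharacter (Matrix.SpecialLinearGroup (Fin 2) F) // Cfsg.Agent.Lib.Tw.CuspS χ.1 ∧ χ.1 1 = (((Fintype.card F - 1) / 2 : ℕ) : ℂ)}, φ = x ∨ φ = y := by
      intro φ
      have : φ ∈ ({x, y} : Set _) := by rw [hall]; exact Set.mem_univ _
      exact this
    have hχ₂ : χ₂ = X := by
      have c1 := mem ⟨⟨χ₁, h1⟩, Cfsg.Agent.Lib.Tw.cusp_of_half h1 hodd d1 hq, d1⟩
      have c2 := mem ⟨⟨χ₂, h3⟩, Cfsg.Agent.Lib.Tw.cusp_of_half h3 hodd d2 hq, d2⟩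
      have c3 := mem ⟨⟨X, hX⟩, Cfsg.Agent.Lib.Tw.cusp_of_half hX hodd hX1 hq, hX1⟩
      have n1 : ∀ {p r : {χ : Cfsg.IrrCharacter (Matrix.SpecialLinearGroup (Fin 2) F) // Cfsg.Agent.Lib.Tw.CuspS χ.1 ∧ χ.1 1 = (((Fintype.card F - 1) / 2 : ℕ) : ℂ)}}, p = r → p.1.1 = r.1.1 :=
        fun h => by rw [h]
      rcases c1 with c1 | c1 <;> rcases c2 with c2 | c2 <;> rcases c3 with c3 | c3
      · exact absurd (n1 (c1.trans c2.symm)) hne
      · exact absurd (n1 (c1.trans c2.symm)) hne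
      · exact absurd (n1 (c1.trans c3.symm)) hneX
      · exact n1 (c2.trans c3.symm)
      · exact n1 (c2.trans c3.symm)
      · exact absurd (n1 (c1.trans c3.symm)) hneX
      · exact absurd (n1 (c1.trans c2.symm)) hne
      · exact absurd (n1 (c1.trans c2.symm)) hne
    rw [hχ₂, hXt]
    exact k1


end Cfsg.Agent.S2324
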