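import Cfsg.Statements.S2368
import Mathlib
import Cfsg.Agent.Lib.Nil1
-- import your own Cfsg.Agent.* helpers here

set_option autoImplicit false
open Cfsg
set_option linter.all false

namespace Cfsg.Agent.S2368

/-- Let F be a finite field of characteristic p and m ≥ 1. Every element of GL(m, F) of p-power order has order less than p·m, and GL(m, F) has an element of p-power order at least m; so the largest order of a p-element of GL(m, F) is the least power of p that is at least m. -/
theorem result {F : Type*} [Field F] [Fintype F] (p : ℕ) [Fact p.Prime] [CharP F p] (m : ℕ) (hm : 1 ≤ m) :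
    (∀ g : Matrix.GeneralLinearGroup (Fin m) F, (∃ j : ℕ, orderOf g = p ^ j) → orderOf g < p * m) ∧
      ∃ g : Matrix.GeneralLinearGroup (Fin m) F, (∃ j : ℕ, orderOf g = p ^ j) ∧ m ≤ orderOf g := by
  classical
  have hpp : p.Prime := Fact.out
  constructor
  · intro g hg
    have hnil := Cfsg.Agent.Lib.Nil.nil_of_order (p := p) g hg
    obtain ⟨j, hj⟩ := hg
    rcases Nat.eq_zero_or_pos j with rfl | hj0
    · rw [hj, pow_zero]
      calc 1 < 2 * 1 := by norm_num
        _ ≤ p * m := Nat.mul_le_mul hpp.two_le hm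
    · obtain ⟨i, rfl⟩ : ∃ i, j = i + 1 := ⟨j - 1, by omega⟩
      rw [hj, pow_succ, mul_comm]
      apply Nat.mul_lt_mul_of_pos_left _ hpp.pos
      by_contra hcon
      push Not at hcon
      have h1 : g ^ p ^ i = 1 := by
        rw [Cfsg.Agent.Lib.Nil.order_pow]
        exact pow_eq_zero_of_le hcon (Cfsg.Agent.Lib.Nil.pow_eq_zero_of_nil hnil)
      have h2 := orderOf_dvd_of_pow_eq_one h1
      rw [hj] at h2
      have h3 := (Nat.pow_dvd_pow_iff_le_right hpp.one_lt).mp h2
      omega
  · obtain ⟨u, hu⟩ := Cfsg.Agent.Lib.Nil.exists_jor (F := F) m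
    have h1 := Cfsg.Agent.Lib.Nil.order_eq (p := p) u (by rw [hu]; exact Cfsg.Agent.Lib.Nil.jor_nil m) (by rw [hu]; exact Cfsg.Agent.Lib.Nil.jor_ne hm)
    exact ⟨u, ⟨_, h1⟩, by rw [h1]; exact Nat.le_pow_clog hpp.one_lt m⟩


end Cfsg.Agent.S2368
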