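import Cfsg.Statements.S2385
import Mathlib
import Cfsg.Agent.Lib.BForm8
-- import your own Cfsg.Agent.* helpers here

set_option autoImplicit false
open Cfsg
set_option linter.all false

namespace Cfsg.Agent.S2385

/-- In the symplectic group `Sp_{2n}(q)`, `q` a power of the prime `p`, the number of conjugacy classes of elements of order prime to `p` is `q^n`. -/
theorem result {F : Type*} [Field F] [Fintype F] {q : ℕ} (hq : Fintype.card F = q) (p : ℕ) [Fact p.Prime] [CharP F p] (n : ℕ) :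
    Nat.card {c : ConjClasses ↥(Matrix.symplecticGroup (Fin n) F) //
      ∃ g : ↥(Matrix.symplecticGroup (Fin n) F), ConjClasses.mk g = c ∧ (orderOf g).Coprime p} = q ^ n := by
  classical
  rw [← hq, ← Cfsg.Agent.Lib.BForm.card_pal n]
  let P : ↥(Matrix.symplecticGroup (Fin n) F) → Prop := fun g => (orderOf g).Coprime p
  let Φ : ↥(Matrix.symplecticGroup (Fin n) F) → {f : Polynomial F // f.Monic ∧ f.natDegree = 2 * n ∧ f.reverse = f} := fun g =>
    ⟨(g : Matrix (Fin n ⊕ Fin n) (Fin n ⊕ Fin n) F).charpoly, Matrix.charpoly_monic _, by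
      rw [Matrix.charpoly_natDegree_eq_dim, Fintype.card_sum, Fintype.card_fin]; ring,
      Cfsg.Agent.Lib.BForm.sp_reverse_charpoly g⟩
  apply Cfsg.Agent.Lib.RCF.card_classes P Φ
  · intro g h hg hh hgh
    have hc : (g : Matrix (Fin n ⊕ Fin n) (Fin n ⊕ Fin n) F).charpoly = (h : Matrix (Fin n ⊕ Fin n) (Fin n ⊕ Fin n) F).charpoly :=
      congrArg Subtype.val hgh
    set N := orderOf g * orderOf h with hN
    have hNp : N.Coprime p := Nat.Coprime.mul_left hg hh
    have hA1 : (g : Matrix (Fin n ⊕ Fin n) (Fin n ⊕ Fin n) F) ^ N = 1 := by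
      have : g ^ N = 1 := by rw [hN, pow_mul, pow_orderOf_eq_one, one_pow]
      exact congrArg Subtype.val this
    have hB1 : (h : Matrix (Fin n ⊕ Fin n) (Fin n ⊕ Fin n) F) ^ N = 1 := by
      have : h ^ N = 1 := by rw [hN, mul_comm, pow_mul, pow_orderOf_eq_one, one_pow]
      exact congrArg Subtype.val this
    obtain ⟨k, hk⟩ := Cfsg.Agent.Lib.RCF.exists_equiv_of_charpoly (p := p) hNp hA1 hB1 hc
    exact Cfsg.Agent.Lib.BForm.sp_conj (p := p) hg k hk
  · intro g h hgh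
    obtain ⟨c, hc⟩ := isConj_iff.mp hgh
    apply Subtype.ext
    show (g : Matrix (Fin n ⊕ Fin n) (Fin n ⊕ Fin n) F).charpoly = (h : Matrix (Fin n ⊕ Fin n) (Fin n ⊕ Fin n) F).charpoly
    rw [← hc]
    show _ = ((c : Matrix (Fin n ⊕ Fin n) (Fin n ⊕ Fin n) F) * (g : Matrix (Fin n ⊕ Fin n) (Fin n ⊕ Fin n) F) * ((c⁻¹ : Matrix.symplecticGroup (Fin n) F) : Matrix (Fin n ⊕ Fin n) (Fin n ⊕ Fin n) F)).charpoly
    rw [Matrix.charpoly_mul_comm, ← mul_assoc]
    have h1 : ((c⁻¹ : Matrix.symplecticGroup (Fin n) F) : Matrix (Fin n ⊕ Fin n) (Fin n ⊕ Fin n) F) * (c : Matrix (Fin n ⊕ Fin n) (Fin n ⊕ Fin n) F) = 1 :=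
      congrArg Subtype.val (inv_mul_cancel c)
    rw [h1, one_mul]
  · rintro ⟨f, hf1, hf2, hf3⟩
    obtain ⟨g, hg, hgc⟩ := Cfsg.Agent.Lib.BForm.exists_sp_charpoly (p := p) hf1 hf2 hf3
    exact ⟨g, hg, Subtype.ext hgc⟩


end Cfsg.Agent.S2385
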