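import Cfsg.Statements.S2390
import Mathlib
import Cfsg.Agent.Lib.Herm19
import Cfsg.Agent.Lib.Herm16
-- import your own Cfsg.Agent.* helpers here

set_option autoImplicit false
open Cfsg
set_option linter.all false

namespace Cfsg.Agent.S2390

/-- In the special unitary group `SU_n(q)` (inside `SL_n` over the field with `q²` elements), `q` a power of the prime `p`, two elements of order prime to `p` with the same characteristic polynomial are conjugate in `SU_n(q)`. -/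
theorem result {F : Type*} [Field F] [Fintype F] {q : ℕ} (hF : Fintype.card F = q ^ 2) (p : ℕ) [Fact p.Prime] [CharP F p] (n : ℕ)
    (g h : ↥(Cfsg.SU n F q)) (hg : (orderOf g).Coprime p) (hh : (orderOf h).Coprime p)
    (hc : ((g : Matrix.SpecialLinearGroup (Fin n) F) : Matrix (Fin n) (Fin n) F).charpoly =
      ((h : Matrix.SpecialLinearGroup (Fin n) F) : Matrix (Fin n) (Fin n) F).charpoly) : IsConj g h := by
  classical
  obtain ⟨σ, hσ', hq⟩ := Cfsg.Agent.Lib.Herm.exists_sigma hF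
  obtain ⟨hs1, hs2, hs3⟩ := Cfsg.Agent.Lib.Herm.sigma_facts hσ'
  rcases Nat.eq_zero_or_pos n with hn | hn
  · subst hn
    have : g = h := Subtype.ext (Subtype.ext (Subsingleton.elim _ _))
    rw [this]
  set N := orderOf g * orderOf h with hN
  have hNp : N.Coprime p := Nat.Coprime.mul_left hg hh
  have hgN : g ^ N = 1 := by rw [hN, pow_mul, pow_orderOf_eq_one, one_pow]
  have hhN : h ^ N = 1 := by rw [hN, mul_comm, pow_mul, pow_orderOf_eq_one, one_pow]
  let ι := Cfsg.Agent.Lib.Herm.suIncl hs1 hq n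
  have hιv : ∀ s, (((ι s : Cfsg.GU n F q) : GL (Fin n) F) : Matrix (Fin n) (Fin n) F) = ((s : Matrix.SpecialLinearGroup (Fin n) F) : Matrix (Fin n) (Fin n) F) :=
    Cfsg.Agent.Lib.Herm.suIncl_val hs1 hq
  set A : GL (Fin n) F := ((ι g : Cfsg.GU n F q) : GL (Fin n) F) with hA
  set B : GL (Fin n) F := ((ι h : Cfsg.GU n F q) : GL (Fin n) F) with hB
  have hAN : A ^ N = 1 := by
    have h1 : (ι g) ^ N = 1 := by rw [← map_pow, hgN, map_one]
    exact congrArg Subtype.val h1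
  have hBN : B ^ N = 1 := by
    have h1 : (ι h) ^ N = 1 := by rw [← map_pow, hhN, map_one]
    exact congrArg Subtype.val h1
  have hc' : (A : Matrix (Fin n) (Fin n) F).charpoly = (B : Matrix (Fin n) (Fin n) F).charpoly := by
    rw [hA, hB, hιv, hιv, hc]
  have hAB : IsConj A B := by
    apply Cfsg.Agent.Lib.RCF.conj_GL_of_charpoly (p := p) _ _ hc'
    · exact Nat.Coprime.coprime_dvd_left (orderOf_dvd_of_pow_eq_one hAN) hNp
    · exact Nat.Coprime.coprime_dvd_left (orderOf_dvd_of_pow_eq_one hBN) hNp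
  obtain ⟨P, hP⟩ := isConj_iff.mp hAB
  obtain ⟨u, hu, hu'⟩ := Cfsg.Agent.Lib.Herm.gu_conj_of_gl_conj hs1 hs2 hq (ι g).2 (ι h).2 hP
  have hdu : Matrix.GeneralLinearGroup.det u ∈ Cfsg.Agent.Lib.Herm.NU σ := Cfsg.Agent.Lib.Herm.det_mem_NU hs1 hq ⟨u, hu⟩
  obtain ⟨Z, hZ, hZA, hZd⟩ := Cfsg.Agent.Lib.Herm.exists_GU_cent_det (p := p) hσ' hq hn (ι g).2 hNp hAN (inv_mem hdu)
  have hW : u * Z ∈ Cfsg.GU n F q := mul_mem hu hZ
  have hWd : Matrix.GeneralLinearGroup.det (u * Z) = 1 := by rw [map_mul, hZd, mul_inv_cancel]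
  obtain ⟨s, hs⟩ := Cfsg.Agent.Lib.Herm.exists_suIncl hs1 hq ⟨u * Z, hW⟩ (congrArg Units.val hWd)
  rw [isConj_iff]
  refine ⟨s, ?_⟩
  apply Cfsg.Agent.Lib.Herm.suIncl_inj hs1 hq n
  rw [map_mul, map_mul, map_inv, hs]
  apply Subtype.ext
  show (u * Z) * A * (u * Z)⁻¹ = B
  rw [mul_assoc u Z A, hZA, ← mul_assoc, mul_inv_rev, ← mul_assoc, mul_assoc (u * A) Z, mul_inv_cancel, mul_one, hu']


end Cfsg.Agent.S2390
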