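import Cfsg.Statements.S2386
import Mathlib
import Cfsg.Agent.Lib.Herm20
import Cfsg.Agent.Lib.Herm16
import Cfsg.Agent.S2390
-- import your own Cfsg.Agent.* helpers here

set_option autoImplicit false
open Cfsg
set_option linter.all false

namespace Cfsg.Agent.S2386

/-- In the special unitary group `SU_n(q)` (matrices of determinant one over the field with `q²` elements preserving the standard Hermitian form), `q` a power of the prime `p`, the number of conjugacy classes of elements of order prime to `p` is `q^(n-1)`. -/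
theorem result {F : Type*} [Field F] [Fintype F] {q : ℕ} (hF : Fintype.card F = q ^ 2) (p : ℕ) [Fact p.Prime] [CharP F p] (n : ℕ) (hn : 1 ≤ n) :
    Nat.card {c : ConjClasses ↥(Cfsg.SU n F q) // ∃ g : ↥(Cfsg.SU n F q), ConjClasses.mk g = c ∧ (orderOf g).Coprime p} = q ^ (n - 1) := by
  classical
  obtain ⟨σ, hσ', hq⟩ := Cfsg.Agent.Lib.Herm.exists_sigma hF
  obtain ⟨hs1, hs2, hs3⟩ := Cfsg.Agent.Lib.Herm.sigma_facts hσ'
  obtain ⟨m, rfl⟩ : ∃ m, n = m + 1 := ⟨n - 1, by omega⟩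
  rw [Nat.add_sub_cancel, ← Cfsg.Agent.Lib.Herm.card_UP hF hs1 hs2 m]
  let ι := Cfsg.Agent.Lib.Herm.suIncl hs1 hq (m + 1)
  have hιv : ∀ s, (((ι s : Cfsg.GU (m + 1) F q) : GL (Fin (m + 1)) F) : Matrix (Fin (m + 1)) (Fin (m + 1)) F) = ((s : Matrix.SpecialLinearGroup (Fin (m + 1)) F) : Matrix (Fin (m + 1)) (Fin (m + 1)) F) :=
    Cfsg.Agent.Lib.Herm.suIncl_val hs1 hq
  have hdet : ∀ s : Cfsg.SU (m + 1) F q, ((((ι s : Cfsg.GU (m + 1) F q) : GL (Fin (m + 1)) F) : Matrix (Fin (m + 1)) (Fin (m + 1)) F)).det = 1 := by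
    intro s
    rw [hιv]
    exact (s : Matrix.SpecialLinearGroup (Fin (m + 1)) F).2
  let P : ↥(Cfsg.SU (m + 1) F q) → Prop := fun g => (orderOf g).Coprime p
  let Φ : ↥(Cfsg.SU (m + 1) F q) → {f : Polynomial F // Cfsg.Agent.Lib.Herm.UP σ (m + 1) f} := fun g =>
    ⟨(((ι g : Cfsg.GU (m + 1) F q) : GL (Fin (m + 1)) F) : Matrix (Fin (m + 1)) (Fin (m + 1)) F).charpoly, by
      rw [Cfsg.Agent.Lib.Herm.UP_iff hs1 _ (hdet g), (Cfsg.Agent.Lib.Herm.gu_iff_stI hs1 hq _).mp (ι g).2]⟩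
  apply Cfsg.Agent.Lib.RCF.card_classes P Φ
  · intro g h hg hh hgh
    have hc := congrArg Subtype.val hgh
    apply Cfsg.Agent.S2390.result hF p (m + 1) g h hg hh
    rw [← hιv, ← hιv]
    exact hc
  · intro g h hgh
    obtain ⟨c, hc⟩ := isConj_iff.mp hgh
    apply Subtype.ext
    show (((ι g : Cfsg.GU (m + 1) F q) : GL (Fin (m + 1)) F) : Matrix (Fin (m + 1)) (Fin (m + 1)) F).charpoly = (((ι h : Cfsg.GU (m + 1) F q) : GL (Fin (m + 1)) F) : Matrix (Fin (m + 1)) (Fin (m + 1)) F).charpoly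
    apply Cfsg.Agent.Lib.RCF.charpoly_GL_conj
    rw [isConj_iff]
    refine ⟨((ι c : Cfsg.GU (m + 1) F q) : GL (Fin (m + 1)) F), ?_⟩
    rw [← hc, map_mul, map_mul, map_inv]
    rfl
  · rintro ⟨f, hf⟩
    obtain ⟨A, hA, hAf⟩ := Cfsg.Agent.Lib.RCF.exists_SL_charpoly (p := p) hf.1 hf.2.1 hf.2.2.1
    set a : GL (Fin (m + 1)) F := (A : GL (Fin (m + 1)) F) with ha
    have haA : (a : Matrix (Fin (m + 1)) (Fin (m + 1)) F) = (A : Matrix (Fin (m + 1)) (Fin (m + 1)) F) := rfl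
    have hda : (a : Matrix (Fin (m + 1)) (Fin (m + 1)) F).det = 1 := A.2
    have haf : (a : Matrix (Fin (m + 1)) (Fin (m + 1)) F).charpoly = f := hAf
    have h1 := (Cfsg.Agent.Lib.Herm.UP_iff hs1 a hda).mp (by rw [haf]; exact hf)
    have haN : a ^ (orderOf A) = 1 := by
      have : (Matrix.SpecialLinearGroup.toGL (A ^ orderOf A) : GL (Fin (m + 1)) F) = 1 := by rw [pow_orderOf_eq_one, map_one]
      rw [map_pow] at this
      exact this
    have hsN : (Cfsg.Agent.Lib.Herm.stI σ (m + 1) a) ^ (orderOf A) = 1 := by rw [← map_pow, haN, map_one]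
    have hcj : IsConj a (Cfsg.Agent.Lib.Herm.stI σ (m + 1) a) := by
      apply Cfsg.Agent.Lib.RCF.conj_GL_of_charpoly (p := p) _ _ h1.symm
      · exact Nat.Coprime.coprime_dvd_left (orderOf_dvd_of_pow_eq_one haN) hA
      · exact Nat.Coprime.coprime_dvd_left (orderOf_dvd_of_pow_eq_one hsN) hA
    obtain ⟨g, hg⟩ := Cfsg.Agent.Lib.Herm.conj_GU_of_stI hσ' hq hcj
    obtain ⟨c, hc⟩ := isConj_iff.mp hg
    have hdg : ((g : GL (Fin (m + 1)) F) : Matrix (Fin (m + 1)) (Fin (m + 1)) F).det = 1 := by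
      have h2 := congrArg (fun x => Matrix.GeneralLinearGroup.det x) hc
      simp only [map_mul, map_inv] at h2
      rw [mul_comm, inv_mul_cancel_left] at h2
      have h3 := congrArg Units.val h2
      have h4 : ((Matrix.GeneralLinearGroup.det a : Fˣ) : F) = (a : Matrix (Fin (m + 1)) (Fin (m + 1)) F).det := rfl
      have h5 : ((Matrix.GeneralLinearGroup.det (g : GL (Fin (m + 1)) F) : Fˣ) : F) = ((g : GL (Fin (m + 1)) F) : Matrix (Fin (m + 1)) (Fin (m + 1)) F).det := rfl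
      rw [← h5, ← h3, h4, hda]
    obtain ⟨s, hs⟩ := Cfsg.Agent.Lib.Herm.exists_suIncl hs1 hq g hdg
    refine ⟨s, ?_, ?_⟩
    · apply Nat.Coprime.coprime_dvd_left _ hA
      apply orderOf_dvd_of_pow_eq_one
      apply Cfsg.Agent.Lib.Herm.suIncl_inj hs1 hq (m + 1)
      rw [map_pow, hs, map_one]
      apply Subtype.ext
      show (g : GL (Fin (m + 1)) F) ^ orderOf A = 1
      rw [← hc, conj_pow, haN, mul_one, mul_inv_cancel]
    · apply Subtype.ext
      show (((ι s : Cfsg.GU (m + 1) F q) : GL (Fin (m + 1)) F) : Matrix (Fin (m + 1)) (Fin (m + 1)) F).charpoly = f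
      rw [hs, ← haf]
      exact (Cfsg.Agent.Lib.RCF.charpoly_GL_conj hg).symm


end Cfsg.Agent.S2386
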