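import Cfsg.Statements.S2389
import Mathlib
import Cfsg.Agent.Lib.BForm4
import Cfsg.Agent.Lib.RCF3
-- import your own Cfsg.Agent.* helpers here

set_option autoImplicit false
open Cfsg
set_option linter.all false

namespace Cfsg.Agent.S2389

/-- In the symplectic group `Sp_{2n}(q)`, `q` a power of the prime `p`, two elements of order prime to `p` with the same characteristic polynomial are conjugate in `Sp_{2n}(q)`. -/
theorem result {F : Type*} [Field F] [Fintype F] (p : ℕ) [Fact p.Prime] [CharP F p] (n : ℕ)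
    (g h : ↥(Matrix.symplecticGroup (Fin n) F)) (hg : (orderOf g).Coprime p) (hh : (orderOf h).Coprime p)
    (hc : (g : Matrix (Fin n ⊕ Fin n) (Fin n ⊕ Fin n) F).charpoly = (h : Matrix (Fin n ⊕ Fin n) (Fin n ⊕ Fin n) F).charpoly) :
    IsConj g h := by
  classical
  set N := orderOf g * orderOf h with hN
  have hNp : N.Coprime p := Nat.Coprime.mul_left hg hh
  have hA1 : (g : Matrix (Fin n ⊕ Fin n) (Fin n ⊕ Fin n) F) ^ N = 1 := by
    have : g ^ N = 1 := by rw [hN, pow_mul, pow_orderOf_eq_one, one_pow]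
    exact congrArg Subtype.val this
  have hB1 : (h : Matrix (Fin n ⊕ Fin n) (Fin n ⊕ Fin n) F) ^ N = 1 := by
    have : h ^ N = 1 := by rw [hN, mul_comm, pow_mul, pow_orderOf_eq_one, one_pow]
    exact congrArg Subtype.val this
  obtain ⟨k, hk⟩ := Cfsg.Agent.Lib.RCF.exists_equiv_of_charpoly (p := p) hNp hA1 hB1 hc
  exact Cfsg.Agent.Lib.BForm.sp_conj (p := p) hg k hk


end Cfsg.Agent.S2389
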