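import Cfsg.Statements.S2397
import Cfsg.Agent.Lib.ChevStH
-- import your own Cfsg.Agent.* helpers here

set_option autoImplicit false
open Cfsg

namespace Cfsg.Agent.S2397

/-- Over a finite field the relators (R3) h̄_r(t₁) h̄_r(t₂) = h̄_r(t₁ t₂) are consequences of (R1) and (R2): for each of the types G₂, B₂, D₄, F₄, E₆, E₇, E₈ (for types B₂ and G₂ the field must have more than two elements — the cases where the Chevalley group is not simple are set aside) the group presented by (R1), (R2) is canonically isomorphic to the one presented by (R1)–(R3), by an isomorphism matching the generators x̄_r(t). -/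
theorem result {K : Type*} [Field K] [Finite K] (D : Cfsg.Lie.ChevalleyDatum) (hD : D ∈ [Cfsg.Lie.chevG2, Cfsg.Lie.chevB2, Cfsg.Lie.chevD4, Cfsg.Lie.chevF4, Cfsg.Lie.chevE6, Cfsg.Lie.chevE7, Cfsg.Lie.chevE8]) (hK : D ∈ [Cfsg.Lie.chevB2, Cfsg.Lie.chevG2] → ∃ x : K, x ≠ 0 ∧ x ≠ 1) :
    ∃ e : D.SteinbergCover K ≃* D.SteinbergGroup K, ∀ (r : ℕ) (t : K), e (D.scGen K r t) = D.stGen K r t := by
  obtain ⟨Q, -⟩ := Lib.ChevAlg.exists_chevS D hD K
  have hG := Lib.ChevAlg.gen_of D hD
  have hC := (Lib.ChevAlg.coverStF Q).relC_of_finite hG (Lib.ChevAlg.coverGen Q)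
  have hAB : Lib.ChevAlg.RelAB D (D.scGen K) := (Lib.ChevAlg.coverStF Q).relAB
  have hAB' : Lib.ChevAlg.RelAB D (D.stGen K) := (Lib.ChevAlg.groupStF Q).relAB
  set f := Lib.ChevAlg.coverLift Q hAB' with hf
  set g := Lib.ChevAlg.groupLift Q hAB hC with hg
  have hf1 : ∀ (r : ℕ) (t : K), f (D.scGen K r t) = D.stGen K r t := by
    intro r t
    by_cases hr : r < D.nroots
    · exact Lib.ChevAlg.coverLift_gen Q hAB' hr t
    · have h1 : D.scGen K r t = 1 := by
        rw [Cfsg.Lie.ChevalleyDatum.scGen, Cfsg.Lie.ChevalleyDatum.stX, dif_neg hr, map_one]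
      have h2 : D.stGen K r t = 1 := by
        rw [Cfsg.Lie.ChevalleyDatum.stGen, Cfsg.Lie.ChevalleyDatum.stX, dif_neg hr, map_one]
      rw [h1, h2, map_one]
  have hg1 : ∀ (r : ℕ) (t : K), r < D.nroots → g (D.stGen K r t) = D.scGen K r t := fun r t hr =>
    Lib.ChevAlg.groupLift_gen Q hAB hC hr t
  have e1 : ∀ x, g (f x) = x := by
    intro x
    have hx := Lib.ChevAlg.coverGen Q x
    refine Subgroup.closure_induction (p := fun x _ => g (f x) = x) ?_ ?_ ?_ ?_ hx
    · rintro _ ⟨r, hr, t, rfl⟩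
      rw [hf1, hg1 r t hr]
    · rw [map_one, map_one]
    · intro x y _ _ h1 h2
      rw [map_mul, map_mul, h1, h2]
    · intro x _ h1
      rw [map_inv, map_inv, h1]
  have e2 : ∀ x, f (g x) = x := by
    intro x
    have hx := Lib.ChevAlg.groupGen Q x
    refine Subgroup.closure_induction (p := fun x _ => f (g x) = x) ?_ ?_ ?_ ?_ hx
    · rintro _ ⟨r, hr, t, rfl⟩
      rw [hg1 r t hr, hf1]
    · rw [map_one, map_one]
    · intro x y _ _ h1 h2
      rw [map_mul, map_mul, h1, h2]
    · intro x _ h1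
      rw [map_inv, map_inv, h1]
  exact ⟨{ toFun := f, invFun := g, left_inv := e1, right_inv := e2, map_mul' := map_mul f }, hf1⟩

end Cfsg.Agent.S2397
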