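import Cfsg.Statements.S2410
import Mathlib
import Cfsg.Agent.H8.SuzBorel

set_option autoImplicit false
open Cfsg

namespace Cfsg.Agent.S2410

/-- The Suzuki group over the field with `2^(2m+1)` elements, `m ≥ 1` (realised as the stabiliser in `SL₄` of the Suzuki–Tits ovoid), is generated by two of its elements. -/
theorem result {F : Type*} [Field F] [Fintype F] {m : ℕ} (hm : 1 ≤ m) (hF : Fintype.card F = 2 ^ (2 * m + 1)) :
    ∃ a b : ↥(Cfsg.Sz F m), Subgroup.closure ({a, b} : Set ↥(Cfsg.Sz F m)) = ⊤ := by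
  obtain ⟨D⟩ := Cfsg.Agent.H8.Suz.exists_dat hm hF
  have hchar := D.char
  obtain ⟨u0, hu0⟩ := IsCyclic.exists_generator (α := Fˣ)
  refine ⟨D.tt 1 0 * D.ww, D.hh u0, ?_⟩
  set M := Subgroup.closure ({D.tt 1 0 * D.ww, D.hh u0} : Set ↥(Sz F m)) with hM
  have hx : D.tt 1 0 * D.ww ∈ M := Subgroup.subset_closure (by simp)
  have hy : D.hh u0 ∈ M := Subgroup.subset_closure (by simp)
  have hH : ∀ u, D.hh u ∈ M := by
    let f : Fˣ →* Sz F m := ⟨⟨D.hh, D.hh_one⟩, fun u v => (D.hh_mul u v).symm⟩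
    intro u
    obtain ⟨k, hk⟩ := Subgroup.mem_zpowers_iff.1 (hu0 u)
    have : D.hh u = D.hh u0 ^ k := by
      show f u = f u0 ^ k
      rw [← map_zpow, hk]
    rw [this]; exact M.zpow_mem hy k
  obtain ⟨v, hv⟩ := D.exists_unit
  -- conjugate by ww
  set M' := M.map (MulAut.conj D.ww).toMonoidHom with hM'
  have hmem' : ∀ g, D.ww * g * D.ww ∈ M → g ∈ M' := by
    intro g hg
    refine ⟨_, hg, ?_⟩
    show D.ww * (D.ww * g * D.ww) * D.ww⁻¹ = g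
    rw [D.ww_inv]
    calc D.ww * (D.ww * g * D.ww) * D.ww = (D.ww * D.ww) * g * (D.ww * D.ww) := by group
      _ = g := by rw [D.ww_mul_ww]; group
  have hH' : ∀ u, D.hh u ∈ M' := fun u => hmem' _ (by rw [D.ww_conj_hh]; exact hH _)
  have h1 : ∃ c d, c ≠ 0 ∧ D.tt c d ∈ M' := by
    have h2 := M.mul_mem (M.mul_mem (M.mul_mem (M.inv_mem hx) (hH v)) hx) (hH v)
    refine ⟨1 + D.θ v, 0 + (0 + D.θ 1 * 1) + D.θ 1 * D.θ v * 0 + D.θ 1 * (D.θ v * 1) + D.θ v * v ^ 2 * 0, ?_, hmem' _ ?_⟩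
    · intro h
      exact D.theta_ne hv (by grind)
    · have e : (D.tt 1 0 * D.ww)⁻¹ * D.hh v * (D.tt 1 0 * D.ww) * D.hh v =
          D.ww * ((D.tt 1 0)⁻¹ * (D.hh v * D.tt 1 0 * (D.hh v)⁻¹)) * D.ww := by
        have e1 : D.hh v * D.ww = D.ww * (D.hh v)⁻¹ := by
          rw [D.hh_inv, D.ww_mul_hh, inv_inv]
        calc (D.tt 1 0 * D.ww)⁻¹ * D.hh v * (D.tt 1 0 * D.ww) * D.hh v
            = D.ww⁻¹ * (D.tt 1 0)⁻¹ * D.hh v * D.tt 1 0 * (D.ww * D.hh v) := by group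
          _ = D.ww * (D.tt 1 0)⁻¹ * D.hh v * D.tt 1 0 * ((D.hh v)⁻¹ * D.ww) := by
              rw [D.ww_mul_hh, D.ww_inv, D.hh_inv]
          _ = _ := by group
      rw [e, D.hh_conj_tt, D.tt_inv, D.tt_mul] at h2
      convert h2 using 3
      congr 1
      · simp
      · simp
  obtain ⟨c, d, hc, hcd⟩ := h1
  have hU' := D.U_le_of hH' hc hcd
  have hB' : D.B ≤ M' := by
    intro g hg
    obtain ⟨a, b, u, rfl⟩ := D.mem_B.1 hg
    exact M'.mul_mem (hU' a b) (hH' u)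
  have hne : D.B ≠ M' := by
    intro h
    have h2 : D.ww * (D.tt 1 0 * D.ww) * D.ww⁻¹ ∈ D.B := by
      rw [h]; exact ⟨_, hx, rfl⟩
    have h3 : (D.ww * (D.tt 1 0 * D.ww) * D.ww⁻¹) • D.inf = D.inf := h2
    have e : D.ww * (D.tt 1 0 * D.ww) * D.ww⁻¹ = D.ww * D.tt 1 0 := by group
    rw [e, mul_smul, D.tt_inf, D.ww_inf] at h3
    exact D.pt_ne_inf 0 0 h3
  have htop := D.coatom_B.2 _ (lt_of_le_of_ne hB' hne)
  rw [eq_top_iff]
  intro g _
  have : D.ww * g * D.ww⁻¹ ∈ M' := by rw [htop]; trivial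
  obtain ⟨y, hy, hyg⟩ := this
  have hyg' : D.ww * y * D.ww⁻¹ = D.ww * g * D.ww⁻¹ := hyg
  have : y = g := mul_left_cancel (mul_right_cancel hyg')
  rwa [← this]

end Cfsg.Agent.S2410
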