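import Cfsg.Statements.S2418
import Cfsg.Agent.Lib.ChevCoxC
-- import your own Cfsg.Agent.* helpers here

set_option autoImplicit false
open Cfsg

namespace Cfsg.Agent.S2418

/-- For the Coxeter groups of types B₂, G₂, D₄, F₄, E₇, E₈ the centre has order 2 (the element acting as −1 on the root system) and is generated by a power of the Coxeter element `s₁ s₂ ⋯ s_l`; the Coxeter group of type E₆ has trivial centre. -/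
theorem result (c : (Σ n : ℕ, CoxeterMatrix (Fin n)) × ℕ)
    (hc : c ∈ [(⟨2, CoxeterMatrix.B 2⟩, 2), (⟨2, CoxeterMatrix.G₂⟩, 2), (⟨4, Cfsg.Lie.coxeterD4⟩, 2), (⟨4, CoxeterMatrix.F₄⟩, 2),
      (⟨6, CoxeterMatrix.E₆⟩, 1), (⟨7, CoxeterMatrix.E₇⟩, 2), (⟨8, CoxeterMatrix.E₈⟩, 2)]) :
    Nat.card (Subgroup.center c.1.2.Group) = c.2 ∧
      Subgroup.center c.1.2.Group ≤ Subgroup.zpowers ((List.finRange c.1.1).map c.1.2.simple).prod := by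
  simp only [List.mem_cons, List.not_mem_nil, or_false] at hc
  rcases hc with rfl | rfl | rfl | rfl | rfl | rfl | rfl
  · obtain ⟨Q, hS⟩ := Cfsg.Agent.Lib.ChevAlg.exists_chevS Cfsg.Lie.chevB2 (by simp) ℚ
    obtain ⟨e, he⟩ := Cfsg.Agent.Lib.ChevAlg.exists_cs Q Cfsg.Agent.Lib.ChevB2.coxD (n := 2) rfl _ Cfsg.Agent.Lib.ChevAlg.coxB2_eq
    exact Cfsg.Agent.Lib.ChevAlg.cox_center_two Q rfl _ e he Cfsg.Agent.Lib.ChevB2.conn Cfsg.Agent.Lib.ChevAlg.negB2 (by decide)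
  · obtain ⟨Q, hS⟩ := Cfsg.Agent.Lib.ChevAlg.exists_chevS Cfsg.Lie.chevG2 (by simp) ℚ
    obtain ⟨e, he⟩ := Cfsg.Agent.Lib.ChevAlg.exists_cs Q Cfsg.Agent.Lib.ChevG2.coxD (n := 2) rfl _ Cfsg.Agent.Lib.ChevAlg.coxG2_eq
    exact Cfsg.Agent.Lib.ChevAlg.cox_center_two Q rfl _ e he Cfsg.Agent.Lib.ChevG2.conn Cfsg.Agent.Lib.ChevAlg.negG2 (by decide)
  · obtain ⟨Q, hS⟩ := Cfsg.Agent.Lib.ChevAlg.exists_chevS Cfsg.Lie.chevD4 (by simp) ℚ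
    obtain ⟨e, he⟩ := Cfsg.Agent.Lib.ChevAlg.exists_cs Q Cfsg.Agent.Lib.ChevD4.coxD (n := 4) rfl _ Cfsg.Agent.Lib.ChevAlg.coxD4_eq
    exact Cfsg.Agent.Lib.ChevAlg.cox_center_two Q rfl _ e he Cfsg.Agent.Lib.ChevD4.conn Cfsg.Agent.Lib.ChevAlg.negD4 (by decide)
  · obtain ⟨Q, hS⟩ := Cfsg.Agent.Lib.ChevAlg.exists_chevS Cfsg.Lie.chevF4 (by simp) ℚ
    obtain ⟨e, he⟩ := Cfsg.Agent.Lib.ChevAlg.exists_cs Q Cfsg.Agent.Lib.ChevF4.coxD (n := 4) rfl _ Cfsg.Agent.Lib.ChevAlg.coxF4_eq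
    exact Cfsg.Agent.Lib.ChevAlg.cox_center_two Q rfl _ e he Cfsg.Agent.Lib.ChevF4.conn Cfsg.Agent.Lib.ChevAlg.negF4 (by decide)
  · obtain ⟨Q, hS⟩ := Cfsg.Agent.Lib.ChevAlg.exists_chevS Cfsg.Lie.chevE6 (by simp) ℚ
    obtain ⟨e, he⟩ := Cfsg.Agent.Lib.ChevAlg.exists_cs Q Cfsg.Agent.Lib.ChevE6.coxD (n := 6) rfl _ Cfsg.Agent.Lib.ChevAlg.coxE6_eq
    exact Cfsg.Agent.Lib.ChevAlg.cox_center_one Q rfl _ e he Cfsg.Agent.Lib.ChevE6.conn Cfsg.Agent.Lib.ChevAlg.noNegE6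
  · obtain ⟨Q, hS⟩ := Cfsg.Agent.Lib.ChevAlg.exists_chevS Cfsg.Lie.chevE7 (by simp) ℚ
    obtain ⟨e, he⟩ := Cfsg.Agent.Lib.ChevAlg.exists_cs Q Cfsg.Agent.Lib.ChevE7.coxD (n := 7) rfl _ Cfsg.Agent.Lib.ChevAlg.coxE7_eq
    exact Cfsg.Agent.Lib.ChevAlg.cox_center_two Q rfl _ e he Cfsg.Agent.Lib.ChevE7.conn Cfsg.Agent.Lib.ChevAlg.negE7 (by decide)
  · obtain ⟨Q, hS⟩ := Cfsg.Agent.Lib.ChevAlg.exists_chevS Cfsg.Lie.chevE8 (by simp) ℚ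
    obtain ⟨e, he⟩ := Cfsg.Agent.Lib.ChevAlg.exists_cs Q Cfsg.Agent.Lib.ChevE8.coxD (n := 8) rfl _ Cfsg.Agent.Lib.ChevAlg.coxE8_eq
    exact Cfsg.Agent.Lib.ChevAlg.cox_center_two Q rfl _ e he Cfsg.Agent.Lib.ChevE8.conn Cfsg.Agent.Lib.ChevAlg.negE8 (by decide)

end Cfsg.Agent.S2418
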