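import Cfsg.Statements.S2419
import Cfsg.Agent.Lib.ChevCoxC
-- import your own Cfsg.Agent.* helpers here

set_option autoImplicit false
open Cfsg

namespace Cfsg.Agent.S2419

/-- The Coxeter groups of types B₂, G₂, E₆, E₇, E₈ are generated by the Coxeter element `s₁ s₂ ⋯ s_l` together with one suitable reflection (a conjugate of a simple reflection); for types D₄ and F₄ the Coxeter element together with two suitable reflections suffices. -/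
theorem result (c : (Σ n : ℕ, CoxeterMatrix (Fin n)) × ℕ)
    (hc : c ∈ [(⟨2, CoxeterMatrix.B 2⟩, 1), (⟨2, CoxeterMatrix.G₂⟩, 1), (⟨4, Cfsg.Lie.coxeterD4⟩, 2), (⟨4, CoxeterMatrix.F₄⟩, 2),
      (⟨6, CoxeterMatrix.E₆⟩, 1), (⟨7, CoxeterMatrix.E₇⟩, 1), (⟨8, CoxeterMatrix.E₈⟩, 1)]) :
    ∃ T : Finset c.1.2.Group, T.card = c.2 ∧ (∀ t ∈ T, ∃ (g : c.1.2.Group) (i : Fin c.1.1), t = g * c.1.2.simple i * g⁻¹) ∧
      Subgroup.closure (({((List.finRange c.1.1).map c.1.2.simple).prod} : Set c.1.2.Group) ∪ ↑T) = ⊤ := by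
  simp only [List.mem_cons, List.not_mem_nil, or_false] at hc
  rcases hc with rfl | rfl | rfl | rfl | rfl | rfl | rfl
  · obtain ⟨Q, hS⟩ := Cfsg.Agent.Lib.ChevAlg.exists_chevS Cfsg.Lie.chevB2 (by simp) ℚ
    obtain ⟨e, he⟩ := Cfsg.Agent.Lib.ChevAlg.exists_cs Q Cfsg.Agent.Lib.ChevB2.coxD (n := 2) rfl _ Cfsg.Agent.Lib.ChevAlg.coxB2_eq
    exact Cfsg.Agent.Lib.ChevAlg.cox_gen Q rfl _ e he (js := [0]) (by decide) (by decide) (fun K h1 h2 => Cfsg.Agent.Lib.ChevAlg.gen_top2 Q rfl h1 h2)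
  · obtain ⟨Q, hS⟩ := Cfsg.Agent.Lib.ChevAlg.exists_chevS Cfsg.Lie.chevG2 (by simp) ℚ
    obtain ⟨e, he⟩ := Cfsg.Agent.Lib.ChevAlg.exists_cs Q Cfsg.Agent.Lib.ChevG2.coxD (n := 2) rfl _ Cfsg.Agent.Lib.ChevAlg.coxG2_eq
    exact Cfsg.Agent.Lib.ChevAlg.cox_gen Q rfl _ e he (js := [0]) (by decide) (by decide) (fun K h1 h2 => Cfsg.Agent.Lib.ChevAlg.gen_top2 Q rfl h1 h2)
  · obtain ⟨Q, hS⟩ := Cfsg.Agent.Lib.ChevAlg.exists_chevS Cfsg.Lie.chevD4 (by simp) ℚ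
    obtain ⟨e, he⟩ := Cfsg.Agent.Lib.ChevAlg.exists_cs Q Cfsg.Agent.Lib.ChevD4.coxD (n := 4) rfl _ Cfsg.Agent.Lib.ChevAlg.coxD4_eq
    exact Cfsg.Agent.Lib.ChevAlg.cox_gen Q rfl _ e he (js := [1, 2]) (by decide) (by decide) (fun K h1 h2 => Cfsg.Agent.Lib.ChevAlg.gen_top Q Cfsg.Agent.Lib.ChevAlg.genD4 h1 h2)
  · obtain ⟨Q, hS⟩ := Cfsg.Agent.Lib.ChevAlg.exists_chevS Cfsg.Lie.chevF4 (by simp) ℚ
    obtain ⟨e, he⟩ := Cfsg.Agent.Lib.ChevAlg.exists_cs Q Cfsg.Agent.Lib.ChevF4.coxD (n := 4) rfl _ Cfsg.Agent.Lib.ChevAlg.coxF4_eq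
    exact Cfsg.Agent.Lib.ChevAlg.cox_gen Q rfl _ e he (js := [0, 2]) (by decide) (by decide) (fun K h1 h2 => Cfsg.Agent.Lib.ChevAlg.gen_top Q Cfsg.Agent.Lib.ChevAlg.genF4 h1 h2)
  · obtain ⟨Q, hS⟩ := Cfsg.Agent.Lib.ChevAlg.exists_chevS Cfsg.Lie.chevE6 (by simp) ℚ
    obtain ⟨e, he⟩ := Cfsg.Agent.Lib.ChevAlg.exists_cs Q Cfsg.Agent.Lib.ChevE6.coxD (n := 6) rfl _ Cfsg.Agent.Lib.ChevAlg.coxE6_eq
    exact Cfsg.Agent.Lib.ChevAlg.cox_gen Q rfl _ e he (js := [3]) (by decide) (by decide) (fun K h1 h2 => Cfsg.Agent.Lib.ChevAlg.gen_top Q Cfsg.Agent.Lib.ChevAlg.genE6 h1 h2)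
  · obtain ⟨Q, hS⟩ := Cfsg.Agent.Lib.ChevAlg.exists_chevS Cfsg.Lie.chevE7 (by simp) ℚ
    obtain ⟨e, he⟩ := Cfsg.Agent.Lib.ChevAlg.exists_cs Q Cfsg.Agent.Lib.ChevE7.coxD (n := 7) rfl _ Cfsg.Agent.Lib.ChevAlg.coxE7_eq
    exact Cfsg.Agent.Lib.ChevAlg.cox_gen Q rfl _ e he (js := [3]) (by decide) (by decide) (fun K h1 h2 => Cfsg.Agent.Lib.ChevAlg.gen_top Q Cfsg.Agent.Lib.ChevAlg.genE7 h1 h2)
  · obtain ⟨Q, hS⟩ := Cfsg.Agent.Lib.ChevAlg.exists_chevS Cfsg.Lie.chevE8 (by simp) ℚ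
    obtain ⟨e, he⟩ := Cfsg.Agent.Lib.ChevAlg.exists_cs Q Cfsg.Agent.Lib.ChevE8.coxD (n := 8) rfl _ Cfsg.Agent.Lib.ChevAlg.coxE8_eq
    exact Cfsg.Agent.Lib.ChevAlg.cox_gen Q rfl _ e he (js := [3]) (by decide) (by decide) (fun K h1 h2 => Cfsg.Agent.Lib.ChevAlg.gen_top Q Cfsg.Agent.Lib.ChevAlg.genE8 h1 h2)

end Cfsg.Agent.S2419
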