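import Cfsg.Statements.S2428
import Mathlib
import Cfsg.Agent.Lib.Tor3
-- import your own Cfsg.Agent.* helpers here

set_option autoImplicit false
open Cfsg
set_option linter.all false

namespace Cfsg.Agent.S2428

/-- Let F be a finite field with q elements, q odd, and let d be a diagonal element of SL₂ over F whose diagonal entry a has a² ≠ 1 (such d exist exactly when q > 3). Then the centraliser of d is precisely the diagonal subgroup T; the normaliser of T has order 2(q − 1) and exactly (q + 5)/2 conjugacy classes; and every element of that normaliser outside T has square equal to −1. -/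
theorem result {F : Type*} [Field F] [Fintype F] (hodd : Odd (Fintype.card F))
    (d : Matrix.SpecialLinearGroup (Fin 2) F) (hd01 : (d : Matrix (Fin 2) (Fin 2) F) 0 1 = 0) (hd10 : (d : Matrix (Fin 2) (Fin 2) F) 1 0 = 0) (hda : (d : Matrix (Fin 2) (Fin 2) F) 0 0 ^ 2 ≠ 1) :
    (∀ g : Matrix.SpecialLinearGroup (Fin 2) F, g ∈ Subgroup.centralizer ({d} : Set (Matrix.SpecialLinearGroup (Fin 2) F)) ↔ ((g : Matrix (Fin 2) (Fin 2) F) 0 1 = 0 ∧ (g : Matrix (Fin 2) (Fin 2) F) 1 0 = 0)) ∧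
    Nat.card (Subgroup.normalizer ((Subgroup.centralizer ({d} : Set (Matrix.SpecialLinearGroup (Fin 2) F))) : Set (Matrix.SpecialLinearGroup (Fin 2) F))) = 2 * (Fintype.card F - 1) ∧
    Nat.card (ConjClasses (Subgroup.normalizer ((Subgroup.centralizer ({d} : Set (Matrix.SpecialLinearGroup (Fin 2) F))) : Set (Matrix.SpecialLinearGroup (Fin 2) F)))) = (Fintype.card F + 5) / 2 ∧
    ∀ g : Matrix.SpecialLinearGroup (Fin 2) F, g ∈ Subgroup.normalizer ((Subgroup.centralizer ({d} : Set (Matrix.SpecialLinearGroup (Fin 2) F))) : Set (Matrix.SpecialLinearGroup (Fin 2) F)) →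
      g ∉ Subgroup.centralizer ({d} : Set (Matrix.SpecialLinearGroup (Fin 2) F)) → ((g * g) : Matrix (Fin 2) (Fin 2) F) = -1 := by
  have h2 := Cfsg.Agent.Lib.Tw.two_ne_zero_of_odd hodd
  have hq : 1 < Fintype.card F := Fintype.one_lt_card
  have hdet := d.det_coe
  rw [Matrix.det_fin_two, hd10, mul_zero, sub_zero] at hdet
  have hab : (d : Matrix (Fin 2) (Fin 2) F) 0 0 ≠ (d : Matrix (Fin 2) (Fin 2) F) 1 1 := by
    intro h
    apply hda
    rw [pow_two]
    nth_rewrite 2 [h]
    exact hdet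
  have htr : (d : Matrix (Fin 2) (Fin 2) F).trace = (d : Matrix (Fin 2) (Fin 2) F) 0 0 + (d : Matrix (Fin 2) (Fin 2) F) 1 1 := Matrix.trace_fin_two _
  have hreg : Cfsg.Agent.Lib.Tor.Reg d := Cfsg.Agent.Lib.Tor.reg_of_split hab htr hdet
  have hcard := Cfsg.Agent.Lib.Tw.card_centSL_split hab htr hdet
  refine ⟨fun g => ?_, ?_, ?_, ?_⟩
  · rw [Cfsg.Agent.Lib.Tor.mem_Ct hreg.ns]
    constructor
    · rintro ⟨x, y, hxy⟩
      rw [hxy]
      constructor
      · simp [hd01]
      · simp [hd10]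
    · rintro ⟨h01, h10⟩
      have hne := sub_ne_zero.mpr hab
      refine ⟨(g : Matrix (Fin 2) (Fin 2) F) 0 0 - ((g : Matrix (Fin 2) (Fin 2) F) 0 0 - (g : Matrix (Fin 2) (Fin 2) F) 1 1) / ((d : Matrix (Fin 2) (Fin 2) F) 0 0 - (d : Matrix (Fin 2) (Fin 2) F) 1 1) * (d : Matrix (Fin 2) (Fin 2) F) 0 0,
        ((g : Matrix (Fin 2) (Fin 2) F) 0 0 - (g : Matrix (Fin 2) (Fin 2) F) 1 1) / ((d : Matrix (Fin 2) (Fin 2) F) 0 0 - (d : Matrix (Fin 2) (Fin 2) F) 1 1), ?_⟩
      ext i j
      fin_cases i <;> fin_cases j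
      · simp
      · simp [hd01, h01]
      · simp [hd10, h10]
      · simp
        field_simp
        ring
  · exact (Cfsg.Agent.Lib.Tor.card_norm hreg).trans (by rw [hcard])
  · have h3 := Cfsg.Agent.Lib.Tor.classes_norm h2 hreg
    rw [hcard] at h3
    obtain ⟨k, hk⟩ := hodd
    have h4 : Nat.card (ConjClasses (Subgroup.normalizer (Cfsg.Agent.Lib.Tor.Ct d : Set (Matrix.SpecialLinearGroup (Fin 2) F)))) = (Fintype.card F + 5) / 2 := by omega
    exact h4
  · intro g hg hg'
    exact Cfsg.Agent.Lib.Tor.sq_outside hreg hg hg'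


end Cfsg.Agent.S2428
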