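import Cfsg.Statements.S2429
import Mathlib
import Cfsg.Agent.Lib.Tor3
import Cfsg.Agent.Lib.Tw23
-- import your own Cfsg.Agent.* helpers here

set_option autoImplicit false
open Cfsg
set_option linter.all false

namespace Cfsg.Agent.S2429

/-- Let F be a finite field with q elements, q odd. Then SL₂ over F contains a cyclic subgroup T′ of order q + 1 (a non-split torus) with the following properties: T′ is its own centraliser, and indeed the centraliser of each element of T′ other than 1 and −1 is exactly T′; every element of SL₂ having no eigenvector in F² is conjugate to an element of T′; the normaliser of T′ has order 2(q + 1) and exactly (q + 7)/2 conjugacy classes; and every element of that normaliser outside T′ has square −1. -/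
theorem result {F : Type*} [Field F] [Fintype F] (hodd : Odd (Fintype.card F)) :
    ∃ T' : Subgroup (Matrix.SpecialLinearGroup (Fin 2) F), IsCyclic T' ∧ Nat.card T' = Fintype.card F + 1 ∧
      Subgroup.centralizer ((T' : Set (Matrix.SpecialLinearGroup (Fin 2) F))) = T' ∧
      (∀ g : Matrix.SpecialLinearGroup (Fin 2) F, g ∈ T' → (g : Matrix (Fin 2) (Fin 2) F) ≠ 1 → (g : Matrix (Fin 2) (Fin 2) F) ≠ -1 → Subgroup.centralizer ({g} : Set (Matrix.SpecialLinearGroup (Fin 2) F)) = T') ∧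
      (∀ g : Matrix.SpecialLinearGroup (Fin 2) F, (∀ (c : F) (v : Fin 2 → F), v ≠ 0 → (g : Matrix (Fin 2) (Fin 2) F).mulVec v ≠ c • v) → ∃ h : Matrix.SpecialLinearGroup (Fin 2) F, h * g * h⁻¹ ∈ T') ∧
      Nat.card (Subgroup.normalizer (T' : Set (Matrix.SpecialLinearGroup (Fin 2) F))) = 2 * (Fintype.card F + 1) ∧
      Nat.card (ConjClasses (Subgroup.normalizer (T' : Set (Matrix.SpecialLinearGroup (Fin 2) F)))) = (Fintype.card F + 7) / 2 ∧
      ∀ g : Matrix.SpecialLinearGroup (Fin 2) F, g ∈ Subgroup.normalizer (T' : Set (Matrix.SpecialLinearGroup (Fin 2) F)) → g ∉ T' → ((g * g) : Matrix (Fin 2) (Fin 2) F) = -1 := by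
  have h2 := Cfsg.Agent.Lib.Tw.two_ne_zero_of_odd hodd
  obtain ⟨t, ht⟩ := Cfsg.Agent.Lib.Tor.exists_ne_trace F
  have hne := Cfsg.Agent.Lib.Tor.ne_cmpS ht
  have hreg := Cfsg.Agent.Lib.Tor.reg_of_ne h2 hne
  have hcard := Cfsg.Agent.Lib.Tw.card_centSL_ne hne
  refine ⟨Cfsg.Agent.Lib.Tor.Ct (Cfsg.Agent.Lib.Tw.cmpS t), Cfsg.Agent.Lib.Tor.Ct_cyclic hreg, hcard, ?_, ?_, ?_, ?_, ?_, ?_⟩
  · ext g
    constructor
    · intro hg
      have := Subgroup.mem_centralizer_iff.mp hg _ (Cfsg.Agent.Lib.Tor.self_mem (Cfsg.Agent.Lib.Tw.cmpS t))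
      exact Subgroup.mem_centralizer_singleton_iff.mpr this.symm
    · intro hg
      rw [Subgroup.mem_centralizer_iff]
      intro k hk
      exact Cfsg.Agent.Lib.Tor.Ct_comm hreg.ns hk hg
  · intro g hg h1 h3
    refine Cfsg.Agent.Lib.Tor.Ct_eq hreg.ns hg (Cfsg.Agent.Lib.Tor.ns_of_ne (fun h => h1 ?_) (fun h => h3 ?_))
    · rw [h]; rfl
    · rw [h]; rfl
  · intro g hg
    have hg' : Cfsg.Agent.Lib.Tw.NE (g : Matrix (Fin 2) (Fin 2) F) := hg
    have hgr := Cfsg.Agent.Lib.Tor.reg_of_ne h2 hg'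
    have key : ∀ {B : Matrix.SpecialLinearGroup (Fin 2) F}, Cfsg.Agent.Lib.Tw.NE (B : Matrix (Fin 2) (Fin 2) F) → ¬ IsSquare ((B : Matrix (Fin 2) (Fin 2) F).trace ^ 2 - 4) := by
      intro B hB hs
      obtain ⟨r, hr⟩ := hs
      have := Cfsg.Agent.Lib.Tw.ne_iff.mp hB (((B : Matrix (Fin 2) (Fin 2) F).trace + r) / 2)
      apply this
      rw [B.det_coe]
      field_simp
      linear_combination -hr
    obtain ⟨y, hy⟩ := Cfsg.Agent.Lib.Tw.sq_div_of_not (key hg') (key hne)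
    have hr0 : (Cfsg.Agent.Lib.Tw.cmpS t : Matrix (Fin 2) (Fin 2) F).trace ^ 2 - 4 ≠ 0 := sub_ne_zero.mpr hreg
    rw [div_eq_iff hr0] at hy
    obtain ⟨h, hh, htr⟩ := Cfsg.Agent.Lib.Tor.exists_mem_trace h2 hreg (s := (g : Matrix (Fin 2) (Fin 2) F).trace) (y := y) (by rw [hy]; ring)
    obtain ⟨n, hn⟩ := isConj_iff.mp (Cfsg.Agent.Lib.Tw.isConj_of_ne (g := g) (h := h) hg' htr.symm)
    exact ⟨n, by rw [hn]; exact hh⟩
  · exact (Cfsg.Agent.Lib.Tor.card_norm hreg).trans (by rw [hcard])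
  · have h3 := Cfsg.Agent.Lib.Tor.classes_norm h2 hreg
    rw [hcard] at h3
    obtain ⟨k, hk⟩ := hodd
    have h4 : Nat.card (ConjClasses (Subgroup.normalizer (Cfsg.Agent.Lib.Tor.Ct (Cfsg.Agent.Lib.Tw.cmpS t) : Set (Matrix.SpecialLinearGroup (Fin 2) F)))) = (Fintype.card F + 7) / 2 := by omega
    exact h4
  · intro g hg hg'
    exact Cfsg.Agent.Lib.Tor.sq_outside hreg hg hg'


end Cfsg.Agent.S2429
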