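import Cfsg.Statements.S2430
import Mathlib
import Cfsg.Agent.Lib.Tor6
-- import your own Cfsg.Agent.* helpers here

set_option autoImplicit false
open Cfsg
set_option linter.all false

namespace Cfsg.Agent.S2430

/-- Let F be a finite field with q elements, q odd, ℓ an odd prime, and P a Sylow ℓ-subgroup of SL₂ over F. If ℓ divides q − 1, the centraliser of P is cyclic of order q − 1 (a split torus) and the normaliser of P has order 2(q − 1); if ℓ divides q + 1, the centraliser of P is cyclic of order q + 1 (a non-split torus) and the normaliser of P has order 2(q + 1). -/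
theorem result {F : Type*} [Field F] [Fintype F] (hodd : Odd (Fintype.card F)) (ℓ : ℕ) [Fact ℓ.Prime] (hℓ : ℓ ≠ 2)
    (P : Sylow ℓ (Matrix.SpecialLinearGroup (Fin 2) F)) :
    (ℓ ∣ Fintype.card F - 1 →
      Nat.card (Subgroup.centralizer ((P : Subgroup (Matrix.SpecialLinearGroup (Fin 2) F)) : Set (Matrix.SpecialLinearGroup (Fin 2) F))) = Fintype.card F - 1 ∧
      IsCyclic (Subgroup.centralizer ((P : Subgroup (Matrix.SpecialLinearGroup (Fin 2) F)) : Set (Matrix.SpecialLinearGroup (Fin 2) F))) ∧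
      Nat.card (Subgroup.normalizer ((P : Subgroup (Matrix.SpecialLinearGroup (Fin 2) F)) : Set (Matrix.SpecialLinearGroup (Fin 2) F))) = 2 * (Fintype.card F - 1)) ∧
    (ℓ ∣ Fintype.card F + 1 →
      Nat.card (Subgroup.centralizer ((P : Subgroup (Matrix.SpecialLinearGroup (Fin 2) F)) : Set (Matrix.SpecialLinearGroup (Fin 2) F))) = Fintype.card F + 1 ∧
      IsCyclic (Subgroup.centralizer ((P : Subgroup (Matrix.SpecialLinearGroup (Fin 2) F)) : Set (Matrix.SpecialLinearGroup (Fin 2) F))) ∧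
      Nat.card (Subgroup.normalizer ((P : Subgroup (Matrix.SpecialLinearGroup (Fin 2) F)) : Set (Matrix.SpecialLinearGroup (Fin 2) F))) = 2 * (Fintype.card F + 1)) := by
  have hq : 1 < Fintype.card F := Fintype.one_lt_card
  have hl1 : ℓ.Prime := Fact.out
  have key : ∀ {m : ℕ}, ℓ ∣ m → ℓ ∣ m + 2 → False := by
    intro m h1 h2
    have h3 := Nat.dvd_sub h2 h1
    rw [Nat.add_sub_cancel_left] at h3
    exact hℓ ((Nat.prime_dvd_prime_iff_eq hl1 Nat.prime_two).mp h3)
  refine ⟨fun h => ?_, fun h => ?_⟩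
  · obtain ⟨x, hx, h1, h2, h3⟩ := Cfsg.Agent.Lib.Tor.sylow_main hℓ (Or.inl h) P
    have hc : Nat.card (Cfsg.Agent.Lib.Tor.Ct x) = Fintype.card F - 1 := by
      rcases Cfsg.Agent.Lib.Tor.card_Ct hx with h4 | h4
      · exact h4
      · rw [h4] at h3
        exact (key h (by rwa [show Fintype.card F - 1 + 2 = Fintype.card F + 1 by omega])).elim
    refine ⟨?_, ?_, ?_⟩
    · rw [h1, hc]
    · rw [h1]; exact Cfsg.Agent.Lib.Tor.Ct_cyclic hx
    · rw [h2, Cfsg.Agent.Lib.Tor.card_norm hx, hc]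
  · obtain ⟨x, hx, h1, h2, h3⟩ := Cfsg.Agent.Lib.Tor.sylow_main hℓ (Or.inr h) P
    have hc : Nat.card (Cfsg.Agent.Lib.Tor.Ct x) = Fintype.card F + 1 := by
      rcases Cfsg.Agent.Lib.Tor.card_Ct hx with h4 | h4
      · rw [h4] at h3
        exact (key h3 (by rwa [show Fintype.card F - 1 + 2 = Fintype.card F + 1 by omega])).elim
      · exact h4
    refine ⟨?_, ?_, ?_⟩
    · rw [h1, hc]
    · rw [h1]; exact Cfsg.Agent.Lib.Tor.Ct_cyclic hx
    · rw [h2, Cfsg.Agent.Lib.Tor.card_norm hx, hc]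


end Cfsg.Agent.S2430
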