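import Cfsg.Statements.S2431
import Mathlib
import Cfsg.Agent.Lib.Tor13
-- import your own Cfsg.Agent.* helpers here

set_option autoImplicit false
open Cfsg
set_option linter.all false

namespace Cfsg.Agent.S2431

/-- Let F be a finite field with q elements, q odd, and S a Sylow 2-subgroup of SL₂ over F. The centraliser of S is the centre of SL₂ (of order 2); S is its own normaliser when q ≡ ±1 mod 8, and has index 3 in its normaliser when q ≡ ±3 mod 8. -/
theorem result {F : Type*} [Field F] [Fintype F] (hodd : Odd (Fintype.card F)) (S : Sylow 2 (Matrix.SpecialLinearGroup (Fin 2) F)) :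
    Subgroup.centralizer ((S : Subgroup (Matrix.SpecialLinearGroup (Fin 2) F)) : Set (Matrix.SpecialLinearGroup (Fin 2) F)) = Subgroup.center (Matrix.SpecialLinearGroup (Fin 2) F) ∧
    ((Fintype.card F % 8 = 1 ∨ Fintype.card F % 8 = 7) →
      Subgroup.normalizer ((S : Subgroup (Matrix.SpecialLinearGroup (Fin 2) F)) : Set (Matrix.SpecialLinearGroup (Fin 2) F)) = (S : Subgroup (Matrix.SpecialLinearGroup (Fin 2) F))) ∧
    ((Fintype.card F % 8 = 3 ∨ Fintype.card F % 8 = 5) →
      Nat.card (Subgroup.normalizer ((S : Subgroup (Matrix.SpecialLinearGroup (Fin 2) F)) : Set (Matrix.SpecialLinearGroup (Fin 2) F))) = 3 * Nat.card S) := by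
  have h2 := Cfsg.Agent.Lib.Tw.two_ne_zero_of_odd hodd
  obtain ⟨A, a, r, hA, ha, hr, hc, hS, hN, hbig, hsmall⟩ := Cfsg.Agent.Lib.Tor.syl2_main hodd S
  refine ⟨?_, fun h => ?_, fun h => ?_⟩
  · exact Cfsg.Agent.Lib.Tor.syl2_cent h2 hA ha hr hc hS hN
  · exact Cfsg.Agent.Lib.Tor.syl2_norm_big hA (hbig h) hr hc hS hN
  · exact Cfsg.Agent.Lib.Tor.syl2_norm_small h2 hA (hsmall h) hr hc hS hN


end Cfsg.Agent.S2431
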