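import Cfsg.Statements.S2541
import Mathlib
import Cfsg.Agent.Lib.Tri1
-- import your own Cfsg.Agent.* helpers here

set_option autoImplicit false
open Cfsg
set_option linter.all false

namespace Cfsg.Agent.S2541

/-- Let F be a field with 9 elements. The symmetric group S_6 is not isomorphic to PGL_2(F) (although both have index-2 subgroups isomorphic to A_6). -/
theorem result {F : Type*} [Field F] [Fintype F] (hF : Fintype.card F = 9) : ¬ Nonempty (Equiv.Perm (Fin 6) ≃* Matrix.ProjGenLinGroup (Fin 2) F) := by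
  classical
  rintro ⟨e⟩
  obtain ⟨a, ha⟩ := IsCyclic.exists_generator (α := Fˣ)
  have hao : orderOf a = 8 := by
    rw [orderOf_eq_card_of_forall_mem_zpowers ha, Nat.card_eq_fintype_card, Fintype.card_units, hF]
  -- the diagonal element
  let D : Fˣ → GL (Fin 2) F := fun b => ⟨!![(b : F), 0; 0, 1], !![((b⁻¹ : Fˣ) : F), 0; 0, 1], by
    rw [Matrix.mul_fin_two, Matrix.one_fin_two]; simp, by rw [Matrix.mul_fin_two, Matrix.one_fin_two]; simp⟩
  have hD : ∀ k : ℕ, (D a) ^ k = D (a ^ k) := by
    intro k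
    induction k with
    | zero =>
      rw [pow_zero, pow_zero]
      apply Units.ext
      show (1 : Matrix (Fin 2) (Fin 2) F) = !![((1 : Fˣ) : F), 0; 0, 1]
      rw [Matrix.one_fin_two, Units.val_one]
    | succ n ih =>
      rw [pow_succ, ih, pow_succ]
      apply Units.ext
      show !![((a ^ n : Fˣ) : F), 0; 0, 1] * !![(a : F), 0; 0, 1] = !![((a ^ n * a : Fˣ) : F), 0; 0, 1]
      rw [Matrix.mul_fin_two, Units.val_mul]
      simp
  have hmk : ∀ k : ℕ, (Matrix.ProjGenLinGroup.mk (D a)) ^ k = 1 ↔ a ^ k = 1 := by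
    intro k
    have h1 : (Matrix.ProjGenLinGroup.mk (D a)) ^ k = Matrix.ProjGenLinGroup.mk (D (a ^ k)) := by
      rw [← hD]; rfl
    rw [h1, Matrix.ProjGenLinGroup.mk_eq_one, Matrix.GeneralLinearGroup.mem_center_iff_val_mem_range_scalar]
    constructor
    · rintro ⟨c, hc⟩
      have e0 : (Matrix.scalar (Fin 2) c : Matrix (Fin 2) (Fin 2) F) 0 0 = ((a ^ k : Fˣ) : F) := congrFun (congrFun hc 0) 0
      have e1 : (Matrix.scalar (Fin 2) c : Matrix (Fin 2) (Fin 2) F) 1 1 = 1 := congrFun (congrFun hc 1) 1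
      have f0 : c = ((a ^ k : Fˣ) : F) := by simpa using e0
      have f1 : c = 1 := by simpa using e1
      apply Units.ext
      rw [← f0, f1, Units.val_one]
    · intro h
      refine ⟨1, ?_⟩
      rw [h]
      show _ = !![((1 : Fˣ) : F), 0; 0, 1]
      rw [Units.val_one, map_one, Matrix.one_fin_two]
  have hord : orderOf (Matrix.ProjGenLinGroup.mk (D a)) = 8 := by
    rw [← hao]
    apply Nat.dvd_antisymm
    · rw [orderOf_dvd_iff_pow_eq_one, hmk, pow_orderOf_eq_one]
    · rw [orderOf_dvd_iff_pow_eq_one, ← hmk, pow_orderOf_eq_one]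
  let x := e.symm (Matrix.ProjGenLinGroup.mk (D a))
  have hx : orderOf x = 8 := by rw [MulEquiv.orderOf_eq, hord]
  have h1 := Equiv.Perm.lcm_cycleType x
  rw [hx] at h1
  have h2 : x.cycleType.lcm ∣ 4 := by
    rw [Multiset.lcm_dvd]
    intro n hn
    have h3 : n ∣ 8 := by rw [← h1]; exact Multiset.dvd_lcm hn
    have h4 : n ≤ 6 := by
      have h5 := Multiset.le_sum_of_mem hn
      rw [Equiv.Perm.sum_cycleType] at h5
      have h6 := x.support.card_le_univ
      rw [Fintype.card_fin] at h6
      omega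
    interval_cases n <;> first | decide | (exfalso; revert h3; decide)
  rw [h1] at h2
  revert h2
  decide


end Cfsg.Agent.S2541
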