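import Cfsg.Statements.S2561
import Mathlib
import Cfsg.Agent.Lib.Orth25
-- import your own Cfsg.Agent.* helpers here

set_option autoImplicit false
open Cfsg
set_option linter.all false

namespace Cfsg.Agent.S2561

/-- Fix the non-singular alternating form on the 2m-dimensional space over the field of two elements obtained by polarizing the plus-type form Σ xᵢyᵢ (m ≥ 1). The functions q on the space with q(u + v) = q(u) + q(v) + f(u, v) (the quadratic forms polarizing to f) number 2^(2m); each is equivalent under an invertible linear map either to the plus-type form or to the minus-type form Σ xᵢyᵢ + (z₁² + z₁z₂ + z₂²); and those of plus type number 2^(2m−1) + 2^(m−1), those of minus type 2^(2m−1) − 2^(m−1). -/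
theorem result (m : ℕ) (hm : 1 ≤ m) :
    Nat.card {q : (Fin m ⊕ Fin m → ZMod 2) → ZMod 2 // (∀ u v : (Fin m ⊕ Fin m → ZMod 2), q (u + v) = q u + q v + (Cfsg.quadFormPlus m (ZMod 2) (u + v) - Cfsg.quadFormPlus m (ZMod 2) u - Cfsg.quadFormPlus m (ZMod 2) v))} = 2 ^ (2 * m) ∧
    (∀ q : (Fin m ⊕ Fin m → ZMod 2) → ZMod 2, (∀ u v : (Fin m ⊕ Fin m → ZMod 2), q (u + v) = q u + q v + (Cfsg.quadFormPlus m (ZMod 2) (u + v) - Cfsg.quadFormPlus m (ZMod 2) u - Cfsg.quadFormPlus m (ZMod 2) v)) →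
      (∃ g : (Fin m ⊕ Fin m → ZMod 2) ≃ₗ[ZMod 2] (Fin m ⊕ Fin m → ZMod 2), ∀ v, q v = Cfsg.quadFormPlus m (ZMod 2) (g v)) ∨
      (∃ g : (Fin m ⊕ Fin m → ZMod 2) ≃ₗ[ZMod 2] ((Fin (m - 1) ⊕ Fin (m - 1)) ⊕ Fin 2 → ZMod 2), ∀ v, q v = Cfsg.quadFormMinus (m - 1) (ZMod 2) 1 1 (g v))) ∧
    Nat.card {q : (Fin m ⊕ Fin m → ZMod 2) → ZMod 2 // (∀ u v : (Fin m ⊕ Fin m → ZMod 2), q (u + v) = q u + q v + (Cfsg.quadFormPlus m (ZMod 2) (u + v) - Cfsg.quadFormPlus m (ZMod 2) u - Cfsg.quadFormPlus m (ZMod 2) v)) ∧ ∃ g : (Fin m ⊕ Fin m → ZMod 2) ≃ₗ[ZMod 2] (Fin m ⊕ Fin m → ZMod 2), ∀ v, q v = Cfsg.quadFormPlus m (ZMod 2) (g v)} = 2 ^ (2 * m - 1) + 2 ^ (m - 1) ∧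
    Nat.card {q : (Fin m ⊕ Fin m → ZMod 2) → ZMod 2 // (∀ u v : (Fin m ⊕ Fin m → ZMod 2), q (u + v) = q u + q v + (Cfsg.quadFormPlus m (ZMod 2) (u + v) - Cfsg.quadFormPlus m (ZMod 2) u - Cfsg.quadFormPlus m (ZMod 2) v)) ∧ ∃ g : (Fin m ⊕ Fin m → ZMod 2) ≃ₗ[ZMod 2] ((Fin (m - 1) ⊕ Fin (m - 1)) ⊕ Fin 2 → ZMod 2), ∀ v, q v = Cfsg.quadFormMinus (m - 1) (ZMod 2) 1 1 (g v)} = 2 ^ (2 * m - 1) - 2 ^ (m - 1) := by
  open Cfsg.Agent.Lib.Orth Module QuadraticMap in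
  have hp : ∀ u v : (Fin m ⊕ Fin m → ZMod 2), (Cfsg.quadFormPlus m (ZMod 2) (u + v) - Cfsg.quadFormPlus m (ZMod 2) u - Cfsg.quadFormPlus m (ZMod 2) v)
      = polar (qPlus m (ZMod 2)) u v := by
    intro u v
    rw [coe_qPlus]; rfl
  have hlt := two_pow_lt hm
  have e2 : 2 ^ (2 * m) = 2 * 2 ^ (2 * m - 1) := by
    rw [← pow_succ']; congr 1; omega
  have hq0 : ∀ u v, qPlus m (ZMod 2) (u + v) = qPlus m (ZMod 2) u + qPlus m (ZMod 2) v + polar (qPlus m (ZMod 2)) u v :=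
    fun u v => map_add' _ _ _
  have hiff : ∀ w, IsPlus m (formEquiv m w).1 ↔ qPlus m (ZMod 2) w = 0 := by
    intro w
    rw [← translate_iff hm _ hq0 w, IsPlus]
    refine exists_congr (fun g => forall_congr' (fun v => ?_))
    rw [formEquiv_apply, ← coe_qPlus]
  simp only [hp]
  have c1 : Nat.card {q : (Fin m ⊕ Fin m → ZMod 2) → ZMod 2 // (∀ u v, q (u + v) = q u + q v + polar (qPlus m (ZMod 2)) u v) ∧ IsPlus m q} = 2 ^ (2 * m - 1) + 2 ^ (m - 1) := by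
    rw [← nz_plus m hm]
    symm
    refine Nat.card_congr (((formEquiv m).subtypeEquiv (p := fun w => qPlus m (ZMod 2) w = 0) (q := fun q => IsPlus m q.1) (fun w => (hiff w).symm)).trans
      (Equiv.subtypeSubtypeEquivSubtypeInter _ _))
  have c2 : Nat.card {q : (Fin m ⊕ Fin m → ZMod 2) → ZMod 2 // (∀ u v, q (u + v) = q u + q v + polar (qPlus m (ZMod 2)) u v) ∧ IsMinus m q} = 2 ^ (2 * m - 1) - 2 ^ (m - 1) := by
    have h1 : Nat.card {w : Fin m ⊕ Fin m → ZMod 2 // ¬ qPlus m (ZMod 2) w = 0} = 2 ^ (2 * m - 1) - 2 ^ (m - 1) := by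
      classical
      have := Nat.card_congr (Equiv.sumCompl (fun v : Fin m ⊕ Fin m → ZMod 2 => qPlus m (ZMod 2) v = 0))
      rw [Nat.card_sum, card_space] at this
      have h2 := nz_plus m hm
      rw [nz] at h2
      rw [h2] at this
      omega
    rw [← h1]
    symm
    refine Nat.card_congr (((formEquiv m).subtypeEquiv (p := fun w => ¬ qPlus m (ZMod 2) w = 0) (q := fun q => IsMinus m q.1) (fun w => ?_)).trans
      (Equiv.subtypeSubtypeEquivSubtypeInter _ _))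
    rw [← hiff w]
    constructor
    · intro h
      exact (plus_or_minus_two _ (formEquiv m w).2).resolve_left h
    · intro h h'
      exact not_both hm h' h
  refine ⟨?_, ?_, c1, c2⟩
  · rw [← card_space m]
    exact (Nat.card_congr (formEquiv m)).symm
  · intro q hq
    exact plus_or_minus_two q hq


end Cfsg.Agent.S2561
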