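import Cfsg.Statements.S2562
import Mathlib
import Cfsg.Agent.Lib.Orth25
-- import your own Cfsg.Agent.* helpers here

set_option autoImplicit false
open Cfsg
set_option linter.all false

namespace Cfsg.Agent.S2562

/-- Witt indices over the field of two elements, m ≥ 1: for the plus-type form Σ xᵢyᵢ in dimension 2m some m-dimensional subspace is totally singular and no totally singular subspace has larger dimension; for the minus-type form Σ xᵢyᵢ + (z₁² + z₁z₂ + z₂²) in dimension 2m the maximal dimension of a totally singular subspace is m − 1. -/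
theorem result (m : ℕ) (hm : 1 ≤ m) :
    (∃ U : Submodule (ZMod 2) (Fin m ⊕ Fin m → ZMod 2), (∀ u ∈ U, Cfsg.quadFormPlus m (ZMod 2) u = 0) ∧ Module.finrank (ZMod 2) ↥U = m) ∧
    (∀ U : Submodule (ZMod 2) (Fin m ⊕ Fin m → ZMod 2), (∀ u ∈ U, Cfsg.quadFormPlus m (ZMod 2) u = 0) → Module.finrank (ZMod 2) ↥U ≤ m) ∧
    (∃ U : Submodule (ZMod 2) ((Fin (m - 1) ⊕ Fin (m - 1)) ⊕ Fin 2 → ZMod 2), (∀ u ∈ U, Cfsg.quadFormMinus (m - 1) (ZMod 2) 1 1 u = 0) ∧ Module.finrank (ZMod 2) ↥U = m - 1) ∧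
    (∀ U : Submodule (ZMod 2) ((Fin (m - 1) ⊕ Fin (m - 1)) ⊕ Fin 2 → ZMod 2), (∀ u ∈ U, Cfsg.quadFormMinus (m - 1) (ZMod 2) 1 1 u = 0) → Module.finrank (ZMod 2) ↥U ≤ m - 1) := by
  open Cfsg.Agent.Lib.Orth Module QuadraticMap in
  obtain ⟨U, hU, hUf⟩ := (hfPlus (m := m) (F := ZMod 2)).exists_sing
  obtain ⟨U', hU', hUf'⟩ := (hfMinus (m := m - 1) (F := ZMod 2) (a := 1) (b := 1)).exists_sing
  refine ⟨⟨U, fun u hu => by rw [← qPlus_apply]; exact hU u hu, hUf⟩, ?_,
    ⟨U', fun u hu => by rw [← qMinus_apply]; exact hU' u hu, hUf'⟩, ?_⟩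
  · intro W hW
    refine (hfPlus (m := m) (F := ZMod 2)).finrank_le nd_plus ?_ (fun w hw => by rw [qPlus_apply]; exact hW w hw)
    rw [cpl_plus]
    intro x hx _
    exact (Submodule.mem_bot _).mp hx
  · intro W hW
    exact (hfMinus (m := m - 1) (F := ZMod 2) (a := 1) (b := 1)).finrank_le (nd_minus minus_anis) (anis_minus minus_anis)
      (fun w hw => by rw [qMinus_apply]; exact hW w hw)


end Cfsg.Agent.S2562
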