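import Cfsg.Statements.S2567
import Mathlib
import Cfsg.Agent.Lib.GLSL
-- import your own Cfsg.Agent.* helpers here

set_option autoImplicit false
open Cfsg
set_option linter.all false

namespace Cfsg.Agent.S2567

/-- Lifting elements of prime order from PGL to GL: let F be a finite field with q elements, r a prime not dividing q − 1, and x an element of order r in GL_n(F) modulo its centre (the scalar matrices). Then x has exactly one preimage in GL_n(F) of order r. -/
theorem result {F : Type*} [Field F] [Fintype F] {q n r : ℕ} (hF : Fintype.card F = q) (hr : r.Prime) (hdiv : ¬ r ∣ q - 1) (x : GL (Fin n) F ⧸ Subgroup.center (GL (Fin n) F)) (hx : orderOf x = r) : ∃! g : GL (Fin n) F, (QuotientGroup.mk g : GL (Fin n) F ⧸ Subgroup.center (GL (Fin n) F)) = x ∧ orderOf g = r := by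
  classical
  subst hF
  haveI : Fact r.Prime := ⟨hr⟩
  rcases Nat.eq_zero_or_pos n with hn | hn
  · -- trivial group
    subst hn
    exfalso
    have h1 : ∀ g : GL (Fin 0) F, g = 1 := fun g => Units.ext (Subsingleton.elim _ _)
    obtain ⟨g, rfl⟩ := QuotientGroup.mk_surjective x
    rw [h1 g] at hx
    have : ((1 : GL (Fin 0) F) : GL (Fin 0) F ⧸ Subgroup.center (GL (Fin 0) F)) = 1 := rfl
    rw [this, orderOf_one] at hx
    exact hr.one_lt.ne hx
  haveI : Nonempty (Fin n) := ⟨⟨0, hn⟩⟩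
  -- the centre
  let Z : Subgroup (GL (Fin n) F) := Subgroup.center (GL (Fin n) F)
  have hZ : Nat.card Z = Fintype.card F - 1 := by
    rw [Cfsg.Agent.Lib.GLSL.card_center_GL, Nat.card_eq_fintype_card, Fintype.card_units]
  have hcop : Nat.Coprime (Nat.card Z) r := by
    rw [hZ, Nat.coprime_comm]
    exact (Nat.Prime.coprime_iff_not_dvd hr).mpr hdiv
  have hcomm : ∀ z ∈ Z, ∀ g : GL (Fin n) F, Commute g z := fun z hz g => Subgroup.mem_center_iff.mp hz g
  have hpow : Function.Bijective (fun z : Z => z ^ r) := (powCoprime hcop).bijective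
  have hlift : ∀ g : GL (Fin n) F, (QuotientGroup.mk g : GL (Fin n) F ⧸ Z) = x → g ^ r ∈ Z := by
    intro g hg
    rw [← QuotientGroup.eq_one_iff]
    have : ((g ^ r : GL (Fin n) F) : GL (Fin n) F ⧸ Z) = (g : GL (Fin n) F ⧸ Z) ^ r := rfl
    rw [this, hg, ← hx, pow_orderOf_eq_one]
  have hx1 : x ≠ 1 := by
    intro h
    rw [h, orderOf_one] at hx
    exact hr.one_lt.ne hx
  obtain ⟨g₀, hg₀⟩ := QuotientGroup.mk_surjective x
  obtain ⟨z, hz⟩ := hpow.2 ⟨(g₀ ^ r)⁻¹, Z.inv_mem (hlift g₀ hg₀)⟩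
  have hz' : (z : GL (Fin n) F) ^ r = (g₀ ^ r)⁻¹ := congrArg Subtype.val hz
  refine ⟨g₀ * z, ⟨?_, ?_⟩, ?_⟩
  · have : ((g₀ * z : GL (Fin n) F) : GL (Fin n) F ⧸ Z) = (g₀ : GL (Fin n) F ⧸ Z) := by
      rw [QuotientGroup.eq]
      have : (g₀ * z : GL (Fin n) F)⁻¹ * g₀ = (z : GL (Fin n) F)⁻¹ := by rw [mul_inv_rev, mul_assoc, inv_mul_cancel, mul_one]
      rw [this]
      exact Z.inv_mem z.2
    exact this.trans hg₀
  · apply orderOf_eq_prime
    · rw [(hcomm z z.2 g₀).mul_pow, hz', mul_inv_cancel]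
    · intro h
      apply hx1
      rw [← hg₀]
      have h1 : g₀ = (z : GL (Fin n) F)⁻¹ := eq_inv_of_mul_eq_one_left h
      exact (QuotientGroup.eq_one_iff g₀).mpr (by rw [h1]; exact Z.inv_mem z.2)
  · rintro y ⟨hy1, hy2⟩
    -- y = g₀ z'
    have h1 : g₀⁻¹ * y ∈ Z := QuotientGroup.eq.mp (hg₀.trans hy1.symm)
    have h2 : y = g₀ * (g₀⁻¹ * y) := by group
    have h3 : y ^ r = 1 := by rw [← hy2, pow_orderOf_eq_one]
    rw [h2, (hcomm _ h1 g₀).mul_pow] at h3
    have h4 : (⟨g₀⁻¹ * y, h1⟩ : Z) = z := by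
      apply hpow.1
      refine Eq.trans ?_ hz.symm
      apply Subtype.ext
      show (g₀⁻¹ * y) ^ r = (g₀ ^ r)⁻¹
      exact eq_inv_of_mul_eq_one_right h3
    rw [h2]
    congr 1
    exact congrArg Subtype.val h4


end Cfsg.Agent.S2567
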