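import Cfsg.Statements.S2568
import Mathlib
import Cfsg.Agent.Lib.RCF18
import Cfsg.Agent.Lib.SqZero2
-- import your own Cfsg.Agent.* helpers here

set_option autoImplicit false
open Cfsg
set_option linter.all false

namespace Cfsg.Agent.S2568

/-- Number of conjugacy classes of elements of a given prime order r, coprime to the characteristic, in GL_n(q): if i is the multiplicative order of q modulo r and t = (r − 1)/i, the classes correspond to the non-zero t-tuples of natural numbers (a_1, …, a_t) with i(a_1 + ⋯ + a_t) ≤ n (a_j is the multiplicity of the j-th Frobenius orbit of nontrivial r-th roots of unity among the eigenvalues), so there are exactly C(⌊n/i⌋ + t, t) − 1 of them. -/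
theorem result {F : Type*} [Field F] [Fintype F] {p q : ℕ} [Fact p.Prime] [CharP F p] (hF : Fintype.card F = q) (n r i t : ℕ) (hr : r.Prime) (hrp : r ≠ p) (hi : i = orderOf (q : ZMod r)) (ht : t * i = r - 1) : Nat.card {C : ConjClasses (GL (Fin n) F) // ∃ g : GL (Fin n) F, ConjClasses.mk g = C ∧ orderOf g = r} = Nat.choose (n / i + t) t - 1 := by
  classical
  have hFc : Nat.card F = q := by rw [Nat.card_eq_fintype_card, hF]
  have he : i = orderOf (Nat.card F : ZMod r) := by rw [hFc, hi]
  let φ : GL (Fin n) F →* Module.End F (Fin n → F) :=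
    ((Matrix.toLinAlgEquiv' : Matrix (Fin n) (Fin n) F ≃ₐ[F] _) : Matrix (Fin n) (Fin n) F →* Module.End F (Fin n → F)).comp (Units.coeHom _)
  have hφa : ∀ g x, φ g x = (g : Matrix (Fin n) (Fin n) F).mulVec x := fun g x => rfl
  have hφ : Function.Injective φ := by
    intro g h hgh
    apply Units.ext
    exact (Matrix.toLinAlgEquiv' : Matrix (Fin n) (Fin n) F ≃ₐ[F] _).injective hgh
  have hmain := Cfsg.Agent.Lib.RCF.card_order_r (F := F) (p := p) (r := r) (V := Fin n → F) hr hrp φ hφ 1 (by rw [mul_one]; exact one_mem _)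
    (by
      rintro g h - - ⟨k, hk⟩
      exact Cfsg.Agent.Lib.SqZero.isConj_GL hk)
    (by
      intro T hT _
      have hu : T * T ^ (r - 1) = 1 := by rw [← pow_succ', Nat.sub_add_cancel hr.one_le, hT]
      have hu' : T ^ (r - 1) * T = 1 := by rw [← pow_succ, Nat.sub_add_cancel hr.one_le, hT]
      let U : (Module.End F (Fin n → F))ˣ := ⟨T, T ^ (r - 1), hu, hu'⟩
      let g : GL (Fin n) F := Units.map ((Matrix.toLinAlgEquiv' : Matrix (Fin n) (Fin n) F ≃ₐ[F] _).symm : Module.End F (Fin n → F) →* Matrix (Fin n) (Fin n) F) U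
      have hg : φ g = T := by
        show (Matrix.toLinAlgEquiv' : Matrix (Fin n) (Fin n) F ≃ₐ[F] _) ((Matrix.toLinAlgEquiv' : Matrix (Fin n) (Fin n) F ≃ₐ[F] _).symm T) = T
        rw [AlgEquiv.apply_symm_apply]
      refine ⟨g, ?_, LinearEquiv.refl F _, ?_⟩
      · apply hφ
        rw [map_pow, hg, hT, map_one]
      · intro v
        rw [hg]
        rfl)
    (by
      intro g _ k
      rw [mul_one])
    (c := 1) (Or.inl ⟨one_mem _, rfl⟩) he ht
  rw [hmain, Module.finrank_fin_fun, one_mul, Nat.div_one]


end Cfsg.Agent.S2568
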