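import Cfsg.Statements.S2569
import Mathlib
import Cfsg.Agent.Lib.RCF3
-- import your own Cfsg.Agent.* helpers here

set_option autoImplicit false
open Cfsg
set_option linter.all false

namespace Cfsg.Agent.S2569

/-- In GL_n over a finite field of characteristic p, the conjugacy class of a semisimple element (an element of order prime to p) under the special linear group is its whole GL-conjugacy class: for every such x and every invertible g there is h of determinant one with h x h⁻¹ = g x g⁻¹. -/
theorem result {F : Type*} [Field F] [Fintype F] {p : ℕ} [Fact p.Prime] [CharP F p] {n : ℕ} (x g : GL (Fin n) F) (hx : (orderOf x).Coprime p) : ∃ h : GL (Fin n) F, (h : Matrix (Fin n) (Fin n) F).det = 1 ∧ h * x * h⁻¹ = g * x * g⁻¹ := by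
  rcases Nat.eq_zero_or_pos n with hn | hn
  · subst hn
    exact ⟨g, Matrix.det_isEmpty, rfl⟩
  haveI : Nonempty (Fin n) := ⟨⟨0, hn⟩⟩
  have hx1 : (x : Matrix (Fin n) (Fin n) F) ^ orderOf x = 1 := by
    have := pow_orderOf_eq_one x
    exact congrArg Units.val this
  obtain ⟨k, hk1, hk2⟩ := Cfsg.Agent.Lib.RCF.exists_equiv_cent (p := p) hx hx1 (Matrix.GeneralLinearGroup.det g)⁻¹
  obtain ⟨c, rfl⟩ := (Cfsg.Agent.Lib.Herm.gl n F).surjective k
  rw [Cfsg.Agent.Lib.Herm.gl_det] at hk2
  have hc : c * x = x * c := by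
    apply (Cfsg.Agent.Lib.Herm.gl n F).injective
    apply LinearEquiv.ext
    intro v
    rw [map_mul, map_mul]
    exact hk1 v
  refine ⟨g * c, ?_, ?_⟩
  · have h1 : Matrix.GeneralLinearGroup.det (g * c) = 1 := by
      rw [map_mul, hk2, mul_inv_cancel]
    exact congrArg Units.val h1
  · calc g * c * x * (g * c)⁻¹ = g * (c * x) * c⁻¹ * g⁻¹ := by group
      _ = g * x * g⁻¹ := by rw [hc]; group


end Cfsg.Agent.S2569
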