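import Cfsg.Statements.S2570
import Mathlib
import Cfsg.Agent.Lib.RCF7
-- import your own Cfsg.Agent.* helpers here

set_option autoImplicit false
open Cfsg
set_option linter.all false

namespace Cfsg.Agent.S2570

/-- Number of conjugacy classes of elements of order p in GL_n over a finite field of characteristic p: they correspond to the Jordan types, that is, to the partitions of n with all parts at most p other than the partition into ones, so there are (number of partitions of n with parts ≤ p) − 1 of them. -/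
theorem result {F : Type*} [Field F] [Fintype F] {p : ℕ} [Fact p.Prime] [CharP F p] (n : ℕ) : Nat.card {C : ConjClasses (GL (Fin n) F) // ∃ g : GL (Fin n) F, ConjClasses.mk g = C ∧ orderOf g = p} = (Finset.univ.filter (fun μ : Nat.Partition n => ∀ a ∈ μ.parts, a ≤ p)).card - 1 := by
  have hp := (Fact.out : p.Prime)
  rw [← Cfsg.Agent.Lib.RCF.card_parts n p hp.one_le]
  have hnil : ∀ g : GL (Fin n) F, orderOf g = p → IsNilpotent ((g : Matrix (Fin n) (Fin n) F) - 1) := by
    intro g hg
    exact Cfsg.Agent.Lib.RCF.nilp_of_order (p := p) (F := F) (ι := Fin n) (Units.coeHom _) g (k := 1) (by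
      rw [pow_one]; rw [← hg]; exact pow_orderOf_eq_one g)
  refine Cfsg.Agent.Lib.RCF.card_of_type (G := GL (Fin n) F)
    (fun g => orderOf g = p)
    (fun g μ => Cfsg.Agent.Lib.RCF.IsType (g : Matrix (Fin n) (Fin n) F) μ.1.parts) ?_ ?_ ?_ ?_ ?_
  · intro g hg
    obtain ⟨μ, hμ⟩ := Cfsg.Agent.Lib.RCF.exists_isType (hnil g hg) (Fintype.card_fin n)
    refine ⟨⟨μ, ?_⟩, hμ⟩
    exact (Cfsg.Agent.Lib.RCF.orderOf_eq_p_iff (p := p) (Units.coeHom (Matrix (Fin n) (Fin n) F)) Units.val_injective g (hnil g hg) hμ).mp hg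
  · intro g t t' h h'
    exact Subtype.ext (Cfsg.Agent.Lib.RCF.IsType.unique_partition h h')
  · intro g g' t hg hg' h h'
    exact Cfsg.Agent.Lib.RCF.IsType.isConj_GL h h' (hnil g hg) (hnil g' hg')
  · intro g g' t h h'
    exact Cfsg.Agent.Lib.RCF.isType_GL_conj h h'
  · intro μ
    obtain ⟨g, hg, ht⟩ := Cfsg.Agent.Lib.RCF.exists_GL_type (F := F) μ.1
    refine ⟨g, ?_, ht⟩
    exact (Cfsg.Agent.Lib.RCF.orderOf_eq_p_iff (p := p) (Units.coeHom (Matrix (Fin n) (Fin n) F)) Units.val_injective g hg ht).mpr μ.2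


end Cfsg.Agent.S2570
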