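import Cfsg.Statements.S2574
import Mathlib
import Cfsg.Agent.Lib.RCF9
import Cfsg.Agent.Lib.Symp
-- import your own Cfsg.Agent.* helpers here

set_option autoImplicit false
open Cfsg
set_option linter.all false

namespace Cfsg.Agent.S2574

/-- A regular unipotent element of the symplectic group has totally isotropic small invariant subspaces: over a finite field, if u ∈ Sp_2m(F) satisfies (u − 1)^(2m) = 0 and rank(u − 1) = 2m − 1, and W is a u-invariant subspace with 2 dim W ≤ 2m, then the alternating form vanishes identically on W. -/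
theorem result {F : Type*} [Field F] [Finite F] {m : ℕ} (u : Matrix.symplecticGroup (Fin m) F) (hnil : ((u : Matrix (Fin m ⊕ Fin m) (Fin m ⊕ Fin m) F) - 1) ^ (2 * m) = 0) (hreg : ((u : Matrix (Fin m ⊕ Fin m) (Fin m ⊕ Fin m) F) - 1).rank = 2 * m - 1) (W : Submodule F (Fin m ⊕ Fin m → F)) (hW : ∀ v ∈ W, (u : Matrix (Fin m ⊕ Fin m) (Fin m ⊕ Fin m) F).mulVec v ∈ W) (hdim : 2 * Module.finrank F W ≤ 2 * m) : ∀ v ∈ W, ∀ w ∈ W, Cfsg.sympForm m F v w = 0 := by
  classical
  set M := (u : Matrix (Fin m ⊕ Fin m) (Fin m ⊕ Fin m) F) with hM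
  set Mi := ((u⁻¹ : Matrix.symplecticGroup (Fin m) F) : Matrix (Fin m ⊕ Fin m) (Fin m ⊕ Fin m) F) with hMi
  have hMM : Mi * M = 1 := congrArg Subtype.val (inv_mul_cancel u)
  have hMM' : M * Mi = 1 := congrArg Subtype.val (mul_inv_cancel u)
  have hcard : Fintype.card (Fin m ⊕ Fin m) = 2 * m := by
    rw [Fintype.card_sum, Fintype.card_fin]; ring
  have hh := Cfsg.Agent.Lib.RCF.reg_facts hcard hnil hreg
  have h1 := hh.1
  have h2 := hh.2
  set T := Matrix.toLin' (M - 1) with hT
  have hTN : IsNilpotent T := ⟨2 * m, h1⟩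
  have hW' : ∀ v ∈ W, T v ∈ W := by
    intro v hv
    rw [hT, Matrix.toLin'_apply, Matrix.sub_mulVec, Matrix.one_mulVec]
    exact W.sub_mem (hW v hv) hv
  have h3 := Cfsg.Agent.Lib.RCF.inv_eq_ker hTN h2 hW'
  have hfr : Module.finrank F (Fin m ⊕ Fin m → F) = 2 * m := by
    rw [Module.finrank_fintype_fun_eq_card, hcard]
  have hker := Cfsg.Agent.Lib.RCF.reg_ker hfr h1 h2
  set d := Module.finrank F W with hd
  -- adjoint
  have hpres := (Cfsg.Agent.Lib.Symp.mem_iff_preserves M).mp u.2
  have hadj : ∀ x y, Cfsg.sympForm m F (T x) y = - Cfsg.sympForm m F x (Mi.mulVec (T y)) := by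
    intro x y
    have e1 : Cfsg.sympForm m F (M.mulVec x) y = Cfsg.sympForm m F x (Mi.mulVec y) := by
      have := hpres x (Mi.mulVec y)
      rw [Matrix.mulVec_mulVec, hMM', Matrix.one_mulVec] at this
      exact this
    have e2 : Mi.mulVec (T y) = y - Mi.mulVec y := by
      rw [hT, Matrix.toLin'_apply, Matrix.mulVec_mulVec, Matrix.mul_sub, hMM, Matrix.mul_one, Matrix.sub_mulVec,
        Matrix.one_mulVec]
    have e3 : T x = M.mulVec x + (-1 : F) • x := by
      rw [hT, Matrix.toLin'_apply, Matrix.sub_mulVec, Matrix.one_mulVec, neg_one_smul, sub_eq_add_neg]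
    have e4 : y - Mi.mulVec y = y + (-1 : F) • Mi.mulVec y := by
      rw [neg_one_smul, sub_eq_add_neg]
    rw [e2, e3, e4, Cfsg.Agent.Lib.Symp.sympForm_add_left, Cfsg.Agent.Lib.Symp.sympForm_smul_left, e1,
      Cfsg.Agent.Lib.Symp.sympForm_add_right, Cfsg.Agent.Lib.Symp.sympForm_smul_right]
    ring
  have hcomm : ∀ (k : ℕ) y, (T ^ k) (Mi.mulVec y) = Mi.mulVec ((T ^ k) y) := by
    intro k
    induction k with
    | zero => intro y; rfl
    | succ k ih =>
      intro y
      rw [pow_succ, Module.End.mul_apply, Module.End.mul_apply]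
      have e5 : T (Mi.mulVec y) = Mi.mulVec (T y) := by
        rw [hT, Matrix.toLin'_apply, Matrix.toLin'_apply, Matrix.mulVec_mulVec, Matrix.mulVec_mulVec,
          Matrix.mul_sub, Matrix.sub_mul, hMM, hMM', Matrix.mul_one, Matrix.one_mul]
      rw [e5, ih]
  have key : ∀ (k : ℕ) x y, (T ^ k) y = 0 → Cfsg.sympForm m F ((T ^ k) x) y = 0 := by
    intro k
    induction k with
    | zero =>
      intro x y hy
      have : y = 0 := hy
      rw [this]
      have := Cfsg.Agent.Lib.Symp.sympForm_smul_right (F := F) (m := m) 0 ((T ^ 0) x) 0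
      rw [zero_smul, zero_mul] at this
      exact this
    | succ k ih =>
      intro x y hy
      rw [pow_succ', Module.End.mul_apply, hadj, ih, neg_zero]
      rw [hcomm, ← Module.End.mul_apply, ← pow_succ, hy, Matrix.mulVec_zero]
  have hrange : LinearMap.range (T ^ (2 * m - d)) = LinearMap.ker (T ^ d) := by
    apply Submodule.eq_of_le_of_finrank_le
    · rintro _ ⟨x, rfl⟩
      rw [LinearMap.mem_ker, ← Module.End.mul_apply, ← pow_add, Nat.add_sub_cancel' (by omega), h1]
      rfl
    · have e6 := LinearMap.finrank_range_add_finrank_ker (T ^ (2 * m - d))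
      rw [hfr, hker] at e6
      rw [hker]
      omega
  intro v hv w hw
  rw [h3] at hv hw
  rw [← hrange] at hv
  obtain ⟨x, rfl⟩ := hv
  apply key
  have e7 : 2 * m - d = (2 * m - 2 * d) + d := by omega
  rw [e7, pow_add, Module.End.mul_apply, LinearMap.mem_ker.mp hw, map_zero]


end Cfsg.Agent.S2574
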