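import Cfsg.Statements.S2670
import Mathlib
import Cfsg.Agent.Lib.RCF14
-- import your own Cfsg.Agent.* helpers here

set_option autoImplicit false
open Cfsg
set_option linter.all false

namespace Cfsg.Agent.S2670

/-- Number of conjugacy classes of elements of prime order r in PGL_n(q) = GL_n(q)/scalars when r divides q − 1 (n ≥ 2): the classes of elements with a diagonalisable lift correspond to the orbits of the cyclic rotation on the r-tuples of eigenvalue multiplicities (a_0, …, a_(r−1)) summing to n with every a_j < n, and when r divides n there are r − 1 further classes (lifts acting irreducibly on blocks of size r); in all (C(n+r−1, r−1) − r − [r ∣ n])/r + r·[r ∣ n] classes. -/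
theorem result {F : Type*} [Field F] [Fintype F] {q : ℕ} (hF : Fintype.card F = q) {n r : ℕ} (hn : 2 ≤ n) (hr : r.Prime) (hrq : r ∣ q - 1) : Nat.card {C : ConjClasses (GL (Fin n) F ⧸ Subgroup.center (GL (Fin n) F)) // ∃ g : GL (Fin n) F ⧸ Subgroup.center (GL (Fin n) F), ConjClasses.mk g = C ∧ orderOf g = r} = (Nat.choose (n + r - 1) (r - 1) - r - (if r ∣ n then 1 else 0)) / r + r * (if r ∣ n then 1 else 0) := by
  classical
  have hq1 : 1 < q := by rw [← hF]; exact Fintype.one_lt_card
  have hcard : Nat.card Fˣ = q - 1 := by rw [Nat.card_units, Nat.card_eq_fintype_card, hF]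
  haveI : Fact r.Prime := ⟨hr⟩
  obtain ⟨ζ, hζ⟩ := exists_prime_orderOf_dvd_card' (G := Fˣ) r (by rw [hcard]; exact hrq)
  have hZ : ∀ g : GL (Fin n) F, g ∈ Subgroup.center (GL (Fin n) F) ↔ ∃ u ∈ (⊤ : Subgroup Fˣ), (MonoidHom.id (GL (Fin n) F)) g = Cfsg.Agent.Lib.RCF.sc n F u := by
    intro g
    constructor
    · intro h
      rw [Matrix.GeneralLinearGroup.center_eq_range_scalar] at h
      obtain ⟨u, hu⟩ := h
      exact ⟨u, trivial, Units.ext (congrArg Units.val hu).symm⟩
    · rintro ⟨u, -, hu⟩
      rw [show g = Cfsg.Agent.Lib.RCF.sc n F u from hu]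
      rw [Subgroup.mem_center_iff]
      intro h
      exact (Cfsg.Agent.Lib.RCF.sc_comm u h).symm
  exact Cfsg.Agent.Lib.RCF.card_proj (G := GL (Fin n) F) (n := n) (F := F) (MonoidHom.id _) Function.injective_id ⊤ ζ trivial hζ hr (by omega)
    hZ (fun u _ => ⟨_, rfl⟩) (fun g h hgh => hgh) (fun A μ _ _ => ⟨A, IsConj.refl A⟩)
    (fun μ _ c hc => ⟨c, trivial, hc⟩) (by rw [Subgroup.card_top, hcard]; exact hrq)


end Cfsg.Agent.S2670
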