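import Cfsg.Statements.S2578
import Mathlib
import Cfsg.Agent.Lib.RCF9
-- import your own Cfsg.Agent.* helpers here

set_option autoImplicit false
open Cfsg
set_option linter.all false

namespace Cfsg.Agent.S2578

/-- Regular unipotent classes of SL_n(q): for n ≥ 2 over the field with q elements, the matrices u of determinant one with (u − 1)^n = 0 and rank(u − 1) = n − 1 form a single GL_n(q)-class which splits into exactly gcd(n, q − 1) conjugacy classes of SL_n(q). -/
theorem result {F : Type*} [Field F] [Fintype F] {q : ℕ} (hF : Fintype.card F = q) {n : ℕ} (hn : 2 ≤ n) : Nat.card {C : ConjClasses (Matrix.SpecialLinearGroup (Fin n) F) // ∃ u : Matrix.SpecialLinearGroup (Fin n) F, ConjClasses.mk u = C ∧ ((u : Matrix (Fin n) (Fin n) F) - 1) ^ n = 0 ∧ ((u : Matrix (Fin n) (Fin n) F) - 1).rank = n - 1} = Nat.gcd n (q - 1) := by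
  obtain ⟨g0, hg1, hg2⟩ := Cfsg.Agent.Lib.RCF.exists_reg (F := F) n
  have hd0 := Cfsg.Agent.Lib.RCF.det_unipotent (M := (g0 : Matrix (Fin n) (Fin n) F)) ⟨n, hg1⟩
  let s0 : Matrix.SpecialLinearGroup (Fin n) F := ⟨(g0 : Matrix (Fin n) (Fin n) F), hd0⟩
  have hs0 : (Matrix.SpecialLinearGroup.toGL s0 : GL (Fin n) F) = g0 := Units.ext rfl
  have hcard : Fintype.card (Fin n) = n := Fintype.card_fin n
  have key := Cfsg.Agent.Lib.RCF.card_split (G := GL (Fin n) F) (A := Fˣ) (S := Matrix.SpecialLinearGroup (Fin n) F)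
    Matrix.GeneralLinearGroup.det (by
      intro d
      classical
      haveI : Nonempty (Fin n) := ⟨⟨0, by omega⟩⟩
      obtain ⟨z, -, hz⟩ := Cfsg.Agent.Lib.SqZero.exists_diag (Pi.basisFun F (Fin n)) (Function.update 1 ⟨0, by omega⟩ d)
      obtain ⟨g, rfl⟩ := (Cfsg.Agent.Lib.Herm.gl n F).surjective z
      refine ⟨g, ?_⟩
      rw [Cfsg.Agent.Lib.Herm.gl_det] at hz
      rw [hz, Finset.prod_update_of_mem (Finset.mem_univ _)]
      simp)
    Matrix.SpecialLinearGroup.toGL Matrix.SpecialLinearGroup.toGL_injective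
    (fun g hg => ⟨⟨(g : Matrix (Fin n) (Fin n) F), congrArg Units.val hg⟩, Units.ext rfl⟩)
    (fun s => Units.ext s.2)
    s0 (fun u => ((u : Matrix (Fin n) (Fin n) F) - 1) ^ n = 0 ∧ ((u : Matrix (Fin n) (Fin n) F) - 1).rank = n - 1)
    (by
      intro s
      rw [hs0]
      constructor
      · rintro ⟨h1, h2⟩
        exact Cfsg.Agent.Lib.RCF.IsType.isConj_GL (g := g0) (h := Matrix.SpecialLinearGroup.toGL s)
          (Cfsg.Agent.Lib.RCF.reg_isType hcard hg1 hg2)
          (Cfsg.Agent.Lib.RCF.reg_isType hcard h1 h2) ⟨n, hg1⟩ ⟨n, h1⟩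
      · intro h
        have h1 := Cfsg.Agent.Lib.RCF.isType_GL_conj h (Cfsg.Agent.Lib.RCF.reg_isType hcard hg1 hg2)
        have h2 : IsNilpotent (((Matrix.SpecialLinearGroup.toGL s : GL (Fin n) F) : Matrix (Fin n) (Fin n) F) - 1) := by
          obtain ⟨c, hc⟩ := isConj_iff.mp h
          refine ⟨n, ?_⟩
          have h3 := (Cfsg.Agent.Lib.RCF.isType_iff_rank _ _).mp h1 n
          rw [Multiset.map_singleton, Multiset.sum_singleton, min_self, hcard] at h3
          rw [← Cfsg.Agent.Lib.RCF.rank_eq_zero']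
          omega
        exact Cfsg.Agent.Lib.RCF.reg_of_isType hcard h2 h1)
    (powMonoidHom n : Fˣ →* Fˣ).range
    (by
      intro a
      rw [hs0]
      constructor
      · rintro ⟨b, rfl⟩
        refine ⟨⟨Matrix.scalar (Fin n) (b : F), Matrix.scalar (Fin n) ((b⁻¹ : Fˣ) : F), ?_, ?_⟩, ?_, ?_⟩
        · rw [← map_mul, ← Units.val_mul, mul_inv_cancel, Units.val_one, map_one]
        · rw [← map_mul, ← Units.val_mul, inv_mul_cancel, Units.val_one, map_one]
        · apply Units.ext
          show Matrix.scalar (Fin n) (b : F) * (g0 : Matrix (Fin n) (Fin n) F) = (g0 : Matrix (Fin n) (Fin n) F) * Matrix.scalar (Fin n) (b : F)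
          exact (Matrix.scalar_commute (b : F) (fun r => Commute.all _ _) (g0 : Matrix (Fin n) (Fin n) F)).eq
        · apply Units.ext
          show (Matrix.scalar (Fin n) (b : F)).det = ((b ^ n : Fˣ) : F)
          rw [Matrix.scalar_apply, Matrix.det_diagonal, Finset.prod_const, Finset.card_univ, hcard, Units.val_pow_eq_pow_val]
      · rintro ⟨c, hc, rfl⟩
        have hc' := congrArg Units.val hc
        rw [Units.val_mul, Units.val_mul] at hc'
        obtain ⟨f, hf1, hf2⟩ := Cfsg.Agent.Lib.RCF.det_cent_reg (M := (g0 : Matrix (Fin n) (Fin n) F)) (by omega) hcard hg1 hg2 hc'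
        have hne : f.coeff 0 ≠ 0 := by
          intro h0
          rw [h0, zero_pow (by omega)] at hf2
          exact (Matrix.GeneralLinearGroup.det c).ne_zero hf2
        refine ⟨Units.mk0 _ hne, ?_⟩
        apply Units.ext
        exact hf2.symm)
  rw [key]
  haveI : IsCyclic Fˣ := inferInstance
  rw [IsCyclic.index_powMonoidHom_range, Nat.card_units, Nat.card_eq_fintype_card, hF, Nat.gcd_comm]


end Cfsg.Agent.S2578
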