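import Cfsg.Statements.S2586
import Mathlib
import Cfsg.Agent.Lib.RCF1
-- import your own Cfsg.Agent.* helpers here

set_option autoImplicit false
open Cfsg
set_option linter.all false

namespace Cfsg.Agent.S2586

/-- Over a finite field, every element of the symplectic group Sp_2m(F) is conjugate by an invertible matrix to its inverse. -/
theorem result {F : Type*} [Field F] [Finite F] {m : ℕ} (A : Matrix.symplecticGroup (Fin m) F) : IsConj (A : Matrix (Fin m ⊕ Fin m) (Fin m ⊕ Fin m) F) ((A⁻¹ : Matrix.symplecticGroup (Fin m) F) : Matrix (Fin m ⊕ Fin m) (Fin m ⊕ Fin m) F) := by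
  set M := (A : Matrix (Fin m ⊕ Fin m) (Fin m ⊕ Fin m) F) with hM
  have h1 : M * Matrix.J (Fin m) F * M.transpose = Matrix.J (Fin m) F := SymplecticGroup.mem_iff.mp A.2
  set Mi := ((A⁻¹ : Matrix.symplecticGroup (Fin m) F) : Matrix (Fin m ⊕ Fin m) (Fin m ⊕ Fin m) F) with hMi
  have h2 : Mi * M = 1 := by
    have := congrArg Subtype.val (inv_mul_cancel A)
    exact this
  obtain ⟨P, hP⟩ := Cfsg.Agent.Lib.RCF.conj_transpose M
  -- `J Mᵀ = M⁻¹ J`
  have h3 : Matrix.J (Fin m) F * M.transpose = Mi * Matrix.J (Fin m) F := by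
    calc Matrix.J (Fin m) F * M.transpose = (Mi * M) * (Matrix.J (Fin m) F * M.transpose) := by
          rw [h2, Matrix.one_mul]
      _ = Mi * (M * Matrix.J (Fin m) F * M.transpose) := by simp only [Matrix.mul_assoc]
      _ = _ := by rw [h1]
  have hJ : IsUnit (Matrix.J (Fin m) F) :=
    (Matrix.isUnit_iff_isUnit_det _).mpr (Matrix.isUnit_det_J (Fin m) F)
  obtain ⟨U, hU⟩ := hJ
  refine ⟨U * P, ?_⟩
  show ((U * P : (Matrix (Fin m ⊕ Fin m) (Fin m ⊕ Fin m) F)ˣ) : Matrix (Fin m ⊕ Fin m) (Fin m ⊕ Fin m) F) * M =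
    Mi * ((U * P : (Matrix (Fin m ⊕ Fin m) (Fin m ⊕ Fin m) F)ˣ) : Matrix (Fin m ⊕ Fin m) (Fin m ⊕ Fin m) F)
  rw [Units.val_mul, Matrix.mul_assoc, hP, ← Matrix.mul_assoc, hU, h3, Matrix.mul_assoc]


end Cfsg.Agent.S2586
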