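import Cfsg.Statements.S2588
import Mathlib
import Cfsg.Agent.Lib.Herm13
-- import your own Cfsg.Agent.* helpers here

set_option autoImplicit false
open Cfsg
set_option linter.all false

namespace Cfsg.Agent.S2588

/-- An invertible matrix A over the field with q² elements is conjugate in GL_n(q²) to an element of the general unitary group GU_n(q) (isometries of the Hermitian form Σ u_i v_i^q) if and only if A is similar to the inverse transpose of its entrywise q-th power (A ~ A^(−qT), the image of A under the map sending a matrix to the inverse transpose of its entrywise q-th power — inverse transpose composed with the field automorphism — whose fixed points form GU_n(q)). -/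
theorem result {K : Type*} [Field K] [Fintype K] {q n : ℕ} (hK : Fintype.card K = q ^ 2) (A : GL (Fin n) K) : (∃ B : ↥(Cfsg.GU n K q), IsConj A (B : GL (Fin n) K)) ↔ IsConj (A : Matrix (Fin n) (Fin n) K) (((A : Matrix (Fin n) (Fin n) K).map (fun x : K => x ^ q)).transpose)⁻¹ := by
  obtain ⟨σ, hσ, hq⟩ := Cfsg.Agent.Lib.Herm.exists_sigma hK
  obtain ⟨h1, h2, h3⟩ := Cfsg.Agent.Lib.Herm.sigma_facts hσ
  have hst : ∀ X : Matrix (Fin n) (Fin n) K, (X.map (fun x : K => x ^ q)).transpose =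
      Cfsg.Agent.Lib.Herm.st σ X := by
    intro X
    ext i j
    show (X j i) ^ q = σ (X j i)
    rw [hq]
  rw [hst]
  have hinvst : ∀ X : GL (Fin n) K, Cfsg.Agent.Lib.Herm.st σ ((X⁻¹ : GL (Fin n) K) : Matrix (Fin n) (Fin n) K) *
      Cfsg.Agent.Lib.Herm.st σ (X : Matrix (Fin n) (Fin n) K) = 1 := by
    intro X
    rw [← Cfsg.Agent.Lib.Herm.st_mul, ← Units.val_mul, mul_inv_cancel, Units.val_one,
      Cfsg.Agent.Lib.Herm.st_one]
  have hinv : ∀ X : GL (Fin n) K, (Cfsg.Agent.Lib.Herm.st σ (X : Matrix (Fin n) (Fin n) K))⁻¹ =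
      Cfsg.Agent.Lib.Herm.st σ ((X⁻¹ : GL (Fin n) K) : Matrix (Fin n) (Fin n) K) := by
    intro X
    exact Matrix.inv_eq_left_inv (hinvst X)
  rw [hinv]
  constructor
  · rintro ⟨B, hB⟩
    rw [isConj_iff] at hB
    obtain ⟨c, hc⟩ := hB
    have hBs := (Cfsg.Agent.Lib.Herm.gu_iff_st h1 hq _).mp B.2
    -- `c A c⁻¹ = B`, so `st(A⁻¹) = st(c) B st(c)⁻¹`
    have e1 : Cfsg.Agent.Lib.Herm.st σ (((B : GL (Fin n) K)⁻¹ : GL (Fin n) K) : Matrix (Fin n) (Fin n) K) =
        ((B : GL (Fin n) K) : Matrix (Fin n) (Fin n) K) := by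
      have e2 := hinvst (B : GL (Fin n) K)
      calc _ = Cfsg.Agent.Lib.Herm.st σ (((B : GL (Fin n) K)⁻¹ : GL (Fin n) K) : Matrix (Fin n) (Fin n) K) *
            (Cfsg.Agent.Lib.Herm.st σ ((B : GL (Fin n) K) : Matrix (Fin n) (Fin n) K) *
              ((B : GL (Fin n) K) : Matrix (Fin n) (Fin n) K)) := by rw [hBs, mul_one]
        _ = _ := by rw [← mul_assoc, e2, one_mul]
    let stc : (Matrix (Fin n) (Fin n) K)ˣ := ⟨Cfsg.Agent.Lib.Herm.st σ (c : Matrix (Fin n) (Fin n) K),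
      Cfsg.Agent.Lib.Herm.st σ ((c⁻¹ : GL (Fin n) K) : Matrix (Fin n) (Fin n) K),
      by rw [← Cfsg.Agent.Lib.Herm.st_mul, ← Units.val_mul, inv_mul_cancel, Units.val_one,
        Cfsg.Agent.Lib.Herm.st_one],
      by rw [← Cfsg.Agent.Lib.Herm.st_mul, ← Units.val_mul, mul_inv_cancel, Units.val_one,
        Cfsg.Agent.Lib.Herm.st_one]⟩
    refine ⟨stc * c, ?_⟩
    show (stc : Matrix (Fin n) (Fin n) K) * (c : Matrix (Fin n) (Fin n) K) * (A : Matrix (Fin n) (Fin n) K) =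
      Cfsg.Agent.Lib.Herm.st σ ((A⁻¹ : GL (Fin n) K) : Matrix (Fin n) (Fin n) K) *
        ((stc : Matrix (Fin n) (Fin n) K) * (c : Matrix (Fin n) (Fin n) K))
    have e3 : (c : Matrix (Fin n) (Fin n) K) * (A : Matrix (Fin n) (Fin n) K) =
        ((B : GL (Fin n) K) : Matrix (Fin n) (Fin n) K) * (c : Matrix (Fin n) (Fin n) K) := by
      rw [← hc, ← Units.val_mul, ← Units.val_mul]; congr 1; group
    have e4 : Cfsg.Agent.Lib.Herm.st σ ((A⁻¹ : GL (Fin n) K) : Matrix (Fin n) (Fin n) K) *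
        Cfsg.Agent.Lib.Herm.st σ (c : Matrix (Fin n) (Fin n) K) =
        Cfsg.Agent.Lib.Herm.st σ (c : Matrix (Fin n) (Fin n) K) *
          ((B : GL (Fin n) K) : Matrix (Fin n) (Fin n) K) := by
      conv_rhs => rw [← e1]
      rw [← Cfsg.Agent.Lib.Herm.st_mul, ← Cfsg.Agent.Lib.Herm.st_mul, ← Units.val_mul, ← Units.val_mul]
      congr 2
      rw [← hc]; group
    show Cfsg.Agent.Lib.Herm.st σ (c : Matrix (Fin n) (Fin n) K) * (c : Matrix (Fin n) (Fin n) K) *
      (A : Matrix (Fin n) (Fin n) K) = _ * (Cfsg.Agent.Lib.Herm.st σ (c : Matrix (Fin n) (Fin n) K) *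
        (c : Matrix (Fin n) (Fin n) K))
    rw [mul_assoc, e3, ← mul_assoc, ← e4, mul_assoc]
  · rintro ⟨c, hc⟩
    have hc' : (c : Matrix (Fin n) (Fin n) K) * (A : Matrix (Fin n) (Fin n) K) =
      Cfsg.Agent.Lib.Herm.st σ ((A⁻¹ : GL (Fin n) K) : Matrix (Fin n) (Fin n) K) *
        (c : Matrix (Fin n) (Fin n) K) := hc
    have h5 : Cfsg.Agent.Lib.Herm.st σ (A : Matrix (Fin n) (Fin n) K) * (c : Matrix (Fin n) (Fin n) K) *
        (A : Matrix (Fin n) (Fin n) K) = (c : Matrix (Fin n) (Fin n) K) := by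
      rw [mul_assoc, hc', ← mul_assoc, mul_eq_one_comm.mp (hinvst A), one_mul]
    obtain ⟨D, hD⟩ := Cfsg.Agent.Lib.Herm.similar_unitary hσ h1 h2 hq (A := A) (P := c) h5
    exact ⟨⟨_, hD⟩, isConj_iff.mpr ⟨D, rfl⟩⟩


end Cfsg.Agent.S2588
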