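import Cfsg.Statements.S2589
import Mathlib
import Cfsg.Agent.Lib.BForm4
-- import your own Cfsg.Agent.* helpers here

set_option autoImplicit false
open Cfsg
set_option linter.all false

namespace Cfsg.Agent.S2589

/-- Two semisimple elements of the finite symplectic group Sp_2m(F) (elements of order prime to the characteristic) are conjugate in Sp_2m(F) if and only if they are conjugate in GL_2m(F). -/
theorem result {F : Type*} [Field F] [Fintype F] {p : ℕ} [Fact p.Prime] [CharP F p] {m : ℕ} (A B : Matrix.symplecticGroup (Fin m) F) (hA : (orderOf A).Coprime p) : IsConj A B ↔ IsConj (A : Matrix (Fin m ⊕ Fin m) (Fin m ⊕ Fin m) F) (B : Matrix (Fin m ⊕ Fin m) (Fin m ⊕ Fin m) F) := by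
  classical
  constructor
  · intro h
    obtain ⟨c, hc⟩ := isConj_iff.mp h
    refine ⟨⟨(c : Matrix (Fin m ⊕ Fin m) (Fin m ⊕ Fin m) F), ((c⁻¹ : Matrix.symplecticGroup (Fin m) F) : Matrix (Fin m ⊕ Fin m) (Fin m ⊕ Fin m) F), ?_, ?_⟩, ?_⟩
    · exact congrArg Subtype.val (mul_inv_cancel c)
    · exact congrArg Subtype.val (inv_mul_cancel c)
    · have h1 : c * A = B * c := by rw [← hc]; group
      exact congrArg Subtype.val h1
  · rintro ⟨c, hc⟩
    have hc' : (c : Matrix (Fin m ⊕ Fin m) (Fin m ⊕ Fin m) F) * (A : Matrix (Fin m ⊕ Fin m) (Fin m ⊕ Fin m) F) =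
      (B : Matrix (Fin m ⊕ Fin m) (Fin m ⊕ Fin m) F) * (c : Matrix (Fin m ⊕ Fin m) (Fin m ⊕ Fin m) F) := hc
    let k : (Fin m ⊕ Fin m → F) ≃ₗ[F] (Fin m ⊕ Fin m → F) := LinearEquiv.ofLinear (Matrix.toLin' (c : Matrix (Fin m ⊕ Fin m) (Fin m ⊕ Fin m) F))
      (Matrix.toLin' ((c⁻¹ : (Matrix (Fin m ⊕ Fin m) (Fin m ⊕ Fin m) F)ˣ) : Matrix (Fin m ⊕ Fin m) (Fin m ⊕ Fin m) F))
      (by rw [← Matrix.toLin'_mul, Units.mul_inv, Matrix.toLin'_one]) (by rw [← Matrix.toLin'_mul, Units.inv_mul, Matrix.toLin'_one])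
    apply Cfsg.Agent.Lib.BForm.sp_conj (p := p) hA k
    intro x
    show Matrix.mulVec (c : Matrix (Fin m ⊕ Fin m) (Fin m ⊕ Fin m) F) (Matrix.mulVec (A : Matrix (Fin m ⊕ Fin m) (Fin m ⊕ Fin m) F) x) =
      Matrix.mulVec (B : Matrix (Fin m ⊕ Fin m) (Fin m ⊕ Fin m) F) (Matrix.mulVec (c : Matrix (Fin m ⊕ Fin m) (Fin m ⊕ Fin m) F) x)
    rw [Matrix.mulVec_mulVec, Matrix.mulVec_mulVec, hc']


end Cfsg.Agent.S2589
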