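import Cfsg.Statements.S2590
import Mathlib
import Cfsg.Agent.Lib.BForm5
-- import your own Cfsg.Agent.* helpers here

set_option autoImplicit false
open Cfsg
set_option linter.all false

namespace Cfsg.Agent.S2590

/-- Two semisimple elements of odd order of a finite orthogonal group (isometry group of a quadratic form on F^n with non-degenerate polar form, F finite of characteristic p; the elements have odd order prime to p) are conjugate in the orthogonal group if and only if they are conjugate in GL_n(F). -/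
theorem result {F : Type*} [Field F] [Fintype F] {p : ℕ} [Fact p.Prime] [CharP F p] {n : ℕ} (Q : QuadraticForm F (Fin n → F)) (hQ : (QuadraticMap.polarBilin Q).Nondegenerate) (A B : ↥(Cfsg.isometryGroup F ⇑Q)) (hodd : Odd (orderOf A)) (hA : (orderOf A).Coprime p) : IsConj A B ↔ IsConj ((A : Matrix.GeneralLinearGroup (Fin n) F) : Matrix (Fin n) (Fin n) F) ((B : Matrix.GeneralLinearGroup (Fin n) F) : Matrix (Fin n) (Fin n) F) := by
  classical
  constructor
  · intro h
    obtain ⟨c, hc⟩ := isConj_iff.mp h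
    refine ⟨(c : GL (Fin n) F), ?_⟩
    have h1 : c * A = B * c := by rw [← hc]; group
    exact congrArg (fun x : ↥(Cfsg.isometryGroup F ⇑Q) => ((x : Matrix.GeneralLinearGroup (Fin n) F) : Matrix (Fin n) (Fin n) F)) h1
  · rintro ⟨c, hc⟩
    have hc' : (c : Matrix (Fin n) (Fin n) F) * ((A : Matrix.GeneralLinearGroup (Fin n) F) : Matrix (Fin n) (Fin n) F) =
      ((B : Matrix.GeneralLinearGroup (Fin n) F) : Matrix (Fin n) (Fin n) F) * (c : Matrix (Fin n) (Fin n) F) := hc
    set N := orderOf A with hN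
    have hAN : (A : Matrix.GeneralLinearGroup (Fin n) F) ^ N = 1 := by
      have : A ^ N = 1 := pow_orderOf_eq_one A
      exact congrArg Subtype.val this
    have hcg : (c : GL (Fin n) F) * (A : Matrix.GeneralLinearGroup (Fin n) F) = (B : Matrix.GeneralLinearGroup (Fin n) F) * c := Units.ext hc'
    have hBN : (B : Matrix.GeneralLinearGroup (Fin n) F) ^ N = 1 := by
      have h1 : (B : Matrix.GeneralLinearGroup (Fin n) F) = c * (A : Matrix.GeneralLinearGroup (Fin n) F) * c⁻¹ := by
        rw [hcg]; group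
      rw [h1, conj_pow, hAN, mul_one, mul_inv_cancel]
    have hpw : ∀ (X : Matrix.GeneralLinearGroup (Fin n) F), X ^ N = 1 →
        ((Cfsg.Agent.Lib.Orth.glEquiv (Fin n) F X : (Fin n → F) ≃ₗ[F] (Fin n → F)) : (Fin n → F) →ₗ[F] (Fin n → F)) ^ N = 1 := by
      intro X hX
      rw [Cfsg.Agent.Lib.Orth.glEquiv_coe, ← Matrix.toLin'_pow, ← Units.val_pow_eq_pow_val, hX, Units.val_one, Matrix.toLin'_one]
      rfl
    obtain ⟨g, hg, hgc⟩ := Cfsg.Agent.Lib.BForm.orth_conj (p := p) (Q := Q) hQ (Cfsg.Agent.Lib.Orth.isoO Q A).2 (Cfsg.Agent.Lib.Orth.isoO Q B).2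
      hA hodd (hpw _ hAN) (hpw _ hBN) (Cfsg.Agent.Lib.Orth.glEquiv (Fin n) F c) (by
        intro v
        show Matrix.mulVec (c : Matrix (Fin n) (Fin n) F) (Matrix.mulVec ((A : Matrix.GeneralLinearGroup (Fin n) F) : Matrix (Fin n) (Fin n) F) v) =
          Matrix.mulVec ((B : Matrix.GeneralLinearGroup (Fin n) F) : Matrix (Fin n) (Fin n) F) (Matrix.mulVec (c : Matrix (Fin n) (Fin n) F) v)
        rw [Matrix.mulVec_mulVec, Matrix.mulVec_mulVec, hc'])
    rw [isConj_iff]
    refine ⟨(Cfsg.Agent.Lib.Orth.isoO Q).symm ⟨g, hg⟩, ?_⟩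
    apply (Cfsg.Agent.Lib.Orth.isoO Q).injective
    rw [map_mul, map_mul, map_inv, MulEquiv.apply_symm_apply, mul_inv_eq_iff_eq_mul]
    apply Subtype.ext
    apply LinearEquiv.ext
    intro v
    exact hgc v


end Cfsg.Agent.S2590
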