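import Cfsg.Statements.S2599
import Mathlib
import Cfsg.Agent.Lib.SL2
-- import your own Cfsg.Agent.* helpers here

set_option autoImplicit false
open Cfsg
set_option linter.all false

namespace Cfsg.Agent.S2599

/-- An irreducible invariant subspace of a semisimple isometry is non-degenerate or totally singular: let Q be a quadratic form on F^n (F finite of characteristic p) with non-degenerate polar form f, x an isometry of Q of order prime to p, and U a non-zero x-invariant subspace containing no x-invariant subspace other than 0 and U. Then U meets its f-orthogonal trivially, or Q vanishes on U, or p = 2, U is a line spanned by a non-singular vector and x fixes U pointwise. -/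
theorem result {F : Type*} [Field F] [Fintype F] {p : ℕ} [Fact p.Prime] [CharP F p] {n : ℕ} (Q : QuadraticForm F (Fin n → F)) (hQ : (QuadraticMap.polarBilin Q).Nondegenerate) (x : ↥(Cfsg.isometryGroup F ⇑Q)) (hx : (orderOf x).Coprime p) (U : Submodule F (Fin n → F)) (hU0 : U ≠ ⊥) (hUx : ∀ u ∈ U, ((x : Matrix.GeneralLinearGroup (Fin n) F) : Matrix (Fin n) (Fin n) F).mulVec u ∈ U) (hirr : ∀ W : Submodule F (Fin n → F), W ≤ U → (∀ w ∈ W, ((x : Matrix.GeneralLinearGroup (Fin n) F) : Matrix (Fin n) (Fin n) F).mulVec w ∈ W) → W = ⊥ ∨ W = U) : U ⊓ LinearMap.BilinForm.orthogonal (QuadraticMap.polarBilin Q) U = ⊥ ∨ (∀ u ∈ U, Q u = 0) ∨ (p = 2 ∧ Module.finrank F U = 1 ∧ (∃ u ∈ U, Q u ≠ 0) ∧ ∀ u ∈ U, ((x : Matrix.GeneralLinearGroup (Fin n) F) : Matrix (Fin n) (Fin n) F).mulVec u = u) := by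
  classical
  -- the linear map
  let M : Matrix (Fin n) (Fin n) F := ((x : Matrix.GeneralLinearGroup (Fin n) F) : Matrix (Fin n) (Fin n) F)
  let T : (Fin n → F) →ₗ[F] (Fin n → F) := M.mulVecLin
  have hTdef : ∀ v, T v = M.mulVec v := fun v => rfl
  have hT : ∀ v, Q (T v) = Q v := fun v => x.2 v 0
  have hTinj : Function.Injective T := by
    intro a b h
    have h1 : M.mulVec a = M.mulVec b := h
    have h2 : ((x : Matrix.GeneralLinearGroup (Fin n) F)⁻¹ : Matrix.GeneralLinearGroup (Fin n) F).val.mulVec (M.mulVec a) = ((x : Matrix.GeneralLinearGroup (Fin n) F)⁻¹ : Matrix.GeneralLinearGroup (Fin n) F).val.mulVec (M.mulVec b) := by rw [h1]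
    rw [Matrix.mulVec_mulVec, Matrix.mulVec_mulVec] at h2
    have h3 : ((x : Matrix.GeneralLinearGroup (Fin n) F)⁻¹ : Matrix.GeneralLinearGroup (Fin n) F).val * M = 1 := by
      rw [← Units.val_mul, inv_mul_cancel, Units.val_one]
    rw [h3, Matrix.one_mulVec, Matrix.one_mulVec] at h2
    exact h2
  have hB : ∀ u v, QuadraticMap.polarBilin Q (T u) (T v) = QuadraticMap.polarBilin Q u v := by
    intro u v
    show Q (T u + T v) - Q (T u) - Q (T v) = Q (u + v) - Q u - Q v
    rw [← map_add, hT, hT, hT]
  have hsurj : ∀ u ∈ U, ∃ u' ∈ U, T u' = u := by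
    let f : U → U := fun u => ⟨T u, hUx u u.2⟩
    have hf : Function.Injective f := fun a b h => Subtype.ext (hTinj (congrArg Subtype.val h))
    intro u hu
    obtain ⟨u', hu'⟩ := (Finite.injective_iff_surjective.mp hf) ⟨u, hu⟩
    exact ⟨u', u'.2, congrArg Subtype.val hu'⟩
  have hinv : ∀ w ∈ U ⊓ LinearMap.BilinForm.orthogonal (QuadraticMap.polarBilin Q) U, M.mulVec w ∈ U ⊓ LinearMap.BilinForm.orthogonal (QuadraticMap.polarBilin Q) U := by
    rintro w ⟨hw1, hw2⟩
    refine ⟨hUx w hw1, ?_⟩
    rw [SetLike.mem_coe, LinearMap.BilinForm.mem_orthogonal_iff] at hw2 ⊢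
    intro u hu
    obtain ⟨u', hu', rfl⟩ := hsurj u hu
    have h1 : QuadraticMap.polarBilin Q u' w = 0 := hw2 u' hu'
    have h2 : QuadraticMap.polarBilin Q (T u') (T w) = 0 := by rw [hB]; exact h1
    exact h2
  rcases hirr _ inf_le_left hinv with h | h
  · exact Or.inl h
  · right
    have hB0 : ∀ u ∈ U, ∀ v ∈ U, QuadraticMap.polarBilin Q u v = 0 := by
      intro u hu v hv
      have h1 : v ∈ U ⊓ LinearMap.BilinForm.orthogonal (QuadraticMap.polarBilin Q) U := by rw [h]; exact hv
      have h2 := h1.2
      rw [SetLike.mem_coe, LinearMap.BilinForm.mem_orthogonal_iff] at h2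
      exact h2 u hu
    have hadd : ∀ u ∈ U, ∀ v ∈ U, Q (u + v) = Q u + Q v := by
      intro u hu v hv
      have h1 : Q (u + v) - Q u - Q v = 0 := hB0 u hu v hv
      linear_combination h1
    by_cases hp : p = 2
    · subst hp
      haveI : CharP F 2 := inferInstance
      let W : Submodule F (Fin n → F) :=
        { carrier := {u | u ∈ U ∧ Q u = 0}
          add_mem' := by
            rintro a b ⟨ha, ha'⟩ ⟨hb, hb'⟩
            exact ⟨U.add_mem ha hb, by rw [hadd a ha b hb, ha', hb', add_zero]⟩
          zero_mem' := ⟨U.zero_mem, QuadraticMap.map_zero Q⟩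
          smul_mem' := by
            rintro c a ⟨ha, ha'⟩
            exact ⟨U.smul_mem c ha, by rw [QuadraticMap.map_smul, ha', smul_zero]⟩ }
      rcases hirr W (fun u hu => hu.1) (fun w hw => ⟨hUx w hw.1, (hT w).trans hw.2⟩) with hW | hW
      · right
        have hQne : ∀ u ∈ U, Q u = 0 → u = 0 := by
          intro u hu h1
          have : u ∈ W := ⟨hu, h1⟩
          rw [hW, Submodule.mem_bot] at this
          exact this
        obtain ⟨u, hu, hu0⟩ := Submodule.exists_mem_ne_zero_of_ne_bot hU0
        have hQu : Q u ≠ 0 := fun h => hu0 (hQne u hu h)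
        have hall : ∀ v ∈ U, ∃ c : F, v = c • u := by
          intro v hv
          obtain ⟨c, hc⟩ := FiniteField.isSquare_of_char_two (ringChar.eq F 2 ▸ rfl) (Q v / Q u)
          refine ⟨c, ?_⟩
          have h1 : Q (c • u + v) = 0 := by
            rw [hadd _ (U.smul_mem c hu) v hv, QuadraticMap.map_smul, ← hc, smul_eq_mul, div_mul_cancel₀ _ hQu]
            exact CharTwo.add_self_eq_zero _
          have h2 := hQne _ (U.add_mem (U.smul_mem c hu) hv) h1
          have h3 : v = -(c • u) := (neg_eq_of_add_eq_zero_right h2).symm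
          rw [h3]
          ext i
          rw [Pi.neg_apply, CharTwo.neg_eq]
        refine ⟨rfl, ?_, ⟨u, hu, hQu⟩, ?_⟩
        · rw [finrank_eq_one_iff']
          refine ⟨⟨u, hu⟩, fun h => hu0 (congrArg Subtype.val h), ?_⟩
          rintro ⟨v, hv⟩
          obtain ⟨c, hc⟩ := hall v hv
          exact ⟨c, Subtype.ext hc.symm⟩
        · intro v hv
          by_cases hv0 : v = 0
          · rw [hv0, Matrix.mulVec_zero]
          obtain ⟨c, hc⟩ := hall v hv
          obtain ⟨d, hd⟩ := hall (T u) (hUx u hu)
          have h1 : d * d = 1 := by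
            have h2 := hT u
            rw [hd, QuadraticMap.map_smul, smul_eq_mul] at h2
            have : (d * d) * Q u = 1 * Q u := by rw [h2, one_mul]
            exact mul_right_cancel₀ hQu this
          have h2 : d = 1 := by
            rcases mul_self_eq_one_iff.mp h1 with h | h
            · exact h
            · rw [h, CharTwo.neg_eq]
          rw [h2, one_smul] at hd
          show T v = v
          rw [hc, map_smul, hd]
      · left
        intro u hu
        have : u ∈ W := by rw [hW]; exact hu
        exact this.2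
    · left
      intro u hu
      have h2 : (2 : F) ≠ 0 := by
        intro h2
        have h3 : ((2 : ℕ) : F) = 0 := by exact_mod_cast h2
        rw [CharP.cast_eq_zero_iff F p] at h3
        exact hp ((Nat.prime_dvd_prime_iff_eq (Fact.out : p.Prime) Nat.prime_two).mp h3)
      have h1 := hadd u hu u hu
      have h3 : Q (u + u) = 4 * Q u := by
        rw [← two_smul F u, QuadraticMap.map_smul, smul_eq_mul]; ring
      rw [h3] at h1
      have h4 : (2 : F) * Q u = 0 := by linear_combination h1
      exact (mul_eq_zero.mp h4).resolve_left h2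


end Cfsg.Agent.S2599
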