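import Cfsg.Statements.S2600
import Mathlib
import Cfsg.Agent.H8.SpAut6

set_option autoImplicit false
open Cfsg

namespace Cfsg.Agent.S2600

/-- Outer automorphism group of PSp_4(q) for q = 2^f even: it is cyclic of order 2f, generated by the class of the exceptional (graph-field) automorphism whose square is the Frobenius field automorphism. -/
theorem result {F : Type*} [Field F] [Fintype F] {f : ℕ} (hf : 1 ≤ f) (hF : Fintype.card F = 2 ^ f) : IsCyclic (Cfsg.Out (Cfsg.PSp 2 F)) ∧ Nat.card (Cfsg.Out (Cfsg.PSp 2 F)) = 2 * f := by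
  haveI : CharP F 2 := charP_of_card_eq_prime_pow hF
  have h2 : (2 : F) = 0 := CharTwo.two_eq_zero
  obtain ⟨σ, hσ, hgen⟩ := Cfsg.Agent.H8.SpAut.exists_frob hf hF
  refine ⟨⟨⟨QuotientGroup.mk (Cfsg.Agent.H8.SpAut.Gam h2), fun x => Cfsg.Agent.H8.SpAut.out_cyclic h2 σ hσ hgen x⟩⟩, ?_⟩
  have h1 := (Cfsg.Agent.H8.SpAut.stdG 2 F).card_mul_index
  haveI : Fact (Nat.Prime 2) := ⟨Nat.prime_two⟩
  rw [Cfsg.Agent.H8.SpAut.index_std h2, Cfsg.Agent.H8.SpAut.card_stdG (by omega), Cfsg.Agent.H8.SpAut.card_delta (by omega),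
    Cfsg.Agent.Lib.FinGal.card_gal F 2 hF hf, hF] at h1
  have h3 := (Cfsg.Inn (Cfsg.PSp 2 F)).card_mul_index
  rw [Cfsg.Agent.H8.SpAut.card_inn (by omega), ← h1] at h3
  have h4 : Nat.gcd 2 (2 ^ f - 1) = 1 := by
    apply (Nat.Prime.coprime_iff_not_dvd Nat.prime_two).2
    have h5 : 2 ∣ 2 ^ f := dvd_pow_self 2 (by omega)
    have h6 : 1 ≤ 2 ^ f := Nat.one_le_two_pow
    omega
  rw [h4, one_mul] at h3
  have h7 : 0 < Nat.card (Cfsg.PSp 2 F) := Nat.card_pos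
  have h8 : Nat.card (Cfsg.Out (Cfsg.PSp 2 F)) = (Cfsg.Inn (Cfsg.PSp 2 F)).index := rfl
  rw [h8]
  apply Nat.eq_of_mul_eq_mul_left h7
  rw [h3]; ring

end Cfsg.Agent.S2600
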