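import Cfsg.Statements.S2603
import Mathlib
import Cfsg.Agent.H8.Uni3
import Cfsg.Agent.H8.MSys2

set_option autoImplicit false
open Cfsg

namespace Cfsg.Agent.S2603

/-- Structure of the outer automorphism group of PSU_n(q), n ≥ 3, (n, q) ≠ (3, 2), q = p^f, realised over the field with q² elements: it has a normal cyclic subgroup of order gcd(n, q + 1) (diagonal automorphisms) with cyclic quotient of order 2f (generated by the Frobenius field automorphism of the field with q² elements, whose f-th power is the graph automorphism). -/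
theorem result {K : Type*} [Field K] [Fintype K] {p f q n : ℕ} [Fact p.Prime] (hf : 1 ≤ f) (hq : q = p ^ f) (hK : Fintype.card K = q ^ 2) (hn : 3 ≤ n) (h32 : ¬ (n = 3 ∧ q = 2)) : ∃ φ : Cfsg.Out (Cfsg.PSU n K q) →* Multiplicative (ZMod (2 * f)), Function.Surjective φ ∧ IsCyclic φ.ker ∧ Nat.card φ.ker = Nat.gcd n (q + 1) := by
  have h := Cfsg.Agent.H8.Uni.aut_std' hK hn h32
  obtain ⟨φ, hφ1, hφ2⟩ := (Cfsg.Agent.H8.Uni.US n K q).out_hom h (Cfsg.Agent.H8.Uni.hker' hK hn)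
  obtain ⟨τ, hτ, hτq⟩ := Cfsg.Agent.Lib.Herm.exists_sigma hK
  obtain ⟨hτ2, -, -⟩ := Cfsg.Agent.Lib.Herm.sigma_facts hτ
  have hcyc : IsCyclic φ.ker := (Cfsg.Agent.H8.Uni.US n K q).out_ker_cyclic (Cfsg.Agent.Lib.Herm.detGU hτ2 hτq n)
    (Cfsg.Agent.Lib.Herm.detGU_surj hτ hτ2 hτq (by omega)) _ (Cfsg.Agent.H8.Uni.hD hK hτ hτq hτ2 hn) φ hφ2
  haveI : IsCyclic (K ≃+* K) := Cfsg.Agent.Lib.FinGal.cyclic_gal K
  haveI : IsCyclic (Cfsg.Agent.H8.Uni.US n K q).A := inferInstanceAs (IsCyclic (⊤ : Subgroup (K ≃+* K)))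
  have hA := Cfsg.Agent.H8.Uni.card_A (n := n) hf hq hK
  haveI : NeZero (2 * f) := ⟨by omega⟩
  have e : (Cfsg.Agent.H8.Uni.US n K q).A ≃* Multiplicative (ZMod (2 * f)) :=
    mulEquivOfCyclicCardEq (by rw [hA, Nat.card_eq_fintype_card, Fintype.card_multiplicative, ZMod.card])
  have hker : (e.toMonoidHom.comp φ).ker = φ.ker := by
    ext x
    rw [MonoidHom.mem_ker, MonoidHom.mem_ker]
    exact map_eq_one_iff e e.injective
  have hcard : Nat.card φ.ker = Nat.gcd n (q + 1) := by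
    have h1 := (Cfsg.Agent.H8.Uni.US n K q).card_stdG (Cfsg.Agent.H8.Uni.hker' hK hn)
    rw [h, Cfsg.Agent.H8.Uni.card_delta hK hn, hA, Nat.card_congr (Subgroup.topEquiv (G := MulAut (Cfsg.PSU n K q))).toEquiv] at h1
    have h2 := (Cfsg.Inn (Cfsg.PSU n K q)).card_mul_index
    rw [(Cfsg.Agent.H8.Uni.US n K q).card_inn (Cfsg.Agent.H8.Uni.hker' hK hn), h1] at h2
    have h3 := φ.ker.card_mul_index
    rw [Subgroup.index_ker, MonoidHom.range_eq_top.2 hφ1, Nat.card_congr (Subgroup.topEquiv (G := (Cfsg.Agent.H8.Uni.US n K q).A)).toEquiv, hA] at h3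
    have h4 : Nat.card (Cfsg.Out (Cfsg.PSU n K q)) = (Cfsg.Inn (Cfsg.PSU n K q)).index := rfl
    rw [h4] at h3
    have h5 : 0 < Nat.card (Cfsg.PSU n K q) := Nat.card_pos
    have h6 : (Cfsg.Inn (Cfsg.PSU n K q)).index = Nat.gcd n (q + 1) * (2 * f) := by
      apply Nat.eq_of_mul_eq_mul_left h5
      rw [h2]; ring
    rw [h6] at h3
    exact Nat.eq_of_mul_eq_mul_right (by omega) h3
  refine ⟨e.toMonoidHom.comp φ, e.surjective.comp hφ1, ?_, ?_⟩
  · rw [hker]; exact hcyc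
  · rw [hker]; exact hcard

end Cfsg.Agent.S2603
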