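import Cfsg.Statements.S2604
import Mathlib
import Cfsg.Agent.H8.Ort7

set_option autoImplicit false
open Cfsg

namespace Cfsg.Agent.S2604

/-- Outer automorphism group of the simple orthogonal group Ω_(2m+1)(q), m ≥ 3, q = p^f odd: it is the direct product of a group of order 2 (diagonal automorphisms, from SO) and a cyclic group of order f (field automorphisms). -/
theorem result {F : Type*} [Field F] [Fintype F] {p f m : ℕ} [Fact p.Prime] (hf : 1 ≤ f) (hF : Fintype.card F = p ^ f) (hp : p ≠ 2) (hm : 3 ≤ m) : Nonempty (Cfsg.Out (Cfsg.POmega F (Cfsg.quadFormOdd m F)) ≃* Multiplicative (ZMod 2 × ZMod f)) := by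
  have hodd : Odd p := (Fact.out : p.Prime).odd_of_ne_two hp
  have h2 : (2 : F) ≠ 0 := Cfsg.Agent.Lib.Orth.two_ne_zero_of_odd (F := F) (by rw [hF]; exact hodd.pow)
  obtain ⟨e⟩ := (Cfsg.Agent.H8.Ort.OS m F).out_prod (Cfsg.Agent.H8.Ort.std_top' h2 hm) (Cfsg.Agent.H8.Ort.hkerO h2 hm)
    (Cfsg.Agent.H8.Ort.relindex_inn h2 hm)
  haveI : IsCyclic (F ≃+* F) := Cfsg.Agent.Lib.FinGal.cyclic_gal F
  haveI : NeZero f := ⟨by omega⟩
  have hA := Cfsg.Agent.H8.Ort.card_A (F := F) hf hF m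
  have e2 : (Cfsg.Agent.H8.Ort.OS m F).A ≃* Multiplicative (ZMod f) :=
    mulEquivOfCyclicCardEq (by rw [hA, Nat.card_eq_fintype_card, Fintype.card_multiplicative, ZMod.card])
  exact ⟨(e.trans (MulEquiv.prodCongr (MulEquiv.refl _) e2)).trans (MulEquiv.prodMultiplicative _ _).symm⟩

end Cfsg.Agent.S2604
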