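import Cfsg.Statements.S2610
import Mathlib
import Cfsg.Agent.Lib.Orth6
import Cfsg.Agent.Lib.Orth7
import Cfsg.Agent.Lib.Orth8
import Cfsg.Agent.Lib.Orth9
import Cfsg.Agent.Lib.Orth10
import Cfsg.Agent.Lib.Orth12
import Cfsg.Agent.Lib.Orth13
import Cfsg.Agent.Lib.Orth14
-- import your own Cfsg.Agent.* helpers here

set_option autoImplicit false
open Cfsg
set_option linter.all false

namespace Cfsg.Agent.S2610

theorem key {F V : Type*} [Field F] [Finite F] [AddCommGroup V] [Module F V]
    [FiniteDimensional F V] (h2 : (2 : F) ≠ 0) {n : ℕ} (he : Even n) (Q : QuadraticForm F V)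
    (hQ : (QuadraticMap.polarBilin Q).Nondegenerate) (b : Module.Basis (Fin n) F V)
    (hb : ∀ i j, i ≠ j → QuadraticMap.polar Q (b i) (b j) = 0) :
    Cfsg.Agent.Lib.Orth.negO Q ∈ commutator ↥(Cfsg.Agent.Lib.Orth.O Q) ↔
      IsSquare (Cfsg.Agent.Lib.Orth.gram ⇑Q b).det := by
  have hne : ∀ i, Q (b i) ≠ 0 := by
    intro i h0
    have : b i = 0 := by
      apply Cfsg.Agent.Lib.Orth.ND.eq_zero hQ
      intro y
      rw [← b.sum_repr y]
      have h3 : QuadraticMap.polar Q (b i) (∑ j, b.repr y j • b j)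
          = (QuadraticMap.polarBilin Q (b i)) (∑ j, b.repr y j • b j) := rfl
      rw [h3, map_sum]
      apply Finset.sum_eq_zero
      intro j _
      rw [map_smul]
      change b.repr y j • QuadraticMap.polar Q (b i) (b j) = 0
      by_cases hij : i = j
      · subst hij
        rw [Cfsg.Agent.Lib.Orth.polar_self', h0, mul_zero, smul_zero]
      · rw [hb i j hij, smul_zero]
    exact b.ne_zero i this
  have hneg : Cfsg.Agent.Lib.Orth.rp Q (List.ofFn b) = Cfsg.Agent.Lib.Orth.negO Q := by
    apply Cfsg.Agent.Lib.Orth.negO_eq_rp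
    · rw [List.pairwise_ofFn]
      intro i j hij
      exact hb i j hij.ne
    · intro v hv
      obtain ⟨i, rfl⟩ := (List.mem_ofFn' b v).mp hv
      exact hne i
    · rw [eq_top_iff, ← b.span_eq]
      apply Submodule.span_mono
      rintro _ ⟨i, rfl⟩
      exact (List.mem_ofFn' b _).mpr ⟨i, rfl⟩
  rw [← hneg, Cfsg.Agent.Lib.Orth.rp_mem_commutator_iff' hQ h2]
  · have h4 : Cfsg.Agent.Lib.Orth.gram ⇑Q b = Matrix.diagonal (fun i => 2 * Q (b i)) := by
      ext i j
      by_cases hij : i = j
      · subst hij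
        rw [Matrix.diagonal_apply_eq]
        exact Cfsg.Agent.Lib.Orth.polar_self' Q (b i)
      · rw [Matrix.diagonal_apply_ne _ hij]
        exact hb i j hij
    rw [h4, Matrix.det_diagonal, Finset.prod_mul_distrib, Finset.prod_const, Finset.card_univ,
      Fintype.card_fin, List.length_ofFn, List.map_ofFn, List.prod_ofFn]
    have h5 : IsSquare ((2 : F) ^ n) := he.isSquare_pow 2
    have h6 : (2 : F) ^ n ≠ 0 := pow_ne_zero _ h2
    have h7 : ∏ i, Q (b i) ≠ 0 := Finset.prod_ne_zero_iff.mpr fun i _ => hne i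
    rw [Cfsg.Agent.Lib.Orth.isSquare_mul_iff h2 h6 h7]
    constructor
    · rintro ⟨-, h8⟩; exact iff_of_true h5 h8
    · intro h8; exact ⟨he, h8.mp h5⟩
  · intro v hv
    obtain ⟨i, rfl⟩ := (List.mem_ofFn' b v).mp hv
    exact hne i

/-- For a quadratic form Q on F^n with non-degenerate polar form, F finite of odd order and n ≥ 2 even, the isometry −1 lies in Ω (the commutator subgroup of the orthogonal group) if and only if the discriminant of Q (the determinant of the Gram matrix of its polar form) is a square. -/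
theorem result {F : Type*} [Field F] [Fintype F] (h2 : (2 : F) ≠ 0) {n : ℕ} (hn : 2 ≤ n) (he : Even n) (Q : QuadraticForm F (Fin n → F)) (hQ : (QuadraticMap.polarBilin Q).Nondegenerate) : (∃ g : ↥(Cfsg.isometryGroup F ⇑Q), g ∈ Cfsg.Omega F ⇑Q ∧ ((g : Matrix.GeneralLinearGroup (Fin n) F) : Matrix (Fin n) (Fin n) F) = -1) ↔ IsSquare (Matrix.of (fun i j : Fin n => QuadraticMap.polar ⇑Q (Pi.single i 1) (Pi.single j 1))).det := by
  haveI : Invertible (2 : F) := invertibleOfNonzero h2
  have hS : (QuadraticMap.polarBilin Q).IsSymm := ⟨fun x y => QuadraticMap.polar_comm _ _ _⟩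
  obtain ⟨v, hv⟩ := LinearMap.BilinForm.exists_orthogonal_basis (B := QuadraticMap.polarBilin Q) hS
  have hfr : Module.finrank F (Fin n → F) = n := Cfsg.Agent.Lib.Orth.finrank_fin n
  rw [Cfsg.Agent.Lib.Orth.neg_one_iff]
  rw [key h2 he Q hQ (v.reindex (finCongr hfr))]
  · rw [Cfsg.Agent.Lib.Orth.isSquare_gram_iff Q (v.reindex (finCongr hfr)) (Pi.basisFun F (Fin n))]
    have : Cfsg.Agent.Lib.Orth.gram ⇑Q (Pi.basisFun F (Fin n))
        = Matrix.of (fun i j : Fin n => QuadraticMap.polar ⇑Q (Pi.single i 1) (Pi.single j 1)) := by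
      ext i j
      simp [Cfsg.Agent.Lib.Orth.gram]
    rw [this]
  · intro i j hij
    rw [Module.Basis.reindex_apply, Module.Basis.reindex_apply]
    apply hv
    intro h
    exact hij ((finCongr hfr).symm.injective h)


end Cfsg.Agent.S2610
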