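import Cfsg.Statements.S2611
import Mathlib
import Cfsg.Agent.Lib.Orth21
-- import your own Cfsg.Agent.* helpers here

set_option autoImplicit false
open Cfsg
set_option linter.all false

namespace Cfsg.Agent.S2611

/-- For the hyperbolic quadratic form Σ x_i y_i on F^(2m) (F finite, m ≥ 1, excluding m = 2 over the field of two elements) and an invertible m × m matrix A, the block-diagonal isometry diag(A, (A⁻¹)ᵀ), which stabilises the two maximal totally singular subspaces x = 0 and y = 0, lies in Ω⁺_2m(F) (the commutator subgroup of the orthogonal group) if and only if det A is a square in F. -/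
theorem result {F : Type*} [Field F] [Fintype F] {m : ℕ} (hm : 1 ≤ m) (h : Fintype.card F ≠ 2 ∨ m ≠ 2) (A : GL (Fin m) F) : (∃ g : ↥(Cfsg.isometryGroup F (Cfsg.quadFormPlus m F)), g ∈ Cfsg.Omega F (Cfsg.quadFormPlus m F) ∧ ((g : Matrix.GeneralLinearGroup (Fin m ⊕ Fin m) F) : Matrix (Fin m ⊕ Fin m) (Fin m ⊕ Fin m) F) = Matrix.fromBlocks (A : Matrix (Fin m) (Fin m) F) 0 0 ((A : Matrix (Fin m) (Fin m) F)⁻¹).transpose) ↔ IsSquare (A : Matrix (Fin m) (Fin m) F).det := by
  open Cfsg.Agent.Lib.Orth in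
  have hex := hex_of (F := F) (V := Fin m ⊕ Fin m → F) (n := 2 * m)
    (by rw [finrank_pi', Fintype.card_sum, Fintype.card_fin]; ring) (by
      rcases h with h | h
      · exact Or.inl h
      · exact Or.inr (by omega))
  have hQ : ND (qPlus m F) := nd_plus
  have hR : R (qPlus m F) = O (qPlus m F) := R_eq_O hQ hex
  have hA : (A : Matrix (Fin m) (Fin m) F).det ≠ 0 := by
    have := A.isUnit.map (Matrix.detMonoidHom)
    exact this.ne_zero
  obtain ⟨vs, h1, h2, h3, h4⟩ := levP_all hR hex (A : Matrix (Fin m) (Fin m) F) hA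
  have key := exists_Omega_iff (Q := qPlus m F) (levM (A : Matrix (Fin m) (Fin m) F)) (rp (qPlus m F) vs) h4
  rw [coe_qPlus] at key
  refine key.trans ?_
  rw [rp_mem_iff hQ hR h1]
  have hne : (vs.map (fun v => qPlus m F v)).prod ≠ 0 := by
    intro h0
    obtain ⟨v, hv, hv0⟩ := List.mem_map.mp (List.prod_eq_zero_iff.mp h0)
    exact h1 v hv hv0
  constructor
  · rintro ⟨-, t, ht⟩
    obtain ⟨s, hs⟩ := h3
    have ht0 : t ≠ 0 := by rintro rfl; exact hne (by rw [ht]; ring)
    refine ⟨s * t⁻¹, ?_⟩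
    rw [ht] at hs
    field_simp
    linear_combination hs
  · rintro ⟨t, ht⟩
    obtain ⟨s, hs⟩ := h3
    have ht0 : t ≠ 0 := by rintro rfl; exact hA (by rw [ht]; ring)
    refine ⟨h2, s * t⁻¹, ?_⟩
    rw [ht] at hs
    field_simp
    linear_combination hs


end Cfsg.Agent.S2611
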