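import Cfsg.Statements.S2612
import Mathlib
import Cfsg.Agent.Lib.Orth21
-- import your own Cfsg.Agent.* helpers here

set_option autoImplicit false
open Cfsg
set_option linter.all false

namespace Cfsg.Agent.S2612

/-- For the hyperbolic quadratic form Σ x_i y_i on F^(2m) (F finite, m ≥ 1, excluding m = 2 over the field of two elements), Ω⁺_2m(F) (the commutator subgroup of the orthogonal group) contains an element interchanging the two complementary maximal totally singular subspaces {y = 0} and {x = 0} if and only if m is even (dimension divisible by 4). -/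
theorem result {F : Type*} [Field F] [Fintype F] {m : ℕ} (hm : 1 ≤ m) (h : Fintype.card F ≠ 2 ∨ m ≠ 2) : (∃ g : ↥(Cfsg.isometryGroup F (Cfsg.quadFormPlus m F)), g ∈ Cfsg.Omega F (Cfsg.quadFormPlus m F) ∧ (∀ v : Fin m ⊕ Fin m → F, (∀ i, v (Sum.inr i) = 0) → ∀ i, (((g : Matrix.GeneralLinearGroup (Fin m ⊕ Fin m) F) : Matrix (Fin m ⊕ Fin m) (Fin m ⊕ Fin m) F).mulVec v) (Sum.inl i) = 0) ∧ (∀ v : Fin m ⊕ Fin m → F, (∀ i, v (Sum.inl i) = 0) → ∀ i, (((g : Matrix.GeneralLinearGroup (Fin m ⊕ Fin m) F) : Matrix (Fin m ⊕ Fin m) (Fin m ⊕ Fin m) F).mulVec v) (Sum.inr i) = 0)) ↔ Even m := by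
  open Cfsg.Agent.Lib.Orth Module in
  have hex := hex_of (F := F) (V := Fin m ⊕ Fin m → F) (n := 2 * m)
    (by rw [finrank_pi', Fintype.card_sum, Fintype.card_fin]; ring) (by
      rcases h with h | h
      · exact Or.inl h
      · exact Or.inr (by omega))
  have hQ : ND (qPlus m F) := nd_plus
  have hR : R (qPlus m F) = O (qPlus m F) := R_eq_O hQ hex
  rw [← coe_qPlus]
  constructor
  · rintro ⟨g, hg, h1, h2⟩
    have h3 := (mem_Omega_iff g).mp hg
    have h4 := mem_commutator_parity hQ hR h3 (eSpace_MS (F := F) (m := m))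
    have h5 : eSpace m F ⊓ (eSpace m F).map ((isoO (qPlus m F) g).1 : (Fin m ⊕ Fin m → F) →ₗ[F] (Fin m ⊕ Fin m → F)) = ⊥ := by
      rw [eq_bot_iff]
      rintro x ⟨hx, ⟨y, hy, rfl⟩⟩
      have h6 := h1 y (mem_eSpace.mp hy)
      have h7 : ((isoO (qPlus m F) g).1 : (Fin m ⊕ Fin m → F) →ₗ[F] (Fin m ⊕ Fin m → F)) y
        = ((g : Matrix.GeneralLinearGroup (Fin m ⊕ Fin m) F) : Matrix (Fin m ⊕ Fin m) (Fin m ⊕ Fin m) F).mulVec y :=
        isoO_apply (qPlus m F) g y
      rw [Submodule.mem_bot]
      funext i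
      rcases i with i | i
      · rw [h7, h6]; rfl
      · exact mem_eSpace.mp hx i
    rw [h5, finrank_bot, finrank_eSpace, zero_add] at h4
    exact h4
  · intro hm2
    have hf := hfPlus (m := m) (F := F)
    have h0 := rprod_swl hf (List.nodup_finRange m)
    have hmem : rp (qPlus m F) (swl ePlus fPlus (List.finRange m)) ∈ commutator ↥(O (qPlus m F)) := by
      rw [rp_mem_iff hQ hR (swl_ne_zero hf _), prod_swl hf]
      have : (swl (ePlus (F := F) (m := m)) fPlus (List.finRange m)).length = m := by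
        simp [swl]
      rw [this, List.length_finRange]
      refine ⟨hm2, ?_⟩
      obtain ⟨k, rfl⟩ := hm2
      exact ⟨(-1) ^ k, by rw [pow_add]⟩
    refine ⟨(isoO (qPlus m F)).symm (rp (qPlus m F) (swl ePlus fPlus (List.finRange m))), ?_, ?_, ?_⟩
    · rw [mem_Omega_iff, MulEquiv.apply_symm_apply]
      exact hmem
    · intro v hv i
      rw [← isoO_apply, MulEquiv.apply_symm_apply, rp_coe]
      have hv' : v = ∑ j, v (Sum.inl j) • (ePlus j : Fin m ⊕ Fin m → F) := by
        funext k
        rcases k with k | k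
        · simp [ePlus, Finset.sum_apply, Pi.single_apply]
        · rw [hv k]; simp [ePlus, Finset.sum_apply, Pi.single_apply]
      rw [hv', map_sum]
      simp only [map_smul, (h0 _).1, List.mem_finRange, if_true]
      simp [fPlus, Finset.sum_apply, Pi.single_apply]
    · intro v hv i
      rw [← isoO_apply, MulEquiv.apply_symm_apply, rp_coe]
      have hv' : v = ∑ j, v (Sum.inr j) • (fPlus j : Fin m ⊕ Fin m → F) := by
        funext k
        rcases k with k | k
        · rw [hv k]; simp [fPlus, Finset.sum_apply, Pi.single_apply]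
        · simp [fPlus, Finset.sum_apply, Pi.single_apply]
      rw [hv', map_sum]
      simp only [map_smul, (h0 _).2, List.mem_finRange, if_true]
      simp [ePlus, Finset.sum_apply, Pi.single_apply]


end Cfsg.Agent.S2612
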