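import Cfsg.Statements.S2614
import Mathlib
import Cfsg.Agent.Lib.Orth6
import Cfsg.Agent.Lib.Orth7
import Cfsg.Agent.Lib.Orth8
import Cfsg.Agent.Lib.Orth9
import Cfsg.Agent.Lib.Orth10
import Cfsg.Agent.Lib.Orth12
import Cfsg.Agent.Lib.Orth13
import Cfsg.Agent.Lib.Orth14
-- import your own Cfsg.Agent.* helpers here

set_option autoImplicit false
open Cfsg
set_option linter.all false

namespace Cfsg.Agent.S2614

theorem mem_filt {m i : ℕ} (j : Fin m) :
    j ∈ (List.finRange m).filter (fun j : Fin m => (j : ℕ) < i) ↔ (j : ℕ) < i := by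
  rw [List.mem_filter]; simp

theorem len_filt {m i : ℕ} (him : i ≤ m) :
    ((List.finRange m).filter (fun j : Fin m => (j : ℕ) < i)).length = i := by
  have h1 : ((List.finRange m).filter (fun j : Fin m => (j : ℕ) < i)).Nodup :=
    (List.nodup_finRange m).filter _
  rw [← List.toFinset_card_of_nodup h1]
  have h2 : ((List.finRange m).filter (fun j : Fin m => (j : ℕ) < i)).toFinset
      = Finset.univ.filter (fun j : Fin m => (j : ℕ) < i) := by
    ext j; simp
  rw [h2, Fin.card_filter_val_lt]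
  exact min_eq_right him

/-- For the form x_0² + Σ x_j y_j on F^(2m+1), F finite with q elements, q odd, and 1 ≤ i ≤ m: the involution of determinant one negating the first i hyperbolic pairs (and fixing x_0 and the other pairs) lies in Ω_(2m+1)(q) (commutator subgroup of the orthogonal group) if and only if q^i ≡ 1 (mod 4); its (−1)-eigenspace is a hyperbolic 2i-space. -/
theorem result {F : Type*} [Field F] [Fintype F] {q : ℕ} (hF : Fintype.card F = q) (hq : Odd q) {m : ℕ} (i : ℕ) (hi : 1 ≤ i) (him : i ≤ m) : (∃ g : ↥(Cfsg.isometryGroup F (Cfsg.quadFormOdd m F)), g ∈ Cfsg.Omega F (Cfsg.quadFormOdd m F) ∧ ((g : Matrix.GeneralLinearGroup (Unit ⊕ (Fin m ⊕ Fin m)) F) : Matrix (Unit ⊕ (Fin m ⊕ Fin m)) (Unit ⊕ (Fin m ⊕ Fin m)) F) = Matrix.diagonal (fun k : Unit ⊕ (Fin m ⊕ Fin m) => if (Sum.elim (fun _ : Unit => i) (Sum.elim (fun j : Fin m => (j : ℕ)) (fun j : Fin m => (j : ℕ))) k) < i then (-1 : F) else 1)) ↔ q ^ i % 4 = 1 := by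
  have h2 : (2 : F) ≠ 0 := Cfsg.Agent.Lib.Orth.two_ne_zero_of_odd (hF ▸ hq)
  rw [← Cfsg.Agent.Lib.Orth.coe_qOdd]
  rw [Cfsg.Agent.Lib.Orth.exists_Omega_iff _ (Cfsg.Agent.Lib.Orth.rp (Cfsg.Agent.Lib.Orth.qOdd m F)
    (Cfsg.Agent.Lib.Orth.pl Cfsg.Agent.Lib.Orth.eOdd Cfsg.Agent.Lib.Orth.fOdd
      ((List.finRange m).filter (fun j : Fin m => (j : ℕ) < i))))]
  · rw [Cfsg.Agent.Lib.Orth.rp_pl_mem_iff (Cfsg.Agent.Lib.Orth.nd_odd h2) h2
      Cfsg.Agent.Lib.Orth.hfOdd, len_filt him,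
      Cfsg.Agent.Lib.Orth.isSquare_neg_one_pow_iff hF hq]
  · apply Cfsg.Agent.Lib.Orth.eq_mulVec_of_single
    intro k
    rw [Cfsg.Agent.Lib.Orth.diagonal_mulVec_single', Cfsg.Agent.Lib.Orth.rp_coe]
    rcases k with j | j | j
    · simp only [Sum.elim_inl, lt_irrefl, if_false, one_smul]
      apply Cfsg.Agent.Lib.Orth.rprod_pl_orth
      intro l _
      rw [Cfsg.Agent.Lib.Orth.polar_eOdd, Cfsg.Agent.Lib.Orth.polar_fOdd]
      simp [Pi.single_apply]
    · have := Cfsg.Agent.Lib.Orth.rprod_pl_e (Cfsg.Agent.Lib.Orth.hfOdd (F := F) (m := m))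
        (L := (List.finRange m).filter (fun j : Fin m => (j : ℕ) < i))
        ((List.nodup_finRange m).filter _) j
      rw [Cfsg.Agent.Lib.Orth.eOdd] at this
      rw [this]
      by_cases hj : (j : ℕ) < i
      · rw [if_pos ((mem_filt j).mpr hj)]
        refine Eq.trans ?_ (congrArg (fun t : F => t • (_ : _ → F)) (if_pos hj).symm)
        rw [neg_smul, one_smul]
      · rw [if_neg (fun h => hj ((mem_filt j).mp h))]
        refine Eq.trans ?_ (congrArg (fun t : F => t • (_ : _ → F)) (if_neg hj).symm)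
        rw [one_smul]
    · have := Cfsg.Agent.Lib.Orth.rprod_pl_f (Cfsg.Agent.Lib.Orth.hfOdd (F := F) (m := m))
        (L := (List.finRange m).filter (fun j : Fin m => (j : ℕ) < i))
        ((List.nodup_finRange m).filter _) j
      rw [Cfsg.Agent.Lib.Orth.fOdd] at this
      rw [this]
      by_cases hj : (j : ℕ) < i
      · rw [if_pos ((mem_filt j).mpr hj)]
        refine Eq.trans ?_ (congrArg (fun t : F => t • (_ : _ → F)) (if_pos hj).symm)
        rw [neg_smul, one_smul]
      · rw [if_neg (fun h => hj ((mem_filt j).mp h))]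
        refine Eq.trans ?_ (congrArg (fun t : F => t • (_ : _ → F)) (if_neg hj).symm)
        rw [one_smul]


end Cfsg.Agent.S2614
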