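import Cfsg.Statements.S2616
import Mathlib
import Cfsg.Agent.Lib.Orth1
import Cfsg.Agent.Lib.Orth2
import Cfsg.Agent.Lib.Orth6
import Cfsg.Agent.Lib.Orth7
import Cfsg.Agent.Lib.Orth8
import Cfsg.Agent.Lib.Orth9
import Cfsg.Agent.Lib.Orth13
import Cfsg.Agent.Lib.Orth14
import Cfsg.Agent.Lib.Orth16
-- import your own Cfsg.Agent.* helpers here

set_option autoImplicit false
open Cfsg
set_option linter.all false

namespace Cfsg.Agent.S2616

/-- Standard bases of a non-degenerate quadratic space of even dimension 2m over a finite field: either there is a hyperbolic basis e_i, f_i (Q(e_i) = Q(f_i) = 0, B(e_i, f_j) = δ_ij, the e's pairwise orthogonal and the f's pairwise orthogonal, B the polar form), or there is an elliptic basis: hyperbolic pairs e_i, f_i for i < m − 1 together with x, y orthogonal to them with Q(x) = 1, B(x, y) = 1, Q(y) = ζ where t² + t + ζ has no root in the field. -/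
theorem result {F V : Type*} [Field F] [Finite F] [AddCommGroup V] [Module F V] [FiniteDimensional F V] {m : ℕ} (hm : 1 ≤ m) (hV : Module.finrank F V = 2 * m) (Q : QuadraticForm F V) (hQ : (QuadraticMap.polarBilin Q).Nondegenerate) : (∃ b : Module.Basis (Fin m ⊕ Fin m) F V, (∀ i, Q (b (Sum.inl i)) = 0 ∧ Q (b (Sum.inr i)) = 0) ∧ (∀ i j, QuadraticMap.polar ⇑Q (b (Sum.inl i)) (b (Sum.inr j)) = if i = j then 1 else 0) ∧ (∀ i j, QuadraticMap.polar ⇑Q (b (Sum.inl i)) (b (Sum.inl j)) = 0 ∧ QuadraticMap.polar ⇑Q (b (Sum.inr i)) (b (Sum.inr j)) = 0)) ∨ (∃ (b : Module.Basis ((Fin (m - 1) ⊕ Fin (m - 1)) ⊕ Fin 2) F V) (ζ : F), (∀ t : F, t ^ 2 + t + ζ ≠ 0) ∧ (∀ i, Q (b (Sum.inl (Sum.inl i))) = 0 ∧ Q (b (Sum.inl (Sum.inr i))) = 0) ∧ (∀ i j, QuadraticMap.polar ⇑Q (b (Sum.inl (Sum.inl i))) (b (Sum.inl (Sum.inr j))) = if i = j then 1 else 0) ∧ (∀ i j, QuadraticMap.polar ⇑Q (b (Sum.inl (Sum.inl i))) (b (Sum.inl (Sum.inl j))) = 0 ∧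 QuadraticMap.polar ⇑Q (b (Sum.inl (Sum.inr i))) (b (Sum.inl (Sum.inr j))) = 0) ∧ (∀ i (k : Fin 2), QuadraticMap.polar ⇑Q (b (Sum.inl (Sum.inl i))) (b (Sum.inr k)) = 0 ∧ QuadraticMap.polar ⇑Q (b (Sum.inl (Sum.inr i))) (b (Sum.inr k)) = 0) ∧ Q (b (Sum.inr 0)) = 1 ∧ QuadraticMap.polar ⇑Q (b (Sum.inr 0)) (b (Sum.inr 1)) = 1 ∧ Q (b (Sum.inr 1)) = ζ) := by
  obtain ⟨k, e, f, h, ha, hr, hfr⟩ := Cfsg.Agent.Lib.Orth.exists_decomp hQ
  rw [hV] at hfr
  rcases Nat.eq_or_lt_of_le (show k ≤ m by omega) with hk | hk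
  · left
    subst hk
    have hr0 : Module.finrank F (Cfsg.Agent.Lib.Orth.cpl Q e f) = 0 := by omega
    let b := (h.basis (κ := Fin 0) (w := Fin.elim0) (fun k => k.elim0)
      linearIndependent_empty_type (by simp [hr0])).reindex (Equiv.sumEmpty _ _)
    have hb1 : ∀ i, b (Sum.inl i) = e i := fun i => by
      rw [Module.Basis.reindex_apply, Cfsg.Agent.Lib.Orth.HF.basis_apply]; rfl
    have hb2 : ∀ i, b (Sum.inr i) = f i := fun i => by
      rw [Module.Basis.reindex_apply, Cfsg.Agent.Lib.Orth.HF.basis_apply]; rfl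
    refine ⟨b, fun i => ?_, fun i j => ?_, fun i j => ?_⟩
    · rw [hb1, hb2]; exact ⟨h.he i, h.hf i⟩
    · rw [hb1, hb2]; exact h.hef i j
    · rw [hb1, hb2, hb1, hb2]; exact ⟨h.hee i j, h.hff i j⟩
  · right
    have hk' : k = m - 1 := by omega
    subst hk'
    have hr2 : Module.finrank F (Cfsg.Agent.Lib.Orth.cpl Q e f) = 2 := by omega
    obtain ⟨x, y, hli, hx, hxy, hy⟩ := Cfsg.Agent.Lib.Orth.exists_anis_basis
      (Cfsg.Agent.Lib.Orth.nd_cpl V Q h hQ) (fun x hx => Subtype.ext (ha x.1 x.2 hx)) hr2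
    have hw : ∀ k : Fin 2, (![(x : V), (y : V)] k) ∈ Cfsg.Agent.Lib.Orth.cpl Q e f := by
      intro k; fin_cases k
      · exact x.2
      · exact y.2
    have hli' : LinearIndependent F ![(x : V), (y : V)] := by
      have h1 := hli.map' (Cfsg.Agent.Lib.Orth.cpl Q e f).subtype (Submodule.ker_subtype _)
      have h2 : (⇑(Cfsg.Agent.Lib.Orth.cpl Q e f).subtype ∘ ![x, y]) = ![(x : V), (y : V)] := by
        funext k; fin_cases k <;> rfl
      rw [h2] at h1; exact h1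
    let b := h.basis (κ := Fin 2) hw hli' (by simp [hr2])
    have hb : ∀ i, b i = Sum.elim (Sum.elim e f) ![(x : V), (y : V)] i := fun i =>
      Cfsg.Agent.Lib.Orth.HF.basis_apply h hw hli' _ i
    refine ⟨b, Q y, hy, fun i => ?_, fun i j => ?_, fun i j => ?_, fun i k => ?_, ?_, ?_, ?_⟩
    · rw [hb, hb]; exact ⟨h.he i, h.hf i⟩
    · rw [hb, hb]; exact h.hef i j
    · rw [hb, hb, hb, hb]; exact ⟨h.hee i j, h.hff i j⟩
    · rw [hb, hb, hb]
      change QuadraticMap.polar Q (e i) (![(x : V), (y : V)] k) = 0 ∧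
        QuadraticMap.polar Q (f i) (![(x : V), (y : V)] k) = 0
      rw [QuadraticMap.polar_comm, QuadraticMap.polar_comm Q (f i)]
      exact hw k i
    · rw [hb]; exact hx
    · rw [hb, hb]; exact hxy
    · rw [hb]; rfl


end Cfsg.Agent.S2616
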