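import Cfsg.Statements.S2617
import Mathlib
import Cfsg.Agent.Lib.Orth1
import Cfsg.Agent.Lib.Orth2
import Cfsg.Agent.Lib.Orth6
import Cfsg.Agent.Lib.Orth7
import Cfsg.Agent.Lib.Orth8
import Cfsg.Agent.Lib.Orth9
import Cfsg.Agent.Lib.Orth13
import Cfsg.Agent.Lib.Orth14
import Cfsg.Agent.Lib.Orth16
-- import your own Cfsg.Agent.* helpers here

set_option autoImplicit false
open Cfsg
set_option linter.all false

namespace Cfsg.Agent.S2617

/-- The two standard quadratic forms of even dimension 2m over a finite field are not isometric: there is no linear isomorphism carrying the elliptic form Σ_(i<m−1) x_i y_i + z₁² + z₁z₂ + ζ z₂² (t² + t + ζ without roots) to the hyperbolic form Σ_(i<m) x_i y_i (they have different Witt index). -/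
theorem result {F : Type*} [Field F] [Finite F] {m : ℕ} (hm : 1 ≤ m) (ζ : F) (hζ : ∀ t : F, t ^ 2 + t + ζ ≠ 0) (g : (Fin m ⊕ Fin m → F) ≃ₗ[F] ((Fin (m - 1) ⊕ Fin (m - 1)) ⊕ Fin 2 → F)) : ¬ (∀ v : Fin m ⊕ Fin m → F, Cfsg.quadFormMinus (m - 1) F 1 ζ (g v) = Cfsg.quadFormPlus m F v) := by
  intro hg
  have hab : ∀ z₁ z₂ : F, z₁ ^ 2 + 1 * z₁ * z₂ + ζ * z₂ ^ 2 = 0 → z₁ = 0 ∧ z₂ = 0 := by
    intro z1 z2 h
    by_cases h2 : z2 = 0
    · subst h2
      refine ⟨?_, rfl⟩
      have : z1 ^ 2 = 0 := by linear_combination h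
      exact pow_eq_zero_iff (two_ne_zero) |>.mp this
    · exfalso
      apply hζ (z1 / z2)
      field_simp
      linear_combination h
  -- the span of the `e i` is mapped to a totally singular subspace
  have hHF := Cfsg.Agent.Lib.Orth.hfMinus (F := F) (m := m - 1) (a := 1) (b := ζ)
  let W : Submodule F (Fin m ⊕ Fin m → F) := Submodule.span F (Set.range
    (Cfsg.Agent.Lib.Orth.ePlus (F := F) (m := m)))
  have hHP := Cfsg.Agent.Lib.Orth.hfPlus (F := F) (m := m)
  have hW : ∀ w ∈ W, Cfsg.quadFormPlus m F w = 0 := by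
    intro w hw
    have h1 : ∀ i, w (Sum.inr i) = 0 := by
      intro i
      induction hw using Submodule.span_induction with
      | mem x hx => obtain ⟨j, rfl⟩ := hx; simp [Cfsg.Agent.Lib.Orth.ePlus]
      | zero => rfl
      | add x y _ _ hx hy => rw [Pi.add_apply, hx, hy, add_zero]
      | smul a x _ hx => rw [Pi.smul_apply, hx, smul_zero]
    unfold Cfsg.quadFormPlus
    simp [h1]
  have hfr : Module.finrank F W = m := by
    have hli : LinearIndependent F (Cfsg.Agent.Lib.Orth.ePlus (F := F) (m := m)) := by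
      have := hHP.li (κ := Fin 0) (w := Fin.elim0) (fun k => k.elim0) (linearIndependent_empty_type)
      exact (this.comp Sum.inl Sum.inl_injective).comp Sum.inl Sum.inl_injective
    rw [finrank_span_eq_card hli, Fintype.card_fin]
  have h1 := hHF.finrank_le (Cfsg.Agent.Lib.Orth.nd_minus hab)
    (Cfsg.Agent.Lib.Orth.anis_minus hab)
    (W := W.map (g : (Fin m ⊕ Fin m → F) →ₗ[F] ((Fin (m - 1) ⊕ Fin (m - 1)) ⊕ Fin 2 → F))) (by
      rintro _ ⟨w, hw, rfl⟩
      rw [Cfsg.Agent.Lib.Orth.qMinus_apply]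
      exact (hg w).trans (hW w hw))
  have h2 := LinearEquiv.finrank_map_eq g W
  have h3 : Module.finrank F (W.map (g : (Fin m ⊕ Fin m → F) →ₗ[F]
    ((Fin (m - 1) ⊕ Fin (m - 1)) ⊕ Fin 2 → F))) = m := h2.trans hfr
  rw [h3] at h1
  omega


end Cfsg.Agent.S2617
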