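import Cfsg.Statements.S2618
import Mathlib
import Cfsg.Agent.Lib.Orth1
import Cfsg.Agent.Lib.Orth2
import Cfsg.Agent.Lib.Orth6
import Cfsg.Agent.Lib.Orth7
import Cfsg.Agent.Lib.Orth8
import Cfsg.Agent.Lib.Orth9
import Cfsg.Agent.Lib.Orth13
import Cfsg.Agent.Lib.Orth14
import Cfsg.Agent.Lib.Orth16
-- import your own Cfsg.Agent.* helpers here

set_option autoImplicit false
open Cfsg
set_option linter.all false

namespace Cfsg.Agent.S2618

/-- Standard (parabolic) basis of a non-degenerate quadratic space of odd dimension 2m + 1 over a finite field (the non-degeneracy of the polar form forces the characteristic to be odd): there is a basis e_i, f_i (i < m), x with Q(e_i) = Q(f_i) = 0, B(e_i, f_j) = δ_ij (B the polar form), the e's pairwise orthogonal and the f's pairwise orthogonal, x orthogonal to all of them and Q(x) ≠ 0. -/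
theorem result {F V : Type*} [Field F] [Finite F] [AddCommGroup V] [Module F V] [FiniteDimensional F V] {m : ℕ} (hV : Module.finrank F V = 2 * m + 1) (Q : QuadraticForm F V) (hQ : (QuadraticMap.polarBilin Q).Nondegenerate) : ∃ b : Module.Basis (Unit ⊕ (Fin m ⊕ Fin m)) F V, Q (b (Sum.inl ())) ≠ 0 ∧ (∀ i, QuadraticMap.polar ⇑Q (b (Sum.inl ())) (b (Sum.inr (Sum.inl i))) = 0 ∧ QuadraticMap.polar ⇑Q (b (Sum.inl ())) (b (Sum.inr (Sum.inr i))) = 0) ∧ (∀ i, Q (b (Sum.inr (Sum.inl i))) = 0 ∧ Q (b (Sum.inr (Sum.inr i))) = 0) ∧ (∀ i j, QuadraticMap.polar ⇑Q (b (Sum.inr (Sum.inl i))) (b (Sum.inr (Sum.inr j))) = if i = j then 1 else 0) ∧ (∀ i j, QuadraticMap.polar ⇑Q (b (Sum.inr (Sum.inl i))) (b (Sum.inr (Sum.inl j))) = 0 ∧ QuadraticMap.polar ⇑Q (b (Sum.inr (Sum.inr i))) (b (Sum.inr (Sum.inr j))) = 0) := by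
  obtain ⟨k, e, f, h, ha, hr, hfr⟩ := Cfsg.Agent.Lib.Orth.exists_decomp hQ
  rw [hV] at hfr
  have hk : k = m := by omega
  subst hk
  have hr1 : Module.finrank F (Cfsg.Agent.Lib.Orth.cpl Q e f) = 1 := by omega
  haveI : Nontrivial (Cfsg.Agent.Lib.Orth.cpl Q e f) :=
    Module.nontrivial_of_finrank_pos (R := F) (by omega)
  obtain ⟨x, hx⟩ := exists_ne (0 : Cfsg.Agent.Lib.Orth.cpl Q e f)
  have hx' : (x : V) ≠ 0 := fun h0 => hx (Subtype.ext h0)
  have hw : ∀ k : Unit, (fun _ : Unit => (x : V)) k ∈ Cfsg.Agent.Lib.Orth.cpl Q e f :=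
    fun _ => x.2
  have hli : LinearIndependent F (fun _ : Unit => (x : V)) :=
    LinearIndependent.of_subsingleton () hx'
  let b := (h.basis (κ := Unit) hw hli (by simp [hr1])).reindex (Equiv.sumComm _ _)
  have hb0 : b (Sum.inl ()) = x := by
    rw [Module.Basis.reindex_apply, Cfsg.Agent.Lib.Orth.HF.basis_apply]; rfl
  have hb1 : ∀ i, b (Sum.inr (Sum.inl i)) = e i := fun i => by
    rw [Module.Basis.reindex_apply, Cfsg.Agent.Lib.Orth.HF.basis_apply]; rfl
  have hb2 : ∀ i, b (Sum.inr (Sum.inr i)) = f i := fun i => by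
    rw [Module.Basis.reindex_apply, Cfsg.Agent.Lib.Orth.HF.basis_apply]; rfl
  refine ⟨b, ?_, fun i => ?_, fun i => ?_, fun i j => ?_, fun i j => ?_⟩
  · rw [hb0]; exact fun h0 => hx' (ha x.1 x.2 h0)
  · rw [hb0, hb1, hb2]; exact x.2 i
  · rw [hb1, hb2]; exact ⟨h.he i, h.hf i⟩
  · rw [hb1, hb2]; exact h.hef i j
  · rw [hb1, hb2, hb1, hb2]; exact ⟨h.hee i j, h.hff i j⟩


end Cfsg.Agent.S2618
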