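import Cfsg.Statements.S2619
import Mathlib
import Cfsg.Agent.Lib.Orth18
-- import your own Cfsg.Agent.* helpers here

set_option autoImplicit false
open Cfsg
set_option linter.all false

namespace Cfsg.Agent.S2619

/-- Over a finite field of characteristic two, given an alternating bilinear form B on a finite-dimensional space, a basis (v_i) and scalars (λ_i), there is exactly one quadratic form whose polar form is B and whose value at each v_i is λ_i. -/
theorem result {F V ι : Type*} [Field F] [Finite F] [CharP F 2] [AddCommGroup V] [Module F V] [Fintype ι] (b : Module.Basis ι F V) (B : LinearMap.BilinForm F V) (hB : B.IsAlt) (c : ι → F) : ∃! Q : QuadraticForm F V, QuadraticMap.polarBilin Q = B ∧ ∀ i, Q (b i) = c i := by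
  classical
  letI : LinearOrder ι := linearOrderOfSTO WellOrderingRel
  let T : LinearMap.BilinForm F V := b.constr F (fun i => b.constr F (fun j =>
    if i = j then c i else if i < j then B (b i) (b j) else 0))
  have hT : ∀ i j, T (b i) (b j) = if i = j then c i else if i < j then B (b i) (b j) else 0 := by
    intro i j
    simp only [T, Module.Basis.constr_basis]
  have hsymm : ∀ x y, B x y = B y x := by
    intro x y
    have := hB.neg_eq x y
    rw [← this, CharTwo.neg_eq]
  have h2 : (2 : F) = 0 := CharTwo.two_eq_zero
  refine ⟨T.toQuadraticMap, ⟨?_, ?_⟩, ?_⟩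
  · refine LinearMap.BilinForm.ext_basis b (fun i j => ?_)
    rw [QuadraticMap.polarBilin_apply_apply, LinearMap.BilinMap.polar_toQuadraticMap, hT, hT]
    by_cases hij : i = j
    · subst hij
      rw [if_pos rfl, hB.self_eq_zero, ← two_mul, h2, zero_mul]
    · rw [if_neg hij, if_neg (Ne.symm hij)]
      rcases lt_or_gt_of_ne hij with h | h
      · rw [if_pos h, if_neg h.not_gt, add_zero]
      · rw [if_neg h.not_gt, if_pos h, zero_add, hsymm]
  · intro i
    rw [LinearMap.BilinMap.toQuadraticMap_apply, hT, if_pos rfl]
  · rintro Q ⟨hQ1, hQ2⟩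
    refine Cfsg.Agent.Lib.Orth.quad_ext_basis b (fun i => ?_) (fun i j => ?_)
    · rw [hQ2, LinearMap.BilinMap.toQuadraticMap_apply, hT, if_pos rfl]
    · rw [← QuadraticMap.polarBilin_apply_apply, hQ1, LinearMap.BilinMap.polar_toQuadraticMap, hT, hT]
      by_cases hij : i = j
      · subst hij
        rw [if_pos rfl, hB.self_eq_zero, ← two_mul, h2, zero_mul]
      · rw [if_neg hij, if_neg (Ne.symm hij)]
        rcases lt_or_gt_of_ne hij with h | h
        · rw [if_pos h, if_neg h.not_gt, add_zero]
        · rw [if_neg h.not_gt, if_pos h, zero_add, hsymm]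


end Cfsg.Agent.S2619
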