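import Cfsg.Statements.S2621
import Mathlib
import Cfsg.Agent.Lib.Orth18
import Cfsg.Agent.Lib.Orth14
-- import your own Cfsg.Agent.* helpers here

set_option autoImplicit false
open Cfsg
set_option linter.all false

namespace Cfsg.Agent.S2621

/-- Discriminant of an elliptic quadratic form Σ_(i<m−1) x_i y_i + z₁² + a z₁z₂ + c z₂² (binary part anisotropic) in dimension 2m over a field with q elements, q odd, m ≥ 1: the determinant of the Gram matrix of its polar form in any basis is a square if and only if m(q − 1)/2 is odd (equivalently q^m ≡ 3 (mod 4)). -/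
theorem result {F : Type*} [Field F] [Fintype F] {q : ℕ} (hF : Fintype.card F = q) (hq : Odd q) {m : ℕ} (hm : 1 ≤ m) (a c : F) (hac : ∀ z₁ z₂ : F, z₁ ^ 2 + a * z₁ * z₂ + c * z₂ ^ 2 = 0 → z₁ = 0 ∧ z₂ = 0) {ι : Type*} [Fintype ι] [DecidableEq ι] (b : Module.Basis ι F ((Fin (m - 1) ⊕ Fin (m - 1)) ⊕ Fin 2 → F)) : IsSquare (Matrix.of (fun i j : ι => QuadraticMap.polar (Cfsg.quadFormMinus (m - 1) F a c) (b i) (b j))).det ↔ ¬ Even (m * (q - 1) / 2) := by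
  have h1 : (Matrix.of (fun i j : ι => QuadraticMap.polar (Cfsg.quadFormMinus (m - 1) F a c) (b i) (b j)))
      = Cfsg.Agent.Lib.Orth.gram ⇑(Cfsg.Agent.Lib.Orth.qMinus (m - 1) F a c) b := by
    rw [Cfsg.Agent.Lib.Orth.coe_qMinus]; rfl
  have h2 : (2 : F) ≠ 0 := Cfsg.Agent.Lib.Orth.two_ne_zero_of_odd (hF ▸ hq)
  have hns := Cfsg.Agent.Lib.Orth.disc_ne hac h2
  have hne : (a ^ 2 - 4 * c) ≠ 0 := fun h => hns (h ▸ IsSquare.zero)
  obtain ⟨k, rfl⟩ : ∃ k, m = k + 1 := ⟨m - 1, by omega⟩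
  rw [h1, Cfsg.Agent.Lib.Orth.isSquare_gram_iff (Cfsg.Agent.Lib.Orth.qMinus (k + 1 - 1) F a c) b
    (Pi.basisFun F _), Cfsg.Agent.Lib.Orth.det_gram_minus]
  have h3 : (-1 : F) ^ (k + 1 - 1) * (4 * c - a ^ 2) = (-1) ^ (k + 1) * (a ^ 2 - 4 * c) := by
    rw [Nat.add_sub_cancel, pow_succ]; ring
  rw [h3, Cfsg.Agent.Lib.Orth.isSquare_mul_iff h2 (pow_ne_zero _ (by simp)) hne,
    Cfsg.Agent.Lib.Orth.isSquare_neg_one_pow_iff hF hq, Cfsg.Agent.Lib.Orth.even_half_iff hq]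
  simp [hns]


end Cfsg.Agent.S2621
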