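import Cfsg.Statements.S2622
import Mathlib
import Cfsg.Agent.Lib.Orth4
-- import your own Cfsg.Agent.* helpers here

set_option autoImplicit false
open Cfsg
set_option linter.all false

namespace Cfsg.Agent.S2622

universe u
theorem orthonormal_family {F : Type*} [Field F] [Finite F] [CharP F 2] : ∀ (n : ℕ) (V : Type u)
    [AddCommGroup V] [Module F V] [FiniteDimensional F V] (B : LinearMap.BilinForm F V),
    B.IsSymm → B.Nondegenerate → (n = 0 ∨ ∃ v, B v v ≠ 0) → Module.finrank F V = n →
    ∃ v : Fin n → V, ∀ i j, B (v i) (v j) = if i = j then 1 else 0 := by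
  intro n
  have h2 : (2 : F) = 0 := CharTwo.two_eq_zero
  induction n with
  | zero =>
    intro V _ _ _ B _ _ _ _
    exact ⟨Fin.elim0, fun i => i.elim0⟩
  | succ n ih =>
    intro V _ _ _ B hS hB hna hn
    have hsy : ∀ x y, B x y = B y x := fun x y => hS.eq x y
    have key : ∃ v, B v v = 1 ∧ (n = 0 ∨ ∃ w, B v w = 0 ∧ B w w ≠ 0) := by
      obtain ⟨v0, hv0⟩ := hna.resolve_left (by omega)
      obtain ⟨b, hb⟩ := Cfsg.Agent.Lib.Orth.exists_sq_of_two_eq_zero h2 (B v0 v0)
      have hb0 : b ≠ 0 := by
        rintro rfl
        apply hv0
        rw [← hb]; ring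
      have hv1 : ∃ v, B v v = 1 := by
        refine ⟨b⁻¹ • v0, ?_⟩
        simp only [map_smul, LinearMap.smul_apply, smul_eq_mul]
        rw [← hb]
        field_simp
      obtain ⟨v, hv⟩ := hv1
      by_cases hw : ∃ w, B v w = 0 ∧ B w w ≠ 0
      · exact ⟨v, hv, Or.inr hw⟩
      · push Not at hw
        rcases Nat.eq_zero_or_pos n with h0 | hpos
        · exact ⟨v, hv, Or.inl h0⟩
        · have hv' : v ≠ 0 := by rintro rfl; simp at hv
          have : ∃ e, e ≠ 0 ∧ B v e = 0 := by
            have h1 : Module.finrank F (LinearMap.ker (B v)) + 1 = Module.finrank F V := by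
              have h3 := LinearMap.finrank_range_add_finrank_ker (B v)
              have h4 : LinearMap.range (B v) = ⊤ := by
                rw [LinearMap.range_eq_top]
                refine LinearMap.surjective (f := B v) ?_
                intro h0
                rw [h0] at hv
                simp at hv
              rw [h4, finrank_top, Module.finrank_self] at h3
              omega
            have h5 : 0 < Module.finrank F (LinearMap.ker (B v)) := by omega
            obtain ⟨⟨e, he⟩, hne⟩ := Module.finrank_pos_iff_exists_ne_zero.mp h5
            exact ⟨e, fun h => hne (Subtype.ext h), he⟩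
          obtain ⟨e, he0, hve⟩ := this
          obtain ⟨f, hf⟩ : ∃ f, B e f ≠ 0 := by
            by_contra hcon
            push Not at hcon
            exact he0 (hB.1 e hcon)
          set f' := (B e f)⁻¹ • (f - B v f • v) with hf'
          have h1 : B v f' = 0 := by
            simp only [hf', map_smul, map_sub, smul_eq_mul, hv]
            ring
          have h3 : B e f' = 1 := by
            simp only [hf', map_smul, map_sub, smul_eq_mul]
            rw [hsy e v, hve]
            field_simp
            ring
          have hee := hw e hve
          have hff := hw f' h1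
          refine ⟨v + e, ?_, Or.inr ⟨v + f', ?_, ?_⟩⟩
          · simp only [map_add, LinearMap.add_apply, hv, hve, hsy e v, hee]
            ring
          · simp only [map_add, LinearMap.add_apply, hv, h1, h3, hsy e v, hve]
            linear_combination h2
          · simp only [map_add, LinearMap.add_apply, hv, h1, hsy f' v, hff]
            simp
    obtain ⟨v, hv, hw⟩ := key
    have hno : ¬ B.IsOrtho v v := by
      intro h
      have h' : B v v = 0 := h
      rw [h'] at hv
      exact zero_ne_one hv
    have hR : B.IsRefl := hS.isRefl
    have hnd := B.restrict_nondegenerate_orthogonal_spanSingleton hB hR hno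
    have hv' : v ≠ 0 := by rintro rfl; simp at hv
    have hfr := LinearMap.BilinForm.finrank_orthogonal hB (F ∙ v)
    rw [finrank_span_singleton hv', hn] at hfr
    have hmem : ∀ w, w ∈ B.orthogonal (F ∙ v) ↔ B v w = 0 := by
      intro w
      rw [LinearMap.BilinForm.mem_orthogonal_iff]
      constructor
      · intro h
        exact h v (Submodule.mem_span_singleton_self v)
      · intro h x hx
        obtain ⟨a, rfl⟩ := Submodule.mem_span_singleton.mp hx
        show B (a • v) w = 0
        simp [h]
    obtain ⟨u, hu⟩ := ih (B.orthogonal (F ∙ v)) (B.restrict (B.orthogonal (F ∙ v)))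
      ⟨fun x y => hS.eq x y⟩ hnd
      (by
        rcases hw with h | ⟨w, h1, h3⟩
        · exact Or.inl h
        · exact Or.inr ⟨⟨w, (hmem w).mpr h1⟩, h3⟩) (by omega)
    refine ⟨Fin.cons v (fun i => (u i : V)), ?_⟩
    intro i j
    induction i using Fin.cases with
    | zero =>
      induction j using Fin.cases with
      | zero => simpa using hv
      | succ j =>
        simp only [Fin.cons_zero, Fin.cons_succ]
        rw [if_neg (Fin.succ_ne_zero j).symm]
        exact (hmem _).mp (u j).2
    | succ i =>
      induction j using Fin.cases with
      | zero =>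
        simp only [Fin.cons_zero, Fin.cons_succ]
        rw [if_neg (Fin.succ_ne_zero i), hsy]
        exact (hmem _).mp (u i).2
      | succ j =>
        simp only [Fin.cons_succ]
        have := hu i j
        simp only [Fin.succ_inj]
        exact this

/-- Over a finite field of characteristic two, a non-degenerate symmetric bilinear form that is not alternating (some vector v has B(v, v) ≠ 0) admits an orthonormal basis. -/
theorem result {F V : Type*} [Field F] [Finite F] [CharP F 2] [AddCommGroup V] [Module F V] [FiniteDimensional F V] {n : ℕ} (hV : Module.finrank F V = n) (B : LinearMap.BilinForm F V) (hS : B.IsSymm) (hB : B.Nondegenerate) (hna : ∃ v : V, B v v ≠ 0) : ∃ b : Module.Basis (Fin n) F V, ∀ i j, B (b i) (b j) = if i = j then 1 else 0 := by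
  obtain ⟨v, hv⟩ := orthonormal_family n V B hS hB (Or.inr hna) hV
  have hli : LinearIndependent F v := by
    refine LinearMap.BilinForm.linearIndependent_of_iIsOrtho (B := B) ?_ ?_
    · intro i j hij
      show B (v i) (v j) = 0
      rw [hv, if_neg hij]
    · intro i hi
      have h' : B (v i) (v i) = 0 := hi
      rw [hv, if_pos rfl] at h'
      exact one_ne_zero h'
  refine ⟨basisOfLinearIndependentOfCardEqFinrank' v hli (by rw [Fintype.card_fin, hV]), ?_⟩
  simpa using hv


end Cfsg.Agent.S2622
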