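import Cfsg.Statements.S2623
import Mathlib
import Cfsg.Agent.Lib.Orth18
-- import your own Cfsg.Agent.* helpers here

set_option autoImplicit false
open Cfsg
set_option linter.all false

namespace Cfsg.Agent.S2623

/-- Over a finite field of odd order, two quadratic forms on F^n with non-degenerate polar forms are isometric (related by an invertible linear change of variables) if and only if their discriminants (determinants of the Gram matrices of their polar forms) lie in the same square class. -/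
theorem result {F : Type*} [Field F] [Fintype F] (h2 : (2 : F) ≠ 0) {n : ℕ} (Q₁ Q₂ : QuadraticForm F (Fin n → F)) (h₁ : (QuadraticMap.polarBilin Q₁).Nondegenerate) (h₂ : (QuadraticMap.polarBilin Q₂).Nondegenerate) : (∃ g : (Fin n → F) ≃ₗ[F] (Fin n → F), ∀ v, Q₂ (g v) = Q₁ v) ↔ IsSquare ((Matrix.of (fun i j : Fin n => QuadraticMap.polar ⇑Q₁ (Pi.single i 1) (Pi.single j 1))).det * (Matrix.of (fun i j : Fin n => QuadraticMap.polar ⇑Q₂ (Pi.single i 1) (Pi.single j 1))).det) := by
  have h3 : ∀ (Q : QuadraticForm F (Fin n → F)),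
      (Matrix.of (fun i j : Fin n => QuadraticMap.polar ⇑Q (Pi.single i 1) (Pi.single j 1)))
      = Cfsg.Agent.Lib.Orth.gram ⇑Q (Pi.basisFun F (Fin n)) := by
    intro Q
    ext i j
    simp [Cfsg.Agent.Lib.Orth.gram]
  rw [h3, h3]
  constructor
  · rintro ⟨g, hg⟩
    obtain ⟨t, ht, hte⟩ := Cfsg.Agent.Lib.Orth.disc_of_isometric (c := 1) (Pi.basisFun F (Fin n))
      (Pi.basisFun F (Fin n)) g (fun v => by rw [hg, one_mul])
    rw [one_pow, one_mul] at hte
    rw [hte]
    exact ⟨t * (Cfsg.Agent.Lib.Orth.gram ⇑Q₂ (Pi.basisFun F (Fin n))).det, by ring⟩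
  · intro h
    exact Cfsg.Agent.Lib.Orth.isometric_of_disc h2 h₁ h₂ rfl _ _ h


end Cfsg.Agent.S2623
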