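import Cfsg.Statements.S2624
import Mathlib
import Cfsg.Agent.Lib.Orth18
-- import your own Cfsg.Agent.* helpers here

set_option autoImplicit false
open Cfsg
set_option linter.all false

namespace Cfsg.Agent.S2624

/-- For a quadratic form Q on F^n with non-degenerate polar form, F finite and n ≥ 2 even, every non-zero scalar c is the multiplier of some similarity: there is an invertible linear map g with Q(g v) = c·Q(v) for all v. -/
theorem result {F : Type*} [Field F] [Fintype F] {n : ℕ} (hn : 2 ≤ n) (he : Even n) (Q : QuadraticForm F (Fin n → F)) (hQ : (QuadraticMap.polarBilin Q).Nondegenerate) (c : F) (hc : c ≠ 0) : ∃ g : (Fin n → F) ≃ₗ[F] (Fin n → F), ∀ v, Q (g v) = c * Q v := by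
  by_cases h2 : (2 : F) = 0
  · obtain ⟨b, hb⟩ := Cfsg.Agent.Lib.Orth.exists_sq_of_two_eq_zero h2 c
    have hb0 : b ≠ 0 := by
      rintro rfl
      exact hc (by rw [← hb]; ring)
    refine ⟨LinearEquiv.smulOfNeZero F _ b hb0, fun v => ?_⟩
    rw [← hb]
    exact Cfsg.Agent.Lib.Orth.map_smul' Q b v
  · have hQ' := Cfsg.Agent.Lib.Orth.nd_smul hQ hc
    obtain ⟨g, hg⟩ := Cfsg.Agent.Lib.Orth.isometric_of_disc h2 hQ' hQ rfl (Pi.basisFun F (Fin n))
      (Pi.basisFun F (Fin n)) (by
        rw [Cfsg.Agent.Lib.Orth.gram_smul, Matrix.det_smul, Fintype.card_fin]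
        obtain ⟨k, rfl⟩ := he
        exact ⟨c ^ k * (Cfsg.Agent.Lib.Orth.gram ⇑Q (Pi.basisFun F (Fin (k + k)))).det, by ring⟩)
    exact ⟨g, fun v => by rw [hg]; rfl⟩


end Cfsg.Agent.S2624
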