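import Cfsg.Statements.S2626
import Mathlib
import Cfsg.Agent.Lib.Orth2
-- import your own Cfsg.Agent.* helpers here

set_option autoImplicit false
open Cfsg
set_option linter.all false

namespace Cfsg.Agent.S2626

section
variable {F : Type*} [Field F] {k l : ℕ}

/-- block embedding, first factor -/
def blk1 (k l : ℕ) (F : Type*) [Field F] : Matrix.GeneralLinearGroup (Fin k) F →*
    Matrix.GeneralLinearGroup (Fin k ⊕ Fin l) F :=
  Units.map
    { toFun := fun A => Matrix.fromBlocks A 0 0 1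
      map_one' := Matrix.fromBlocks_one
      map_mul' := fun A B => by rw [Matrix.fromBlocks_multiply]; simp }

/-- block embedding, second factor -/
def blk2 (k l : ℕ) (F : Type*) [Field F] : Matrix.GeneralLinearGroup (Fin l) F →*
    Matrix.GeneralLinearGroup (Fin k ⊕ Fin l) F :=
  Units.map
    { toFun := fun A => Matrix.fromBlocks 1 0 0 A
      map_one' := Matrix.fromBlocks_one
      map_mul' := fun A B => by rw [Matrix.fromBlocks_multiply]; simp }

theorem map_mem_commutator {G H : Type*} [Group G] [Group H] (f : G →* H) {g : G}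
    (hg : g ∈ commutator G) : f g ∈ commutator H := by
  have : (commutator G).map f ≤ commutator H := by
    rw [commutator_def, Subgroup.map_commutator]
    exact Subgroup.commutator_mono le_top le_top
  exact this ⟨g, hg, rfl⟩

end

/-- Ω of an orthogonal direct sum contains the product of the Ω's: for quadratic forms Q₁ on F^k and Q₂ on F^l with non-degenerate polar forms (F finite) and Q = Q₁ ⊕ Q₂ on F^(k+l), if g₁ lies in Ω(Q₁) and g₂ in Ω(Q₂) (commutator subgroups of the orthogonal groups) then the block-diagonal isometry diag(g₁, g₂) lies in Ω(Q). -/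
theorem result {F : Type*} [Field F] [Fintype F] {k l : ℕ} (Q₁ : QuadraticForm F (Fin k → F)) (Q₂ : QuadraticForm F (Fin l → F)) (h₁ : (QuadraticMap.polarBilin Q₁).Nondegenerate) (h₂ : (QuadraticMap.polarBilin Q₂).Nondegenerate) (g₁ : ↥(Cfsg.isometryGroup F ⇑Q₁)) (g₂ : ↥(Cfsg.isometryGroup F ⇑Q₂)) (hg₁ : g₁ ∈ Cfsg.Omega F ⇑Q₁) (hg₂ : g₂ ∈ Cfsg.Omega F ⇑Q₂) : ∃ g : ↥(Cfsg.isometryGroup F (fun v : Fin k ⊕ Fin l → F => Q₁ (v ∘ Sum.inl) + Q₂ (v ∘ Sum.inr))), g ∈ Cfsg.Omega F (fun v : Fin k ⊕ Fin l → F => Q₁ (v ∘ Sum.inl) + Q₂ (v ∘ Sum.inr)) ∧ ((g : Matrix.GeneralLinearGroup (Fin k ⊕ Fin l) F) : Matrix (Fin k ⊕ Fin l) (Fin k ⊕ Fin l) F) = Matrix.fromBlocks ((g₁ : Matrix.GeneralLinearGroup (Fin k) F) : Matrix (Fin k) (Fin k) F) 0 0 ((g₂ : Matrix.GeneralLinearGroup (Fin l) F) : Matrix (Fin l) (Fin l) F) := by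
  set Q : (Fin k ⊕ Fin l → F) → F := fun v => Q₁ (v ∘ Sum.inl) + Q₂ (v ∘ Sum.inr) with hQ
  have m1 : ∀ g : ↥(Cfsg.isometryGroup F ⇑Q₁), blk1 k l F g ∈ Cfsg.isometryGroup F Q := by
    intro g
    rw [Cfsg.Agent.Lib.Orth.mem_isometryGroup]
    intro v
    have h := (Cfsg.Agent.Lib.Orth.mem_isometryGroup _ _).mp g.2
    have e1 : ((blk1 k l F g : Matrix.GeneralLinearGroup (Fin k ⊕ Fin l) F) : Matrix (Fin k ⊕ Fin l) (Fin k ⊕ Fin l) F)
      = Matrix.fromBlocks ((g : Matrix.GeneralLinearGroup (Fin k) F) : Matrix (Fin k) (Fin k) F) 0 0 1 := rfl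
    rw [e1, Matrix.fromBlocks_mulVec]
    simp only [hQ, Matrix.zero_mulVec, add_zero, zero_add, Matrix.one_mulVec, Sum.elim_comp_inl, Sum.elim_comp_inr, h]
  have m2 : ∀ g : ↥(Cfsg.isometryGroup F ⇑Q₂), blk2 k l F g ∈ Cfsg.isometryGroup F Q := by
    intro g
    rw [Cfsg.Agent.Lib.Orth.mem_isometryGroup]
    intro v
    have h := (Cfsg.Agent.Lib.Orth.mem_isometryGroup _ _).mp g.2
    have e1 : ((blk2 k l F g : Matrix.GeneralLinearGroup (Fin k ⊕ Fin l) F) : Matrix (Fin k ⊕ Fin l) (Fin k ⊕ Fin l) F)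
      = Matrix.fromBlocks 1 0 0 ((g : Matrix.GeneralLinearGroup (Fin l) F) : Matrix (Fin l) (Fin l) F) := rfl
    rw [e1, Matrix.fromBlocks_mulVec]
    simp only [hQ, Matrix.zero_mulVec, add_zero, zero_add, Matrix.one_mulVec, Sum.elim_comp_inl, Sum.elim_comp_inr, h]
  let f1 : ↥(Cfsg.isometryGroup F ⇑Q₁) →* ↥(Cfsg.isometryGroup F Q) :=
    ((blk1 k l F).comp (Subgroup.subtype _)).codRestrict _ m1
  let f2 : ↥(Cfsg.isometryGroup F ⇑Q₂) →* ↥(Cfsg.isometryGroup F Q) :=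
    ((blk2 k l F).comp (Subgroup.subtype _)).codRestrict _ m2
  refine ⟨f1 g₁ * f2 g₂, mul_mem (map_mem_commutator f1 hg₁) (map_mem_commutator f2 hg₂), ?_⟩
  show Matrix.fromBlocks ((g₁ : Matrix.GeneralLinearGroup (Fin k) F) : Matrix (Fin k) (Fin k) F) 0 0 1
    * Matrix.fromBlocks 1 0 0 ((g₂ : Matrix.GeneralLinearGroup (Fin l) F) : Matrix (Fin l) (Fin l) F) = _
  rw [Matrix.fromBlocks_multiply]
  simp


end Cfsg.Agent.S2626
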