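import Cfsg.Statements.S2627
import Mathlib
import Cfsg.Agent.Lib.Orth23
-- import your own Cfsg.Agent.* helpers here

set_option autoImplicit false
open Cfsg
set_option linter.all false

namespace Cfsg.Agent.S2627

/-- For an orthogonal direct sum Q = Q₁ ⊕ Q₂ of quadratic forms with non-degenerate polar forms over a finite field, an isometry g₁ of Q₁ extended by the identity on the second summand lies in Ω(Q) (the commutator subgroup of the orthogonal group of Q) if and only if g₁ lies in Ω(Q₁). (Excluded: the field of two elements when the first summand or the whole space has dimension 4, where the commutator subgroup of O⁺₄(2) is smaller than the group usually called Ω.) -/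
theorem result {F : Type*} [Field F] [Fintype F] {k l : ℕ} (h : Fintype.card F ≠ 2 ∨ (k ≠ 4 ∧ k + l ≠ 4)) (Q₁ : QuadraticForm F (Fin k → F)) (Q₂ : QuadraticForm F (Fin l → F)) (h₁ : (QuadraticMap.polarBilin Q₁).Nondegenerate) (h₂ : (QuadraticMap.polarBilin Q₂).Nondegenerate) (g₁ : ↥(Cfsg.isometryGroup F ⇑Q₁)) : (∃ g : ↥(Cfsg.isometryGroup F (fun v : Fin k ⊕ Fin l → F => Q₁ (v ∘ Sum.inl) + Q₂ (v ∘ Sum.inr))), g ∈ Cfsg.Omega F (fun v : Fin k ⊕ Fin l → F => Q₁ (v ∘ Sum.inl) + Q₂ (v ∘ Sum.inr)) ∧ ((g : Matrix.GeneralLinearGroup (Fin k ⊕ Fin l) F) : Matrix (Fin k ⊕ Fin l) (Fin k ⊕ Fin l) F) = Matrix.fromBlocks ((g₁ : Matrix.GeneralLinearGroup (Fin k) F) : Matrix (Fin k) (Fin k) F) 0 0 1) ↔ g₁ ∈ Cfsg.Omega F ⇑Q₁ := by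
  open Cfsg.Agent.Lib.Orth Module in
  have hf1 : finrank F (Fin k → F) = k := finrank_fin k
  have hf2 : finrank F (Fin k ⊕ Fin l → F) = k + l := by
    rw [finrank_pi', Fintype.card_sum, Fintype.card_fin, Fintype.card_fin]
  have hex1 := hex_of (F := F) (V := Fin k → F) (n := k) hf1 (h.imp id (fun h => h.1))
  have hex2 := hex_of (F := F) (V := Fin k ⊕ Fin l → F) (n := k + l) hf2 (h.imp id (fun h => h.2))
  have hQ : ND (qSum Q₁ Q₂) := nd_qSum h₁ h₂
  have hR1 : R Q₁ = O Q₁ := R_eq_O h₁ hex1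
  have hR2 : R (qSum Q₁ Q₂) = O (qSum Q₁ Q₂) := R_eq_O hQ hex2
  obtain ⟨vs, hvs, hg⟩ := exists_rp hR1 (isoO Q₁ g₁)
  rw [← coe_qSum]
  refine (exists_Omega_iff (Q := qSum Q₁ Q₂) _ (rp (qSum Q₁ Q₂) (vs.map inL)) ?_).trans ?_
  · intro x
    rw [rp_coe, rprod_inL, Matrix.fromBlocks_mulVec, ← rp_coe, ← hg, isoO_apply]
    simp
  · rw [mem_Omega_iff, hg, rp_mem_iff h₁ hR1 hvs, rp_mem_iff hQ hR2 (map_inL_ne hvs), prod_inL,
      List.length_map]


end Cfsg.Agent.S2627
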