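import Cfsg.Statements.S2628
import Mathlib
import Cfsg.Agent.Lib.Orth23
-- import your own Cfsg.Agent.* helpers here

set_option autoImplicit false
open Cfsg
set_option linter.all false

namespace Cfsg.Agent.S2628

/-- For the orthogonal direct sum Q ⊕ Q of two copies of a quadratic form Q with non-degenerate polar form on F^k (F finite), every isometry g of Q acting diagonally, diag(g, g), lies in Ω(Q ⊕ Q), the commutator subgroup of the orthogonal group of Q ⊕ Q. (Excluded: k = 2 over the field of two elements, where Q ⊕ Q is the hyperbolic 4-space whose orthogonal group's commutator subgroup is smaller than the group usually called Ω.) -/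
theorem result {F : Type*} [Field F] [Fintype F] {k : ℕ} (h : Fintype.card F ≠ 2 ∨ k ≠ 2) (Q : QuadraticForm F (Fin k → F)) (hQ : (QuadraticMap.polarBilin Q).Nondegenerate) (g : ↥(Cfsg.isometryGroup F ⇑Q)) : ∃ x : ↥(Cfsg.isometryGroup F (fun v : Fin k ⊕ Fin k → F => Q (v ∘ Sum.inl) + Q (v ∘ Sum.inr))), x ∈ Cfsg.Omega F (fun v : Fin k ⊕ Fin k → F => Q (v ∘ Sum.inl) + Q (v ∘ Sum.inr)) ∧ ((x : Matrix.GeneralLinearGroup (Fin k ⊕ Fin k) F) : Matrix (Fin k ⊕ Fin k) (Fin k ⊕ Fin k) F) = Matrix.fromBlocks ((g : Matrix.GeneralLinearGroup (Fin k) F) : Matrix (Fin k) (Fin k) F) 0 0 ((g : Matrix.GeneralLinearGroup (Fin k) F) : Matrix (Fin k) (Fin k) F) := by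
  open Cfsg.Agent.Lib.Orth Module in
  have hf1 : finrank F (Fin k → F) = k := finrank_fin k
  have hf2 : finrank F (Fin k ⊕ Fin k → F) = k + k := by
    rw [finrank_pi', Fintype.card_sum, Fintype.card_fin]
  have hex2 := hex_of (F := F) (V := Fin k ⊕ Fin k → F) (n := k + k) hf2 (h.imp id (fun h => by omega))
  have hQ2 : ND (qSum Q Q) := nd_qSum hQ hQ
  have hR2 : R (qSum Q Q) = O (qSum Q Q) := R_eq_O hQ2 hex2
  rw [← coe_qSum]
  refine (exists_Omega_iff (Q := qSum Q Q) _ (dsum (isoO Q g) (isoO Q g)) ?_).mpr ?_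
  · intro x
    rw [dsum_apply, Matrix.fromBlocks_mulVec, isoO_apply, isoO_apply]
    simp
  · by_cases h2 : (2 : F) = 0
    · rw [← ker_dhom hQ2 h2 hR2, MonoidHom.mem_ker]
      show dsign (dsum (isoO Q g) (isoO Q g)).1 = 1
      rw [dsign, finrank_fx_dsum, hf2]
      refine Even.neg_one_pow ?_
      exact ⟨finrank F (fx (isoO Q g).1) + k, by ring⟩
    · obtain ⟨vs, hvs, hg⟩ := exists_rp (R_eq_O_odd hQ h2) (isoO Q g)
      have h3 : dsum (isoO Q g) (isoO Q g) = rp (qSum Q Q) (vs.map inL ++ vs.map inR) := by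
        apply Subtype.ext
        apply LinearEquiv.ext
        intro x
        rw [rp_append]
        show _ = (rp (qSum Q Q) (vs.map inL)).1 ((rp (qSum Q Q) (vs.map inR)).1 x)
        rw [rp_coe, rp_coe, rprod_inR, rprod_inL, dsum_apply, hg, rp_coe, Sum.elim_comp_inl,
          Sum.elim_comp_inr]
      rw [h3, rp_mem_iff hQ2 hR2]
      · rw [List.length_append, List.length_map, List.length_map, List.map_append, List.prod_append,
          prod_inL, prod_inR]
        exact ⟨⟨_, rfl⟩, ⟨_, rfl⟩⟩
      · intro w hw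
        rcases List.mem_append.mp hw with h | h
        · exact map_inL_ne hvs w h
        · exact map_inR_ne hvs w h


end Cfsg.Agent.S2628
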