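import Cfsg.Statements.S2629
import Mathlib
import Cfsg.Agent.Lib.Orth22
-- import your own Cfsg.Agent.* helpers here

set_option autoImplicit false
open Cfsg
set_option linter.all false

namespace Cfsg.Agent.S2629

/-- For the hyperbolic form Σ x_i y_i on F^(2m) over a finite field of odd order (m ≥ 1), an isometry g preserves the class of the maximal totally singular subspace U₀ = {y = 0} (that is, m − dim(U₀ ∩ gU₀) is even) if and only if det g = 1: the stabiliser of each of the two classes of maximal totally singular subspaces is SO. -/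
theorem result {F : Type*} [Field F] [Fintype F] (h2 : (2 : F) ≠ 0) {m : ℕ} (hm : 1 ≤ m) (g : ↥(Cfsg.isometryGroup F (Cfsg.quadFormPlus m F))) : Even (m - Module.finrank F ↥(LinearMap.ker (LinearMap.funLeft F F (Sum.inr : Fin m → Fin m ⊕ Fin m)) ⊓ (LinearMap.ker (LinearMap.funLeft F F (Sum.inr : Fin m → Fin m ⊕ Fin m))).map (Matrix.mulVecLin ((g : Matrix.GeneralLinearGroup (Fin m ⊕ Fin m) F) : Matrix (Fin m ⊕ Fin m) (Fin m ⊕ Fin m) F)))) ↔ ((g : Matrix.GeneralLinearGroup (Fin m ⊕ Fin m) F) : Matrix (Fin m ⊕ Fin m) (Fin m ⊕ Fin m) F).det = 1 := by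
  open Cfsg.Agent.Lib.Orth Module in
  have hQ : ND (qPlus m F) := nd_plus
  have hR : R (qPlus m F) = O (qPlus m F) := R_eq_O_odd hQ h2
  revert g
  rw [← coe_qPlus]
  intro g
  have hker : LinearMap.ker (LinearMap.funLeft F F (Sum.inr : Fin m → Fin m ⊕ Fin m)) = eSpace m F := by
    ext v
    rw [LinearMap.mem_ker, mem_eSpace]
    constructor
    · intro h i
      exact congrFun h i
    · intro h
      funext i
      exact h i
  rw [hker, mulVecLin_isoO, ← det_isoO]
  obtain ⟨vs, hvs, hg⟩ := exists_rp hR (isoO (qPlus m F) g)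
  have h1 := parity_rprod hQ (eSpace_MS (F := F) (m := m)) eSpace_MS vs hvs
  rw [← rp_coe, ← hg, inf_idem, finrank_eSpace] at h1
  have hle : finrank F ↥(eSpace m F ⊓ (eSpace m F).map ((isoO (qPlus m F) g).1 : (Fin m ⊕ Fin m → F) →ₗ[F] (Fin m ⊕ Fin m → F))) ≤ m :=
    (Submodule.finrank_mono inf_le_left).trans_eq finrank_eSpace
  have hdet : LinearMap.det ((isoO (qPlus m F) g).1 : (Fin m ⊕ Fin m → F) →ₗ[F] (Fin m ⊕ Fin m → F)) = 1 ↔ Even vs.length := by
    rw [hg, rp_coe, det_rprod vs hvs]
    constructor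
    · intro h
      by_contra hodd
      rw [Nat.not_even_iff_odd] at hodd
      rw [hodd.neg_one_pow] at h
      apply h2
      linear_combination -h
    · intro h
      exact h.neg_one_pow
  rw [hdet]
  rw [Nat.even_iff] at h1
  rw [Nat.even_iff, Nat.even_iff]
  omega


end Cfsg.Agent.S2629
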