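import Cfsg.Statements.S2630
import Mathlib
import Cfsg.Agent.Lib.Orth22
-- import your own Cfsg.Agent.* helpers here

set_option autoImplicit false
open Cfsg
set_option linter.all false

namespace Cfsg.Agent.S2630

/-- For the hyperbolic form Σ x_i y_i on F^(2m) over a finite field of characteristic two (m ≥ 1, excluding m = 2 over the field of two elements), an isometry g preserves the class of the maximal totally singular subspace U₀ = {y = 0} (m − dim(U₀ ∩ gU₀) even) if and only if g lies in Ω (the commutator subgroup of the orthogonal group): the stabiliser of each class is Ω. -/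
theorem result {F : Type*} [Field F] [Fintype F] [CharP F 2] {m : ℕ} (hm : 1 ≤ m) (h : Fintype.card F ≠ 2 ∨ m ≠ 2) (g : ↥(Cfsg.isometryGroup F (Cfsg.quadFormPlus m F))) : Even (m - Module.finrank F ↥(LinearMap.ker (LinearMap.funLeft F F (Sum.inr : Fin m → Fin m ⊕ Fin m)) ⊓ (LinearMap.ker (LinearMap.funLeft F F (Sum.inr : Fin m → Fin m ⊕ Fin m))).map (Matrix.mulVecLin ((g : Matrix.GeneralLinearGroup (Fin m ⊕ Fin m) F) : Matrix (Fin m ⊕ Fin m) (Fin m ⊕ Fin m) F)))) ↔ g ∈ Cfsg.Omega F (Cfsg.quadFormPlus m F) := by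
  open Cfsg.Agent.Lib.Orth Module in
  have hex := hex_of (F := F) (V := Fin m ⊕ Fin m → F) (n := 2 * m)
    (by rw [finrank_pi', Fintype.card_sum, Fintype.card_fin]; ring) (by
      rcases h with h | h
      · exact Or.inl h
      · exact Or.inr (by omega))
  have hQ : ND (qPlus m F) := nd_plus
  have hR : R (qPlus m F) = O (qPlus m F) := R_eq_O hQ hex
  have h2 : (2 : F) = 0 := CharTwo.two_eq_zero
  revert g
  rw [← coe_qPlus]
  intro g
  have hker : LinearMap.ker (LinearMap.funLeft F F (Sum.inr : Fin m → Fin m ⊕ Fin m)) = eSpace m F := by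
    ext v
    rw [LinearMap.mem_ker, mem_eSpace]
    constructor
    · intro h i
      exact congrFun h i
    · intro h
      funext i
      exact h i
  rw [hker, mulVecLin_isoO, mem_Omega_iff]
  obtain ⟨vs, hvs, hg⟩ := exists_rp hR (isoO (qPlus m F) g)
  have h1 := parity_rprod hQ (eSpace_MS (F := F) (m := m)) eSpace_MS vs hvs
  rw [← rp_coe, ← hg, inf_idem, finrank_eSpace] at h1
  have hle : finrank F ↥(eSpace m F ⊓ (eSpace m F).map ((isoO (qPlus m F) g).1 : (Fin m ⊕ Fin m → F) →ₗ[F] (Fin m ⊕ Fin m → F))) ≤ m :=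
    (Submodule.finrank_mono inf_le_left).trans_eq finrank_eSpace
  have hdet : isoO (qPlus m F) g ∈ commutator ↥(O (qPlus m F)) ↔ Even vs.length := by
    rw [hg, rp_mem_iff hQ hR hvs]
    obtain ⟨b, hb⟩ := exists_sq_of_two_eq_zero h2 (vs.map (fun v => qPlus m F v)).prod
    exact ⟨fun h => h.1, fun h => ⟨h, ⟨b, by rw [← hb, pow_two]⟩⟩⟩
  rw [hdet]
  rw [Nat.even_iff] at h1
  rw [Nat.even_iff, Nat.even_iff]
  omega


end Cfsg.Agent.S2630
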