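import Cfsg.Statements.S2631
import Mathlib
import Cfsg.Agent.Lib.Orth22
-- import your own Cfsg.Agent.* helpers here

set_option autoImplicit false
open Cfsg
set_option linter.all false

namespace Cfsg.Agent.S2631

/-- For the hyperbolic form Σ x_i y_i on F^(2m) over a finite field (m ≥ 1, excluding m = 2 over the field of two elements), Ω (the commutator subgroup of the orthogonal group) acts transitively on each of the two classes of maximal totally singular subspaces: if U and W are m-dimensional totally singular subspaces with m − dim(U ∩ W) even, some element of Ω carries U to W. -/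
theorem result {F : Type*} [Field F] [Fintype F] {m : ℕ} (hm : 1 ≤ m) (h : Fintype.card F ≠ 2 ∨ m ≠ 2) (U W : Submodule F (Fin m ⊕ Fin m → F)) (hU : Module.finrank F U = m) (hW : Module.finrank F W = m) (hU0 : ∀ u ∈ U, Cfsg.quadFormPlus m F u = 0) (hW0 : ∀ w ∈ W, Cfsg.quadFormPlus m F w = 0) (he : Even (m - Module.finrank F ↥(U ⊓ W))) : ∃ g : ↥(Cfsg.isometryGroup F (Cfsg.quadFormPlus m F)), g ∈ Cfsg.Omega F (Cfsg.quadFormPlus m F) ∧ U.map (Matrix.mulVecLin ((g : Matrix.GeneralLinearGroup (Fin m ⊕ Fin m) F) : Matrix (Fin m ⊕ Fin m) (Fin m ⊕ Fin m) F)) = W := by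
  open Cfsg.Agent.Lib.Orth Module in
  have hfr : finrank F (Fin m ⊕ Fin m → F) = 2 * m := by
    rw [finrank_pi', Fintype.card_sum, Fintype.card_fin]; ring
  have hex := hex_of (F := F) (V := Fin m ⊕ Fin m → F) (n := 2 * m) hfr (by
      rcases h with h | h
      · exact Or.inl h
      · exact Or.inr (by omega))
  have hQ : ND (qPlus m F) := nd_plus
  have hR : R (qPlus m F) = O (qPlus m F) := R_eq_O hQ hex
  have hMU : MS (qPlus m F) U := (MS_iff U).mpr ⟨hU, hU0⟩
  have hMW : MS (qPlus m F) W := (MS_iff W).mpr ⟨hW, hW0⟩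
  have hle : finrank F ↥(U ⊓ W) ≤ m := (Submodule.finrank_mono inf_le_left).trans_eq hU
  have hmain := MS_comm_trans hQ hR (by omega) hMU hMW (by
    rw [hU]
    rw [Nat.even_iff] at he ⊢
    omega)
  rw [← coe_qPlus]
  exact exists_Omega_map hmain


end Cfsg.Agent.S2631
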