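import Cfsg.Statements.S2632
import Mathlib
import Cfsg.Agent.Lib.Orth22
-- import your own Cfsg.Agent.* helpers here

set_option autoImplicit false
open Cfsg
set_option linter.all false

namespace Cfsg.Agent.S2632

/-- Ω is transitive on non-degenerate subspaces of each isometry type: for a quadratic form Q on F^n, n ≥ 3, with non-degenerate polar form (F finite; excluding dimension 4 over the field of two elements), if U and W are subspaces on which the polar form is non-degenerate and there is a Q-preserving linear isomorphism U → W, then some element of Ω (the commutator subgroup of the orthogonal group) carries U to W. (In dimension 2 this fails: Ω can be {±1}, which fixes every line.) -/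
theorem result {F : Type*} [Field F] [Fintype F] {n : ℕ} (hn : 3 ≤ n) (h : Fintype.card F ≠ 2 ∨ n ≠ 4) (Q : QuadraticForm F (Fin n → F)) (hQ : (QuadraticMap.polarBilin Q).Nondegenerate) (U W : Submodule F (Fin n → F)) (hU : U ⊓ LinearMap.BilinForm.orthogonal (QuadraticMap.polarBilin Q) U = ⊥) (hW : W ⊓ LinearMap.BilinForm.orthogonal (QuadraticMap.polarBilin Q) W = ⊥) (e : U ≃ₗ[F] W) (he : ∀ u : U, Q (e u : Fin n → F) = Q (u : Fin n → F)) : ∃ g : ↥(Cfsg.isometryGroup F ⇑Q), g ∈ Cfsg.Omega F ⇑Q ∧ U.map (Matrix.mulVecLin ((g : Matrix.GeneralLinearGroup (Fin n) F) : Matrix (Fin n) (Fin n) F)) = W := by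
  open Cfsg.Agent.Lib.Orth Module in
  have hex := hex_of (F := F) (V := Fin n → F) (n := n) (finrank_fin n) h
  have hR : R Q = O Q := R_eq_O hQ hex
  have hUnd : ND (res Q U) := by
    rw [nd_res_iff]
    intro x hx hxy
    have : x ∈ U ⊓ LinearMap.BilinForm.orthogonal (QuadraticMap.polarBilin Q) U := by
      refine ⟨hx, ?_⟩
      have : x ∈ perp Q U := mem_perp'.mpr hxy
      exact this
    rw [hU] at this
    exact (Submodule.mem_bot F).mp this
  exact exists_Omega_map (nd_comm_trans hQ hR (by rw [finrank_fin]; exact hn) hUnd e he)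


end Cfsg.Agent.S2632
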