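import Cfsg.Statements.S2634
import Mathlib
import Cfsg.Agent.Lib.Orth22
-- import your own Cfsg.Agent.* helpers here

set_option autoImplicit false
open Cfsg
set_option linter.all false

namespace Cfsg.Agent.S2634

/-- Over a finite field of characteristic two, Ω (the commutator subgroup of the orthogonal group of a quadratic form Q on F^n with non-degenerate polar form; excluding dimension 4 over the field of two elements) acts transitively on the non-singular 1-spaces: for u, v with Q(u) ≠ 0 and Q(v) ≠ 0 some element of Ω carries the line through u to the line through v. -/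
theorem result {F : Type*} [Field F] [Fintype F] [CharP F 2] {n : ℕ} (h : Fintype.card F ≠ 2 ∨ n ≠ 4) (Q : QuadraticForm F (Fin n → F)) (hQ : (QuadraticMap.polarBilin Q).Nondegenerate) (u v : Fin n → F) (hu : Q u ≠ 0) (hv : Q v ≠ 0) : ∃ g : ↥(Cfsg.isometryGroup F ⇑Q), g ∈ Cfsg.Omega F ⇑Q ∧ (F ∙ ((g : Matrix.GeneralLinearGroup (Fin n) F) : Matrix (Fin n) (Fin n) F).mulVec u) = F ∙ v := by
  open Cfsg.Agent.Lib.Orth Module in
  have hex := hex_of (F := F) (V := Fin n → F) (n := n) (finrank_fin n) h
  have hR : R Q = O Q := R_eq_O hQ hex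
  have h2 : (2 : F) = 0 := CharTwo.two_eq_zero
  obtain ⟨a, ha⟩ := exists_sq_of_two_eq_zero h2 (Q u * (Q v)⁻¹)
  have ha0 : a ≠ 0 := by
    rintro rfl
    have : Q u * (Q v)⁻¹ = 0 := by rw [← ha]; ring
    exact mul_ne_zero hu (inv_ne_zero hv) this
  have hu0 : u ≠ 0 := by rintro rfl; exact hu (QuadraticMap.map_zero Q)
  have hv0 : v ≠ 0 := by rintro rfl; exact hv (QuadraticMap.map_zero Q)
  have hq : Q u = Q (a • v) := by
    rw [map_smul', ha]
    field_simp
  obtain ⟨g, hg⟩ := exists_map_eq hQ hu0 (smul_ne_zero ha0 hv0) hq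
  have key : ∃ g ∈ commutator ↥(O Q), g.1 u = a • v := by
    obtain ⟨vs, hvs, hgv⟩ := exists_rp hR g
    have hiff : ∀ ws : List (Fin n → F), (∀ w ∈ ws, Q w ≠ 0) → Even ws.length → rp Q ws ∈ commutator ↥(O Q) := by
      intro ws hws he
      rw [rp_mem_iff hQ hR hws]
      obtain ⟨b, hb⟩ := exists_sq_of_two_eq_zero h2 (ws.map (fun v => Q v)).prod
      exact ⟨he, ⟨b, by rw [← hb, pow_two]⟩⟩
    rcases Nat.even_or_odd vs.length with he | ho
    · exact ⟨rp Q vs, hiff vs hvs he, by rw [← hgv]; exact hg⟩
    · refine ⟨rp Q (vs ++ [u]), hiff _ ?_ ?_, ?_⟩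
      · intro w hw
        rcases List.mem_append.mp hw with h | h
        · exact hvs w h
        · rw [List.mem_singleton.mp h]; exact hu
      · rw [List.length_append, Nat.even_iff]
        rw [Nat.odd_iff] at ho
        simp only [List.length_cons, List.length_nil]
        omega
      · rw [rp_append, ← hgv]
        show g.1 ((rp Q [u]).1 u) = _
        have : (rp Q [u]).1 u = u := by
          have h3 : (rp Q [u]).1 u = refl Q u u := by simp [rp, rf]
          rw [h3, refl_self hu, neg_eq_of_add_eq_zero_left]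
          rw [← two_smul F, h2, zero_smul]
        rw [this, hg]
  obtain ⟨g', hg', hgu⟩ := key
  refine ⟨(isoO Q).symm g', ?_, ?_⟩
  · rw [mem_Omega_iff, MulEquiv.apply_symm_apply]; exact hg'
  · rw [← isoO_apply, MulEquiv.apply_symm_apply, hgu]
    exact Submodule.span_singleton_smul_eq (isUnit_iff_ne_zero.mpr ha0) v


end Cfsg.Agent.S2634
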