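import Cfsg.Statements.S2635
import Mathlib
import Cfsg.Agent.Lib.Orth22
-- import your own Cfsg.Agent.* helpers here

set_option autoImplicit false
open Cfsg
set_option linter.all false

namespace Cfsg.Agent.S2635

/-- Over a finite field of characteristic two, for a quadratic form Q on F^n with non-degenerate polar form, n ≥ 2, other than dimension 4 over the field of two elements, Ω (the commutator subgroup of the orthogonal group) is exactly the subgroup generated by the products of two reflections (orthogonal transvections) x ↦ x − Q(v)⁻¹ f(x, v) v, Q(v) ≠ 0: the products of an even number of reflections. -/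
theorem result {F : Type*} [Field F] [Fintype F] [CharP F 2] {n : ℕ} (hn : 2 ≤ n) (h : Fintype.card F ≠ 2 ∨ n ≠ 4) (Q : QuadraticForm F (Fin n → F)) (hQ : (QuadraticMap.polarBilin Q).Nondegenerate) : Cfsg.Omega F ⇑Q = Subgroup.closure {g : ↥(Cfsg.isometryGroup F ⇑Q) | ∃ u v : Fin n → F, Q u ≠ 0 ∧ Q v ≠ 0 ∧ ((g : Matrix.GeneralLinearGroup (Fin n) F) : Matrix (Fin n) (Fin n) F) = Cfsg.reflectionMatrix ⇑Q u * Cfsg.reflectionMatrix ⇑Q v} := by
  open Cfsg.Agent.Lib.Orth Module in
  have hex := hex_of (F := F) (V := Fin n → F) (n := n) (finrank_fin n) h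
  have hR : R Q = O Q := R_eq_O hQ hex
  have h2 : (2 : F) = 0 := CharTwo.two_eq_zero
  ext g
  rw [closure_comap_equiv (isoO Q) _ {g : ↥(O Q) | ∃ u v, Q u ≠ 0 ∧ Q v ≠ 0 ∧ g = rf Q u * rf Q v}]
  · rw [mem_Omega_iff]
    constructor
    · intro hg
      obtain ⟨vs, hvs, hgv⟩ := exists_rp hR (isoO Q g)
      rw [hgv] at hg ⊢
      exact even_rp_mem_closure vs hvs (even_length_of_mem hQ hR hvs hg)
    · intro hg
      refine (Subgroup.closure_le _).mpr ?_ hg
      rintro _ ⟨u, v, hu, hv, rfl⟩
      have h3 : rf Q u * rf Q v = rp Q [u, v] := by simp [rp]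
      have h4 : ∀ w ∈ [u, v], Q w ≠ 0 := by
        intro w hw
        simp only [List.mem_cons, List.not_mem_nil, or_false] at hw
        rcases hw with rfl | rfl
        · exact hu
        · exact hv
      rw [h3]
      show rp Q [u, v] ∈ commutator ↥(O Q)
      rw [rp_mem_iff hQ hR h4]
      obtain ⟨b, hb⟩ := exists_sq_of_two_eq_zero h2 ([u, v].map (fun v => Q v)).prod
      exact ⟨⟨1, rfl⟩, ⟨b, by rw [← hb, pow_two]⟩⟩
  · intro g
    constructor
    · rintro ⟨u, v, hu, hv, hg⟩
      refine ⟨u, v, hu, hv, ?_⟩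
      apply Subtype.ext
      apply LinearEquiv.ext
      intro x
      rw [(coe_eq_iff Q g _).mp hg, ← Matrix.mulVec_mulVec, reflectionMatrix_mulVec, reflectionMatrix_mulVec]
      rfl
    · rintro ⟨u, v, hu, hv, hg⟩
      refine ⟨u, v, hu, hv, ?_⟩
      rw [coe_eq_iff]
      intro x
      rw [hg, ← Matrix.mulVec_mulVec, reflectionMatrix_mulVec, reflectionMatrix_mulVec]
      rfl


end Cfsg.Agent.S2635
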