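import Cfsg.Statements.S2636
import Mathlib
import Cfsg.Agent.Lib.AutPSL14
-- import your own Cfsg.Agent.* helpers here

set_option autoImplicit false
open Cfsg
set_option linter.all false

namespace Cfsg.Agent.S2636

open Cfsg.Agent.Lib.AutPSL Cfsg.Agent.Lib.FinGal Matrix in
theorem aux {F : Type*} [Field F] [Fintype F] {r n : ℕ} (hr0 : 0 < r) (hn : 1 ≤ n) (σ : F ≃+* F)
    (hσ : orderOf σ = r) (K : Type*) [Field K] [Fintype K] (ι : K →+* F)
    (hι : ∀ x, σ x = x ↔ ∃ y, ι y = x) :
    Nat.card {g : GL (Fin n) F // ∃ c : F, c ≠ 0 ∧ (g : Matrix (Fin n) (Fin n) F).map σ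
      = c • (g : Matrix (Fin n) (Fin n) F)} * (Fintype.card K - 1) =
      (Fintype.card F - 1) * Nat.card (GL (Fin n) K) := by
  have hcomm : ∀ (u : Fˣ) (g : GL (Fin n) F), Matrix.GeneralLinearGroup.scalar (Fin n) u * g
      = g * Matrix.GeneralLinearGroup.scalar (Fin n) u := by
    intro u g
    apply Units.ext
    rw [Units.val_mul, Units.val_mul, Matrix.GeneralLinearGroup.coe_scalar]
    ext i j
    simp [Matrix.scalar_apply, Matrix.diagonal_mul, Matrix.mul_diagonal, mul_comm]
  have hsc : ∀ (u : Fˣ) (M : Matrix (Fin n) (Fin n) F),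
      ((Matrix.GeneralLinearGroup.scalar (Fin n) u : GL (Fin n) F) : Matrix (Fin n) (Fin n) F) * M
        = (u : F) • M := by
    intro u M
    rw [Matrix.GeneralLinearGroup.coe_scalar]
    ext i j
    simp [Matrix.scalar_apply, Matrix.diagonal_mul]
  let Φ : Fˣ × GL (Fin n) K →* GL (Fin n) F :=
    { toFun := fun x => Matrix.GeneralLinearGroup.scalar (Fin n) x.1 * Matrix.GeneralLinearGroup.map ι x.2
      map_one' := by
        show Matrix.GeneralLinearGroup.scalar (Fin n) 1 * Matrix.GeneralLinearGroup.map ι 1 = 1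
        rw [map_one, map_one, mul_one]
      map_mul' := by
        intro x y
        show Matrix.GeneralLinearGroup.scalar (Fin n) (x.1 * y.1) *
          Matrix.GeneralLinearGroup.map ι (x.2 * y.2) = _
        rw [map_mul, map_mul]
        calc _ = Matrix.GeneralLinearGroup.scalar (Fin n) x.1 * (Matrix.GeneralLinearGroup.scalar (Fin n) y.1 *
              Matrix.GeneralLinearGroup.map ι x.2) * Matrix.GeneralLinearGroup.map ι y.2 := by
              group
          _ = _ := by rw [hcomm y.1]; group }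
  have hrange : (Φ.range : Set (GL (Fin n) F)) = {g : GL (Fin n) F | ∃ c : F, c ≠ 0 ∧
      (g : Matrix (Fin n) (Fin n) F).map σ = c • (g : Matrix (Fin n) (Fin n) F)} := by
    ext g
    constructor
    · rintro ⟨⟨b, g0⟩, rfl⟩
      refine ⟨σ b * (b : F)⁻¹, mul_ne_zero ?_ (inv_ne_zero b.ne_zero), ?_⟩
      · rw [Ne, map_eq_zero_iff σ σ.injective]; exact b.ne_zero
      · show ((((Matrix.GeneralLinearGroup.scalar (Fin n) b * Matrix.GeneralLinearGroup.map ι g0 :
          GL (Fin n) F)) : Matrix (Fin n) (Fin n) F)).map σ = _ • (((Matrix.GeneralLinearGroup.scalar (Fin n) b *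
          Matrix.GeneralLinearGroup.map ι g0 : GL (Fin n) F)) : Matrix (Fin n) (Fin n) F)
        rw [Units.val_mul, hsc, smul_smul]
        have hb : (b : F) ≠ 0 := b.ne_zero
        rw [mul_assoc, inv_mul_cancel₀ hb, mul_one]
        ext i j
        show σ ((b : F) * ι ((g0 : Matrix (Fin n) (Fin n) K) i j)) = σ b * ι ((g0 : Matrix (Fin n) (Fin n) K) i j)
        rw [map_mul, (hι _).mpr ⟨_, rfl⟩]
    · rintro ⟨c, hc, hg⟩
      obtain ⟨b, g0, hb, h1⟩ := exists_descend hn ι (fun x hx => (hι x).mp hx) hσ hr0 hg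
      refine ⟨⟨Units.mk0 b hb, g0⟩, Units.ext ?_⟩
      show ((Matrix.GeneralLinearGroup.scalar (Fin n) (Units.mk0 b hb) * Matrix.GeneralLinearGroup.map ι g0 :
          GL (Fin n) F) : Matrix (Fin n) (Fin n) F) = _
      rw [Units.val_mul, hsc, h1]
      rfl
  have hcard : Nat.card {g : GL (Fin n) F // ∃ c : F, c ≠ 0 ∧ (g : Matrix (Fin n) (Fin n) F).map σ
      = c • (g : Matrix (Fin n) (Fin n) F)} = Nat.card Φ.range := by
    have : Nat.card Φ.range = Nat.card (Φ.range : Set (GL (Fin n) F)) := rfl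
    rw [this, hrange]
    rfl
  have hker : Nat.card Φ.ker = Nat.card Kˣ := by
    symm
    apply Nat.card_congr
    refine Equiv.ofBijective (fun u : Kˣ => ⟨(Units.map (ι : K →* F) u,
      Matrix.GeneralLinearGroup.scalar (Fin n) u⁻¹), ?_⟩) ⟨?_, ?_⟩
    · rw [MonoidHom.mem_ker]
      apply Units.ext
      show ((Matrix.GeneralLinearGroup.scalar (Fin n) (Units.map (ι : K →* F) u) *
        Matrix.GeneralLinearGroup.map ι (Matrix.GeneralLinearGroup.scalar (Fin n) u⁻¹) :
          GL (Fin n) F) : Matrix (Fin n) (Fin n) F) = 1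
      rw [Units.val_mul, hsc]
      ext i j
      show ι u * ι (((Matrix.GeneralLinearGroup.scalar (Fin n) u⁻¹ : GL (Fin n) K) :
        Matrix (Fin n) (Fin n) K) i j) = _
      rw [Matrix.GeneralLinearGroup.coe_scalar, ← map_mul]
      by_cases hij : i = j
      · subst hij; simp
      · simp [hij]
    · intro u v huv
      have h1 := congrArg (fun x : Φ.ker => (x : Fˣ × GL (Fin n) K).1) huv
      exact Units.map_injective ι.injective h1
    · rintro ⟨⟨b, g0⟩, hbg⟩
      rw [MonoidHom.mem_ker] at hbg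
      have h1 := congrArg (fun x : GL (Fin n) F => (x : Matrix (Fin n) (Fin n) F)) hbg
      have h2 : (b : F) • (((Matrix.GeneralLinearGroup.map ι g0 : GL (Fin n) F)) :
          Matrix (Fin n) (Fin n) F) = 1 := by
        rw [← hsc, ← Units.val_mul]; exact h1
      have hent : ∀ i j, (b : F) * ι ((g0 : Matrix (Fin n) (Fin n) K) i j)
          = (1 : Matrix (Fin n) (Fin n) F) i j := fun i j => congrFun (congrFun h2 i) j
      set z : Fin n := ⟨0, hn⟩ with hz
      have hzz := hent z z
      rw [Matrix.one_apply_eq] at hzz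
      have hb : (b : F) ≠ 0 := b.ne_zero
      have hg0 : (g0 : Matrix (Fin n) (Fin n) K) z z ≠ 0 := by
        intro h0
        rw [h0, map_zero, mul_zero] at hzz
        exact zero_ne_one hzz
      have hbv : (b : F) = (ι ((g0 : Matrix (Fin n) (Fin n) K) z z))⁻¹ := by
        exact eq_inv_of_mul_eq_one_left hzz
      refine ⟨(Units.mk0 _ hg0)⁻¹, Subtype.ext (Prod.ext ?_ ?_)⟩
      · apply Units.ext
        show ι (((Units.mk0 _ hg0)⁻¹ : Kˣ) : K) = (b : F)
        rw [Units.val_inv_eq_inv_val, map_inv₀, hbv]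
        rfl
      · apply Units.ext
        show ((Matrix.GeneralLinearGroup.scalar (Fin n) ((Units.mk0 _ hg0)⁻¹)⁻¹ : GL (Fin n) K) :
          Matrix (Fin n) (Fin n) K) = g0
        rw [inv_inv, Matrix.GeneralLinearGroup.coe_scalar]
        ext i j
        apply ι.injective
        apply mul_left_cancel₀ hb
        rw [hent i j]
        by_cases hij : i = j
        · subst hij
          simpa using hzz
        · simp [hij]
  have h1 := Φ.ker.card_mul_index
  rw [Subgroup.index_ker, ← hcard, hker, Nat.card_prod, Cfsg.Agent.Lib.GLSL.card_units_field, Cfsg.Agent.Lib.GLSL.card_units_field] at h1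
  rw [mul_comm]
  exact h1

/-- Centraliser of a field automorphism in PGL_n: let F be the field with q = q₀^r elements, σ a field automorphism of F of prime order r (so its fixed field has q₀ elements) and n ≥ 1. The invertible matrices g whose entrywise image under σ is a scalar multiple of g — those whose coset modulo scalars is fixed by σ — number (q − 1)/(q₀ − 1) · |GL_n(q₀)|; equivalently the centraliser in PGL_n(q) of the induced automorphism has the order of PGL_n(q₀). -/
theorem result {F : Type*} [Field F] [Fintype F] {q₀ r n : ℕ} (hr : r.Prime) (hn : 1 ≤ n) (hF : Fintype.card F = q₀ ^ r) (σ : F ≃+* F) (hσ : orderOf σ = r) : Nat.card {g : GL (Fin n) F // ∃ c : F, c ≠ 0 ∧ (g : Matrix (Fin n) (Fin n) F).map σ = c • (g : Matrix (Fin n) (Fin n) F)} = (q₀ ^ r - 1) / (q₀ - 1) * ∏ i : Fin n, (q₀ ^ n - q₀ ^ (i : ℕ)) := by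
  obtain ⟨p, k, hp, -, -, hk⟩ : ∃ p k : ℕ, p.Prime ∧ 0 < k ∧ CharP F p ∧ Fintype.card F = p ^ k := by
    obtain ⟨p, hp⟩ := CharP.exists F
    have hpp := CharP.char_is_prime F p
    obtain ⟨k, h1, h2⟩ := FiniteField.card F p
    exact ⟨p, k, hpp, k.pos, hp, h2⟩
  haveI : Fact p.Prime := ⟨hp⟩
  letI : Fintype (Cfsg.Agent.Lib.FinGal.fixF σ) := Fintype.ofFinite _
  have h1 := Cfsg.Agent.Lib.FinGal.card_fixF σ
  rw [hσ, Nat.card_eq_fintype_card, hF] at h1
  have h2 : Nat.card (Cfsg.Agent.Lib.FinGal.fixF σ) = q₀ := (Nat.pow_left_injective hr.pos.ne' h1).symm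
  have h3 := aux hr.pos hn σ hσ (Cfsg.Agent.Lib.FinGal.fixF σ) (Cfsg.Agent.Lib.FinGal.fixF σ).subtype
    (fun x => ⟨fun h => ⟨⟨x, h⟩, rfl⟩, by rintro ⟨y, rfl⟩; exact y.2⟩)
  rw [← Nat.card_eq_fintype_card, h2, Matrix.card_GL_field, ← Nat.card_eq_fintype_card (α := F),
    Nat.card_eq_fintype_card (α := F), hF, ← Nat.card_eq_fintype_card, h2] at h3
  have hq : 1 < q₀ := by
    rw [← h2]
    exact Finite.one_lt_card
  have hd : q₀ - 1 ∣ q₀ ^ r - 1 := by
    have := Nat.sub_dvd_pow_sub_pow q₀ 1 r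
    rwa [one_pow] at this
  obtain ⟨t, ht⟩ := hd
  rw [ht, Nat.mul_div_cancel_left _ (by omega)]
  rw [ht] at h3
  have : 0 < q₀ - 1 := by omega
  apply Nat.eq_of_mul_eq_mul_right this
  rw [h3]
  ring


end Cfsg.Agent.S2636
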