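import Cfsg.Statements.S2638
import Mathlib
import Cfsg.Agent.Lib.RCF11
-- import your own Cfsg.Agent.* helpers here

set_option autoImplicit false
open Cfsg
set_option linter.all false

namespace Cfsg.Agent.S2638

/-- If an element x of GL_n(q), n ≥ 1, has prime order r and the multiplicative order of q modulo r is n (r is a primitive prime divisor of q^n − 1, so x acts irreducibly), then the centraliser of x in GL_n(q) is cyclic of order q^n − 1 (the multiplicative group of the field with q^n elements, a Singer cycle). -/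
theorem result {F : Type*} [Field F] [Fintype F] {p q : ℕ} [Fact p.Prime] [CharP F p] (hF : Fintype.card F = q) {n r : ℕ} (hn : 1 ≤ n) (hr : r.Prime) (hrp : r ≠ p) (hi : orderOf (q : ZMod r) = n) (x : GL (Fin n) F) (hx : orderOf x = r) : IsCyclic ↥(Subgroup.centralizer ({x} : Set (GL (Fin n) F))) ∧ Nat.card ↥(Subgroup.centralizer ({x} : Set (GL (Fin n) F))) = q ^ n - 1 := by
  classical
  subst hF
  rw [← Nat.card_eq_fintype_card] at hi ⊢
  obtain ⟨π, hπ, hd, hx0⟩ := Cfsg.Agent.Lib.RCF.exists_irred_of_order (p := p) hr hrp hi hn x hx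
  haveI : Fact (Irreducible π) := ⟨hπ⟩
  haveI : Module.Finite F (AdjoinRoot π) := (AdjoinRoot.powerBasis hπ.ne_zero).finite
  haveI : Finite (AdjoinRoot π) := Module.finite_of_finite F
  obtain ⟨e⟩ := Cfsg.Agent.Lib.RCF.cent_equiv hn hπ hd x hx0
  constructor
  · haveI : IsCyclic (AdjoinRoot π)ˣ := inferInstance
    exact isCyclic_of_surjective e.toMonoidHom e.surjective
  · rw [← Nat.card_congr e.toEquiv, Nat.card_units, Cfsg.Agent.Lib.RCF.card_adjoin hπ, hd]


end Cfsg.Agent.S2638
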