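import Cfsg.Statements.S2642
import Mathlib
import Cfsg.Agent.Lib.Herm15
-- import your own Cfsg.Agent.* helpers here

set_option autoImplicit false
open Cfsg
set_option linter.all false

namespace Cfsg.Agent.S2642

/-- Number of conjugacy classes of elements of order p in the general unitary group GU_n(q), q a power of p: every unipotent Jordan type occurs and the classes correspond to the partitions of n with all parts at most p other than the all-ones partition, exactly as in GL_n; so there are (number of partitions of n with parts ≤ p) − 1 classes. -/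
theorem result {K : Type*} [Field K] [Fintype K] {p q n : ℕ} [Fact p.Prime] [CharP K p] (hK : Fintype.card K = q ^ 2) : Nat.card {C : ConjClasses ↥(Cfsg.GU n K q) // ∃ g : ↥(Cfsg.GU n K q), ConjClasses.mk g = C ∧ orderOf g = p} = (Finset.univ.filter (fun μ : Nat.Partition n => ∀ a ∈ μ.parts, a ≤ p)).card - 1 := by
  have hp := (Fact.out : p.Prime)
  obtain ⟨σ, hσ, hq⟩ := Cfsg.Agent.Lib.Herm.exists_sigma hK
  rw [← Cfsg.Agent.Lib.RCF.card_parts n p hp.one_le]
  let φ : ↥(Cfsg.GU n K q) →* Matrix (Fin n) (Fin n) K := (Units.coeHom _).comp (Cfsg.GU n K q).subtype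
  have hφ : Function.Injective φ := Units.val_injective.comp Subtype.val_injective
  have hnil : ∀ g : ↥(Cfsg.GU n K q), orderOf g = p → IsNilpotent (φ g - 1) := by
    intro g hg
    exact Cfsg.Agent.Lib.RCF.nilp_of_order (p := p) (F := K) (ι := Fin n) φ g (k := 1) (by
      rw [pow_one]; rw [← hg]; exact pow_orderOf_eq_one g)
  refine Cfsg.Agent.Lib.RCF.card_of_type (G := ↥(Cfsg.GU n K q))
    (fun g => orderOf g = p)
    (fun g μ => Cfsg.Agent.Lib.RCF.IsType (φ g) μ.1.parts) ?_ ?_ ?_ ?_ ?_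
  · intro g hg
    obtain ⟨μ, hμ⟩ := Cfsg.Agent.Lib.RCF.exists_isType (hnil g hg) (Fintype.card_fin n)
    refine ⟨⟨μ, ?_⟩, hμ⟩
    exact (Cfsg.Agent.Lib.RCF.orderOf_eq_p_iff (p := p) φ hφ g (hnil g hg) hμ).mp hg
  · intro g t t' h h'
    exact Subtype.ext (Cfsg.Agent.Lib.RCF.IsType.unique_partition h h')
  · intro g g' t hg hg' h h'
    exact Cfsg.Agent.Lib.Herm.isConj_GU_of_type hσ hq h h' (hnil g hg) (hnil g' hg')
  · intro g g' t h h'
    exact Cfsg.Agent.Lib.RCF.isType_GL_conj ((Cfsg.GU n K q).subtype.map_isConj h) h'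
  · intro μ
    obtain ⟨g, hg, ht⟩ := Cfsg.Agent.Lib.Herm.exists_GU_type (F := K) hσ hq μ.1
    refine ⟨g, ?_, ht⟩
    exact (Cfsg.Agent.Lib.RCF.orderOf_eq_p_iff (p := p) φ hφ g hg ht).mpr μ.2


end Cfsg.Agent.S2642
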