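import Cfsg.Statements.S2645
import Mathlib
import Cfsg.Agent.Lib.BForm7
-- import your own Cfsg.Agent.* helpers here

set_option autoImplicit false
open Cfsg
set_option linter.all false

namespace Cfsg.Agent.S2645

/-- Number of conjugacy classes of elements of odd prime order r, r different from the characteristic, in the symplectic group Sp_2m(q): let i be the multiplicative order of q modulo r and t = (r − 1)/i. If i is odd the eigenvalue orbits pair off (Λ ≠ Λ⁻¹) and the classes correspond to the non-zero (t/2)-tuples (a_j) with 2i Σ a_j ≤ 2m, giving C(⌊m/i⌋ + t/2, t/2) − 1 classes; if i is even (Λ = Λ⁻¹) they correspond to the non-zero t-tuples with i Σ a_j ≤ 2m, giving C(⌊2m/i⌋ + t, t) − 1 classes. -/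
theorem result {F : Type*} [Field F] [Fintype F] {p q : ℕ} [Fact p.Prime] [CharP F p] (hF : Fintype.card F = q) (m r i t : ℕ) (hr : r.Prime) (hr2 : r ≠ 2) (hrp : r ≠ p) (hi : i = orderOf (q : ZMod r)) (ht : t * i = r - 1) : Nat.card {C : ConjClasses ↥(Matrix.symplecticGroup (Fin m) F) // ∃ g : Matrix.symplecticGroup (Fin m) F, ConjClasses.mk g = C ∧ orderOf g = r} = if Odd i then Nat.choose (m / i + t / 2) (t / 2) - 1 else Nat.choose (2 * m / i + t) t - 1 := by
  classical
  haveI : Fact r.Prime := ⟨hr⟩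
  haveI : NeZero r := ⟨hr.ne_zero⟩
  have hFc : Nat.card F = q := by rw [Nat.card_eq_fintype_card, hF]
  have he : i = orderOf (Nat.card F : ZMod r) := by rw [hFc, hi]
  have hiQ : i = orderOf (Cfsg.Agent.Lib.RCF.QU F r) := by rw [Cfsg.Agent.Lib.RCF.orderOf_QU (p := p) hr hrp, he]
  have hipos : 0 < i := by rw [hiQ]; exact orderOf_pos _
  have hne1 : (-1 : (ZMod r)ˣ) ≠ 1 := by
    intro h
    have h1 := congrArg (fun x : (ZMod r)ˣ => (x : ZMod r)) h
    simp only [Units.val_neg, Units.val_one] at h1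
    have h2 : (2 : ZMod r) = 0 := by
      calc (2 : ZMod r) = 1 + 1 := by norm_num
        _ = 1 + -1 := by rw [h1]
        _ = 0 := add_neg_cancel 1
    have h3 : ((2 : ℕ) : ZMod r) = 0 := by exact_mod_cast h2
    rw [ZMod.natCast_eq_zero_iff] at h3
    exact hr2 ((Nat.prime_dvd_prime_iff_eq hr Nat.prime_two).mp h3)
  have hmem : (-1 : (ZMod r)ˣ) ∈ Subgroup.zpowers (Cfsg.Agent.Lib.RCF.QU F r) ↔ Even i := by
    constructor
    · intro h
      obtain ⟨l, hl⟩ := (mem_powers_iff_mem_zpowers (x := Cfsg.Agent.Lib.RCF.QU F r)).mpr h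
      have hl' : (Cfsg.Agent.Lib.RCF.QU F r) ^ l = -1 := hl
      by_contra hodd
      rw [Nat.not_even_iff_odd] at hodd
      have h3 : i ∣ 2 * l := by
        rw [hiQ]
        apply orderOf_dvd_of_pow_eq_one
        rw [mul_comm, pow_mul, hl', neg_one_sq]
      have h4 : i ∣ l := (Nat.Coprime.dvd_of_dvd_mul_left (Nat.coprime_two_right.mpr hodd) h3)
      rw [hiQ, orderOf_dvd_iff_pow_eq_one, hl'] at h4
      exact hne1 h4
    · rintro ⟨l, hl⟩
      have h2 : (Cfsg.Agent.Lib.RCF.QU F r ^ l) ^ 2 = 1 := by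
        rw [← pow_mul, mul_two, ← hl, hiQ, pow_orderOf_eq_one]
      have h3 : Cfsg.Agent.Lib.RCF.QU F r ^ l ≠ 1 := by
        intro h4
        have h5 := orderOf_dvd_of_pow_eq_one h4
        rw [← hiQ] at h5
        have := Nat.le_of_dvd (by omega) h5
        omega
      have h4 : ((Cfsg.Agent.Lib.RCF.QU F r ^ l : (ZMod r)ˣ) : ZMod r) * ((Cfsg.Agent.Lib.RCF.QU F r ^ l : (ZMod r)ˣ) : ZMod r) = 1 := by
        rw [← Units.val_mul, ← sq, h2, Units.val_one]
      rcases mul_self_eq_one_iff.mp h4 with h5 | h5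
      · exact absurd (Units.ext h5) h3
      · have h6 : Cfsg.Agent.Lib.RCF.QU F r ^ l = -1 := Units.ext h5
        rw [← h6]
        exact Subgroup.pow_mem _ (Subgroup.mem_zpowers _) _
  have hrp' : r.Coprime p := (Nat.coprime_primes hr Fact.out).mpr hrp
  have hmain := Cfsg.Agent.Lib.RCF.card_order_r (F := F) (p := p) (r := r) (V := Fin m ⊕ Fin m → F) hr hrp
    (Cfsg.Agent.Lib.BForm.spE m F) Cfsg.Agent.Lib.BForm.spE_inj (-1) (by rw [neg_one_mul, neg_neg]; exact one_mem _)
    (by
      rintro g h hg - ⟨k, hk⟩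
      exact Cfsg.Agent.Lib.BForm.sp_conj (p := p) (Nat.Coprime.coprime_dvd_left (orderOf_dvd_of_pow_eq_one hg) hrp') k hk)
    (by
      intro T hT hsy
      obtain ⟨g, k, hk⟩ := Cfsg.Agent.Lib.BForm.exists_sp_of_kd (p := p) hr hr2 hrp hT hsy
      refine ⟨g, ?_, k, hk⟩
      apply Cfsg.Agent.Lib.BForm.spE_inj
      rw [map_pow, map_one]
      apply LinearMap.ext
      intro w
      obtain ⟨v, rfl⟩ := k.surjective w
      have h1 : ∀ j : ℕ, ((Cfsg.Agent.Lib.BForm.spE m F g) ^ j) (k v) = k ((T ^ j) v) := by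
        intro j
        induction j with
        | zero => rfl
        | succ j ih =>
          rw [pow_succ', pow_succ']
          show (Cfsg.Agent.Lib.BForm.spE m F g) (((Cfsg.Agent.Lib.BForm.spE m F g) ^ j) (k v)) = k (T ((T ^ j) v))
          rw [ih, hk]
      rw [h1, hT]
      rfl)
    (by
      intro g hg k
      exact Cfsg.Agent.Lib.BForm.kd_neg_of_form (p := p) hr hrp (Cfsg.Agent.Lib.Symp.sympBilin_nondegenerate)
        (Cfsg.Agent.Lib.BForm.spE_form g) (by rw [← map_pow, hg, map_one]) k)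
    (c := if Even i then 1 else 2) (by
      split_ifs with h
      · exact Or.inl ⟨hmem.mpr h, rfl⟩
      · exact Or.inr ⟨fun h' => h (hmem.mp h'), rfl⟩) he ht
  rw [hmain, Module.finrank_fintype_fun_eq_card, Fintype.card_sum, Fintype.card_fin]
  have h2m : m + m = 2 * m := by ring
  by_cases h : Even i
  · rw [if_pos h, if_neg (by rw [Nat.not_odd_iff_even]; exact h), one_mul, Nat.div_one, h2m]
  · rw [if_neg h, if_pos (Nat.not_even_iff_odd.mp h), h2m, Nat.mul_div_mul_left _ _ (by norm_num)]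


end Cfsg.Agent.S2645
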