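import Cfsg.Statements.S2665
import Mathlib
import Cfsg.Agent.Lib.LangGL
-- import your own Cfsg.Agent.* helpers here

set_option autoImplicit false
open scoped MatrixGroups
open Cfsg
open scoped MatrixGroups
set_option linter.all false

namespace Cfsg.Agent.S2665

/-- The Lang–Steinberg Theorem for the general linear group. Let `K` be an algebraically closed field of prime characteristic `p`, let `q = p^f` with `f ≥ 1`, and let `σ` be the endomorphism of GL_n(K) raising every matrix entry to the `q`-th power. Then every element `g` of GL_n(K) can be written `g = x · σ(x)⁻¹` for some `x` in GL_n(K): the map `x ↦ x σ(x)⁻¹` is surjective. -/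
theorem result {K : Type*} [Field K] [IsAlgClosed K] (p : ℕ) [Fact p.Prime] [CharP K p]
    (f : ℕ) (hf : 1 ≤ f) (n : ℕ) (g : GL (Fin n) K) :
    ∃ x : GL (Fin n) K, g = x * (Matrix.GeneralLinearGroup.map (iterateFrobenius K p f) x)⁻¹ := by
  classical
  let fr := iterateFrobenius K p f
  have hfr : ∀ c : K, fr c = c ^ (p ^ f) := fun c => iterateFrobenius_def p f c
  let φ : (Fin n → K) →+ (Fin n → K) :=
    { toFun := fun v => Matrix.mulVec (g : Matrix (Fin n) (Fin n) K) (fun i => fr (v i))
      map_zero' := by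
        have : (fun i => fr ((0 : Fin n → K) i)) = 0 := by funext i; exact map_zero fr
        rw [this, Matrix.mulVec_zero]
      map_add' := by
        intro v w
        have : (fun i => fr ((v + w) i)) = (fun i => fr (v i)) + (fun i => fr (w i)) := by
          funext i; exact map_add fr _ _
        rw [this, Matrix.mulVec_add] }
  have hφ : ∀ v, φ v = Matrix.mulVec (g : Matrix (Fin n) (Fin n) K) (fun i => fr (v i)) := fun v => rfl
  have hgi : ∀ v, Matrix.mulVec (((g⁻¹ : GL (Fin n) K)) : Matrix (Fin n) (Fin n) K)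
      (Matrix.mulVec (g : Matrix (Fin n) (Fin n) K) v) = v := by
    intro v
    rw [Matrix.mulVec_mulVec, ← Units.val_mul, inv_mul_cancel, Units.val_one, Matrix.one_mulVec]
  have hs : ∀ (c : K) v, φ (c • v) = c ^ (p ^ f) • φ v := by
    intro c v
    rw [hφ, hφ, ← Matrix.mulVec_smul]
    congr 1
    funext i
    show fr (c * v i) = c ^ (p ^ f) * fr (v i)
    rw [map_mul, hfr]
  have hinj : Function.Injective φ := by
    intro v w h
    rw [hφ, hφ] at h
    have h1 := congrArg (Matrix.mulVec (((g⁻¹ : GL (Fin n) K)) : Matrix (Fin n) (Fin n) K)) h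
    rw [hgi, hgi] at h1
    funext i
    exact fr.injective (congrFun h1 i)
  obtain ⟨b, hb1, hb2⟩ := Cfsg.Agent.Lib.LangGL.exists_basis (p := p) hf n (V := Fin n → K) (by simp) φ hs hinj
  let x : Matrix (Fin n) (Fin n) K := Matrix.of fun i j => b j i
  have hx : IsUnit x := by
    rw [← Matrix.isUnit_transpose]
    exact Matrix.linearIndependent_rows_iff_isUnit.mp hb1
  obtain ⟨x', hx'⟩ := hx
  refine ⟨x', ?_⟩
  rw [eq_mul_inv_iff_mul_eq]
  apply Units.ext
  rw [Units.val_mul]
  ext i j
  have h1 := congrFun (hb2 j) i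
  rw [hφ] at h1
  have h2 : ((x' : GL (Fin n) K) : Matrix (Fin n) (Fin n) K) i j = b j i := by rw [hx']; rfl
  rw [h2, ← h1, Matrix.mul_apply]
  rw [Matrix.mulVec, dotProduct]
  apply Finset.sum_congr rfl
  intro k _
  congr 1
  show fr (((x' : GL (Fin n) K) : Matrix (Fin n) (Fin n) K) k j) = fr (b j k)
  rw [hx']; rfl


end Cfsg.Agent.S2665
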