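import Cfsg.Statements.S2667
import Mathlib
-- import your own Cfsg.Agent.* helpers here

set_option autoImplicit false
open Cfsg
set_option linter.all false

namespace Cfsg.Agent.S2667

/-- Shintani descent, in an abstract form. Let `σ` be an automorphism of a group `X` and `e ≥ 1` (no surjectivity of the Lang maps is needed for this part; in the classical setting `X` is a connected algebraic group and `σ` a Steinberg endomorphism). Write `G` for the subgroup of fixed points of `σᵉ` and `H` for the subgroup of fixed points of `σ`. The `G`-conjugacy classes in the coset `G σ` of the semidirect product of `G` by `σ` correspond to the orbits of `G` on itself under twisted conjugation `g ↦ k g σ(k)⁻¹`, and the `e`-th power of `g σ` has `G`-part the norm `g σ(g) ⋯ σ^(e-1)(g)`. For `g` in `G` and any `a` with `g = a σ(a)⁻¹`, put `x = σᵉ(a)⁻¹ a`. Then conjugation by `a⁻¹` carries the twisted centralizer `{k ∈ G : k g σ(k)⁻¹ = g}` (the centralizer of `g σ` in `G`) exactly onto the centralizer of `x` in `H`: an element `k` of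 `X` lies in `G` and satisfies `k g σ(k)⁻¹ = g` if and only if `a⁻¹ k a` lies in `H` and commutes with `x`. In particular the two centralizers are conjugate in `X` and have the same order. -/
theorem result {X : Type*} [Group X] (σ : MulAut X) (e : ℕ) (he : 1 ≤ e)
    (g : X) (hg : g ∈ (MulEquiv.toMonoidHom (σ ^ e)).eqLocus (MonoidHom.id X)) (a : X) (ha : g = a * (σ a)⁻¹) (k : X) :
    (k ∈ (MulEquiv.toMonoidHom (σ ^ e)).eqLocus (MonoidHom.id X) ∧ k * g * (σ k)⁻¹ = g) ↔
      (a⁻¹ * k * a ∈ (MulEquiv.toMonoidHom σ).eqLocus (MonoidHom.id X) ∧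
        (a⁻¹ * k * a) * (((σ ^ e) a)⁻¹ * a) = (((σ ^ e) a)⁻¹ * a) * (a⁻¹ * k * a)) := by
  have hgσ : (σ ^ e) g = g := hg
  have hfix : ∀ (τ : MulAut X) (x : X), x ∈ (MulEquiv.toMonoidHom τ).eqLocus (MonoidHom.id X) ↔ τ x = x := fun τ x => Iff.rfl
  rw [hfix, hfix]
  have hσa : σ a = g⁻¹ * a := by rw [ha]; group
  constructor
  · rintro ⟨h1, h2⟩
    have hσk : σ k = g⁻¹ * k * g := by
      have : k * g = g * σ k := by
        calc k * g = k * g * (σ k)⁻¹ * σ k := by group
          _ = g * σ k := by rw [h2]
      calc σ k = g⁻¹ * (g * σ k) := by group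
        _ = g⁻¹ * k * g := by rw [← this]; group
    constructor
    · rw [map_mul, map_mul, map_inv, hσa, hσk]; group
    · have h3 : (σ ^ e) (a⁻¹ * k * a) = a⁻¹ * k * a := by
        have h4 : σ (a⁻¹ * k * a) = a⁻¹ * k * a := by rw [map_mul, map_mul, map_inv, hσa, hσk]; group
        clear h1 hgσ hg
        induction e with
        | zero => rfl
        | succ e ih =>
          rcases Nat.eq_zero_or_pos e with h0 | h0
          · subst h0; rw [zero_add, pow_one]; exact h4
          · rw [pow_succ, MulAut.mul_apply, h4]; exact ih h0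
      rw [map_mul, map_mul, map_inv, h1] at h3
      set b := (σ ^ e) a with hb
      calc a⁻¹ * k * a * (b⁻¹ * a) = (b⁻¹ * k * b) * (b⁻¹ * a) := by rw [h3]
        _ = b⁻¹ * a * (a⁻¹ * k * a) := by group
  · rintro ⟨h1, h2⟩
    have h3 : (σ ^ e) (a⁻¹ * k * a) = a⁻¹ * k * a := by
      clear h2 hgσ hg
      induction e with
      | zero => rfl
      | succ e ih =>
        rcases Nat.eq_zero_or_pos e with h0 | h0
        · subst h0; rw [zero_add, pow_one]; exact h1
        · rw [pow_succ, MulAut.mul_apply, h1]; exact ih h0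
    rw [map_mul, map_mul, map_inv] at h1 h3
    set b := (σ ^ e) a with hb
    constructor
    · have h4 : b⁻¹ * (σ ^ e) k * b = b⁻¹ * k * b := by
        calc b⁻¹ * (σ ^ e) k * b = a⁻¹ * k * a := h3
          _ = (a⁻¹ * k * a * (b⁻¹ * a)) * (b⁻¹ * a)⁻¹ := by group
          _ = b⁻¹ * k * b := by rw [h2]; group
      calc (σ ^ e) k = b * (b⁻¹ * (σ ^ e) k * b) * b⁻¹ := by group
        _ = k := by rw [h4]; group
    · have h5 : σ k = g⁻¹ * k * g := by
        calc σ k = σ a * ((σ a)⁻¹ * σ k * σ a) * (σ a)⁻¹ := by group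
          _ = g⁻¹ * k * g := by rw [h1, hσa]; group
      rw [h5]; group


end Cfsg.Agent.S2667
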