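import Cfsg.Statements.S2669
import Mathlib
import Cfsg.Agent.Lib.ShinD
-- import your own Cfsg.Agent.* helpers here

set_option autoImplicit false
open Cfsg
set_option linter.all false

namespace Cfsg.Agent.S2669

/-- Shintani descent preserves numbers of fixed points on coset spaces (abstract form). Let `σ` be an automorphism of a group `X` and `e ≥ 1`; write `G` for the fixed points of `σᵉ` and `H` for the fixed points of `σ`, and assume `G` is finite. Let `Y` be a `σ`-stable subgroup of `X` on which the maps `a ↦ a σ(a)⁻¹` and `a ↦ a σᵉ(a)⁻¹` are surjective (as for a closed connected `σ`-stable subgroup of an algebraic group). Let `g ∈ G`, let `a ∈ X` satisfy `g = a σ(a)⁻¹` and put `x = σᵉ(a)⁻¹ a` (the Shintani image, an element of `H`). The element `g σ` of the semidirect product acts on the cosets of `Y ∩ G` in `G` by `k (Y ∩ G) ↦ g σ(k) (Y ∩ G)`, fixing that coset exactly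 when `k⁻¹ g σ(k) ∈ Y`; and `x` fixes the coset `h (Y ∩ H)` of `H` exactly when `h⁻¹ x h ∈ Y`. Then the two numbers of fixed cosets agree; in cross-multiplied form, `#{k ∈ G : k⁻¹ g σ(k) ∈ Y} · |Y ∩ H| = #{h ∈ H : h⁻¹ x h ∈ Y} · |Y ∩ G|`. -/
theorem result {X : Type*} [Group X] (σ : MulAut X) (e : ℕ) (he : 1 ≤ e)
    [Finite ↥((MulEquiv.toMonoidHom (σ ^ e)).eqLocus (MonoidHom.id X))]
    (Y : Subgroup X) (hY : ∀ y : X, y ∈ Y ↔ σ y ∈ Y)
    (hYL : ∀ y ∈ Y, ∃ a ∈ Y, y = a * (σ a)⁻¹) (hYLe : ∀ y ∈ Y, ∃ a ∈ Y, y = a * ((σ ^ e) a)⁻¹)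
    (g : X) (hg : g ∈ (MulEquiv.toMonoidHom (σ ^ e)).eqLocus (MonoidHom.id X)) (a : X) (ha : g = a * (σ a)⁻¹) :
    Nat.card {k : ↥((MulEquiv.toMonoidHom (σ ^ e)).eqLocus (MonoidHom.id X)) // (k : X)⁻¹ * g * σ k ∈ Y} *
        Nat.card ↥(Y ⊓ (MulEquiv.toMonoidHom σ).eqLocus (MonoidHom.id X)) =
      Nat.card {h : ↥((MulEquiv.toMonoidHom σ).eqLocus (MonoidHom.id X)) // (h : X)⁻¹ * (((σ ^ e) a)⁻¹ * a) * h ∈ Y} *
        Nat.card ↥(Y ⊓ (MulEquiv.toMonoidHom (σ ^ e)).eqLocus (MonoidHom.id X)) := by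
  classical
  have hgσ : (σ ^ e) g = g := hg
  have hfix : ∀ (τ : MulAut X) (x : X), x ∈ (MulEquiv.toMonoidHom τ).eqLocus (MonoidHom.id X) ↔ τ x = x := fun τ x => Iff.rfl
  have hx := Cfsg.Agent.Lib.ShinD.x_fix σ hgσ ha
  set x := ((σ ^ e) a)⁻¹ * a with hxd
  have hσa : σ a = g⁻¹ * a := by rw [ha]; group
  have hσea : (σ ^ e) a = a * x⁻¹ := by rw [hxd]; group
  have hY2 : ∀ y ∈ Y, σ y ∈ Y := fun y hy => (hY y).mp hy
  have hYe : ∀ (d : ℕ), ∀ y ∈ Y, (σ ^ d) y ∈ Y := by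
    intro d
    induction d with
    | zero => intro y hy; exact hy
    | succ d ih => intro y hy; rw [pow_succ, MulAut.mul_apply]; exact ih _ (hY2 y hy)
  let G := (MulEquiv.toMonoidHom (σ ^ e)).eqLocus (MonoidHom.id X)
  let H := (MulEquiv.toMonoidHom σ).eqLocus (MonoidHom.id X)
  have hHG : ∀ h, h ∈ H → h ∈ G := fun h hh => Cfsg.Agent.Lib.ShinD.pow_fix σ hh e
  -- the two properties
  have keyK : ∀ (k h : X), k ∈ G → h ∈ H → k⁻¹ * a * h ∈ Y → k⁻¹ * g * σ k ∈ Y := by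
    intro k h hk hh hy
    have h1 : k⁻¹ * g * σ k = (k⁻¹ * a * h) * (σ (k⁻¹ * a * h))⁻¹ := by
      rw [map_mul, map_mul, map_inv, show σ h = h from hh, hσa]; group
    rw [h1]
    exact Y.mul_mem hy (Y.inv_mem (hY2 _ hy))
  have keyL : ∀ (k h : X), k ∈ G → h ∈ H → k⁻¹ * a * h ∈ Y → h⁻¹ * x * h ∈ Y := by
    intro k h hk hh hy
    have h1 : h⁻¹ * x * h = ((σ ^ e) (k⁻¹ * a * h))⁻¹ * (k⁻¹ * a * h) := by
      rw [map_mul, map_mul, map_inv, show (σ ^ e) k = k from hk, show (σ ^ e) h = h from hHG h hh, hσea]; group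
    rw [h1]
    exact Y.mul_mem (Y.inv_mem (hYe e _ hy)) hy
  have exK : ∀ k, k ∈ G → k⁻¹ * g * σ k ∈ Y → ∃ h, h ∈ H ∧ k⁻¹ * a * h ∈ Y := by
    intro k hk hy
    obtain ⟨b, hb, hb2⟩ := hYL _ hy
    refine ⟨a⁻¹ * k * b, ?_, ?_⟩
    · show σ (a⁻¹ * k * b) = a⁻¹ * k * b
      have h1 : σ b = (k⁻¹ * g * σ k)⁻¹ * b := by rw [hb2]; group
      rw [map_mul, map_mul, map_inv, hσa, h1]; group
    · have : k⁻¹ * a * (a⁻¹ * k * b) = b := by group
      rw [this]; exact hb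
  have exL : ∀ h, h ∈ H → h⁻¹ * x * h ∈ Y → ∃ k, k ∈ G ∧ k⁻¹ * a * h ∈ Y := by
    intro h hh hy
    obtain ⟨c, hc, hc2⟩ := hYLe _ (Y.inv_mem hy)
    -- `c⁻¹` satisfies `σᵉ(y')⁻¹ y' = h⁻¹ x h`
    refine ⟨a * h * c, ?_, ?_⟩
    · show (σ ^ e) (a * h * c) = a * h * c
      have h1 : (σ ^ e) c = (h⁻¹ * x * h) * c := by
        calc (σ ^ e) c = (c * ((σ ^ e) c)⁻¹)⁻¹ * c := by group
          _ = (h⁻¹ * x * h) * c := by rw [← hc2]; group
      rw [map_mul, map_mul, hσea, h1, show (σ ^ e) h = h from hHG h hh]; group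
    · have : (a * h * c)⁻¹ * a * h = c⁻¹ := by group
      rw [this]; exact Y.inv_mem hc
  haveI hfinG : Finite G := by assumption
  haveI hfinH : Finite H := Finite.of_injective (fun h : H => (⟨h.1, hHG h.1 h.2⟩ : G)) (by
    intro h h' e
    exact Subtype.ext (congrArg (fun z : G => (z : X)) e))
  let Z := {p : G × H // (p.1 : X)⁻¹ * a * (p.2 : X) ∈ Y}
  -- first count
  have c1 : Nat.card Z = Nat.card {k : G // (k : X)⁻¹ * g * σ k ∈ Y} * Nat.card ↥(Y ⊓ H) := by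
    rw [← Nat.card_prod]
    symm
    choose hh hh1 hh2 using fun k : {k : G // (k : X)⁻¹ * g * σ k ∈ Y} => exK k.1.1 k.1.2 k.2
    apply Nat.card_congr
    apply Equiv.ofBijective (fun p : {k : G // (k : X)⁻¹ * g * σ k ∈ Y} × ↥(Y ⊓ H) =>
      (⟨(p.1.1, ⟨hh p.1 * p.2.1, H.mul_mem (hh1 p.1) p.2.2.2⟩), by
        show (p.1.1 : X)⁻¹ * a * (hh p.1 * p.2.1) ∈ Y
        rw [← mul_assoc]
        exact Y.mul_mem (hh2 p.1) p.2.2.1⟩ : Z))
    constructor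
    · rintro ⟨k, y⟩ ⟨k', y'⟩ h
      have h1 : k = k' := Subtype.ext (congrArg (fun z : Z => z.1.1) h)
      subst h1
      have h2 := congrArg (fun z : Z => (z.1.2 : X)) h
      have h3 : y = y' := Subtype.ext (mul_left_cancel h2)
      rw [h3]
    · rintro ⟨⟨k, h⟩, hkh⟩
      refine ⟨(⟨k, keyK k h k.2 h.2 hkh⟩, ⟨(hh ⟨k, keyK k h k.2 h.2 hkh⟩)⁻¹ * h, ?_, ?_⟩), ?_⟩
      · have h1 := Y.mul_mem (Y.inv_mem (hh2 ⟨k, keyK k h k.2 h.2 hkh⟩)) hkh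
        have h2 : (((k : X)⁻¹ * a * hh ⟨k, keyK k h k.2 h.2 hkh⟩)⁻¹ * ((k : X)⁻¹ * a * (h : X))) =
            (hh ⟨k, keyK k h k.2 h.2 hkh⟩)⁻¹ * h := by group
        rw [← h2]
        exact h1
      · exact H.mul_mem (H.inv_mem (hh1 _)) h.2
      · apply Subtype.ext
        apply Prod.ext
        · rfl
        · apply Subtype.ext
          show hh _ * ((hh _)⁻¹ * (h : X)) = h
          rw [mul_inv_cancel_left]
  have c2 : Nat.card Z = Nat.card {h : H // (h : X)⁻¹ * x * h ∈ Y} * Nat.card ↥(Y ⊓ G) := by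
    rw [← Nat.card_prod]
    symm
    choose kk kk1 kk2 using fun h : {h : H // (h : X)⁻¹ * x * h ∈ Y} => exL h.1.1 h.1.2 h.2
    have hmem : ∀ (h : {h : H // (h : X)⁻¹ * x * h ∈ Y}) (y : X), y ∈ G →
        kk h * ((kk h)⁻¹ * a * h.1.1) * y * ((kk h)⁻¹ * a * h.1.1)⁻¹ ∈ G → True := fun _ _ _ _ => trivial
    -- parametrize by right multiplication with `Y ∩ G`
    apply Nat.card_congr
    apply Equiv.ofBijective (fun p : {h : H // (h : X)⁻¹ * x * h ∈ Y} × ↥(Y ⊓ G) =>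
      (⟨(⟨kk p.1 * p.2.1, G.mul_mem (kk1 p.1) p.2.2.2⟩, p.1.1), by
        show (kk p.1 * p.2.1)⁻¹ * a * (p.1.1 : X) ∈ Y
        have h1 : (kk p.1 * p.2.1)⁻¹ * a * (p.1.1 : X) = (p.2.1 : X)⁻¹ * ((kk p.1)⁻¹ * a * (p.1.1 : X)) := by group
        rw [h1]
        exact Y.mul_mem (Y.inv_mem p.2.2.1) (kk2 p.1)⟩ : Z))
    constructor
    · rintro ⟨k, y⟩ ⟨k', y'⟩ h
      have h1 : k = k' := Subtype.ext (congrArg (fun z : Z => z.1.2) h)
      subst h1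
      have h2 := congrArg (fun z : Z => (z.1.1 : X)) h
      have h3 : y = y' := Subtype.ext (mul_left_cancel h2)
      rw [h3]
    · rintro ⟨⟨k, h⟩, hkh⟩
      refine ⟨(⟨h, keyL k h k.2 h.2 hkh⟩, ⟨(kk ⟨h, keyL k h k.2 h.2 hkh⟩)⁻¹ * k, ?_, ?_⟩), ?_⟩
      · have h1 := Y.mul_mem (kk2 ⟨h, keyL k h k.2 h.2 hkh⟩) (Y.inv_mem hkh)
        have h2 : ((kk ⟨h, keyL k h k.2 h.2 hkh⟩)⁻¹ * a * (h : X)) * ((k : X)⁻¹ * a * (h : X))⁻¹ =
            (kk ⟨h, keyL k h k.2 h.2 hkh⟩)⁻¹ * k := by group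
        rw [← h2]
        exact h1
      · exact G.mul_mem (G.inv_mem (kk1 _)) k.2
      · apply Subtype.ext
        apply Prod.ext
        · apply Subtype.ext
          show kk _ * ((kk _)⁻¹ * (k : X)) = k
          rw [mul_inv_cancel_left]
        · rfl
  exact c1.symm.trans c2


end Cfsg.Agent.S2669
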