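import Cfsg.Statements.S2671
import Mathlib
import Cfsg.Agent.Lib.Herm18
import Cfsg.Agent.Lib.Herm9
-- import your own Cfsg.Agent.* helpers here

set_option autoImplicit false
open Cfsg
set_option linter.all false

namespace Cfsg.Agent.S2671

/-- Number of conjugacy classes of elements of odd prime order r in the general unitary group GU_n(q), for r not dividing q(q + 1): let i be the multiplicative order of q modulo r, b = i if i is odd and b = i/2 if i is even, and s = (r − 1)/b. If i ≢ 2 (mod 4) the eigenvalue orbits pair off into dual pairs of totally isotropic blocks and there are C(⌊n/(2b)⌋ + s/2, s/2) − 1 classes; if i ≡ 2 (mod 4) each orbit gives a non-degenerate block of dimension i/2 and there are C(⌊2n/i⌋ + s, s) − 1 classes. -/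
theorem result {K : Type*} [Field K] [Fintype K] {p q n r i b s : ℕ} [Fact p.Prime] [CharP K p] (hK : Fintype.card K = q ^ 2) (hr : r.Prime) (hr2 : r ≠ 2) (hrp : r ≠ p) (hi : i = orderOf (q : ZMod r)) (hi2 : i ≠ 2) (hb : b = if Odd i then i else i / 2) (hs : s * b = r - 1) : Nat.card {C : ConjClasses ↥(Cfsg.GU n K q) // ∃ g : ↥(Cfsg.GU n K q), ConjClasses.mk g = C ∧ orderOf g = r} = if i % 4 = 2 then Nat.choose (2 * n / i + s) s - 1 else Nat.choose (n / (2 * b) + s / 2) (s / 2) - 1 := by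
  classical
  obtain ⟨σ, hσ', hq⟩ := Cfsg.Agent.Lib.Herm.exists_sigma hK
  obtain ⟨hs1, hs2, hs3⟩ := Cfsg.Agent.Lib.Herm.sigma_facts hσ'
  haveI : Fact r.Prime := ⟨hr⟩
  haveI : NeZero r := ⟨hr.ne_zero⟩
  have hKc : Nat.card K = q ^ 2 := by rw [Nat.card_eq_fintype_card, hK]
  -- `q` is a power of `p`
  obtain ⟨j, hj⟩ : ∃ j, q = p ^ j := by
    obtain ⟨e, he1, he⟩ := FiniteField.card K p
    rw [hK] at he
    obtain ⟨j, -, hj⟩ := (Nat.dvd_prime_pow (Fact.out : p.Prime)).mp (Dvd.intro_left q (by rw [← sq]; exact he) : q ∣ p ^ (e : ℕ))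
    exact ⟨j, hj⟩
  have hq0 : (q : ZMod r) ≠ 0 := by
    rw [Ne, ZMod.natCast_eq_zero_iff, hj]
    intro h
    exact hrp ((Nat.prime_dvd_prime_iff_eq hr Fact.out).mp (hr.dvd_of_dvd_pow h))
  let s' : (ZMod r)ˣ := Units.mk0 (q : ZMod r) hq0
  have hs'v : (s' : ZMod r) = q := rfl
  have hi' : i = orderOf s' := by rw [← orderOf_units, hs'v, hi]
  have hipos : 0 < i := by rw [hi']; exact orderOf_pos _
  have hQU : Cfsg.Agent.Lib.RCF.QU K r = s' ^ 2 := by
    apply Units.ext
    rw [Cfsg.Agent.Lib.RCF.QU_val (p := p) hr hrp, hKc, Units.val_pow_eq_pow_val, hs'v, Nat.cast_pow]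
  have he : b = orderOf (Nat.card K : ZMod r) := by
    rw [← Cfsg.Agent.Lib.RCF.orderOf_QU (F := K) (p := p) hr hrp, hQU, orderOf_pow, ← hi', hb]
    split_ifs with h
    · rw [Nat.Coprime.gcd_eq_one (Nat.coprime_two_right.mpr h), Nat.div_one]
    · rw [Nat.gcd_eq_right (Nat.not_odd_iff_even.mp h).two_dvd]
  have hu2 : (-s') * (-s') ∈ Subgroup.zpowers (Cfsg.Agent.Lib.RCF.QU K r) := by
    rw [neg_mul_neg, ← sq, hQU]
    exact Subgroup.mem_zpowers _
  have hne1 : (-1 : (ZMod r)ˣ) ≠ 1 := by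
    intro h
    have h1 := congrArg (fun x : (ZMod r)ˣ => (x : ZMod r)) h
    simp only [Units.val_neg, Units.val_one] at h1
    have h2 : (2 : ZMod r) = 0 := by
      calc (2 : ZMod r) = 1 + 1 := by norm_num
        _ = 1 + -1 := by rw [h1]
        _ = 0 := add_neg_cancel 1
    have h3 : ((2 : ℕ) : ZMod r) = 0 := by exact_mod_cast h2
    rw [ZMod.natCast_eq_zero_iff] at h3
    exact hr2 ((Nat.prime_dvd_prime_iff_eq hr Nat.prime_two).mp h3)
  -- membership of `-q`
  have hmem : -s' ∈ Subgroup.zpowers (Cfsg.Agent.Lib.RCF.QU K r) ↔ i % 4 = 2 := by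
    rw [hQU]
    constructor
    · intro h
      obtain ⟨l, hl⟩ := (mem_powers_iff_mem_zpowers (x := s' ^ 2)).mpr h
      have hl' : s' ^ (2 * l) = -s' := by rw [pow_mul]; exact hl
      -- s'^(2l + 2 ord -1 ) = -1
      have h1 : s' ^ (2 * l + (i - 1)) = -1 := by
        rw [pow_add, hl']
        have h2 : s' * s' ^ (i - 1) = 1 := by
          rw [← pow_succ', Nat.sub_add_cancel hipos, hi', pow_orderOf_eq_one]
        rw [neg_mul, h2]
      have h3 : i ∣ 2 * (2 * l + (i - 1)) := by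
        rw [hi']
        apply orderOf_dvd_of_pow_eq_one
        rw [← hi', mul_comm, pow_mul, h1, neg_one_sq]
      have h4 : ¬ i ∣ (2 * l + (i - 1)) := by
        intro h5
        rw [hi', orderOf_dvd_iff_pow_eq_one, ← hi', h1] at h5
        exact hne1 h5
      obtain ⟨c, hc⟩ := h3
      rcases Nat.even_or_odd c with ⟨c', hc'⟩ | ⟨c', hc'⟩
      · exfalso
        apply h4
        refine ⟨c', ?_⟩
        rw [hc'] at hc
        nlinarith
      · -- c odd
        rw [hc'] at hc
        have heven : Even i := by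
          by_contra hodd
          rw [Nat.not_even_iff_odd] at hodd
          have h6 : Odd (i * (2 * c' + 1)) := hodd.mul ⟨c', rfl⟩
          rw [← hc] at h6
          exact (Nat.not_odd_iff_even.mpr ⟨2 * l + (i - 1), by ring⟩) h6
        obtain ⟨i', hi''⟩ := heven
        have h7 : 2 * l + (i - 1) = i' * (2 * c' + 1) := by
          rw [hi''] at hc
          have : 2 * (2 * l + (i - 1)) = 2 * (i' * (2 * c' + 1)) := by
            rw [hi'', hc]; ring
          omega
        have h8 : Odd (i' * (2 * c' + 1)) := by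
          rw [← h7]
          refine ⟨l + i' - 1, ?_⟩
          omega
        rw [Nat.odd_mul] at h8
        obtain ⟨m, hm⟩ := h8.1
        omega
    · intro h
      have h1 : s' ^ (i / 2) = -1 := by
        have h2 : (s' ^ (i / 2)) ^ 2 = 1 := by
          rw [← pow_mul, Nat.div_mul_cancel (by omega), hi', pow_orderOf_eq_one]
        have h3 : s' ^ (i / 2) ≠ 1 := by
          intro h4
          have h5 := orderOf_dvd_of_pow_eq_one h4
          rw [← hi'] at h5
          have := Nat.le_of_dvd (by omega) h5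
          omega
        have h4 : ((s' ^ (i / 2) : (ZMod r)ˣ) : ZMod r) * ((s' ^ (i / 2) : (ZMod r)ˣ) : ZMod r) = 1 := by
          rw [← Units.val_mul, ← sq, h2, Units.val_one]
        rcases mul_self_eq_one_iff.mp h4 with h5 | h5
        · exact absurd (Units.ext h5) h3
        · exact Units.ext h5
      have h2 : -s' = (s' ^ 2) ^ ((i / 2 + 1) / 2) := by
        rw [← pow_mul, Nat.mul_div_cancel' (by omega), pow_succ, h1, neg_one_mul]
      rw [h2]
      exact Subgroup.pow_mem _ (Subgroup.mem_zpowers _) _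
  have hmain := Cfsg.Agent.Lib.RCF.card_order_r (F := K) (p := p) (r := r) (V := Fin n → K) hr hrp
    ((Cfsg.Agent.Lib.RCF.glE n K).comp (Cfsg.GU n K q).subtype)
    (Cfsg.Agent.Lib.RCF.glE_inj.comp Subtype.coe_injective) (-s') hu2
    (by
      rintro g h - - ⟨k, hk⟩
      have h1 : IsConj (g : GL (Fin n) K) (h : GL (Fin n) K) := Cfsg.Agent.Lib.SqZero.isConj_GL hk
      obtain ⟨P, hP⟩ := isConj_iff.mp h1
      obtain ⟨u, hu, hu'⟩ := Cfsg.Agent.Lib.Herm.gu_conj_of_gl_conj hs1 hs2 hq g.2 h.2 hP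
      rw [isConj_iff]
      exact ⟨⟨u, hu⟩, Subtype.ext hu'⟩)
    (by
      intro T hT hsy
      obtain ⟨A, rfl, hA⟩ := Cfsg.Agent.Lib.RCF.exists_glE hr.pos hT
      have hA' : (Cfsg.Agent.Lib.Herm.stI σ n A) ^ r = 1 := by rw [← map_pow, hA, map_one]
      obtain ⟨g, hg⟩ := Cfsg.Agent.Lib.RCF.similar_of_kd (p := p) hr hrp hT
        (S := Cfsg.Agent.Lib.RCF.glE n K (Cfsg.Agent.Lib.Herm.stI σ n A)) (by rw [← map_pow, hA', map_one]) rfl (by
          intro π hπ
          obtain ⟨k, rfl⟩ := Cfsg.Agent.Lib.RCF.pol_surj (p := p) hr hrp hπ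
          rw [Cfsg.Agent.Lib.Herm.kd_stI (p := p) (j := j) hr hrp hs1 (fun a => by rw [hq, hj]) hA k s' (by rw [hs'v, hj])]
          exact (hsy k).symm)
      have hcj : IsConj A (Cfsg.Agent.Lib.Herm.stI σ n A) := Cfsg.Agent.Lib.SqZero.isConj_GL hg
      obtain ⟨g', hg'⟩ := Cfsg.Agent.Lib.Herm.conj_GU_of_stI hσ' hq hcj
      refine ⟨g', ?_, Cfsg.Agent.Lib.RCF.exists_conj_glE hg'⟩
      obtain ⟨c, hc⟩ := isConj_iff.mp hg'
      apply Subtype.ext
      show (g' : GL (Fin n) K) ^ r = 1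
      rw [← hc, conj_pow, hA, mul_one, mul_inv_cancel])
    (by
      intro g hg k
      have hg' : (g : GL (Fin n) K) ^ r = 1 := congrArg Subtype.val hg
      have h1 := Cfsg.Agent.Lib.Herm.kd_stI (p := p) (j := j) hr hrp hs1 (fun a => by rw [hq, hj]) hg' k s' (by rw [hs'v, hj])
      rw [(Cfsg.Agent.Lib.Herm.gu_iff_stI hs1 hq _).mp g.2] at h1
      exact h1.symm)
    (c := if i % 4 = 2 then 1 else 2) (by
      split_ifs with h
      · exact Or.inl ⟨hmem.mpr h, rfl⟩
      · exact Or.inr ⟨fun h' => h (hmem.mp h'), rfl⟩) he hs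
  rw [hmain, Module.finrank_fin_fun]
  split_ifs with h
  · rw [one_mul, Nat.div_one]
    have hb' : b = i / 2 := by
      rw [hb, if_neg (by rw [Nat.not_odd_iff_even]; exact ⟨i / 2, by omega⟩)]
    have h2 : 2 * n / i = n / b := by
      rw [hb']
      have : i = 2 * (i / 2) := by omega
      conv_lhs => rw [this]
      rw [Nat.mul_div_mul_left _ _ (by norm_num)]
    rw [h2]
  · rfl


end Cfsg.Agent.S2671
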