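import Cfsg.Statements.S2672
import Mathlib
import Cfsg.Agent.Lib.Herm17
import Cfsg.Agent.Lib.Herm9
-- import your own Cfsg.Agent.* helpers here

set_option autoImplicit false
open Cfsg
set_option linter.all false

namespace Cfsg.Agent.S2672

/-- Number of conjugacy classes of elements of odd prime order r in PGU_n(q) = GU_n(q)/scalars (n ≥ 3) when r divides q + 1: as in the linear case with q − 1 replaced by q + 1, the classes correspond to the rotation orbits on r-tuples of eigenvalue multiplicities summing to n with every entry < n, plus r − 1 further classes when r divides n; in all (C(n+r−1, r−1) − r − [r ∣ n])/r + r·[r ∣ n]. -/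
theorem result {K : Type*} [Field K] [Fintype K] {q n r : ℕ} (hK : Fintype.card K = q ^ 2) (hn : 3 ≤ n) (hr : r.Prime) (hr2 : r ≠ 2) (hrq : r ∣ q + 1) : Nat.card {C : ConjClasses (↥(Cfsg.GU n K q) ⧸ Subgroup.center ↥(Cfsg.GU n K q)) // ∃ g : ↥(Cfsg.GU n K q) ⧸ Subgroup.center ↥(Cfsg.GU n K q), ConjClasses.mk g = C ∧ orderOf g = r} = (Nat.choose (n + r - 1) (r - 1) - r - (if r ∣ n then 1 else 0)) / r + r * (if r ∣ n then 1 else 0) := by
  classical
  obtain ⟨σ, hσ', hq⟩ := Cfsg.Agent.Lib.Herm.exists_sigma hK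
  obtain ⟨hs1, hs2, hs3⟩ := Cfsg.Agent.Lib.Herm.sigma_facts hσ'
  haveI : Fact r.Prime := ⟨hr⟩
  have hcU := Cfsg.Agent.Lib.Herm.card_NU hK hσ' hq
  have hq1 := Cfsg.Agent.Lib.Herm.one_lt_q hK
  obtain ⟨ζ', hζ'⟩ := exists_prime_orderOf_dvd_card' (G := Cfsg.Agent.Lib.Herm.NU σ) r (by rw [hcU]; exact hrq)
  have hζ : orderOf (ζ' : Kˣ) = r := by rw [Subgroup.orderOf_coe, hζ']
  have hfr : Module.finrank K (Fin n → K) = n := by simp
  have hsc : ∀ u : Kˣ, u ∈ Cfsg.Agent.Lib.Herm.NU σ → Cfsg.Agent.Lib.RCF.sc n K u ∈ Cfsg.GU n K q := by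
    intro u hu
    rw [Cfsg.Agent.Lib.Herm.gu_iff_stI hs1 hq, Cfsg.Agent.Lib.Herm.stI_sc_NU hu]
  have hZ : ∀ g : Cfsg.GU n K q, g ∈ Subgroup.center (Cfsg.GU n K q) ↔ ∃ u ∈ Cfsg.Agent.Lib.Herm.NU σ, (Cfsg.GU n K q).subtype g = Cfsg.Agent.Lib.RCF.sc n K u := by
    intro g
    constructor
    · intro h
      have hg := (Cfsg.Agent.Lib.Herm.mem_GU hs1 hq (g : GL (Fin n) K)).mp g.2
      obtain ⟨l, hl⟩ := (Cfsg.Agent.Lib.Herm.std_nd hs1 n).central_scalar hσ' (by rw [hfr]; omega)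
        (g := Cfsg.Agent.Lib.Herm.gl n K (g : GL (Fin n) K)) hg (by
          intro k hk
          obtain ⟨s, rfl⟩ := Cfsg.Agent.Lib.Herm.suPhi_surj hs1 hq hk
          have h1 := Subgroup.mem_center_iff.mp h (Cfsg.Agent.Lib.Herm.suIncl hs1 hq n s)
          have h2 := congrArg (fun x : Cfsg.GU n K q => (x : GL (Fin n) K)) h1
          have h3 : Cfsg.Agent.Lib.Herm.suPhi K n q s = Cfsg.Agent.Lib.Herm.gl n K ((Cfsg.Agent.Lib.Herm.suIncl hs1 hq n s : Cfsg.GU n K q) : GL (Fin n) K) := by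
            apply LinearEquiv.ext
            intro x
            rfl
          rw [h3, ← map_mul, ← map_mul]
          exact congrArg _ h2.symm)
      have hl2 : ((g : GL (Fin n) K) : Matrix (Fin n) (Fin n) K) = Matrix.scalar (Fin n) l :=
        Cfsg.Agent.Lib.Herm.mulVec_scalar hl
      have hl0 : l ≠ 0 := by
        rintro rfl
        rw [map_zero] at hl2
        have h5 := (g : GL (Fin n) K).isUnit
        rw [hl2, Matrix.isUnit_iff_isUnit_det] at h5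
        haveI : Nonempty (Fin n) := ⟨⟨0, by omega⟩⟩
        rw [Matrix.det_zero] at h5
        exact not_isUnit_zero h5
      have hgs : (g : GL (Fin n) K) = Cfsg.Agent.Lib.RCF.sc n K (Units.mk0 l hl0) := by
        apply Units.ext
        rw [hl2, Cfsg.Agent.Lib.RCF.sc_val]
        rfl
      refine ⟨Units.mk0 l hl0, ?_, hgs⟩
      have h6 := (Cfsg.Agent.Lib.Herm.gu_iff_stI hs1 hq _).mp g.2
      rw [hgs, Cfsg.Agent.Lib.Herm.stI_sc] at h6
      have h7 := Cfsg.Agent.Lib.RCF.sc_inj (by omega) h6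
      rw [inv_eq_iff_mul_eq_one] at h7
      rw [Cfsg.Agent.Lib.Herm.mem_NU, mul_comm]
      exact congrArg Units.val h7
    · rintro ⟨u, -, hu⟩
      rw [Subgroup.mem_center_iff]
      intro h
      apply Subtype.ext
      show (h : GL (Fin n) K) * (g : GL (Fin n) K) = (g : GL (Fin n) K) * (h : GL (Fin n) K)
      rw [show (g : GL (Fin n) K) = Cfsg.Agent.Lib.RCF.sc n K u from hu]
      exact (Cfsg.Agent.Lib.RCF.sc_comm u _).symm
  have hcop : Nat.Coprime r (q - 1) := by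
    rw [Nat.Prime.coprime_iff_not_dvd hr]
    intro h
    have h1 : r ∣ (q + 1) - (q - 1) := Nat.dvd_sub hrq h
    have h2 : (q + 1) - (q - 1) = 2 := by omega
    rw [h2] at h1
    exact hr2 ((Nat.prime_dvd_prime_iff_eq hr Nat.prime_two).mp h1)
  have hroot : ∀ μ ∈ Cfsg.Agent.Lib.Herm.NU σ, ∀ c : Kˣ, c ^ r = μ → ∃ c' ∈ Cfsg.Agent.Lib.Herm.NU σ, c' ^ r = μ := by
    intro μ hμ c hc
    refine ⟨c, ?_, hc⟩
    -- the norm of `c`
    have hco : c ^ (q + 1) = 1 := by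
      have h1 : (c ^ (q + 1)) ^ r = 1 := by
        rw [← pow_mul, mul_comm, pow_mul, hc]
        apply Units.ext
        rw [Units.val_pow_eq_pow_val, pow_succ', ← hq]
        exact Cfsg.Agent.Lib.Herm.mem_NU.mp hμ
      have h2 : (c ^ (q + 1)) ^ (q - 1) = 1 := by
        rw [← pow_mul]
        have h3 : (q + 1) * (q - 1) = Fintype.card Kˣ := by
          rw [Fintype.card_units, hK]
          have := Nat.sq_sub_sq q 1
          rw [one_pow] at this
          exact this.symm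
        rw [h3]
        exact pow_card_eq_one
      have h4 := Nat.dvd_gcd (orderOf_dvd_of_pow_eq_one h1) (orderOf_dvd_of_pow_eq_one h2)
      rw [hcop] at h4
      exact orderOf_eq_one_iff.mp (Nat.dvd_one.mp h4)
    rw [Cfsg.Agent.Lib.Herm.mem_NU, hq, ← pow_succ', ← Units.val_pow_eq_pow_val, hco, Units.val_one]
  have hreal : ∀ A : GL (Fin n) K, ∀ μ ∈ Cfsg.Agent.Lib.Herm.NU σ, A ^ r = Cfsg.Agent.Lib.RCF.sc n K μ →
      ∃ g, IsConj A ((Cfsg.GU n K q).subtype g) := by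
    intro A μ hμ hA
    by_cases hc : ∃ c : Kˣ, c ^ r = μ
    · obtain ⟨c, hc⟩ := hc
      obtain ⟨c', hc'U, hc'⟩ := hroot μ hμ c hc
      have hA' : (Cfsg.Agent.Lib.RCF.sc n K c'⁻¹ * A) ^ r = 1 := by
        rw [(Commute.mul_pow (Cfsg.Agent.Lib.RCF.sc_comm c'⁻¹ A)), hA, ← map_pow, inv_pow, hc', ← map_mul, inv_mul_cancel, map_one]
      haveI := Fintype.ofFinite (Subgroup.zpowers (ζ' : Kˣ))
      obtain ⟨g, hg⟩ := Cfsg.Agent.Lib.Herm.conj_GU_of_stI hσ' hq (A := Cfsg.Agent.Lib.RCF.sc n K c'⁻¹ * A)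
        (Cfsg.Agent.Lib.RCF.conj_of_ed hr.pos hζ hA' (by rw [← map_pow, hA', map_one]) (by
          intro l
          have hl : (l : Kˣ) ∈ Cfsg.Agent.Lib.Herm.NU σ := (Subgroup.zpowers_le.mpr ζ'.2) l.2
          rw [Cfsg.Agent.Lib.Herm.ed_stI _ hl]))
      refine ⟨⟨Cfsg.Agent.Lib.RCF.sc n K c' * (g : GL (Fin n) K), mul_mem (hsc c' hc'U) g.2⟩, ?_⟩
      obtain ⟨x, hx⟩ := isConj_iff.mp hg
      rw [isConj_iff]
      refine ⟨x, ?_⟩
      show x * A * x⁻¹ = Cfsg.Agent.Lib.RCF.sc n K c' * (g : GL (Fin n) K)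
      rw [← hx, ← mul_assoc, ← mul_assoc, ← mul_assoc, Cfsg.Agent.Lib.RCF.sc_comm c' x, map_inv, mul_inv_cancel_right]
    · push Not at hc
      have hirr := Cfsg.Agent.Lib.RCF.irr_of_not_pow hr hc
      have hB : (Cfsg.Agent.Lib.Herm.stI σ n A) ^ r = Cfsg.Agent.Lib.RCF.sc n K μ := by
        rw [← map_pow, hA, Cfsg.Agent.Lib.Herm.stI_sc_NU hμ]
      obtain ⟨g, hg⟩ := Cfsg.Agent.Lib.RCF.similar_of_irred hirr (Cfsg.Agent.Lib.RCF.aeval_sub_C hA) (Cfsg.Agent.Lib.RCF.aeval_sub_C hB) rfl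
      have hcj : IsConj A (Cfsg.Agent.Lib.Herm.stI σ n A) := by
        rw [isConj_iff]
        refine ⟨(Cfsg.Agent.Lib.Herm.gl n K).symm g, ?_⟩
        apply (Cfsg.Agent.Lib.Herm.gl n K).injective
        rw [map_mul, map_mul, map_inv, MulEquiv.apply_symm_apply]
        rw [mul_inv_eq_iff_eq_mul]
        apply LinearEquiv.ext
        intro v
        exact hg v
      obtain ⟨g', hg'⟩ := Cfsg.Agent.Lib.Herm.conj_GU_of_stI hσ' hq hcj
      exact ⟨g', hg'⟩
  have hconj : ∀ g h : Cfsg.GU n K q, IsConj ((Cfsg.GU n K q).subtype g) ((Cfsg.GU n K q).subtype h) → IsConj g h := by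
    intro g h hgh
    obtain ⟨P, hP⟩ := isConj_iff.mp hgh
    obtain ⟨u, hu, hu'⟩ := Cfsg.Agent.Lib.Herm.gu_conj_of_gl_conj hs1 hs2 hq g.2 h.2 hP
    rw [isConj_iff]
    exact ⟨⟨u, hu⟩, Subtype.ext hu'⟩
  exact Cfsg.Agent.Lib.RCF.card_proj (G := Cfsg.GU n K q) (n := n) (F := K) (Cfsg.GU n K q).subtype Subtype.coe_injective
    (Cfsg.Agent.Lib.Herm.NU σ) (ζ' : Kˣ) ζ'.2 hζ hr (by omega)
    hZ (fun u hu => ⟨⟨Cfsg.Agent.Lib.RCF.sc n K u, hsc u hu⟩, rfl⟩) hconj hreal hroot (by rw [hcU]; exact hrq)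


end Cfsg.Agent.S2672
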