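import Cfsg.Statements.S2689
import Mathlib
import Cfsg.Agent.Lib.AutPSL8
-- import your own Cfsg.Agent.* helpers here

set_option autoImplicit false
open Cfsg
set_option linter.all false

namespace Cfsg.Agent.S2689

/-- The automorphism group of a simple projective special linear group PSL_n(F) over a finite field (n ≥ 2; |F| ≥ 4 when n = 2) is generated by the automorphisms induced by invertible semilinear maps of F^n (the image of the projective semilinear group) together with the inverse-transpose automorphism. -/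
theorem result {F : Type*} [Field F] [Fintype F] {p f : ℕ} [Fact p.Prime] (hF : Fintype.card F = p ^ f) (hf : 1 ≤ f) {n : ℕ} (hn : 2 ≤ n) (hs : n = 2 → 4 ≤ Fintype.card F) :
    Cfsg.gammaPSL n F ⊔ Cfsg.autSubgroupOf (fun β : Matrix.ProjectiveSpecialLinearGroup (Fin n) F ≃* Matrix.ProjectiveSpecialLinearGroup (Fin n) F => Cfsg.IsInverseTransposeAutPSL β) = ⊤ := by
  rw [eq_top_iff]
  intro β _
  obtain ⟨g, σ, h⟩ := Cfsg.Agent.Lib.AutPSL.exists_factor hn β
  have h1 : Cfsg.Agent.Lib.AutPSL.desc (Cfsg.Agent.Lib.AutPSL.cj g * Cfsg.Agent.Lib.AutPSL.fa σ)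
      ∈ Cfsg.gammaPSL n F := Subgroup.subset_closure
    ⟨g, σ, (Cfsg.Agent.Lib.AutPSL.isInduced_iff g σ _).mpr rfl⟩
  rcases h with h | h
  · rw [h]
    exact Subgroup.mem_sup_left h1
  · rw [h, map_mul]
    refine Subgroup.mul_mem _ (Subgroup.mem_sup_left h1) (Subgroup.mem_sup_right ?_)
    exact Subgroup.subset_closure ((Cfsg.Agent.Lib.AutPSL.isInverseTranspose_iff _).mpr rfl)


end Cfsg.Agent.S2689
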