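import Cfsg.Statements.S2693
import Mathlib
import Cfsg.Agent.H8.SpTrans

set_option autoImplicit false
open Cfsg

namespace Cfsg.Agent.S2693

open Cfsg.Agent.Lib.AutSp in
theorem induced {m : ℕ} {F : Type*} [Field F] (g : Cfsg.GSp m F) (σ : F ≃+* F) :
    IsInducedBySemilinearPSp (g : GL (Fin m ⊕ Fin m) F) σ (delta g * psi σ : MulAut (Cfsg.PSp m F)) := by
  intro s s' h
  show QuotientGroup.mk (cjS g (faS σ s)) = QuotientGroup.mk s'
  congr 1
  apply Subtype.ext
  rw [h, cjS_coe, faS_coe]

/-- The automorphism group of a simple projective symplectic group PSp_{2m}(F) over a finite field of characteristic p, with m ≥ 2 and (2m, p) ≠ (4, 2), is generated by the automorphisms induced by the semilinear maps v ↦ g σ(v) with g conformal symplectic and σ an automorphism of F (the image of the projective semilinear symplectic group). For (2m, p) = (4, 2) the statement fails: a duality of the underlying polar space gives a further automorphism. -/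
theorem result {F : Type*} [Field F] [Fintype F] {p : ℕ} [Fact p.Prime] [CharP F p] {m : ℕ} (hm : 2 ≤ m) (h4 : m = 2 → p ≠ 2) :
    Cfsg.gammaPSp m F = ⊤ := by
  obtain ⟨k, rfl⟩ : ∃ k, m = k + 1 := ⟨m - 1, by omega⟩
  rw [eq_top_iff]
  intro α _
  have h2 : k = 1 → (2 : F) ≠ 0 := by
    intro hk h0
    have hp2 : p ≠ 2 := h4 (by omega)
    have : (p : ℕ) ∣ 2 := (CharP.cast_eq_zero_iff F p 2).1 (by exact_mod_cast h0)
    exact hp2 ((Nat.prime_dvd_prime_iff_eq Fact.out Nat.prime_two).1 this)
  obtain ⟨g, σ, rfl⟩ := Cfsg.Agent.H8.SpTrans.aut_std (F := F) (show 1 ≤ k by omega) h2 α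
  exact Subgroup.subset_closure ⟨g.1, σ, g.2, induced g σ⟩

end Cfsg.Agent.S2693
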