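import Cfsg.Statements.S2697
import Mathlib
import Cfsg.Agent.Lib.AutPSL13
-- import your own Cfsg.Agent.* helpers here

set_option autoImplicit false
open Cfsg
set_option linter.all false

namespace Cfsg.Agent.S2697

/-- Let T = PSL_n(F) be simple over a finite field (n ≥ 2; |F| ≥ 4 when n = 2) and let x be a field automorphism or a graph-field automorphism of T of prime order r. Then an element y of the coset Inndiag(T)·x (that is, y = δ x with δ in the inner-diagonal group, the image of PGL_n(F)) has order r if and only if y is conjugate to x by an element of Inndiag(T). -/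
theorem result {F : Type*} [Field F] [Fintype F] {p f : ℕ} [Fact p.Prime] (hF : Fintype.card F = p ^ f) (hf : 1 ≤ f) {n : ℕ} (hn : 2 ≤ n) (hs : n = 2 → 4 ≤ Fintype.card F) (x δ : MulAut (Matrix.ProjectiveSpecialLinearGroup (Fin n) F)) (hx : Cfsg.IsFieldAutClassPSL x ∨ Cfsg.IsGraphFieldAutClassPSL x) {r : ℕ} (hr : r.Prime) (hxr : orderOf x = r) (hδ : δ ∈ Cfsg.inndiagPSL n F) :
    orderOf (δ * x) = r ↔ Cfsg.IsConjUnder (Cfsg.inndiagPSL n F) x (δ * x) := by
  rcases hx with ⟨α, σ, hσ, hx⟩ | ⟨h3, α, φ, γ, σ, hσ, hφ, hγ, hx⟩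
  · have h1 := (Cfsg.Agent.Lib.AutPSL.isStdField_iff σ _).mp hx
    refine Cfsg.Agent.Lib.AutPSL.coset_general (x0 := Cfsg.Agent.Lib.AutPSL.psi2 σ) hn h1 hδ hxr ?_
    intro g hg
    refine Cfsg.Agent.Lib.AutPSL.coset_field hn σ ?_ hr.pos g hg
    rw [← Cfsg.Agent.Lib.AutPSL.orderOf_psi2 hn σ]
    have h2 := Cfsg.Agent.Lib.AutPSL.orderOf_conj x α
    rw [h1] at h2
    exact h2.trans hxr
  · have h1 := (Cfsg.Agent.Lib.AutPSL.isStdField_iff σ _).mp hφ
    have h2 := (Cfsg.Agent.Lib.AutPSL.isInverseTranspose_iff _).mp hγ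
    have h4 : α * x * α⁻¹ = Cfsg.Agent.Lib.AutPSL.psi (σ, Cfsg.Agent.Lib.AutPSL.g1') := by
      rw [hx, h1, h2, Cfsg.Agent.Lib.AutPSL.psi_g1, map_mul]
    have h5 := Cfsg.Agent.Lib.AutPSL.orderOf_conj x α
    rw [h4, hxr] at h5
    obtain ⟨hr2, hσ2⟩ := Cfsg.Agent.Lib.AutPSL.graph_field_order h3 hσ hr h5
    refine Cfsg.Agent.Lib.AutPSL.coset_general (x0 := Cfsg.Agent.Lib.AutPSL.psi (σ, Cfsg.Agent.Lib.AutPSL.g1'))
      hn h4 hδ hxr ?_
    intro g hg
    rw [hr2] at hg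
    exact Cfsg.Agent.Lib.AutPSL.coset_graph_field h3 hσ2 g hg


end Cfsg.Agent.S2697
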