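import Cfsg.Statements.S2698
import Mathlib
import Cfsg.Agent.Lib.AutPSL14
-- import your own Cfsg.Agent.* helpers here

set_option autoImplicit false
open Cfsg
set_option linter.all false

namespace Cfsg.Agent.S2698

/-- Let T = PSL_n(F) be simple over the field F with p^f elements (n ≥ 2; p^f ≥ 4 when n = 2), G = Inndiag(T) the image of PGL_n(F) in Aut(T), and x a field automorphism of T of prime order r. Then r divides f; the centralizer C_G(x) is isomorphic to PGL_n(F₀) for the subfield size |F₀| = p^(f/r); and the G-class of x is the union of exactly gcd(n, (p^f − 1)/(p^(f/r) − 1)) classes under conjugation by T (the inner automorphism group). -/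
theorem result {F : Type*} [Field F] [Fintype F] {p f : ℕ} [Fact p.Prime] (hF : Fintype.card F = p ^ f) (hf : 1 ≤ f) {n : ℕ} (hn : 2 ≤ n) (hs : n = 2 → 4 ≤ Fintype.card F) (x : MulAut (Matrix.ProjectiveSpecialLinearGroup (Fin n) F)) (hx : Cfsg.IsFieldAutClassPSL x) {r : ℕ} (hr : r.Prime) (hxr : orderOf x = r) (F₀ : Type*) [Field F₀] [Fintype F₀] (hF₀ : Fintype.card F₀ = p ^ (f / r)) :
    r ∣ f ∧ Nonempty (↥(Cfsg.inndiagPSL n F ⊓ Subgroup.centralizer {x}) ≃* Matrix.ProjGenLinGroup (Fin n) F₀) ∧ Cfsg.splitClassCount (Cfsg.inndiagPSL n F) (Cfsg.Inn (Matrix.ProjectiveSpecialLinearGroup (Fin n) F)) x = Nat.gcd n ((p ^ f - 1) / (p ^ (f / r) - 1)) := by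
  obtain ⟨α, σ, hσ, hx⟩ := hx
  have h1 := (Cfsg.Agent.Lib.AutPSL.isStdField_iff σ _).mp hx
  have hσr : orderOf σ = r := by
    rw [← Cfsg.Agent.Lib.AutPSL.orderOf_psi2 (n := n) hn σ]
    have h2 := Cfsg.Agent.Lib.AutPSL.orderOf_conj x α
    rw [h1] at h2
    exact h2.trans hxr
  have hrf : r ∣ f := by
    rw [← hσr]
    exact Cfsg.Agent.Lib.FinGal.orderOf_dvd σ hF hf
  obtain ⟨ι, hι⟩ := Cfsg.Agent.Lib.FinGal.exists_subfield_hom σ hσr hr.pos (Fact.out : p.Prime) hF hrf F₀ hF₀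
  have hxx : α * x * α⁻¹ = Cfsg.Agent.Lib.AutPSL.psi2 σ := h1
  haveI hN := Cfsg.Agent.Lib.AutPSL.inndiag_normal (F := F) hn
  refine ⟨hrf, ?_, ?_⟩
  · rw [Cfsg.Agent.Lib.AutPSL.inndiag_eq]
    obtain ⟨e1⟩ := Cfsg.Agent.Lib.AutPSL.centralizer_conj_equiv
      ((Cfsg.Agent.Lib.AutPSL.delta (n := n) (F := F)).range) x α
    rw [hxx] at e1
    obtain ⟨e2⟩ := Cfsg.Agent.Lib.AutPSL.field_centralizer_equiv hn ι hι hσr hr.pos
    exact ⟨e1.trans e2⟩
  · have h2 : Cfsg.splitClassCount (Cfsg.inndiagPSL n F)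
        (Cfsg.Inn (Matrix.ProjectiveSpecialLinearGroup (Fin n) F)) x
        = Cfsg.splitClassCount (Cfsg.inndiagPSL n F)
        (Cfsg.Inn (Matrix.ProjectiveSpecialLinearGroup (Fin n) F)) (α * x * α⁻¹) := by
      rw [Cfsg.Agent.Lib.AutPSL.inndiag_eq]
      exact (Cfsg.Agent.Lib.AutPSL.split_count_conj _ _ Cfsg.Agent.Lib.AutPSL.inn_le x α).symm
    rw [h2, hxx, Cfsg.Agent.Lib.AutPSL.split_PSL hn,
      Cfsg.Agent.Lib.AutPSL.detC_field hn ι hι hσr hr.pos, hF, hF₀]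


end Cfsg.Agent.S2698
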