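import Cfsg.Statements.S2704
import Mathlib
import Cfsg.Agent.Lib.AutPSL15
-- import your own Cfsg.Agent.* helpers here

set_option autoImplicit false
open Cfsg
set_option linter.all false

namespace Cfsg.Agent.S2704

open Cfsg.Agent.Lib.AutPSL Cfsg.Agent.Lib.FinGal Matrix in
theorem aux {F : Type*} [Field F] [Fintype F] {n : ℕ} (hn : 3 ≤ n)
    (x : MulAut (Matrix.ProjectiveSpecialLinearGroup (Fin n) F))
    (hx : Cfsg.IsGraphFieldAutClassPSL x) (hx2 : orderOf x = 2) :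
    ∃ (α : MulAut (Matrix.ProjectiveSpecialLinearGroup (Fin n) F)) (σ : F ≃+* F) (k : GL (Fin n) F),
      orderOf σ = 2 ∧ α * x * α⁻¹ = psi (σ, g1') ∧ x = delta k * psi (σ, g1') * (delta k)⁻¹ := by
  obtain ⟨h3, α, φ, γ, σ, hσ, hφ, hγ, hx⟩ := hx
  have h1 := (isStdField_iff σ _).mp hφ
  have h2 := (isInverseTranspose_iff _).mp hγ
  have h4 : α * x * α⁻¹ = psi (σ, g1') := by
    rw [hx, h1, h2, psi_g1, map_mul]
  have h5 := orderOf_conj x α
  rw [h4, hx2] at h5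
  obtain ⟨-, hσ2⟩ := graph_field_order h3 hσ Nat.prime_two h5
  obtain ⟨θ, hθ, hθs, hθk⟩ := exists_proj_PSL (F := F) hn
  haveI := cyclic_gal F
  have hcomm : ∀ a b : (F ≃+* F) × Multiplicative (ZMod 2), a * b = b * a := by
    intro a b
    refine Prod.ext ?_ (mul_comm _ _)
    exact (IsCyclic.commutative (α := F ≃+* F)).is_comm.comm a.1 b.1
  have h6 : x * (psi (σ, g1'))⁻¹ ∈ θ.ker := by
    rw [MonoidHom.mem_ker, map_mul, map_inv, ← h4, map_mul, map_mul, map_inv, hcomm (θ α),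
      mul_assoc, mul_inv_cancel, mul_one, mul_inv_cancel]
  rw [hθk] at h6
  obtain ⟨g, hg⟩ := h6
  have h7 : x = delta g * psi (σ, g1') := by rw [hg]; group
  obtain ⟨k, hk⟩ := coset_graph_field hn hσ2 g (by
    rw [← h7, ← hx2]; exact pow_orderOf_eq_one x)
  exact ⟨α, σ, k, hσ2, h4, h7.trans hk⟩

open Cfsg.Agent.Lib.AutPSL Cfsg.Agent.Lib.FinGal in
theorem order_two_unique {F : Type*} [Field F] [Fintype F] {σ τ : F ≃+* F} (hσ : orderOf σ = 2)
    (hτ : orderOf τ = 2) : σ = τ := by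
  have h1 := card_fixF σ
  have h2 := card_fixF τ
  rw [hσ] at h1
  rw [hτ] at h2
  have h3 : Nat.card (fixF σ) = Nat.card (fixF τ) :=
    Nat.pow_left_injective two_ne_zero (h1.symm.trans h2)
  ext a
  rw [sigma_eq_pow hσ, sigma_eq_pow hτ, h3]

/-- Let T = PSL_n(F) over the field F with p^f elements, n ≥ 3, and G = Inndiag(T) the image of PGL_n(F). If x is an involutory graph-field automorphism of T then f is even; x is G-conjugate to every other involutory graph-field automorphism; C_G(x) is isomorphic to the projective general unitary group PGU_n(q₀) with q₀² = p^f, realised over F itself through the Hermitian form Σ uᵢ vᵢ^{q₀}; and the G-class of x is the union of exactly gcd(n, q₀ − 1) T-classes. -/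
theorem result {F : Type*} [Field F] [Fintype F] {p f : ℕ} [Fact p.Prime] (hF : Fintype.card F = p ^ f) (hf : 1 ≤ f) {n : ℕ} (hn : 3 ≤ n) (x : MulAut (Matrix.ProjectiveSpecialLinearGroup (Fin n) F)) (hx : Cfsg.IsGraphFieldAutClassPSL x) (hx2 : orderOf x = 2) :
    Even f ∧ (∀ y : MulAut (Matrix.ProjectiveSpecialLinearGroup (Fin n) F), Cfsg.IsGraphFieldAutClassPSL y → orderOf y = 2 → Cfsg.IsConjUnder (Cfsg.inndiagPSL n F) x y) ∧ Nonempty (↥(Cfsg.inndiagPSL n F ⊓ Subgroup.centralizer {x}) ≃* Cfsg.PGU n F (p ^ (f / 2))) ∧ Cfsg.splitClassCount (Cfsg.inndiagPSL n F) (Cfsg.Inn (Matrix.ProjectiveSpecialLinearGroup (Fin n) F)) x = Nat.gcd n (p ^ (f / 2) - 1) := by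
  obtain ⟨α, σ, k, hσ, h1, h2⟩ := aux hn x hx hx2
  have hf2 : 2 ∣ f := by
    rw [← hσ]
    exact Cfsg.Agent.Lib.FinGal.orderOf_dvd σ hF hf
  have hq0 : Nat.card (Cfsg.Agent.Lib.FinGal.fixF σ) = p ^ (f / 2) := by
    have h3 := Cfsg.Agent.Lib.FinGal.card_fixF σ
    obtain ⟨m, rfl⟩ := hf2
    rw [hσ, Nat.card_eq_fintype_card, hF] at h3
    rw [Nat.mul_div_cancel_left _ (by norm_num)]
    apply Nat.pow_left_injective two_ne_zero
    show Nat.card (Cfsg.Agent.Lib.FinGal.fixF σ) ^ 2 = (p ^ m) ^ 2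
    rw [← h3]; ring
  have hq : ∀ a, σ a = a ^ (p ^ (f / 2)) := by
    intro a
    rw [← hq0]
    exact Cfsg.Agent.Lib.AutPSL.sigma_eq_pow hσ a
  haveI hN := Cfsg.Agent.Lib.AutPSL.inndiag_normal (F := F) (by omega : 2 ≤ n)
  refine ⟨(even_iff_two_dvd).mpr hf2, ?_, ?_, ?_⟩
  · intro y hy hy2
    obtain ⟨β, τ, l, hτ, h3, h4⟩ := aux hn y hy hy2
    have hτσ : τ = σ := order_two_unique hτ hσ
    subst hτσ
    refine ⟨Cfsg.Agent.Lib.AutPSL.delta (l * k⁻¹), ?_, ?_⟩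
    · rw [Cfsg.Agent.Lib.AutPSL.inndiag_eq]
      exact ⟨_, rfl⟩
    · rw [h4, h2, map_mul, map_inv]
      group
  · rw [Cfsg.Agent.Lib.AutPSL.inndiag_eq]
    obtain ⟨e1⟩ := Cfsg.Agent.Lib.AutPSL.centralizer_conj_equiv
      ((Cfsg.Agent.Lib.AutPSL.delta (n := n) (F := F)).range) x α
    rw [h1] at e1
    obtain ⟨e2⟩ := Cfsg.Agent.Lib.AutPSL.gf_centralizer_equiv (by omega : 2 ≤ n) hσ hq
    exact ⟨e1.trans e2⟩
  · have h5 : Cfsg.splitClassCount (Cfsg.inndiagPSL n F)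
        (Cfsg.Inn (Matrix.ProjectiveSpecialLinearGroup (Fin n) F)) x
        = Cfsg.splitClassCount (Cfsg.inndiagPSL n F)
        (Cfsg.Inn (Matrix.ProjectiveSpecialLinearGroup (Fin n) F)) (α * x * α⁻¹) := by
      rw [Cfsg.Agent.Lib.AutPSL.inndiag_eq]
      exact (Cfsg.Agent.Lib.AutPSL.split_count_conj _ _ Cfsg.Agent.Lib.AutPSL.inn_le x α).symm
    rw [h5, h1, Cfsg.Agent.Lib.AutPSL.split_PSL (by omega),
      Cfsg.Agent.Lib.AutPSL.detC_gf (by omega) hσ, hq0]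


end Cfsg.Agent.S2704
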