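import Cfsg.Statements.S2705
import Mathlib
import Cfsg.Agent.H8.Uni5

set_option autoImplicit false
open Cfsg

namespace Cfsg.Agent.S2705

/-- Let T = PSU_n(q) be simple (n ≥ 3, (n, q) ≠ (3, 2), q = p^f), realised over the field F with q² elements, G = Inndiag(T) the image of PGU_n(q) in Aut(T), and x a field automorphism of T (conjugate to a standard field automorphism of odd order) of odd prime order r. Then r divides f; C_G(x) is isomorphic to PGU_n(q₀) with q₀ = p^(f/r), realised over a field F₀ with q₀² elements; and the G-class of x is the union of exactly gcd(n, (q + 1)/(q₀ + 1)) T-classes. -/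
theorem result {F : Type*} [Field F] [Fintype F] {p f q : ℕ} [Fact p.Prime] (hq : q = p ^ f) (hf : 1 ≤ f) (hF : Fintype.card F = q ^ 2) {n : ℕ} (hn : 3 ≤ n) (hs : ¬ (n = 3 ∧ q = 2)) (x : MulAut (Cfsg.PSU n F q)) (hx : Cfsg.IsFieldAutClassPSU x) {r : ℕ} (hr : r.Prime) (hro : Odd r) (hxr : orderOf x = r) (F₀ : Type*) [Field F₀] [Fintype F₀] (hF₀ : Fintype.card F₀ = p ^ (2 * (f / r))) :
    r ∣ f ∧ Nonempty (↥(Cfsg.inndiagPSU n F q ⊓ Subgroup.centralizer {x}) ≃* Cfsg.PGU n F₀ (p ^ (f / r))) ∧ Cfsg.splitClassCount (Cfsg.inndiagPSU n F q) (Cfsg.Inn (Cfsg.PSU n F q)) x = Nat.gcd n ((q + 1) / (p ^ (f / r) + 1)) := by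
  obtain ⟨α, φ, σ, hσ, hodd, hφ, hx⟩ := hx
  rw [Cfsg.Agent.H8.Uni.isField_iff] at hφ
  rw [hφ] at hx
  have htop := Cfsg.Agent.H8.Uni.aut_std' hF hn hs
  have hker := Cfsg.Agent.H8.Uni.hker' (n := n) hF hn
  have hinj := (Cfsg.Agent.H8.Uni.US n F q).psi_inj hker
  have hσr : orderOf σ = r := by
    have h1 : orderOf (Cfsg.Agent.H8.Uni.gt (n := n) (q := q) σ) = orderOf σ := (Subgroup.orderOf_coe _).symm
    rw [← h1, ← orderOf_injective _ hinj]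
    have h2 := Cfsg.Agent.Lib.AutPSL.orderOf_conj x α
    rw [hx] at h2
    exact h2.trans hxr
  have hrf := Cfsg.Agent.H8.Uni.r_dvd hf hq hF hσr hro
  have hF₀' : Fintype.card F₀ = (p ^ (f / r)) ^ 2 := by rw [hF₀, ← pow_mul, mul_comm]
  have hrf2 : r ∣ 2 * f := Dvd.dvd.mul_left hrf 2
  obtain ⟨ι, hι⟩ := Cfsg.Agent.Lib.FinGal.exists_subfield_hom σ hσr hr.pos (Fact.out : p.Prime) (f := 2 * f)
    (by rw [hF, hq, ← pow_mul, mul_comm]) hrf2 F₀ (by rw [hF₀, Nat.mul_div_assoc _ hrf])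
  obtain ⟨τ, hτ, hτq⟩ := Cfsg.Agent.Lib.Herm.exists_sigma hF
  obtain ⟨hτ2, -, -⟩ := Cfsg.Agent.Lib.Herm.sigma_facts hτ
  obtain ⟨τ₀, hτ₀, hq₀⟩ := Cfsg.Agent.Lib.Herm.exists_sigma hF₀'
  obtain ⟨hτ₀2, -, -⟩ := Cfsg.Agent.Lib.Herm.sigma_facts hτ₀
  have hc : ∀ y, τ (ι y) = ι (τ₀ y) :=
    Cfsg.Agent.H8.Uni.compat hF₀' hro (by rw [hq, ← pow_mul, Nat.div_mul_cancel hrf]) hτq hq₀ ι
  haveI hN := (Cfsg.Agent.H8.Uni.US n F q).delta_normal htop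
  refine ⟨hrf, ?_, ?_⟩
  · rw [Cfsg.Agent.H8.Uni.inndiag_eq]
    obtain ⟨e1⟩ := Cfsg.Agent.Lib.AutPSL.centralizer_conj_equiv (Cfsg.Agent.H8.Uni.US n F q).delta.range x α
    rw [hx] at e1
    obtain ⟨e2⟩ := Cfsg.Agent.H8.Uni.centralizer_equiv hF hn hτ2 hτ₀ hτ₀2 hτq hq₀ ι hc (Cfsg.Agent.H8.Uni.gt σ) hι hσr hr.pos
    exact ⟨e1.trans e2⟩
  · have h2 : Cfsg.splitClassCount (Cfsg.inndiagPSU n F q) (Cfsg.Inn (Cfsg.PSU n F q)) x
        = Cfsg.splitClassCount (Cfsg.inndiagPSU n F q) (Cfsg.Inn (Cfsg.PSU n F q)) (α * x * α⁻¹) := by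
      rw [Cfsg.Agent.H8.Uni.inndiag_eq]
      exact (Cfsg.Agent.Lib.AutPSL.split_count_conj _ _ (Cfsg.Agent.H8.Uni.US n F q).inn_le x α).symm
    rw [h2, hx, Cfsg.Agent.H8.Uni.inndiag_eq, Cfsg.Agent.H8.Uni.split_PSU hF hF₀' hn hτ hτ2 hτ₀ hτ₀2 hτq hq₀ ι hc (Cfsg.Agent.H8.Uni.gt σ) hι hσr hr.pos]

end Cfsg.Agent.S2705
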