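import Cfsg.Statements.S2712
import Mathlib
import Cfsg.Agent.H8.SpAut4

set_option autoImplicit false
open Cfsg

namespace Cfsg.Agent.S2712

theorem num {p f r : ℕ} (hp : p.Prime) (hf : 1 ≤ f) (hr : r.Prime) (hrf : r ∣ f) :
    Nat.gcd (Nat.gcd 2 (p ^ f - 1)) ((p ^ f - 1) / (p ^ (f / r) - 1)) = Nat.gcd (Nat.gcd 2 (p ^ f - 1)) r := by
  obtain ⟨k, rfl⟩ := hrf
  have hk : k ≠ 0 := by rintro rfl; omega
  rw [Nat.mul_div_cancel_left k hr.pos]
  rcases hp.eq_two_or_odd' with rfl | hodd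
  · have : Nat.gcd 2 (2 ^ (r * k) - 1) = 1 := by
      have h1 : ¬ 2 ∣ 2 ^ (r * k) - 1 := by
        have h2 : 2 ∣ 2 ^ (r * k) := dvd_pow_self 2 (Nat.mul_ne_zero hr.ne_zero hk)
        have h3 : 1 ≤ 2 ^ (r * k) := Nat.one_le_two_pow
        omega
      exact (Nat.Prime.coprime_iff_not_dvd Nat.prime_two).2 h1
    rw [this, Nat.gcd_one_left, Nat.gcd_one_left]
  · have h0 : Nat.gcd 2 (p ^ (r * k) - 1) = 2 := by
      apply Nat.gcd_eq_left
      have h2 : Odd (p ^ (r * k)) := hodd.pow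
      obtain ⟨a, ha⟩ := h2
      omega
    rw [h0]
    have hq : Odd (p ^ k) := hodd.pow
    have hq2 : 2 ≤ p ^ k := by
      calc 2 ≤ p := hp.two_le
        _ = p ^ 1 := (pow_one p).symm
        _ ≤ p ^ k := Nat.pow_le_pow_right hp.pos (Nat.one_le_iff_ne_zero.2 hk)
    have h1 : (p ^ (r * k) - 1) / (p ^ k - 1) = ∑ i ∈ Finset.range r, (p ^ k) ^ i := by
      rw [Nat.geomSum_eq hq2, ← pow_mul, mul_comm k r]
    rw [h1]
    have h2 : (∑ i ∈ Finset.range r, (p ^ k) ^ i) % 2 = r % 2 := by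
      have : ∀ n, (∑ i ∈ Finset.range n, (p ^ k) ^ i) % 2 = n % 2 := by
        intro n
        induction n with
        | zero => rfl
        | succ n ih =>
          rw [Finset.sum_range_succ, Nat.add_mod, ih]
          have h3 : ((p ^ k) ^ n) % 2 = 1 := Nat.odd_iff.1 hq.pow
          rw [h3]
          omega
      exact this r
    rw [Nat.gcd_rec 2, Nat.gcd_rec 2 r, h2]

/-- Let T = PSp_{2m}(F) be simple over the field F with p^f elements (m ≥ 2, (2m, |F|) ≠ (4, 2)), G = Inndiag(T) the image of the projective conformal symplectic group PGSp_{2m}(F), and x a field automorphism of T of prime order r. Then r divides f; C_G(x) is isomorphic to PGSp_{2m}(F₀) for a field F₀ with p^(f/r) elements; and the G-class of x is the union of exactly gcd(gcd(2, p^f − 1), r) T-classes. -/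
theorem result {F : Type*} [Field F] [Fintype F] {p f : ℕ} [Fact p.Prime] (hF : Fintype.card F = p ^ f) (hf : 1 ≤ f) {m : ℕ} (hm : 2 ≤ m) (hs : m = 2 → 3 ≤ Fintype.card F) (x : MulAut (Cfsg.PSp m F)) (hx : Cfsg.IsFieldAutClassPSp x) {r : ℕ} (hr : r.Prime) (hxr : orderOf x = r) (F₀ : Type*) [Field F₀] [Fintype F₀] (hF₀ : Fintype.card F₀ = p ^ (f / r)) :
    r ∣ f ∧ Nonempty (↥(Cfsg.inndiagPSp m F ⊓ Subgroup.centralizer {x}) ≃* Cfsg.PGSp m F₀) ∧ Cfsg.splitClassCount (Cfsg.inndiagPSp m F) (Cfsg.Inn (Cfsg.PSp m F)) x = Nat.gcd (Nat.gcd 2 (p ^ f - 1)) r := by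
  have hm1 : 1 ≤ m := by omega
  obtain ⟨α, σ, hσ, hx⟩ := hx
  have hxx : α * x * α⁻¹ = Cfsg.Agent.Lib.AutSp.psi σ := (Cfsg.Agent.H8.SpAut.isStdField_iff σ _).mp hx
  have hσr : orderOf σ = r := by
    rw [← orderOf_injective _ (Cfsg.Agent.H8.SpAut.psi_inj (F := F) hm1) σ]
    have h2 := Cfsg.Agent.Lib.AutPSL.orderOf_conj x α
    rw [hxx] at h2
    exact h2.trans hxr
  have hrf : r ∣ f := by
    rw [← hσr]
    exact Cfsg.Agent.Lib.FinGal.orderOf_dvd σ hF hf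
  obtain ⟨ι, hι⟩ := Cfsg.Agent.Lib.FinGal.exists_subfield_hom σ hσr hr.pos (Fact.out : p.Prime) hF hrf F₀ hF₀
  haveI hN := Cfsg.Agent.H8.SpAut.delta_normal (F := F) hm
  refine ⟨hrf, ?_, ?_⟩
  · rw [Cfsg.Agent.H8.SpAut.inndiag_eq]
    obtain ⟨e1⟩ := Cfsg.Agent.Lib.AutPSL.centralizer_conj_equiv
      ((Cfsg.Agent.Lib.AutSp.delta (m := m) (F := F)).range) x α
    rw [hxx] at e1
    obtain ⟨e2⟩ := Cfsg.Agent.H8.SpAut.field_centralizer_equiv' hm1 ι hι hσr hr.pos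
    exact ⟨e1.trans e2⟩
  · have h2 : Cfsg.splitClassCount (Cfsg.inndiagPSp m F) (Cfsg.Inn (Cfsg.PSp m F)) x
        = Cfsg.splitClassCount (Cfsg.inndiagPSp m F) (Cfsg.Inn (Cfsg.PSp m F)) (α * x * α⁻¹) := by
      rw [Cfsg.Agent.H8.SpAut.inndiag_eq]
      exact (Cfsg.Agent.Lib.AutPSL.split_count_conj _ _ Cfsg.Agent.H8.SpAut.inn_le x α).symm
    rw [h2, hxx, Cfsg.Agent.H8.SpAut.inndiag_eq, Cfsg.Agent.H8.SpAut.split_PSp hm1 ι hι hσr hr.pos, hF, hF₀]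
    exact num Fact.out hf hr hrf

end Cfsg.Agent.S2712
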