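import Cfsg.Statements.S2713
import Mathlib
import Cfsg.Agent.H8.SpAut3

set_option autoImplicit false
open Cfsg

namespace Cfsg.Agent.S2713

/-- Let T = PSp_{2m}(F) be simple over a finite field (m ≥ 2, (2m, |F|) ≠ (4, 2)) and let x be a field automorphism of T of prime order r. Then an element y of the coset Inndiag(T)·x (y = δ x with δ in the image of the projective conformal symplectic group) has order r if and only if y is conjugate to x by an element of Inndiag(T). -/
theorem result {F : Type*} [Field F] [Fintype F] {m : ℕ} (hm : 2 ≤ m) (hs : m = 2 → 3 ≤ Fintype.card F) (x δ : MulAut (Cfsg.PSp m F)) (hx : Cfsg.IsFieldAutClassPSp x) {r : ℕ} (hr : r.Prime) (hxr : orderOf x = r) (hδ : δ ∈ Cfsg.inndiagPSp m F) :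
    orderOf (δ * x) = r ↔ Cfsg.IsConjUnder (Cfsg.inndiagPSp m F) x (δ * x) := by
  obtain ⟨α, σ, hσ, hx⟩ := hx
  have h1 : α * x * α⁻¹ = Cfsg.Agent.Lib.AutSp.psi σ := (Cfsg.Agent.H8.SpAut.isStdField_iff σ _).mp hx
  have hσr : orderOf σ = r := by
    rw [← orderOf_injective _ (Cfsg.Agent.H8.SpAut.psi_inj (F := F) (show 1 ≤ m by omega)) σ]
    have h2 := Cfsg.Agent.Lib.AutPSL.orderOf_conj x α
    rw [h1] at h2
    exact h2.trans hxr
  haveI := Cfsg.Agent.H8.SpAut.delta_normal (F := F) hm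
  rw [Cfsg.Agent.H8.SpAut.inndiag_eq] at hδ ⊢
  exact Cfsg.Agent.H8.SimAbs.coset_abs Cfsg.Agent.Lib.AutSp.delta h1 hδ hxr
    (fun g hg => Cfsg.Agent.H8.SpAut.coset_field (by omega) σ hσr hr.pos g hg)

end Cfsg.Agent.S2713
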