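import Cfsg.Statements.S2714
import Mathlib
import Cfsg.Agent.H8.Ort10

set_option autoImplicit false
open Cfsg

namespace Cfsg.Agent.S2714

open Cfsg.Agent.H8

theorem main {F : Type*} [Field F] [Fintype F] {p f : ℕ} [Fact p.Prime] (hF : Fintype.card F = p ^ f) (hf : 1 ≤ f) (h2 : (2 : F) ≠ 0) {k : ℕ} (hk : 2 ≤ k) (x : MulAut (Cfsg.POmega F (Cfsg.quadFormOdd (k + 1) F))) (hx : Cfsg.IsFieldAutClassPOmega (Cfsg.quadFormOdd (k + 1) F) x) {r : ℕ} (hr : r.Prime) (hxr : orderOf x = r) (F₀ : Type*) [Field F₀] [Fintype F₀] (hF₀ : Fintype.card F₀ = p ^ (f / r)) :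
    ∃ (α : MulAut (Cfsg.POmega F (Cfsg.quadFormOdd (k + 1) F))) (σ : (Ort.OS (k + 1) F).A) (ι : F₀ →+* F), r ∣ f ∧ orderOf σ.1 = r ∧
      (∀ x, σ.1 x = x ↔ ∃ y, ι y = x) ∧ α * x * α⁻¹ = (Ort.OS (k + 1) F).psi σ := by
  obtain ⟨α, φ, σ, hσ, hφ, hx⟩ := hx
  rw [Ort.isField_iff (h1 := Ort.spec_le _) (h2 := Ort.spec_ok _) (h3 := Ort.spec_mg _) (Ort.fix_odd _ σ)] at hφ
  have hφ' : φ = (Ort.OS (k + 1) F).psi (Ort.ot (k + 1) σ) := hφ
  rw [hφ'] at hx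
  have hm : 3 ≤ k + 1 := by omega
  have hinj := (Ort.OS (k + 1) F).psi_inj (Ort.hkerO h2 hm)
  have hσr : orderOf σ = r := by
    have h1 : orderOf (Ort.ot (k + 1) σ) = orderOf σ := (Subgroup.orderOf_coe _).symm
    rw [← h1, ← orderOf_injective _ hinj]
    have h2 := Cfsg.Agent.Lib.AutPSL.orderOf_conj x α
    rw [hx] at h2
    exact h2.trans hxr
  have hrf : r ∣ f := by
    rw [← hσr]
    exact Cfsg.Agent.Lib.FinGal.orderOf_dvd σ hF hf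
  obtain ⟨ι, hι⟩ := Cfsg.Agent.Lib.FinGal.exists_subfield_hom σ hσr hr.pos (Fact.out : p.Prime) hF hrf F₀ hF₀
  exact ⟨α, Ort.ot (k + 1) σ, ι, hrf, hσr, hι, hx⟩

/-- Let T = Ω_{2m+1}(F) (m ≥ 3, |F| = p^f odd; realised as PΩ of the form x₀² + Σ xᵢ yᵢ), G = Inndiag(T) the image of the conformal orthogonal group in Aut(T), and x a field automorphism of T of prime order r. Then r divides f; C_G(x) is isomorphic to Inndiag(Ω_{2m+1}(F₀)) for a field F₀ with p^(f/r) elements; and the G-class of x is a single T-class when r is odd and the union of exactly two T-classes when r = 2. -/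
theorem result {F : Type*} [Field F] [Fintype F] {p f : ℕ} [Fact p.Prime] (hF : Fintype.card F = p ^ f) (hf : 1 ≤ f) (hodd : Odd (Fintype.card F)) {m : ℕ} (hm : 3 ≤ m) (x : MulAut (Cfsg.POmega F (Cfsg.quadFormOdd m F))) (hx : Cfsg.IsFieldAutClassPOmega (Cfsg.quadFormOdd m F) x) {r : ℕ} (hr : r.Prime) (hxr : orderOf x = r) (F₀ : Type*) [Field F₀] [Fintype F₀] (hF₀ : Fintype.card F₀ = p ^ (f / r)) :
    r ∣ f ∧ Nonempty (↥(Cfsg.inndiagPOmegaOdd m F ⊓ Subgroup.centralizer {x}) ≃* ↥(Cfsg.inndiagPOmegaOdd m F₀)) ∧ (Odd r → Cfsg.splitClassCount (Cfsg.inndiagPOmegaOdd m F) (Cfsg.Inn (Cfsg.POmega F (Cfsg.quadFormOdd m F))) x = 1) ∧ (r = 2 → Cfsg.splitClassCount (Cfsg.inndiagPOmegaOdd m F) (Cfsg.Inn (Cfsg.POmega F (Cfsg.quadFormOdd m F))) x = 2) := by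
  have h2 := Cfsg.Agent.Lib.Orth.two_ne_zero_of_odd (F := F) hodd
  obtain ⟨k, rfl⟩ : ∃ k, m = k + 1 := ⟨m - 1, by omega⟩
  have hk : 2 ≤ k := by omega
  obtain ⟨α, σ, ι, hrf, hσr, hι, hx⟩ := main hF hf h2 hk x hx hr hxr F₀ hF₀
  have h20 : (2 : F₀) ≠ 0 := by
    intro h0
    apply h2
    have := congrArg ι h0
    rwa [map_ofNat, map_zero] at this
  rw [Ort.inndiag_eq h2, Ort.inndiag_eq h20]
  refine ⟨hrf, Ort.final1 h2 h20 hk ι σ hι x α hx, ?_, ?_⟩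
  · intro ho
    exact Ort.final2 h2 h20 hk ι σ hι x α hx hσr ho
  · intro hr2
    refine Ort.final3 h2 h20 hk ι σ hι x α hx ?_
    rw [Nat.card_eq_fintype_card, Nat.card_eq_fintype_card, hF, hF₀, ← pow_mul, ← hr2, Nat.div_mul_cancel hrf]

end Cfsg.Agent.S2714
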