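import Cfsg.Statements.S2735
import Mathlib
import Cfsg.Agent.H8.Ort8

set_option autoImplicit false
open Cfsg

namespace Cfsg.Agent.S2735

open Cfsg.Agent.H8

/-- Let T = Ω_{2m+1}(F) (m ≥ 3, |F| odd) and x a field automorphism of T of prime order r. Then an element y of the coset Inndiag(T)·x (y = δ x with δ induced by a similarity of the form) has order r if and only if y is conjugate to x by an element of Inndiag(T). (T has no graph or graph-field automorphisms.) -/
theorem result {F : Type*} [Field F] [Fintype F] (hodd : Odd (Fintype.card F)) {m : ℕ} (hm : 3 ≤ m) (x δ : MulAut (Cfsg.POmega F (Cfsg.quadFormOdd m F))) (hx : Cfsg.IsFieldAutClassPOmega (Cfsg.quadFormOdd m F) x) {r : ℕ} (hr : r.Prime) (hxr : orderOf x = r) (hδ : δ ∈ Cfsg.inndiagPOmegaOdd m F) :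
    orderOf (δ * x) = r ↔ Cfsg.IsConjUnder (Cfsg.inndiagPOmegaOdd m F) x (δ * x) := by
  have h2 := Cfsg.Agent.Lib.Orth.two_ne_zero_of_odd (F := F) hodd
  obtain ⟨k, rfl⟩ : ∃ k, m = k + 1 := ⟨m - 1, by omega⟩
  obtain ⟨α, φ, σ, hσ, hφ, hx⟩ := hx
  rw [Ort.isField_iff (h1 := Ort.spec_le _) (h2 := Ort.spec_ok _) (h3 := Ort.spec_mg _) (Ort.fix_odd _ σ)] at hφ
  have hφ' : φ = (Ort.OS (k + 1) F).psi (Ort.ot (k + 1) σ) := hφ
  rw [hφ'] at hx
  have htop := Ort.std_top' (F := F) h2 hm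
  have hinj := (Ort.OS (k + 1) F).psi_inj (Ort.hkerO h2 hm)
  have hσr : orderOf σ = r := by
    have h1 : orderOf (Ort.ot (k + 1) σ) = orderOf σ := (Subgroup.orderOf_coe _).symm
    rw [← h1, ← orderOf_injective _ hinj]
    have h2 := Cfsg.Agent.Lib.AutPSL.orderOf_conj x α
    rw [hx] at h2
    exact h2.trans hxr
  haveI := (Ort.OS (k + 1) F).delta_normal htop
  rw [Ort.inndiag_eq h2] at hδ ⊢
  exact SimAbs.coset_abs (Ort.OS (k + 1) F).delta hx hδ hxr
    (fun g hg => Ort.coset_fieldO h2 (by omega) _ hσr hr.pos g hg)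

end Cfsg.Agent.S2735
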