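import Cfsg.Statements.S2738
import Mathlib
import Cfsg.Agent.Lib.GLSL
import Cfsg.Agent.Lib.SLn
open scoped commutatorElement
-- import your own Cfsg.Agent.* helpers here

set_option autoImplicit false
open Cfsg
set_option linter.all false

namespace Cfsg.Agent.S2738

/-- The special linear group SL(3, 4) has centre of order 3 and does not split over it: no subgroup is a complement to the centre (so SL(3, 4) is a non-split central extension of PSL(3, 4) by a group of order 3). -/
theorem result (F : Type*) [Field F] [Fintype F] (hF : Fintype.card F = 4) : Nat.card ↥(Subgroup.center (Matrix.SpecialLinearGroup (Fin 3) F)) = 3 ∧ ¬ ∃ K : Subgroup (Matrix.SpecialLinearGroup (Fin 3) F), Subgroup.IsComplement' (Subgroup.center (Matrix.SpecialLinearGroup (Fin 3) F)) K := by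
  classical
  constructor
  · rw [Cfsg.Agent.Lib.GLSL.card_center_SL 3 (by norm_num), hF]
    norm_num
  · rintro ⟨K, hK⟩
    have hperf := Cfsg.Agent.Lib.SLn.commutator_eq_top (ι := Fin 3) (F := F) (by simp)
    set Z := Subgroup.center (Matrix.SpecialLinearGroup (Fin 3) F) with hZ
    have hcZ : Nat.card Z = 3 := by
      rw [hZ, Cfsg.Agent.Lib.GLSL.card_center_SL 3 (by norm_num), hF]
      norm_num
    have hex : ∀ g : Matrix.SpecialLinearGroup (Fin 3) F, ∃ z ∈ Z, ∃ k ∈ K, g = z * k := by
      intro g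
      obtain ⟨⟨z, k⟩, hzk⟩ := hK.2 g
      exact ⟨z, z.2, k, k.2, hzk.symm⟩
    have hKn : K.Normal := by
      constructor
      intro k hk g
      obtain ⟨z, hz, k', hk', rfl⟩ := hex g
      have hzc : ∀ y, y * z = z * y := Subgroup.mem_center_iff.mp hz
      have : z * k' * k * (z * k')⁻¹ = k' * k * k'⁻¹ := by
        rw [mul_inv_rev, mul_assoc z k' k, ← hzc (k' * k)]
        have h1 : z * (k'⁻¹ * z⁻¹) = k'⁻¹ := by
          rw [← mul_assoc, ← hzc k'⁻¹, mul_inv_cancel_right]
        rw [mul_assoc, h1]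
      rw [this]
      exact K.mul_mem (K.mul_mem hk' hk) (K.inv_mem hk')
    -- commutators lie in K
    have hle : commutator (Matrix.SpecialLinearGroup (Fin 3) F) ≤ K := by
      rw [commutator_def, Subgroup.commutator_le]
      intro a _ b _
      obtain ⟨z, hz, k, hk, rfl⟩ := hex a
      obtain ⟨w, hw, l, hl, rfl⟩ := hex b
      have hzc : ∀ y, y * z = z * y := Subgroup.mem_center_iff.mp hz
      have hwc : ∀ y, y * w = w * y := Subgroup.mem_center_iff.mp hw
      have : ⁅z * k, w * l⁆ = ⁅k, l⁆ := by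
        rw [commutatorElement_def, commutatorElement_def, mul_inv_rev, mul_inv_rev]
        have h1 : z * k * (w * l) * (k⁻¹ * z⁻¹) * (l⁻¹ * w⁻¹) = z * (k * w * l * k⁻¹) * z⁻¹ * l⁻¹ * w⁻¹ := by group
        rw [h1, ← hzc (k * w * l * k⁻¹), mul_inv_cancel_right, hwc k]
        have h2 : w * k * l * k⁻¹ * l⁻¹ * w⁻¹ = w * (k * l * k⁻¹ * l⁻¹) * w⁻¹ := by group
        rw [h2, ← hwc, mul_inv_cancel_right]
      rw [this]
      exact K.mul_mem (K.mul_mem (K.mul_mem hk hl) (K.inv_mem hk)) (K.inv_mem hl)
    rw [hperf] at hle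
    have hKtop : K = ⊤ := top_le_iff.mp hle
    have h3 := hK.card_mul
    rw [hKtop, Subgroup.card_top, hcZ] at h3
    have h4 : 0 < Nat.card (Matrix.SpecialLinearGroup (Fin 3) F) := Nat.card_pos
    omega


end Cfsg.Agent.S2738
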