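import Cfsg.Statements.S2763
import Cfsg.Agent.Lib.QdF

set_option autoImplicit false
open Cfsg
open Cfsg.Agent.Lib.QdC Cfsg.Agent.Lib.QdD Cfsg.Agent.Lib.QdE Cfsg.Agent.Lib.QdA Cfsg.Agent.Lib.Involve Cfsg.Agent.Lib.QdF

namespace Cfsg.Agent.S2763

/-- In the group Qd(p) (p prime; the natural semidirect product of an elementary abelian group of order p² by SL₂(p)), the normalizer of every nontrivial characteristic subgroup of a Sylow p-subgroup S equals the normalizer of S, which is a proper subgroup; in particular no such characteristic subgroup is normal. -/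
theorem result {p : ℕ} [Fact p.Prime] (S : Sylow p ↥(Cfsg.qd p)) (T : Subgroup ↥(S : Subgroup ↥(Cfsg.qd p))) (hT : T ≠ ⊥) (hTc : T.Characteristic) : Subgroup.normalizer ((T.map (S : Subgroup ↥(Cfsg.qd p)).subtype : Subgroup ↥(Cfsg.qd p)) : Set ↥(Cfsg.qd p)) = Subgroup.normalizer ((S : Subgroup ↥(Cfsg.qd p)) : Set ↥(Cfsg.qd p)) ∧ Subgroup.normalizer ((S : Subgroup ↥(Cfsg.qd p)) : Set ↥(Cfsg.qd p)) ≠ ⊤ := by
  have hSne : (⊤ : Subgroup (S : Subgroup (qd p))) ≠ ⊥ := by
    intro h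
    exact hT (le_bot_iff.1 (le_top.trans h.le))
  have h1 : Subgroup.normalizer ((S : Subgroup (qd p)) : Set (qd p)) ≠ ⊤ := by
    intro h
    have h2 := no_char S ⊤ hSne inferInstance
    rw [← MonoidHom.range_eq_map, Subgroup.range_subtype] at h2
    exact h2 (Subgroup.normalizer_eq_top_iff.1 h)
  refine ⟨?_, h1⟩
  have h2 : Subgroup.normalizer ((S : Subgroup (qd p)) : Set (qd p)) ≤ Subgroup.normalizer ((T.map (S : Subgroup (qd p)).subtype : Subgroup (qd p)) : Set (qd p)) := by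
    intro g hg
    refine Cfsg.Agent.Lib.CFunA.mem_normalizer_of_le ?_
    rintro _ ⟨_, ⟨t, ht, rfl⟩, rfl⟩
    have h3 := Subgroup.characteristic_iff_map_le.1 hTc (MulAut.conjNormal (H := (S : Subgroup (qd p)).subgroupOf (Subgroup.normalizer ((S : Subgroup (qd p)) : Set (qd p)))) ⟨g, hg⟩ |> fun φ =>
      ((Subgroup.subgroupOfEquivOfLe Subgroup.le_normalizer).symm.trans φ).trans (Subgroup.subgroupOfEquivOfLe Subgroup.le_normalizer))
    exact ⟨_, h3 ⟨t, ht, rfl⟩, rfl⟩
  refine le_antisymm ?_ h2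
  by_contra hcon
  have h3 := qd_max S (Subgroup.le_normalizer.trans h2) hcon
  exact no_char S T hT hTc (Subgroup.normalizer_eq_top_iff.1 h3)

end Cfsg.Agent.S2763
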