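import Cfsg.Statements.S2799
import Cfsg.Agent.Lib.GlcE

set_option autoImplicit false
open Cfsg
open Cfsg.FusionSystem Cfsg.Agent.Lib.FusBase Cfsg.Agent.Lib.FusGroup Cfsg.Agent.Lib.QfE Cfsg.Agent.Lib.ThC Cfsg.Agent.Lib.GlcD

namespace Cfsg.Agent.S2799

/-- Let S be a Sylow p-subgroup of the finite group G, J(S) the subgroup generated by the abelian subgroups of S of largest order, and x an element of S lying in the centre of N_G(J(S)). Assume that p is odd, or that x is a p-th power of an element of Z(S), or that the symmetric group of degree 4 is not involved in G. Then x is weakly closed in S with respect to G: every G-conjugate of x that lies in S equals x. -/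
theorem result {G : Type*} [Group G] [Finite G] {p : ℕ} [Fact p.Prime] (S : Sylow p G) (x : G) (hxS : x ∈ (S : Subgroup G)) (hxZ : x ∈ (Subgroup.center ↥(Subgroup.normalizer ((Cfsg.thompsonSubgroupAOf (S : Subgroup G)) : Set G))).map (Subgroup.normalizer ((Cfsg.thompsonSubgroupAOf (S : Subgroup G)) : Set G)).subtype) (h : p ≠ 2 ∨ (∃ z ∈ (S : Subgroup G) ⊓ Subgroup.centralizer ((S : Subgroup G) : Set G), z ^ p = x) ∨ ¬ Cfsg.Involves (Equiv.Perm (Fin 4)) G) : ∀ g : G, g * x * g⁻¹ ∈ (S : Subgroup G) → g * x * g⁻¹ = x := by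
  have hSN : ∀ s ∈ (S : Subgroup G), s ∈ Subgroup.normalizer ((Cfsg.thompsonSubgroupAOf (S : Subgroup G) : Subgroup G) : Set G) :=
    fun s hs => normalizer_ja (Subgroup.le_normalizer hs)
  obtain ⟨⟨x', hx'⟩, hxc, hxe⟩ := hxZ
  have hxe' : x' = x := hxe
  subst hxe'
  have hcomm : ∀ n ∈ Subgroup.normalizer ((Cfsg.thompsonSubgroupAOf (S : Subgroup G) : Subgroup G) : Set G), n * x' = x' * n := by
    intro n hn
    exact congrArg Subtype.val (Subgroup.mem_center_iff.1 hxc ⟨n, hn⟩)
  have hxS' : ∀ s ∈ (S : Subgroup G), s * x' = x' * s := fun s hs => hcomm s (hSN s hs)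
  have hHZ : HZ (groupFusionSystem (S : Subgroup G)) p x' := by
    rcases h with h | ⟨z, hz, hzp⟩ | h
    · exact Or.inl h
    · exact Or.inr (Or.inl ⟨z, hz.1, fun s hs => Subgroup.mem_centralizer_iff.1 hz.2 s hs, hzp⟩)
    · exact Or.inr (Or.inr (free_group h S))
  have hmain := Cfsg.Agent.Lib.GlcE.main S.2 (saturated_grp S) x' hxS hxS' hHZ ?_
  · intro g hg
    have hP : Subgroup.zpowers x' ≤ (S : Subgroup G) := by rw [Subgroup.zpowers_le]; exact hxS
    have hm : Mor (groupFusionSystem (S : Subgroup G)) (Subgroup.zpowers x') (fun y => g * y * g⁻¹) := by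
      refine mor_grp.2 ⟨hP, ?_, g, fun _ _ => rfl⟩
      rintro _ ⟨k, rfl⟩
      show g * x' ^ k * g⁻¹ ∈ (S : Subgroup G)
      rw [← conj_zpow]
      exact Subgroup.zpow_mem _ hg k
    exact hmain _ _ hm (Subgroup.mem_zpowers x')
  · intro f hf
    obtain ⟨-, -, g, hg⟩ := mor_grp.1 hf.mor
    have hxJ : x' ∈ Cfsg.thompsonSubgroupAOf (S : Subgroup G) := ja_cent hxS fun y hy => hxS' y (ja_le _ hy)
    have hgN : g ∈ Subgroup.normalizer ((Cfsg.thompsonSubgroupAOf (S : Subgroup G) : Subgroup G) : Set G) := by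
      refine mem_normalizer_of_conj_mem fun y hy => ?_
      rw [← hg y hy]; exact hf.map_mem hy
    rw [hg x' hxJ, hcomm g hgN, mul_inv_cancel_right]

end Cfsg.Agent.S2799
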