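import Cfsg.Statements.S2800
import Cfsg.Agent.Lib.ThC

set_option autoImplicit false
open Cfsg
open Cfsg.FusionSystem Cfsg.Agent.Lib.FusBase Cfsg.Agent.Lib.FusGroup Cfsg.Agent.Lib.FusNormal Cfsg.Agent.Lib.FusNK Cfsg.Agent.Lib.FusNKB Cfsg.Agent.Lib.NilB Cfsg.Agent.Lib.FusInv Cfsg.Agent.Lib.SylRel Cfsg.Agent.Lib.PNilp Cfsg.Agent.Lib.ThC Cfsg.Agent.Lib.QfE Cfsg.Agent.Lib.FusMor

namespace Cfsg.Agent.S2800

/-- Let S be a Sylow p-subgroup of the finite group G and J(S) the subgroup generated by the abelian subgroups of S of largest order. Suppose p is odd, or the symmetric group of degree 4 is not involved in G. If both C_G(Z(S)) and N_G(J(S)) have normal p-complements, then G has a normal p-complement. -/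
theorem result {G : Type*} [Group G] [Finite G] {p : ℕ} [Fact p.Prime] (S : Sylow p G) (h : p ≠ 2 ∨ ¬ Cfsg.Involves (Equiv.Perm (Fin 4)) G) (hC : Cfsg.HasNormalPComplement p ↥(Subgroup.centralizer (((S : Subgroup G) ⊓ Subgroup.centralizer ((S : Subgroup G) : Set G) : Subgroup G) : Set G))) (hN : Cfsg.HasNormalPComplement p ↥(Subgroup.normalizer ((Cfsg.thompsonSubgroupAOf (S : Subgroup G)) : Set G))) : Cfsg.HasNormalPComplement p G := by
  rw [hasNormalPComplement_iff] at hC hN ⊢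
  by_contra hcon
  have he : Emb (groupFusionSystem (S : Subgroup G)) p S G (S : Subgroup G).subtype := by
    refine ⟨inferInstance, le_rfl, Subgroup.subtype_injective _, ?_, fun A f g hA hf hfg => ?_⟩
    · rw [Subgroup.range_subtype]; exact sylIn_of_sylow S
    · refine mor_grp.2 ⟨hA, hf, g, fun x hx => ?_⟩
      have h1 := hfg x hx
      rw [ev_mem (hf x hx), ev_mem (hA hx)] at h1
      exact h1
  obtain ⟨X, -, hX⟩ := he.exists_notP hcon
  have hfree : p ≠ 2 ∨ (groupFusionSystem (S : Subgroup G)).IsSectionFree p (Equiv.Perm (Fin 4)) :=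
    h.imp_right fun h => free_group h S
  have hSp : ∀ P : Subgroup G, P ≤ S → IsPGroup p P := fun P hP => S.2.to_le hP
  rcases alternatives S.2 (saturated_grp S) hfree ⟨X, hX⟩ with h1 | h1
  · obtain ⟨N, hN'⟩ := exists_norm (groupFusionSystem (S : Subgroup G)) (ja_le (S : Subgroup G))
    obtain ⟨P, hP⟩ := h1 N hN'
    obtain ⟨f, hf, hn⟩ := notP_iff.1 hP
    apply hn
    obtain ⟨hA, hfA, k, hk, hkf, κ, -, hκ⟩ := (norm_iff hN').1 hf.mor
    obtain ⟨hPJ, -, g, hg⟩ := mor_grp.1 hk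
    refine ppow_of_pNil hN (hSp P (hf.le_left.trans inf_le_left)) (hf.le_left.trans inf_le_right) (g := g) ?_
      (fun x hx => by rw [← hkf x hx, hg x ((le_sup_left : P ≤ _) hx)]) (fun x hx => hf.map_mem hx)
    refine mem_normalizer_of_conj_mem fun x hx => ?_
    rw [← hg x ((le_sup_right : Cfsg.thompsonSubgroupAOf (S : Subgroup G) ≤ _) hx), hκ x hx]
    exact fn_mem' _ hx
  · obtain ⟨C, hC'⟩ := exists_cent (groupFusionSystem (S : Subgroup G))
      (inf_le_left : (S : Subgroup G) ⊓ Subgroup.centralizer ((S : Subgroup G) : Set G) ≤ S)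
    obtain ⟨P, hP⟩ := h1 C hC'
    obtain ⟨f, hf, hn⟩ := notP_iff.1 hP
    apply hn
    obtain ⟨hA, hfA, k, hk, hkf, κ, hκ0, hκ⟩ := (cent_iff hC').1 hf.mor
    obtain ⟨hPJ, -, g, hg⟩ := mor_grp.1 hk
    refine ppow_of_pNil hC (hSp P (hf.le_left.trans centralizerIn_le)) (hf.le_left.trans inf_le_right) (g := g) ?_
      (fun x hx => by rw [← hkf x hx, hg x ((le_sup_left : P ≤ _) hx)]) (fun x hx => hf.map_mem hx)
    rw [Subgroup.mem_centralizer_iff]
    intro x hx
    have h2 := hg x ((le_sup_right : (S : Subgroup G) ⊓ Subgroup.centralizer ((S : Subgroup G) : Set G) ≤ _) hx)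
    rw [hκ x hx, Subgroup.mem_bot.1 hκ0, fn_one hx] at h2
    rw [eq_mul_inv_iff_mul_eq] at h2
    exact h2

end Cfsg.Agent.S2800
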