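import Cfsg.Statements.S2807
import Cfsg.Agent.Lib.YoshC
import Cfsg.Agent.Lib.CFunB

set_option autoImplicit false
open Cfsg
open Cfsg.FusionSystem Cfsg.Agent.Lib.FusBase Cfsg.Agent.Lib.FusSat Cfsg.Agent.Lib.SylRel Cfsg.Agent.Lib.FusGroup Cfsg.Agent.Lib.FusHyp Cfsg.Agent.Lib.YoshC

namespace Cfsg.Agent.S2807

/-- Let S be a Sylow p-subgroup of the finite group G. If S ∩ G' ≠ S ∩ (N_G(S))' (derived subgroups), then the wreath product Z_p ≀ Z_p — realised as a Sylow p-subgroup of the symmetric group of degree p² — is a homomorphic image of S. -/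
theorem result {G : Type*} [Group G] [Finite G] {p : ℕ} [Fact p.Prime] (S : Sylow p G) (h : (S : Subgroup G) ⊓ commutator G ≠ (S : Subgroup G) ⊓ ⁅Subgroup.normalizer ((S : Subgroup G) : Set G), Subgroup.normalizer ((S : Subgroup G) : Set G)⁆) : ∃ (P : Sylow p (Equiv.Perm (Fin (p ^ 2)))) (f : ↥(S : Subgroup G) →* ↥(P : Subgroup (Equiv.Perm (Fin (p ^ 2))))), Function.Surjective f := by
  obtain ⟨N, hN⟩ : ∃ N : Subgroup G, N = Subgroup.normalizer ((S : Subgroup G) : Set G) := ⟨_, rfl⟩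
  have hSN : (S : Subgroup G) ≤ N := by rw [hN]; exact Subgroup.le_normalizer
  have hST : SylIn p (S : Subgroup G) ⊤ := sylIn_of_sylow S
  have hSNs : SylIn p (S : Subgroup G) N := hST.mono hSN le_top
  refine yoshida (F := fusionSystemOfSubgroup ⊤ (S : Subgroup G) le_top) S.2 (saturated_sub hST) rfl (N := fusionSystemOfSubgroup N (S : Subgroup G) hSN)
    (saturated_sub hSNs) ?_ ?_ ?_
  · intro P f hf
    rw [mor_sub] at hf ⊢
    obtain ⟨h1, h2, g, hg, h3⟩ := hf
    exact ⟨h1, h2, g, Subgroup.mem_top g, h3⟩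
  · intro φ hφ
    rw [mor_sub] at hφ ⊢
    obtain ⟨h1, h2, g, hg, h3⟩ := hφ
    refine ⟨h1, h2, g, ?_, h3⟩
    rw [hN]
    refine mem_normalizer_of_conj_mem fun x hx => ?_
    rw [← h3 x hx]; exact h2 x hx
  · intro heq
    apply h
    rw [← hN]
    apply le_antisymm
    · refine le_inf inf_le_left ?_
      have h1 : (S : Subgroup G) ⊓ commutator G ≤ (fusionSystemOfSubgroup ⊤ (S : Subgroup G) le_top).focalSubgroup := by
        rw [commutator_def]
        refine Cfsg.Agent.Lib.CFunB.focal_le hST fun a g ha hg => ?_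
        have hm : Mor (fusionSystemOfSubgroup ⊤ (S : Subgroup G) le_top) (Subgroup.zpowers a) (fun x => g * x * g⁻¹) := by
          rw [mor_sub]
          refine ⟨by rw [Subgroup.zpowers_le]; exact ha, ?_, g, Subgroup.mem_top g, fun x _ => rfl⟩
          rintro _ ⟨i, rfl⟩
          have e1 : g * a ^ i * g⁻¹ = (g * a * g⁻¹) ^ i := by rw [conj_zpow]
          show g * a ^ i * g⁻¹ ∈ (S : Subgroup G)
          rw [e1]; exact Subgroup.zpow_mem _ hg i
        exact mem_foc hm (Subgroup.mem_zpowers a)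
      rw [← heq] at h1
      refine h1.trans (foc_le _ fun P f hf x hx => ?_)
      rw [mor_sub] at hf
      obtain ⟨h2, h3, g, hg, h4⟩ := hf
      rw [h4 x hx]
      exact Cfsg.Agent.Lib.CFunB.comm_mem' (hSN (h2 hx)) hg
    · exact inf_le_inf_left _ (by rw [commutator_def]; exact Subgroup.commutator_mono le_top le_top)

end Cfsg.Agent.S2807
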