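import Cfsg.Statements.S2941
import Cfsg.Agent.Lib.PRedM

set_option autoImplicit false
open Cfsg

namespace Cfsg.Agent.S2941

open Cfsg.Agent.Lib

/-- Let G be a finite group of characteristic 2 type in which every 2-local subgroup is solvable and the centralizer of Ω₁(Z(S)) lies in N_G(S) for every Sylow 2-subgroup S, and let T be a nontrivial 2-subgroup and K a J(T)-component (J the Thompson subgroup generated by the elementary abelian 2-subgroups of largest order). If a subgroup Q is normalized by ⟨K, J(T)⟩ and normalizes J(T), then Q normalizes K. -/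
theorem result {G : Type*} [Group G] [Finite G] (hL : Cfsg.IsCharacteristicTwoType G) (hN : ∀ N : Subgroup G, Cfsg.IsTwoLocal N → Group.IsSolvable ↥N)
    (hZ : ∀ S : Sylow 2 G, Subgroup.centralizer (Cfsg.omegaCenterOf (S : Subgroup G) : Set G) ≤ Subgroup.normalizer ((S : Subgroup G) : Set G)) (T : Subgroup G) (hT : IsPGroup 2 ↥T) (hT1 : T ≠ ⊥) (K : Subgroup G) (hK : Cfsg.IsJComponent T K)
    (Q : Subgroup G) (hQ1 : K ⊔ Cfsg.thompsonSubgroupOf 2 T ≤ Subgroup.normalizer (Q : Set G)) (hQ2 : Q ≤ Subgroup.normalizer (Cfsg.thompsonSubgroupOf 2 T : Set G)) :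
    Q ≤ Subgroup.normalizer (K : Set G) := by
  obtain ⟨h1, h2, -⟩ := hK
  set J := thompsonSubgroupOf 2 T with hJ
  have hJT : J ≤ T := by
    rw [hJ, thompsonSubgroupOf]
    exact Subgroup.map_subtype_le _
  have hJp : IsPGroup 2 J := hT.to_le hJT
  have hJK : J ≤ Subgroup.normalizer (K : Set G) := by
    have h3 := Coprime.le_normalizer_commutator_right J K
    rwa [h2] at h3
  have hN : PRed.ncj (K ⊔ J) J = K ⊔ J := by
    apply le_antisymm (PRed.ncj_le_self le_sup_right)
    refine sup_le ?_ PRed.le_ncj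
    conv_lhs => rw [← h2]
    rw [Subgroup.commutator_le]
    intro k hk j hj
    have h4 : k * j * k⁻¹ ∈ PRed.ncj (K ⊔ J) J :=
      PRed.conj_le_ncj ((le_sup_left : K ≤ K ⊔ J) hk) ⟨j, hj, rfl⟩
    rw [commutatorElement_def]
    exact Subgroup.mul_mem _ h4 (Subgroup.inv_mem _ (PRed.le_ncj hj))
  have hQN : Q ≤ Subgroup.normalizer ((K ⊔ J : Subgroup G) : Set G) := PRed.norm_of_closure hN hQ1 hQ2
  refine POf.le_normalizer_of_conj ?_
  intro q hq
  rw [Subgroup.map_le_iff_le_comap]
  conv_lhs => rw [← h1]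
  rw [Subgroup.closure_le]
  rintro z ⟨hz, ho⟩
  show q * z * q⁻¹ ∈ K
  have h5 : q * z * q⁻¹ ∈ K ⊔ J := (Subgroup.mem_normalizer_iff.mp (hQN hq) z).mp ((le_sup_left : K ≤ K ⊔ J) hz)
  refine PIrr.mem_of_sup hJp hJK h5 ?_
  rw [POf.orderOf_conj]
  exact Nat.coprime_two_right.mpr ho

end Cfsg.Agent.S2941
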