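import Cfsg.Statements.S2947
import Cfsg.Agent.Lib.SEmb
import Cfsg.Agent.Lib.PRedH
import Cfsg.Agent.Lib.ThompsonJ

set_option autoImplicit false
open Cfsg

namespace Cfsg.Agent.S2947

open Cfsg.Agent.Lib

/-- Let G be a finite group of characteristic 2 type in which every 2-local subgroup is solvable and the centralizer of Ω₁(Z(S)) lies in N_G(S) for every Sylow 2-subgroup S; suppose O₂(G) = 1, fix a Sylow 2-subgroup S and a 2-local subgroup M containing N_G(J(S)) (J the Thompson subgroup generated by the elementary abelian 2-subgroups of largest order). Then M is strongly embedded in G (a proper subgroup of even order whose intersection with each conjugate by an element outside M has odd order) if and only if no nontrivial 2-subgroup of M lies in a 2-local subgroup of G not contained in M. -/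
theorem result {G : Type*} [Group G] [Finite G] (hL : Cfsg.IsCharacteristicTwoType G) (hN : ∀ N : Subgroup G, Cfsg.IsTwoLocal N → Group.IsSolvable ↥N)
    (hZ : ∀ S : Sylow 2 G, Subgroup.centralizer (Cfsg.omegaCenterOf (S : Subgroup G) : Set G) ≤ Subgroup.normalizer ((S : Subgroup G) : Set G)) (hO : Cfsg.pCore 2 G = ⊥) (S : Sylow 2 G) (M : Subgroup G) (hM : Cfsg.IsTwoLocal M)
    (hMJ : Subgroup.normalizer (Cfsg.thompsonSubgroupOf 2 (S : Subgroup G) : Set G) ≤ M) :
    Cfsg.IsStronglyEmbedded M ↔ Cfsg.straddlingTwoSubgroups M = ∅ := by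
  rw [SEmb.isStronglyEmbedded_iff]
  constructor
  · intro h
    rw [Set.eq_empty_iff_forall_notMem]
    rintro T ⟨hT2, hT1, hTM, L, ⟨R, hR2, hR1, rfl⟩, hTL, hLM⟩
    apply hLM
    have key : ∀ (a g : G), a ∈ M → a ≠ 1 → (∃ k : ℕ, orderOf a = 2 ^ k) → g * a * g⁻¹ ∈ M → g ∈ M :=
      fun a g h1 h2 h3 h4 => _root_.Cfsg.Agent.Lib.StrongEmbB.mem_of_conj_elt h h1 h3 h2 h4
    have hpow : ∀ (P : Subgroup G), IsPGroup 2 P → ∀ a ∈ P, ∃ k : ℕ, orderOf a = 2 ^ k := by
      intro P hP a ha
      obtain ⟨k, hk⟩ := (IsPGroup.iff_orderOf.mp hP) ⟨a, ha⟩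
      exact ⟨k, by rw [← hk, Subgroup.orderOf_mk]⟩
    obtain ⟨x, hxR, hx1, hxT⟩ := PRed.exists_fixed' hT2 hR2 hR1 hTL
    obtain ⟨t, ht, ht1⟩ : ∃ t : G, t ∈ T ∧ t ≠ 1 := by
      by_contra hcon
      push Not at hcon
      exact hT1 ((Subgroup.eq_bot_iff_forall _).mpr hcon)
    have hxM : x ∈ M := by
      refine key t x (hTM ht) ht1 (hpow T hT2 _ ht) ?_
      have h1 : (t : G) * x = x * t := Subgroup.mem_centralizer_iff.mp hxT _ ht
      rw [← h1, mul_inv_cancel_right]; exact hTM ht
    obtain ⟨z, hzR, hz1, hzc⟩ := PRed.exists_fixed' hR2 hR2 hR1 Subgroup.le_normalizer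
    have hzM : z ∈ M := by
      refine key x z hxM hx1 (hpow R hR2 _ hxR) ?_
      have h1 : x * z = z * x := Subgroup.mem_centralizer_iff.mp hzc _ hxR
      rw [← h1, mul_inv_cancel_right]; exact hxM
    have hRM : R ≤ M := by
      intro r hr
      refine key z r hzM hz1 (hpow R hR2 _ hzR) ?_
      have h1 : r * z = z * r := Subgroup.mem_centralizer_iff.mp hzc _ hr
      rw [h1, mul_inv_cancel_right]; exact hzM
    intro g hg
    exact key z g hzM hz1 (hpow R hR2 _ hzR) (hRM ((Subgroup.mem_normalizer_iff.mp hg z).mp hzR))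
  · intro h
    rw [← StrongEmb.isStronglyPEmbedded_iff, StrongEmb.isStronglyPEmbedded_iff_exists]
    obtain ⟨T₀, hT₀, hT₀1, hMe⟩ := hM
    refine ⟨?_, S, ?_, ?_⟩
    · intro htop
      apply hT₀1
      rw [← le_bot_iff, ← hO]
      refine Cores.le_pCore ?_ hT₀
      rw [← Subgroup.normalizer_eq_top_iff, ← hMe, htop]
    · intro hS
      obtain ⟨g, hg⟩ := WClos.exists_conj_le S hT₀
      rw [hS, le_bot_iff, Subgroup.map_eq_bot_iff_of_injective _ (MulAut.conj g).injective] at hg
      exact hT₀1 hg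
    · intro A hAS hA1
      by_contra hc
      have hSM : (S : Subgroup G) ≤ M := by
        refine le_trans ?_ hMJ
        refine POf.le_normalizer_of_conj ?_
        intro x hx
        have h1 := _root_.Cfsg.Agent.Lib.ThompsonJ.J_conj_le (p := 2) (P := (S : Subgroup G)) x
        rwa [POf.conj_of_mem hx] at h1
      have : A ∈ straddlingTwoSubgroups M :=
        ⟨S.2.to_le hAS, hA1, hAS.trans hSM, _, ⟨A, S.2.to_le hAS, hA1, rfl⟩, Subgroup.le_normalizer, hc⟩
      rw [h] at this
      exact this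

end Cfsg.Agent.S2947
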