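import Cfsg.Statements.S3379
import Mathlib
import Cfsg.Agent.Lib.Components
-- import your own Cfsg.Agent.* helpers here

set_option autoImplicit false
open Cfsg

namespace Cfsg.Agent.S3379

open scoped commutatorElement

/-- Let G be a finite group all of whose Sylow subgroups are cyclic. Then G is generated by two elements x and y of coprime orders n and m with x⁻¹yx = y^r, where gcd(r − 1, m) = 1 and r^n ≡ 1 (mod m). -/
theorem result {G : Type*} [Group G] [Finite G]
    (hZ : ∀ (p : ℕ) [Fact p.Prime] (P : Sylow p G), IsCyclic (P : Subgroup G)) :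
    ∃ (x y : G) (n m r : ℕ), Subgroup.closure {x, y} = ⊤ ∧ orderOf x = n ∧ orderOf y = m ∧
      x⁻¹ * y * x = y ^ r ∧ Nat.Coprime (r - 1) m ∧ Nat.Coprime n m ∧ 1 ≤ r ∧ r ^ n % m = 1 % m := by
  classical
  haveI hZG : IsZGroup G := ⟨fun p hp P => by haveI := Fact.mk hp; exact hZ p P⟩
  haveI hCc : IsCyclic (commutator G) := IsZGroup.isCyclic_commutator G
  have hcop : (Nat.card (commutator G)).Coprime (commutator G).index := IsZGroup.coprime_commutator_index G
  obtain ⟨H, hH⟩ := Subgroup.exists_right_complement'_of_coprime hcop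
  have hHc : IsCyclic H := by
    haveI : Group.IsNilpotent H := by
      apply Cfsg.Agent.Lib.Components.isNilpotent_of_isMulCommutative
      refine ⟨⟨fun a b => ?_⟩⟩
      have h1 : ⁅(a : G), (b : G)⁆ ∈ commutator G ⊓ H := by
        refine ⟨Subgroup.commutator_mem_commutator (Subgroup.mem_top _) (Subgroup.mem_top _), ?_⟩
        rw [commutatorElement_def]
        exact H.mul_mem (H.mul_mem (H.mul_mem a.2 b.2) (H.inv_mem a.2)) (H.inv_mem b.2)
      rw [hH.disjoint.eq_bot, Subgroup.mem_bot, commutatorElement_eq_one_iff_mul_comm] at h1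
      exact Subtype.ext h1
    infer_instance
  obtain ⟨⟨y, hyC⟩, hy⟩ := hCc.exists_generator
  obtain ⟨⟨x, hxH⟩, hx⟩ := hHc.exists_generator
  have hCy : commutator G = Subgroup.zpowers y := by
    apply le_antisymm
    · intro c hc
      obtain ⟨k, hk⟩ := Subgroup.mem_zpowers_iff.1 (hy ⟨c, hc⟩)
      exact Subgroup.mem_zpowers_iff.2 ⟨k, congrArg Subtype.val hk⟩
    · rw [Subgroup.zpowers_le]; exact hyC
  have hHx : H = Subgroup.zpowers x := by
    apply le_antisymm
    · intro c hc
      obtain ⟨k, hk⟩ := Subgroup.mem_zpowers_iff.1 (hx ⟨c, hc⟩)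
      exact Subgroup.mem_zpowers_iff.2 ⟨k, congrArg Subtype.val hk⟩
    · rw [Subgroup.zpowers_le]; exact hxH
  have hclos : Subgroup.closure {x, y} = ⊤ := by
    rw [eq_top_iff, ← hH.sup_eq_top, hCy, hHx]
    refine sup_le ?_ ?_
    · rw [Subgroup.zpowers_le]; exact Subgroup.subset_closure (by simp)
    · rw [Subgroup.zpowers_le]; exact Subgroup.subset_closure (by simp)
  have hnorm : ∀ g : G, g * y * g⁻¹ ∈ Subgroup.zpowers y := by
    intro g
    rw [← hCy]
    exact (inferInstance : (commutator G).Normal).conj_mem y hyC g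
  -- the exponent
  obtain ⟨k, hk⟩ : ∃ k : ℕ, y ^ k = x⁻¹ * y * x := by
    have h1 := hnorm x⁻¹
    rw [inv_inv, ← mem_powers_iff_mem_zpowers] at h1
    exact h1
  set m := orderOf y with hm
  have hmpos : 0 < m := orderOf_pos y
  set n := orderOf x with hn
  set r := k + m with hr
  have hyr : y ^ r = x⁻¹ * y * x := by
    rw [hr, pow_add, hm, pow_orderOf_eq_one, mul_one, hk]
  have hr1 : 1 ≤ r := by omega
  refine ⟨x, y, n, m, r, hclos, rfl, rfl, hyr.symm, ?_, ?_, hr1, ?_⟩
  · -- gcd
    set D := Subgroup.zpowers (y ^ (r - 1)) with hD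
    have hDn : D.Normal := by
      refine ⟨fun d hd g => ?_⟩
      obtain ⟨j, rfl⟩ := Subgroup.mem_zpowers_iff.1 hd
      obtain ⟨i, hi⟩ := Subgroup.mem_zpowers_iff.1 (hnorm g)
      have e : g * (y ^ (r - 1)) ^ j * g⁻¹ = (y ^ (r - 1)) ^ (i * j) := by
        have e1 : g * (y ^ (r - 1)) ^ j * g⁻¹ = ((g * y * g⁻¹) ^ (r - 1)) ^ j := by
          rw [conj_pow, conj_zpow]
        rw [e1, ← hi, ← zpow_natCast (y ^ i), ← zpow_natCast y, ← zpow_mul, ← zpow_mul, ← zpow_mul]
        congr 1; ring
      rw [e]
      exact Subgroup.zpow_mem_zpowers _ _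
    haveI := hDn
    have hyD : (QuotientGroup.mk' D) (y ^ (r - 1)) = 1 := by
      rw [← MonoidHom.mem_ker, QuotientGroup.ker_mk']
      exact Subgroup.mem_zpowers _
    have hxy : Commute ((QuotientGroup.mk' D) x) ((QuotientGroup.mk' D) y) := by
      have e1 : y ^ r = y * y ^ (r - 1) := by
        rw [← pow_succ']; congr 1; omega
      have e2 := congrArg (QuotientGroup.mk' D) (e1.symm.trans hyr)
      rw [map_mul, hyD, mul_one, map_mul, map_mul, map_inv] at e2
      change _ * _ = _ * _
      conv_lhs => rw [e2]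
      group
    have hK1 : ∀ g : G, Commute ((QuotientGroup.mk' D) g) ((QuotientGroup.mk' D) y) := by
      intro g
      have h1 : Subgroup.closure {x, y} ≤ (Subgroup.centralizer {(QuotientGroup.mk' D) y}).comap (QuotientGroup.mk' D) := by
        rw [Subgroup.closure_le]
        rintro z (rfl | rfl)
        · exact Subgroup.mem_centralizer_singleton_iff.2 hxy.eq
        · exact Subgroup.mem_centralizer_singleton_iff.2 rfl
      exact Subgroup.mem_centralizer_singleton_iff.1 (h1 (by rw [hclos]; trivial : g ∈ _))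
    have hK2 : ∀ g : G, Commute ((QuotientGroup.mk' D) g) ((QuotientGroup.mk' D) x) := by
      intro g
      have h1 : Subgroup.closure {x, y} ≤ (Subgroup.centralizer {(QuotientGroup.mk' D) x}).comap (QuotientGroup.mk' D) := by
        rw [Subgroup.closure_le]
        rintro z (rfl | rfl)
        · exact Subgroup.mem_centralizer_singleton_iff.2 rfl
        · exact Subgroup.mem_centralizer_singleton_iff.2 hxy.symm.eq
      exact Subgroup.mem_centralizer_singleton_iff.1 (h1 (by rw [hclos]; trivial : g ∈ _))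
    have hK3 : ∀ g h : G, Commute ((QuotientGroup.mk' D) g) ((QuotientGroup.mk' D) h) := by
      intro g h
      have h1 : Subgroup.closure {x, y} ≤ (Subgroup.centralizer {(QuotientGroup.mk' D) h}).comap (QuotientGroup.mk' D) := by
        rw [Subgroup.closure_le]
        rintro z (rfl | rfl)
        · exact Subgroup.mem_centralizer_singleton_iff.2 (hK2 h).symm.eq
        · exact Subgroup.mem_centralizer_singleton_iff.2 (hK1 h).symm.eq
      exact Subgroup.mem_centralizer_singleton_iff.1 (h1 (by rw [hclos]; trivial : g ∈ _))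
    have hCD : commutator G ≤ D := by
      rw [commutator_def, Subgroup.commutator_le]
      intro a _ b _
      rw [← QuotientGroup.ker_mk' D, MonoidHom.mem_ker, map_commutatorElement, commutatorElement_eq_one_iff_commute]
      exact hK3 a b
    have hyD' : Subgroup.zpowers y ≤ D := by rw [← hCy]; exact hCD
    have hle : m ≤ orderOf (y ^ (r - 1)) := by
      have := Subgroup.card_le_of_le hyD'
      rwa [Nat.card_zpowers, hD, Nat.card_zpowers] at this
    rw [orderOf_pow, ← hm] at hle
    have hg : Nat.gcd m (r - 1) = 1 := by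
      by_contra hne
      have hpos : 0 < Nat.gcd m (r - 1) := Nat.gcd_pos_of_pos_left _ hmpos
      have : m / Nat.gcd m (r - 1) < m := Nat.div_lt_self hmpos (by omega)
      omega
    rw [Nat.coprime_comm]
    exact hg
  · have h1 : n = (commutator G).index := by
      rw [hH.symm.index_eq_card, hHx, Nat.card_zpowers]
    have h2 : m = Nat.card (commutator G) := by rw [hCy, Nat.card_zpowers]
    rw [h1, h2]
    exact hcop.symm
  · have hpow : ∀ j : ℕ, (x ^ j)⁻¹ * y * x ^ j = y ^ (r ^ j) := by
      intro j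
      induction j with
      | zero => simp
      | succ j ih =>
        calc (x ^ (j + 1))⁻¹ * y * x ^ (j + 1) = x⁻¹ * ((x ^ j)⁻¹ * y * x ^ j) * x := by
              rw [pow_succ]; group
          _ = x⁻¹ * y ^ (r ^ j) * x⁻¹⁻¹ := by rw [ih, inv_inv]
          _ = (x⁻¹ * y * x⁻¹⁻¹) ^ (r ^ j) := by rw [conj_pow]
          _ = y ^ (r ^ (j + 1)) := by rw [inv_inv, ← hyr, ← pow_mul, pow_succ']
    have h1 := hpow n
    rw [hn, pow_orderOf_eq_one, inv_one, one_mul, mul_one, ← hn] at h1
    have h2 : y ^ (r ^ n) = y ^ 1 := by rw [← h1, pow_one]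
    rw [pow_eq_pow_iff_modEq] at h2
    exact h2

end Cfsg.Agent.S3379
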