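import Cfsg.Statements.S3383
import Mathlib
import Cfsg.Agent.Lib.FrobGrp

set_option autoImplicit false
open Cfsg

namespace Cfsg.Agent.S3383

/-- Let H be a Frobenius complement in a finite group L and K the Frobenius kernel (as a subgroup). Then K is characteristic in L, and every normal subgroup of L either contains K or is contained in K. -/
theorem result {L : Type*} [Group L] [Finite L]
    (H : Subgroup L) (hH : Cfsg.IsFrobeniusComplement H)
    (K : Subgroup L) (hK : (K : Set L) = Cfsg.frobeniusKernel H) :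
    K.Characteristic ∧ ∀ N : Subgroup L, N.Normal → K ≤ N ∨ N ≤ K := by
  have hK' : Cfsg.frobeniusKernel H = (K : Set L) := hK.symm
  have hn := Cfsg.Agent.Lib.FrobGrp.kernel_normal hK'
  have hcop := Cfsg.Agent.Lib.FrobGrp.kernel_coprime hH hK'
  have hcK := Cfsg.Agent.Lib.FrobGrp.kernel_card hH hK'
  have hidx : K.index = Nat.card H := by
    have h1 := K.card_mul_index
    have h2 := H.card_mul_index
    rw [← h2, ← hcK, mul_comm (Nat.card H)] at h1
    exact Nat.eq_of_mul_eq_mul_left Nat.card_pos h1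
  have hmem : ∀ g : L, g ∈ K ↔ g ^ Nat.card K = 1 := by
    intro g
    constructor
    · intro hg
      exact orderOf_dvd_iff_pow_eq_one.mp (Subgroup.orderOf_dvd_natCard K hg)
    · intro hg
      have h1 : (QuotientGroup.mk' K g) ^ Nat.card K = 1 := by rw [← map_pow, hg, map_one]
      have h2 : (QuotientGroup.mk' K g) ^ Nat.card H = 1 := by
        rw [← hidx, Subgroup.index_eq_card]; exact pow_card_eq_one'
      have h3 : orderOf (QuotientGroup.mk' K g) ∣ 1 := by
        rw [← Nat.Coprime.gcd_eq_one hcop]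
        exact Nat.dvd_gcd (orderOf_dvd_iff_pow_eq_one.mpr h1) (orderOf_dvd_iff_pow_eq_one.mpr h2)
      rw [Nat.dvd_one, orderOf_eq_one_iff] at h3
      exact (QuotientGroup.eq_one_iff _).mp h3
  refine ⟨⟨fun φ => ?_⟩, fun N hN => ?_⟩
  · ext x
    change φ x ∈ K ↔ x ∈ K
    rw [hmem, hmem, ← map_pow, map_eq_one_iff φ φ.injective]
  · by_cases hNK : N ≤ K
    · exact Or.inr hNK
    left
    obtain ⟨n, hnN, hnK⟩ := Set.not_subset.mp hNK
    rw [← hK', Cfsg.Agent.Lib.FrobGrp.mem_frobeniusKernel] at hnK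
    push Not at hnK
    obtain ⟨hn1, g, hg⟩ := hnK
    set h := g⁻¹ * n * g with hh
    have hhN : h ∈ N := by
      have := hN.conj_mem n hnN g⁻¹
      rwa [inv_inv] at this
    have hh1 : h ≠ 1 := by
      intro h0
      apply hn1
      have : n = g * h * g⁻¹ := by rw [hh]; group
      rw [this, h0]; group
    have hfK : ∀ k : ↥K, (k : L) * h * (k : L)⁻¹ * h⁻¹ ∈ K := by
      intro k
      have h1 := hn.conj_mem _ (inv_mem k.2) h
      have h2 := mul_mem k.2 h1
      have h3 : (k : L) * h * (k : L)⁻¹ * h⁻¹ = (k : L) * (h * (k : L)⁻¹ * h⁻¹) := by group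
      rw [h3]; exact h2
    let f : ↥K → ↥K := fun k => ⟨(k : L) * h * (k : L)⁻¹ * h⁻¹, hfK k⟩
    have hinj : Function.Injective f := by
      intro k k' hkk
      have h1 : (k : L) * h * (k : L)⁻¹ * h⁻¹ = (k' : L) * h * (k' : L)⁻¹ * h⁻¹ := congrArg Subtype.val hkk
      have h2 : (k : L) * h * (k : L)⁻¹ = (k' : L) * h * (k' : L)⁻¹ := mul_right_cancel h1
      have h3 : ((k' : L)⁻¹ * k) * h = h * ((k' : L)⁻¹ * k) := by
        calc ((k' : L)⁻¹ * k) * h = (k' : L)⁻¹ * ((k : L) * h * (k : L)⁻¹) * k := by group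
          _ = (k' : L)⁻¹ * ((k' : L) * h * (k' : L)⁻¹) * k := by rw [h2]
          _ = h * ((k' : L)⁻¹ * k) := by group
      have h4 := Cfsg.Agent.Lib.FrobGrp.kernel_not_commute hH hK' hg hh1 (mul_mem (inv_mem k'.2) k.2) h3
      exact Subtype.ext (inv_mul_eq_one.mp h4).symm
    intro x hx
    obtain ⟨k, hk⟩ := Finite.injective_iff_surjective.mp hinj ⟨x, hx⟩
    have h1 : (k : L) * h * (k : L)⁻¹ * h⁻¹ = x := congrArg Subtype.val hk
    rw [← h1]
    exact mul_mem (hN.conj_mem h hhN k) (inv_mem hhN)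

end Cfsg.Agent.S3383
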