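import Cfsg.Statements.S3704
import Cfsg.Agent.Lib.TwoOrb
-- import your own Cfsg.Agent.* helpers here

set_option autoImplicit false
open Cfsg

namespace Cfsg.Agent.S3704

/-- Let G be a finite group acting faithfully and 2-transitively on a finite set Ω of size n, and let H be a subgroup of index n in G which is not transitive on Ω and fixes no point of Ω. Then H has exactly two orbits on Ω. -/
theorem result {G Ω : Type*} [Group G] [Finite G] [MulAction G Ω] [FaithfulSMul G Ω] [Finite Ω] (h2 : MulAction.IsMultiplyPretransitive G Ω 2) (H : Subgroup G) (hidx : H.index = Nat.card Ω) (hnt : ¬ MulAction.IsPretransitive H Ω) (hfix : ∀ a : Ω, ∃ h : H, h • a ≠ a) : Nat.card (MulAction.orbitRel.Quotient H Ω) = 2 := by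
  classical
  haveI : Fintype Ω := Fintype.ofFinite Ω
  haveI : Finite (MulAction.orbitRel.Quotient H Ω) := Quotient.finite _
  haveI : Fintype (MulAction.orbitRel.Quotient H Ω) := Fintype.ofFinite _
  have h3 : ¬ 2 < Fintype.card (MulAction.orbitRel.Quotient H Ω) := by
    intro h
    obtain ⟨a, b, c, hab, hac, hbc⟩ := Fintype.two_lt_card_iff.1 h
    exact Cfsg.Agent.Lib.TwoOrb.main h2 H hidx a b c hab hac hbc
  have h1 : ¬ Fintype.card (MulAction.orbitRel.Quotient H Ω) ≤ 1 := by
    intro h
    haveI := Fintype.card_le_one_iff_subsingleton.1 h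
    exact hnt ((MulAction.pretransitive_iff_subsingleton_quotient H Ω).2 this)
  rw [Nat.card_eq_fintype_card]
  omega

end Cfsg.Agent.S3704
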