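import Cfsg.Statements.S3733
import Mathlib
import Cfsg.Agent.Lib.CoprimeB

set_option autoImplicit false
open Cfsg

namespace Cfsg.Agent.S3733

open Subgroup

/-- Let A and V be subgroups of a finite group with V abelian and nontrivial and A normalizing V. Suppose a nonempty finite family of proper subgroups of A partitions A: every non-identity element of A lies in exactly one member. If the number of members minus one is coprime to the order of V, then some member B of the family has a non-identity fixed point on V, that is V ∩ C(B) ≠ 1. -/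
theorem result {G : Type*} [Group G] [Finite G] (A V : Subgroup G) (hVab : IsMulCommutative V) (hV : V ≠ ⊥) (hAV : A ≤ Subgroup.normalizer (V : Set G)) (𝒜 : Finset (Subgroup G)) (hne : 𝒜.Nonempty) (hprop : ∀ B ∈ 𝒜, B < A) (hpart : ∀ a ∈ A, a ≠ 1 → ∃! B, B ∈ 𝒜 ∧ a ∈ B) (hk : (𝒜.card - 1).Coprime (Nat.card V)) : ∃ B ∈ 𝒜, V ⊓ Subgroup.centralizer (B : Set G) ≠ ⊥ := by
  classical
  by_contra hcon
  push Not at hcon
  letI : CommGroup V := { (inferInstance : Group V) with mul_comm := fun a b => hVab.is_comm.comm a b }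
  have := Fintype.ofFinite A
  let φ := Lib.CoprimeB.act hAV
  obtain ⟨B₀, hB₀⟩ := hne
  let Nm : Subgroup G → V → V := fun B v => ∏ a : A, if (a : G) ∈ B then φ a v else 1
  have hfix : ∀ B : Subgroup G, B ≤ A → ∀ v : V, ∀ b ∈ B, b * (Nm B v : G) = (Nm B v : G) * b := by
    intro B hB v b hb
    have h1 : φ ⟨b, hB hb⟩ (Nm B v) = Nm B v := by
      show φ ⟨b, hB hb⟩ (∏ a : A, if (a : G) ∈ B then φ a v else 1) = ∏ a : A, if (a : G) ∈ B then φ a v else 1
      rw [map_prod]
      refine Fintype.prod_equiv (Equiv.mulLeft (⟨b, hB hb⟩ : A)) _ _ ?_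
      intro a
      have h2 : ((Equiv.mulLeft (⟨b, hB hb⟩ : A) a : A) : G) = b * a := rfl
      have h3 : (b * (a : G) ∈ B) ↔ (a : G) ∈ B := B.mul_mem_cancel_left hb
      rw [h2]
      by_cases h4 : (a : G) ∈ B
      · rw [if_pos h4, if_pos (h3.2 h4)]
        show φ ⟨b, hB hb⟩ (φ a v) = φ (⟨b, hB hb⟩ * a) v
        rw [map_mul]; rfl
      · rw [if_neg h4, if_neg (fun h => h4 (h3.1 h)), map_one]
    have h5 := congrArg Subtype.val h1
    rw [Lib.CoprimeB.act_apply] at h5
    have h6 : b * (Nm B v : G) * b⁻¹ = Nm B v := h5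
    calc b * (Nm B v : G) = b * (Nm B v : G) * b⁻¹ * b := by group
      _ = _ := by rw [h6]
  have hNB : ∀ B ∈ 𝒜, ∀ v, Nm B v = 1 := by
    intro B hB v
    have h1 := hcon B hB
    have h2 : (Nm B v : G) ∈ V ⊓ centralizer (B : Set G) :=
      ⟨(Nm B v).2, mem_centralizer_iff.2 fun b hb => hfix B (hprop B hB).le v b hb⟩
    rw [h1, mem_bot] at h2
    exact Subtype.ext h2
  have hNA : ∀ v, Nm A v = 1 := by
    intro v
    have h1 := hcon B₀ hB₀
    have h2 : (Nm A v : G) ∈ V ⊓ centralizer (B₀ : Set G) :=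
      ⟨(Nm A v).2, mem_centralizer_iff.2 fun b hb => hfix A le_rfl v b ((hprop B₀ hB₀).le hb)⟩
    rw [h1, mem_bot] at h2
    exact Subtype.ext h2
  apply hV
  rw [eq_bot_iff]
  intro v hv
  have key : ∏ B ∈ 𝒜, Nm B ⟨v, hv⟩ = Nm A ⟨v, hv⟩ * (⟨v, hv⟩ : V) ^ (𝒜.card - 1) := by
    show ∏ B ∈ 𝒜, ∏ a : A, (if (a : G) ∈ B then φ a ⟨v, hv⟩ else 1) = _
    rw [Finset.prod_comm]
    have h1 : ∀ a : A, ∏ B ∈ 𝒜, (if (a : G) ∈ B then φ a ⟨v, hv⟩ else 1) =
        φ a ⟨v, hv⟩ * (if a = 1 then (⟨v, hv⟩ : V) ^ (𝒜.card - 1) else 1) := by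
      intro a
      by_cases ha : a = 1
      · subst ha
        rw [if_pos rfl]
        have h2 : ∀ B ∈ 𝒜, (if ((1 : A) : G) ∈ B then φ 1 (⟨v, hv⟩ : V) else 1) = ⟨v, hv⟩ := by
          intro B _
          rw [if_pos (by simpa using B.one_mem), map_one]; rfl
        rw [Finset.prod_congr rfl h2, Finset.prod_const, map_one]
        show (⟨v, hv⟩ : V) ^ 𝒜.card = ⟨v, hv⟩ * (⟨v, hv⟩ : V) ^ (𝒜.card - 1)
        rw [← pow_succ']
        congr 1
        have : 0 < 𝒜.card := Finset.card_pos.2 ⟨B₀, hB₀⟩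
        omega
      · rw [if_neg ha, mul_one]
        obtain ⟨B, ⟨hB, haB⟩, hu⟩ := hpart a a.2 (fun h => ha (Subtype.ext h))
        rw [Finset.prod_eq_single B]
        · rw [if_pos haB]
        · intro C hC hCB
          rw [if_neg]
          intro haC
          exact hCB (hu C ⟨hC, haC⟩)
        · intro h; exact absurd hB h
    rw [Finset.prod_congr rfl (fun a _ => h1 a), Finset.prod_mul_distrib, Finset.prod_ite_eq' Finset.univ (1 : A)]
    rw [if_pos (Finset.mem_univ _)]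
    congr 1
    refine Finset.prod_congr rfl fun a _ => ?_
    rw [if_pos a.2]
  rw [Finset.prod_eq_one (fun B hB => hNB B hB _), hNA, one_mul] at key
  have h7 : (⟨v, hv⟩ : V) ^ Nat.card V = 1 := pow_card_eq_one'
  have h8 : orderOf (⟨v, hv⟩ : V) ∣ 1 := by
    rw [← hk]
    exact Nat.dvd_gcd (orderOf_dvd_of_pow_eq_one key.symm) (orderOf_dvd_of_pow_eq_one h7)
  rw [Nat.dvd_one, orderOf_eq_one_iff] at h8
  rw [mem_bot]
  exact congrArg Subtype.val h8

end Cfsg.Agent.S3733
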