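import Cfsg.Statements.S3734
import Mathlib
import Cfsg.Agent.Lib.CoprimeB
import Cfsg.Agent.Lib.Nilp

set_option autoImplicit false
open Cfsg

namespace Cfsg.Agent.S3734

open Subgroup Cfsg.Agent.Lib.Basic
open scoped commutatorElement

theorem genNorm {X : Type*} [Group X] [Finite X] {A G B : Subgroup X} [hBn : B.Normal] (hAab : IsMulCommutative A)
    (hAG : A ≤ normalizer (G : Set X)) (hcop : (Nat.card A).Coprime (Nat.card G)) (hBA : B ≤ A)
    (hnc : ∀ a ∈ A, B ⊔ zpowers a ≠ A) :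
    closure {x | x ∈ G ∧ ∃ a ∈ A, a ∉ B ∧ a * x = x * a} = G := by
  have hcomm := Cfsg.Agent.Lib.Nilp.isMulCommutative_iff_forall.mp hAab
  have hAGbot : A ⊓ G = ⊥ := disjoint_iff.mp (disjoint_of_coprime_natCard hcop)
  apply le_antisymm
  · rw [closure_le]
    rintro x ⟨hx, -⟩
    exact hx
  have hm : IsMulCommutative (A.map (QuotientGroup.mk' B)) := by
    rw [Cfsg.Agent.Lib.Nilp.isMulCommutative_iff_forall]
    rintro _ ⟨a, ha, rfl⟩ _ ⟨b, hb, rfl⟩
    rw [← map_mul, ← map_mul, hcomm a ha b hb]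
  have hn : A.map (QuotientGroup.mk' B) ≤ normalizer ((G.map (QuotientGroup.mk' B) : Subgroup (X ⧸ B)) : Set (X ⧸ B)) :=
    (map_mono hAG).trans (le_normalizer_map _)
  have hc : (Nat.card (A.map (QuotientGroup.mk' B))).Coprime (Nat.card (G.map (QuotientGroup.mk' B))) :=
    Nat.Coprime.coprime_dvd_left (card_map_dvd _ _) (Nat.Coprime.coprime_dvd_right (card_map_dvd _ _) hcop)
  have hnc' : ¬ IsCyclic (A.map (QuotientGroup.mk' B)) := by
    intro hcy
    obtain ⟨g, hg⟩ := Subgroup.isCyclic_iff_exists_zpowers_eq_top (A.map (QuotientGroup.mk' B)) |>.mp hcy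
    have hgA : g ∈ A.map (QuotientGroup.mk' B) := hg ▸ mem_zpowers g
    obtain ⟨a, ha, rfl⟩ := hgA
    refine hnc a ha (le_antisymm (sup_le hBA (zpowers_le.mpr ha)) ?_)
    intro x hx
    have : QuotientGroup.mk' B x ∈ zpowers (QuotientGroup.mk' B a) := hg ▸ mem_map_of_mem _ hx
    obtain ⟨n, hn⟩ := mem_zpowers_iff.mp this
    rw [← map_zpow, QuotientGroup.mk'_apply, QuotientGroup.mk'_apply, QuotientGroup.eq] at hn
    have h2 : x = (a ^ n) * ((a ^ n)⁻¹ * x) := by group
    rw [h2]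
    exact mul_mem (mem_sup_right (zpow_mem (mem_zpowers a) n)) (mem_sup_left hn)
  have hgen := Cfsg.Agent.Lib.CoprimeB.gen_of_not_isCyclic hm hnc' hn hc
  have hle : Cfsg.Agent.Lib.CoprimeB.genCent (A.map (QuotientGroup.mk' B)) (G.map (QuotientGroup.mk' B)) ≤
      (closure {x | x ∈ G ∧ ∃ a ∈ A, a ∉ B ∧ a * x = x * a}).map (QuotientGroup.mk' B) := by
    rw [Cfsg.Agent.Lib.CoprimeB.genCent, closure_le]
    rintro _ ⟨⟨x, hx, rfl⟩, _, ⟨a, ha, rfl⟩, h1, h2⟩
    refine ⟨x, subset_closure ⟨hx, a, ha, ?_, ?_⟩, rfl⟩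
    · intro haB
      exact h1 ((QuotientGroup.eq_one_iff a).mpr haB)
    · rw [← map_mul, ← map_mul, QuotientGroup.mk'_apply, QuotientGroup.mk'_apply, QuotientGroup.eq] at h2
      -- (a x)⁻¹ (x a) ∈ B
      have h3 : (a * x)⁻¹ * (x * a) ∈ G := by
        have h4 : a⁻¹ * x * a ∈ G := (mem_normalizer_iff'.mp (hAG ha) (a⁻¹ * x)).mpr (by
          rw [mul_inv_cancel_left]; exact hx)
        have h5 : (a * x)⁻¹ * (x * a) = x⁻¹ * (a⁻¹ * x * a) := by group
        rw [h5]
        exact G.mul_mem (G.inv_mem hx) h4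
      have h4 : (a * x)⁻¹ * (x * a) ∈ A ⊓ G := ⟨hBA h2, h3⟩
      rw [hAGbot, mem_bot, inv_mul_eq_one] at h4
      exact h4
  intro g hg
  have h1 : QuotientGroup.mk' B g ∈ Cfsg.Agent.Lib.CoprimeB.genCent (A.map (QuotientGroup.mk' B)) (G.map (QuotientGroup.mk' B)) := by
    rw [hgen]; exact mem_map_of_mem _ hg
  obtain ⟨h, hh, hgh⟩ := hle h1
  have hhG : h ∈ G := by
    have : closure {x | x ∈ G ∧ ∃ a ∈ A, a ∉ B ∧ a * x = x * a} ≤ G := by
      rw [closure_le]
      rintro x ⟨hx, -⟩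
      exact hx
    exact this hh
  rw [QuotientGroup.mk'_apply, QuotientGroup.mk'_apply, QuotientGroup.eq] at hgh
  have h4 : h⁻¹ * g ∈ A ⊓ G := ⟨hBA hgh, G.mul_mem (G.inv_mem hhG) hg⟩
  rw [hAGbot, mem_bot, inv_mul_eq_one] at h4
  exact h4 ▸ hh

theorem genAux {X : Type*} [Group X] [Finite X] {A G B : Subgroup X} (hAab : IsMulCommutative A)
    (hAG : A ≤ normalizer (G : Set X)) (hcop : (Nat.card A).Coprime (Nat.card G)) (hBA : B ≤ A)
    (hBG : B ≤ centralizer (G : Set X))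
    (hnc : ∀ a ∈ A, B ⊔ zpowers a ≠ A) :
    closure {x | x ∈ G ∧ ∃ a ∈ A, a ∉ B ∧ a * x = x * a} = G := by
  have hcomm := Cfsg.Agent.Lib.Nilp.isMulCommutative_iff_forall.mp hAab
  obtain ⟨L, hL⟩ : ∃ L, L = A ⊔ G := ⟨_, rfl⟩
  have hAL : A ≤ L := hL ▸ le_sup_left
  have hGL : G ≤ L := hL ▸ le_sup_right
  have hBL : L ≤ centralizer (B : Set X) := by
    rw [hL]
    refine sup_le ?_ ?_
    · intro a ha
      rw [mem_centralizer_iff]
      intro b hb
      exact hcomm b (hBA hb) a ha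
    · exact le_centralizer_iff.mp hBG
  have hn : (B.subgroupOf L).Normal := by
    constructor
    intro b hb g
    rw [mem_subgroupOf] at hb ⊢
    have := mem_centralizer_iff.mp (hBL g.2) b hb
    have h2 : ((g * b * g⁻¹ : L) : X) = b := by
      push_cast
      rw [← this]; group
    rw [h2]; exact hb
  apply le_antisymm
  · rw [closure_le]
    rintro x ⟨hx, -⟩
    exact hx
  have h := genNorm (A := A.subgroupOf L) (G := G.subgroupOf L) (B := B.subgroupOf L) (by
    rw [Cfsg.Agent.Lib.Nilp.isMulCommutative_iff_forall]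
    intro a ha b hb
    exact Subtype.ext (hcomm a ha b hb)) (by
    intro a ha
    rw [mem_normalizer_iff]
    intro g
    exact mem_normalizer_iff.mp (hAG ha) g) (by
    rw [Nat.card_congr (subgroupOfEquivOfLe hAL).toEquiv, Nat.card_congr (subgroupOfEquivOfLe hGL).toEquiv]
    exact hcop) (by
    intro b hb
    exact hBA hb) (by
    intro a ha h1
    refine hnc a ha ?_
    have h2 := congrArg (Subgroup.map L.subtype) h1
    rw [Subgroup.map_sup, subgroupOf_map_subtype, subgroupOf_map_subtype, MonoidHom.map_zpowers, inf_eq_left.mpr hAL,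
      inf_eq_left.mpr (hBA.trans hAL)] at h2
    exact h2)
  intro g hg
  have h1 : (⟨g, hGL hg⟩ : L) ∈ G.subgroupOf L := hg
  rw [← h] at h1
  have h2 := mem_map_of_mem L.subtype h1
  rw [MonoidHom.map_closure] at h2
  refine closure_mono ?_ h2
  rintro _ ⟨x, ⟨hx, a, ha, haB, hax⟩, rfl⟩
  exact ⟨hx, a, ha, haB, congrArg Subtype.val hax⟩

theorem cocyc_aux {X : Type*} [Group X] [Finite X] (A : Subgroup X) (hAab : IsMulCommutative A) (n : ℕ) :
    ∀ G : Subgroup X, Nat.card G ≤ n → A ≤ Subgroup.normalizer (G : Set X) → (Nat.card A).Coprime (Nat.card G) →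
    G ≤ (⨆ B ∈ {B : Subgroup X | B ≤ A ∧ ∃ a ∈ A, B ⊔ Subgroup.zpowers a = A}, G ⊓ Subgroup.centralizer (B : Set X)) := by
  have hcomm := Cfsg.Agent.Lib.Nilp.isMulCommutative_iff_forall.mp hAab
  induction n with
  | zero =>
    intro G hG
    have := Nat.card_pos (α := G)
    omega
  | succ n ih =>
    intro G hG hAG hcop
    by_cases hex : ∃ a ∈ A, (A ⊓ centralizer (G : Set X)) ⊔ zpowers a = A
    · refine le_iSup₂_of_le (A ⊓ centralizer (G : Set X)) ⟨inf_le_left, hex⟩ (le_inf le_rfl ?_)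
      exact le_centralizer_iff.mp inf_le_right
    · push Not at hex
      have h := genAux hAab hAG hcop inf_le_left inf_le_right hex
      conv_lhs => rw [← h]
      rw [closure_le]
      rintro x ⟨hx, a, ha, haB, hax⟩
      have hlt : G ⊓ centralizer {a} < G := by
        refine lt_of_le_of_ne inf_le_left ?_
        intro h1
        apply haB
        refine mem_inf.mpr ⟨ha, ?_⟩
        rw [mem_centralizer_iff]
        intro g hg
        rw [← h1] at hg
        exact (mem_centralizer_singleton_iff.mp hg.2)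
      have hAn : A ≤ normalizer ((G ⊓ centralizer {a} : Subgroup X) : Set X) := by
        have h1 : A ≤ centralizer {a} := by
          intro b hb
          rw [mem_centralizer_singleton_iff]
          exact hcomm b hb a ha
        have h2 : A ≤ normalizer ((centralizer {a} : Subgroup X) : Set X) := h1.trans le_normalizer
        intro b hb
        rw [mem_normalizer_iff]
        intro g
        rw [mem_inf, mem_inf]
        exact and_congr (mem_normalizer_iff.mp (hAG hb) g) (mem_normalizer_iff.mp (h2 hb) g)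
      have h1 := ih (G ⊓ centralizer {a}) (by
        have := card_lt_card_of_lt hlt
        omega) hAn (Nat.Coprime.coprime_dvd_right (card_dvd_of_le inf_le_left) hcop)
      have h2 : x ∈ G ⊓ centralizer {a} := by
        refine mem_inf.mpr ⟨hx, ?_⟩
        rw [mem_centralizer_singleton_iff]
        exact hax.symm
      refine (h1.trans ?_) h2
      exact iSup₂_mono fun B hB => inf_le_inf_right _ inf_le_left

/-- Let A and G be subgroups of a finite group with A abelian, A normalizing G and the orders of A and G coprime. Then G is generated by the fixed-point subgroups C_G(B) of those subgroups B of A for which A/B is cyclic (that is, A = ⟨B, a⟩ for some a), and [G, A] is generated by the commutator subgroups [C_G(B), A] over the same subgroups B. -/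
theorem result {X : Type*} [Group X] [Finite X] (A G : Subgroup X) (hAab : IsMulCommutative A) (hAG : A ≤ Subgroup.normalizer (G : Set X)) (hcop : (Nat.card A).Coprime (Nat.card G)) : (⨆ B ∈ {B : Subgroup X | B ≤ A ∧ ∃ a ∈ A, B ⊔ Subgroup.zpowers a = A}, G ⊓ Subgroup.centralizer (B : Set X)) = G ∧ (⨆ B ∈ {B : Subgroup X | B ≤ A ∧ ∃ a ∈ A, B ⊔ Subgroup.zpowers a = A}, ⁅G ⊓ Subgroup.centralizer (B : Set X), A⁆) = ⁅G, A⁆ := by
  have hs : Group.IsSolvable A := Cfsg.Agent.Lib.CoprimeB.isSolvable_of_comm hAab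
  have hcomm := Cfsg.Agent.Lib.Nilp.isMulCommutative_iff_forall.mp hAab
  have first : ∀ G : Subgroup X, A ≤ Subgroup.normalizer (G : Set X) → (Nat.card A).Coprime (Nat.card G) →
    G ≤ (⨆ B ∈ {B : Subgroup X | B ≤ A ∧ ∃ a ∈ A, B ⊔ Subgroup.zpowers a = A}, G ⊓ Subgroup.centralizer (B : Set X)) :=
    fun G => cocyc_aux A hAab (Nat.card G) G le_rfl
  refine ⟨le_antisymm (iSup₂_le fun B hB => inf_le_left) (first G hAG hcop), ?_⟩
  apply le_antisymm (iSup₂_le fun B hB => commutator_mono inf_le_left le_rfl)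
  have hG0n : A ≤ normalizer ((⁅G, A⁆ : Subgroup X) : Set X) := Cfsg.Agent.Lib.Coprime.le_normalizer_commutator_right A G
  have hG0G : ⁅G, A⁆ ≤ G := Cfsg.Agent.Lib.Coprime.commutator_le_of_normalizes hAG
  have hG0c : (Nat.card A).Coprime (Nat.card (⁅G, A⁆ : Subgroup X)) :=
    Nat.Coprime.coprime_dvd_right (card_dvd_of_le hG0G) hcop
  have hG0 := Cfsg.Agent.Lib.Coprime.commutator_commutator_eq hAG hcop (Or.inl hs)
  obtain ⟨K, hK⟩ : ∃ K, K = ⁅G, A⁆ := ⟨_, rfl⟩
  rw [← hK] at hG0n hG0G hG0c hG0 ⊢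
  obtain ⟨T, hT⟩ : ∃ T : Subgroup X, T = ⨆ B ∈ {B : Subgroup X | B ≤ A ∧ ∃ a ∈ A, B ⊔ Subgroup.zpowers a = A},
      ⁅K ⊓ Subgroup.centralizer (B : Set X), A⁆ := ⟨_, rfl⟩
  have hTle : T ≤ ⨆ B ∈ {B : Subgroup X | B ≤ A ∧ ∃ a ∈ A, B ⊔ Subgroup.zpowers a = A},
      ⁅G ⊓ Subgroup.centralizer (B : Set X), A⁆ := by
    rw [hT]
    exact iSup₂_mono fun B hB => commutator_mono (inf_le_inf_right _ hG0G) le_rfl
  refine le_trans ?_ hTle
  -- C normalizes T
  have hAB : ∀ B : Subgroup X, B ≤ A → A ≤ normalizer ((K ⊓ centralizer (B : Set X) : Subgroup X) : Set X) := by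
    intro B hB b hb
    have h1 : A ≤ centralizer (B : Set X) := by
      intro b hb
      rw [mem_centralizer_iff]
      intro c hc
      exact hcomm c (hB hc) b hb
    have h2 : A ≤ normalizer ((centralizer (B : Set X) : Subgroup X) : Set X) := h1.trans le_normalizer
    rw [mem_normalizer_iff]
    intro g
    rw [mem_inf, mem_inf]
    exact and_congr (mem_normalizer_iff.mp (hG0n hb) g) (mem_normalizer_iff.mp (h2 hb) g)
  have hCT : ∀ c ∈ K ⊓ centralizer (A : Set X), ∀ t ∈ T, c * t * c⁻¹ ∈ T := by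
    intro c hc t ht
    have h1 : T ≤ T.comap (MulAut.conj c).toMonoidHom := by
      conv_lhs => rw [hT]
      refine iSup₂_le fun B hB => ?_
      rw [← map_le_iff_le_comap]
      have h2 : c ∈ normalizer ((⁅K ⊓ centralizer (B : Set X), A⁆ : Subgroup X) : Set X) := by
        apply Cfsg.Agent.Lib.Coprime.le_normalizer_commutator_left
        exact ⟨hc.1, centralizer_le hB.1 hc.2⟩
      have h3 : ⁅K ⊓ centralizer (B : Set X), A⁆ ≤ T := by
        rw [hT]
        exact le_iSup₂_of_le B hB le_rfl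
      rintro _ ⟨x, hx, rfl⟩
      exact h3 ((mem_normalizer_iff.mp h2 x).mp hx)
    exact h1 ht
  have hKT : ∀ k ∈ K, ∃ t ∈ T, ∃ c ∈ K ⊓ centralizer (A : Set X), k = t * c := by
    have h1 := first K hG0n hG0c
    -- the set T C is a subgroup
    let S : Subgroup X :=
      { carrier := {k | ∃ t ∈ T, ∃ c ∈ K ⊓ centralizer (A : Set X), k = t * c}
        one_mem' := ⟨1, one_mem _, 1, one_mem _, by simp⟩
        mul_mem' := by
          rintro _ _ ⟨t, ht, c, hc, rfl⟩ ⟨t', ht', c', hc', rfl⟩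
          refine ⟨t * (c * t' * c⁻¹), mul_mem ht (hCT c hc t' ht'), c * c', mul_mem hc hc', by group⟩
        inv_mem' := by
          rintro _ ⟨t, ht, c, hc, rfl⟩
          refine ⟨c⁻¹ * t⁻¹ * c⁻¹⁻¹, hCT c⁻¹ (inv_mem hc) t⁻¹ (inv_mem ht), c⁻¹, inv_mem hc, by group⟩ }
    have h2 : K ≤ S := by
      refine h1.trans (iSup₂_le fun B hB => ?_)
      intro x hx
      obtain ⟨c, hc, n, hn, rfl⟩ := Cfsg.Agent.Lib.Coprime.exists_centralizer_mul (hAB B hB.1)
        (Nat.Coprime.coprime_dvd_right (card_dvd_of_le inf_le_left) hG0c) (Or.inl hs) hx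
      refine ⟨n, ?_, c, ⟨hc.1.1, hc.2⟩, rfl⟩
      rw [hT]
      exact (le_iSup₂_of_le (f := fun (B : Subgroup X) (_ : B ∈ {B : Subgroup X | B ≤ A ∧ ∃ a ∈ A, B ⊔ Subgroup.zpowers a = A}) => ⁅K ⊓ Subgroup.centralizer (B : Set X), A⁆) B hB le_rfl) hn
    exact fun k hk => h2 hk
  have hTK : T ≤ K := by
    rw [hT]
    exact iSup₂_le fun B hB => (Cfsg.Agent.Lib.Coprime.commutator_le_of_normalizes (hAB B hB.1)).trans inf_le_left
  have hAT : ∀ a ∈ A, ∀ t ∈ T, a * t * a⁻¹ ∈ T := by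
    intro a ha t ht
    have h1 : T ≤ T.comap (MulAut.conj a).toMonoidHom := by
      conv_lhs => rw [hT]
      refine iSup₂_le fun B hB => ?_
      rw [← map_le_iff_le_comap]
      have h2 : a ∈ normalizer ((⁅K ⊓ centralizer (B : Set X), A⁆ : Subgroup X) : Set X) :=
        Cfsg.Agent.Lib.Coprime.le_normalizer_commutator_right _ _ ha
      have h3 : ⁅K ⊓ centralizer (B : Set X), A⁆ ≤ T := by
        rw [hT]
        exact le_iSup₂_of_le B hB le_rfl
      rintro _ ⟨x, hx, rfl⟩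
      exact h3 ((mem_normalizer_iff.mp h2 x).mp hx)
    exact h1 ht
  conv_lhs => rw [← hG0]
  rw [commutator_le]
  intro k hk a ha
  obtain ⟨t, ht, c, hc, rfl⟩ := hKT k hk
  have h1 : a * c = c * a := mem_centralizer_iff.mp hc.2 a ha
  have e : ⁅t * c, a⁆ = t * (a * t⁻¹ * a⁻¹) := by
    simp only [commutatorElement_def]
    calc t * c * a * (t * c)⁻¹ * a⁻¹ = t * (c * a) * c⁻¹ * t⁻¹ * a⁻¹ := by group
      _ = t * (a * c) * c⁻¹ * t⁻¹ * a⁻¹ := by rw [h1]
      _ = _ := by group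
  rw [e]
  exact mul_mem ht (hAT a ha _ (inv_mem ht))

end Cfsg.Agent.S3734
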