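import Cfsg.Statements.S3735
import Mathlib
import Cfsg.Agent.H2.PUtil

set_option autoImplicit false
open Cfsg

namespace Cfsg.Agent.S3735

open Subgroup

/-- Clifford's Theorem for actions on finite abelian groups, first part. Let H and V be subgroups of a finite group with V abelian and H normalizing V, and let A be a normal subgroup of H. If every H-invariant subgroup of V has an H-invariant complement in V, then every A-invariant subgroup of V has an A-invariant complement in V. -/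
theorem result {G : Type*} [Group G] [Finite G] (H A V : Subgroup G) (hVab : IsMulCommutative V) (hHV : H ≤ Subgroup.normalizer (V : Set G)) (hAH : A ≤ H) (hAn : H ≤ Subgroup.normalizer (A : Set G)) (hss : ∀ U : Subgroup G, U ≤ V → H ≤ Subgroup.normalizer (U : Set G) → ∃ W : Subgroup G, W ≤ V ∧ H ≤ Subgroup.normalizer (W : Set G) ∧ U ⊓ W = ⊥ ∧ U ⊔ W = V) (U : Subgroup G) (hUV : U ≤ V) (hAU : A ≤ Subgroup.normalizer (U : Set G)) : ∃ W : Subgroup G, W ≤ V ∧ A ≤ Subgroup.normalizer (W : Set G) ∧ U ⊓ W = ⊥ ∧ U ⊔ W = V := by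
  classical
  have hVc : ∀ a ∈ V, ∀ b ∈ V, a * b = b * a := H2.PUtil.isMulCommutative_iff.1 hVab
  -- minimal A-invariant subgroups
  set MinA : Set (Subgroup G) := {S | S ≤ V ∧ A ≤ normalizer (S : Set G) ∧ S ≠ ⊥ ∧
    ∀ S' : Subgroup G, S' ≤ S → A ≤ normalizer (S' : Set G) → S' = ⊥ ∨ S' = S} with hMinA
  have hexmin : ∀ W : Subgroup G, W ≤ V → A ≤ normalizer (W : Set G) → W ≠ ⊥ → ∃ S ∈ MinA, S ≤ W := by
    intro W hWV hAW hW1
    obtain ⟨S, hS⟩ := (Set.toFinite {S : Subgroup G | S ≤ W ∧ A ≤ normalizer (S : Set G) ∧ S ≠ ⊥}).exists_minimal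
      ⟨W, le_rfl, hAW, hW1⟩
    obtain ⟨hSW, hAS, hS1⟩ := hS.prop
    refine ⟨S, ⟨hSW.trans hWV, hAS, hS1, fun S' h1 h2 => ?_⟩, hSW⟩
    by_cases h3 : S' = ⊥
    · exact Or.inl h3
    · exact Or.inr (le_antisymm h1 (hS.le_of_le ⟨h1.trans hSW, h2, h3⟩ h1))
  set T : Subgroup G := sSup MinA with hT
  have hTV : T ≤ V := sSup_le fun S hS => hS.1
  have hHT : H ≤ normalizer (T : Set G) := by
    intro h hh
    apply H2.PUtil.mem_normalizer_of_conj_mem
    intro x hx
    have h1 : T ≤ T.comap (MulAut.conj h).toMonoidHom := by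
      apply sSup_le
      rintro S ⟨hSV, hAS, hS1, hSmin⟩
      have h2 : S.map (MulAut.conj h).toMonoidHom ≤ T := by
        apply le_sSup
        refine ⟨?_, ?_, ?_, ?_⟩
        · rintro _ ⟨y, hy, rfl⟩
          exact (mem_normalizer_iff.1 (hHV hh) y).1 (hSV hy)
        · intro a ha
          apply H2.PUtil.mem_normalizer_of_conj_mem
          rintro _ ⟨y, hy, rfl⟩
          have h3 : h⁻¹ * a * h⁻¹⁻¹ ∈ A := (mem_normalizer_iff.1 (inv_mem (hAn hh)) a).1 ha
          refine ⟨(h⁻¹ * a * h⁻¹⁻¹) * y * (h⁻¹ * a * h⁻¹⁻¹)⁻¹, (mem_normalizer_iff.1 (hAS h3) y).1 hy, ?_⟩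
          show h * ((h⁻¹ * a * h⁻¹⁻¹) * y * (h⁻¹ * a * h⁻¹⁻¹)⁻¹) * h⁻¹ = a * (h * y * h⁻¹) * a⁻¹
          group
        · rw [Ne, Subgroup.map_eq_bot_iff_of_injective _ (MulAut.conj h).injective]; exact hS1
        · intro S' hS' hAS'
          have h4 : S'.map (MulAut.conj h⁻¹).toMonoidHom ≤ S := by
            rintro _ ⟨y, hy, rfl⟩
            obtain ⟨z, hz, rfl⟩ := hS' hy
            show h⁻¹ * (h * z * h⁻¹) * h⁻¹⁻¹ ∈ S
            have : h⁻¹ * (h * z * h⁻¹) * h⁻¹⁻¹ = z := by group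
            rw [this]; exact hz
          have h5 : (S'.map (MulAut.conj h⁻¹).toMonoidHom).map (MulAut.conj h).toMonoidHom = S' := by
            rw [Subgroup.map_map]
            have : (MulAut.conj h).toMonoidHom.comp (MulAut.conj h⁻¹).toMonoidHom = MonoidHom.id G := by
              ext x; simp [mul_assoc]
            rw [this, Subgroup.map_id]
          have h6 : A ≤ normalizer ((S'.map (MulAut.conj h⁻¹).toMonoidHom : Subgroup G) : Set G) := by
            intro a ha
            apply H2.PUtil.mem_normalizer_of_conj_mem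
            rintro _ ⟨y, hy, rfl⟩
            have h3 : h * a * h⁻¹ ∈ A := (mem_normalizer_iff.1 (hAn hh) a).1 ha
            refine ⟨(h * a * h⁻¹) * y * (h * a * h⁻¹)⁻¹, (mem_normalizer_iff.1 (hAS' h3) y).1 hy, ?_⟩
            show h⁻¹ * ((h * a * h⁻¹) * y * (h * a * h⁻¹)⁻¹) * h⁻¹⁻¹ = a * (h⁻¹ * y * h⁻¹⁻¹) * a⁻¹
            group
          rcases hSmin _ h4 h6 with h7 | h7
          · left
            rw [← h5, h7, Subgroup.map_bot]
          · right
            rw [← h5, h7]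
      exact Subgroup.map_le_iff_le_comap.1 h2
    exact h1 hx
  have hTeq : T = V := by
    obtain ⟨W, hWV, hHW, hTW, hTW'⟩ := hss T hTV hHT
    by_cases hW1 : W = ⊥
    · rw [hW1, sup_bot_eq] at hTW'; exact hTW'
    · exfalso
      obtain ⟨S, hS, hSW⟩ := hexmin W hWV (hAH.trans hHW) hW1
      apply hS.2.2.1
      rw [eq_bot_iff, ← hTW]
      exact le_inf (le_sSup hS) hSW
  -- maximal W
  obtain ⟨W, hW⟩ := (Set.toFinite {W : Subgroup G | W ≤ V ∧ A ≤ normalizer (W : Set G) ∧ U ⊓ W = ⊥}).exists_maximal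
    ⟨⊥, bot_le, by
      intro a _
      apply H2.PUtil.mem_normalizer_of_conj_mem
      intro x hx
      rw [mem_bot] at hx ⊢
      rw [hx]; group, inf_bot_eq _⟩
  obtain ⟨hWV, hAW, hUW⟩ := hW.prop
  refine ⟨W, hWV, hAW, hUW, ?_⟩
  have hsupV : U ⊔ W ≤ V := sup_le hUV hWV
  by_contra hne
  obtain ⟨S, hS, hSn⟩ : ∃ S ∈ MinA, ¬ S ≤ U ⊔ W := by
    by_contra hcon
    push Not at hcon
    apply hne
    apply le_antisymm hsupV
    rw [← hTeq]
    exact sSup_le hcon
  have hsupn : ∀ X Y : Subgroup G, A ≤ normalizer (X : Set G) → A ≤ normalizer (Y : Set G) →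
      A ≤ normalizer ((X ⊔ Y : Subgroup G) : Set G) := by
    intro X Y hX hY a ha
    apply H2.PUtil.mem_normalizer_of_conj_mem
    intro x hx
    have h1 : X ⊔ Y ≤ (X ⊔ Y).comap (MulAut.conj a).toMonoidHom := by
      rw [sup_le_iff]
      constructor
      · intro y hy
        exact mem_sup_left ((mem_normalizer_iff.1 (hX ha) y).1 hy)
      · intro y hy
        exact mem_sup_right ((mem_normalizer_iff.1 (hY ha) y).1 hy)
    exact h1 hx
  have hinf : S ⊓ (U ⊔ W) = ⊥ := by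
    have h1 : A ≤ normalizer ((S ⊓ (U ⊔ W) : Subgroup G) : Set G) := by
      intro a ha
      apply H2.PUtil.mem_normalizer_of_conj_mem
      rintro x ⟨hx1, hx2⟩
      exact ⟨(mem_normalizer_iff.1 (hS.2.1 ha) x).1 hx1, (mem_normalizer_iff.1 (hsupn U W hAU hAW ha) x).1 hx2⟩
    rcases hS.2.2.2 _ inf_le_left h1 with h2 | h2
    · exact h2
    · exact absurd (inf_eq_left.1 h2) hSn
  have hWSV : W ⊔ S ≤ V := sup_le hWV hS.1
  have hUWS : U ⊓ (W ⊔ S) = ⊥ := by
    rw [eq_bot_iff]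
    rintro u ⟨hu, hu'⟩
    have hVn : S ≤ normalizer (W : Set G) := by
      intro s hs
      rw [mem_normalizer_iff]
      intro x
      constructor
      · intro hx
        have : s * x * s⁻¹ = x := by rw [hVc s (hS.1 hs) x (hWV hx)]; group
        rw [this]; exact hx
      · intro hx
        have h1 : s * x * s⁻¹ ∈ V := hWV hx
        have h2 : s⁻¹ * (s * x * s⁻¹) * s = s * x * s⁻¹ := by
          rw [hVc _ (V.inv_mem (hS.1 hs)) _ h1]; group
        have h3 : x = s⁻¹ * (s * x * s⁻¹) * s := by group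
        rw [h3, h2]; exact hx
    obtain ⟨w, hw, s, hs, rfl⟩ := (Lib.Basic.mem_sup_iff_left hVn).1 hu'
    have h1 : s ∈ S ⊓ (U ⊔ W) := by
      refine ⟨hs, ?_⟩
      have : s = w⁻¹ * (w * s) := by group
      rw [this]
      exact mul_mem (mem_sup_right (W.inv_mem hw)) (mem_sup_left hu)
    rw [hinf, mem_bot] at h1
    rw [h1, mul_one] at hu ⊢
    rw [← hUW]; exact ⟨hu, hw⟩
  have h1 := hW.le_of_ge ⟨hWSV, hsupn W S hAW hS.2.1, hUWS⟩ le_sup_left
  exact hSn (le_sup_right.trans (h1.trans le_sup_right))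

end Cfsg.Agent.S3735
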