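import Cfsg.Statements.S3738
import Cfsg.Agent.H2.SpecCount
import Cfsg.Agent.Lib.Cyc
import Cfsg.Agent.Lib.Nilp

set_option autoImplicit false
open Cfsg

namespace Cfsg.Agent.S3738

open Subgroup Cfsg.Agent.Lib Cfsg.Agent.H2.SpecCount
open scoped commutatorElement

/-- Let d be a non-identity 3-element of a finite group and P a 2-subgroup normalized by d on which ⟨d⟩ acts faithfully (no non-identity power of d centralizes P) and without non-identity fixed points (C_P(d) = 1). If every abelian subgroup of P has 2-rank at most 2, then d has order 3. -/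
theorem result {X : Type*} [Group X] [Finite X] (d : X) (n : ℕ) (hn : 1 ≤ n) (hd : orderOf d = 3 ^ n) (P : Subgroup X) (hP : IsPGroup 2 P) (hdP : d ∈ Subgroup.normalizer (P : Set X)) (hfaith : Subgroup.zpowers d ⊓ Subgroup.centralizer (P : Set X) = ⊥) (hfpf : P ⊓ Subgroup.centralizer {d} = ⊥) (hrank : ∀ V : Subgroup X, V ≤ P → IsMulCommutative V → Cfsg.PRankLE 2 2 V) : orderOf d = 3 := by
  classical
  haveI h2f : Fact (Nat.Prime 2) := ⟨Nat.prime_two⟩
  haveI h3f : Fact (Nat.Prime 3) := ⟨Nat.prime_three⟩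
  by_contra hne
  have hn2 : 2 ≤ n := by
    by_contra h
    have : n = 1 := by omega
    rw [this, pow_one] at hd
    exact hne hd
  obtain ⟨B, hB⟩ : ∃ B, B = zpowers d := ⟨_, rfl⟩
  obtain ⟨t, ht⟩ : ∃ t, t = d ^ 3 ^ (n - 1) := ⟨_, rfl⟩
  have hto : orderOf t = 3 := by
    rw [ht, orderOf_pow' d (pow_pos (by norm_num) _).ne', hd, Nat.gcd_eq_right (pow_dvd_pow 3 (by omega)), Nat.pow_div (by omega) (by norm_num)]
    have : n - (n - 1) = 1 := by omega
    rw [this, pow_one]
  obtain ⟨A, hA⟩ : ∃ A, A = zpowers t := ⟨_, rfl⟩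
  have hAB : A ≤ B := by rw [hA, hB, zpowers_le, ht]; exact pow_mem (mem_zpowers d) _
  have hAcard : Nat.card A = 3 := by rw [hA, Nat.card_zpowers, hto]
  have hBcard : Nat.card B = 3 ^ n := by rw [hB, Nat.card_zpowers, hd]
  have hBcomm : ∀ a ∈ B, ∀ b ∈ B, a * b = b * a := by
    rw [hB]
    rintro _ ⟨i, rfl⟩ _ ⟨j, rfl⟩
    exact ((Commute.refl d).zpow_zpow i j).eq
  have hBA : B ≤ normalizer (A : Set X) := by
    rw [le_normalizer_iff]
    intro b hb a ha
    rw [hBcomm b hb a (hAB ha), mul_inv_cancel_right]; exact ha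
  -- every nontrivial subgroup of `B` contains `A`
  have hsub : ∀ b ∈ B, b ≠ 1 → A ≤ zpowers b := by
    intro b hb hb1
    haveI : IsCyclic B := by rw [hB]; infer_instance
    have h1 : orderOf b ∣ 3 ^ n := by rw [← hBcard]; exact Subgroup.orderOf_dvd_natCard B hb
    obtain ⟨i, -, hi⟩ := (Nat.dvd_prime_pow Nat.prime_three).mp h1
    have hi0 : i ≠ 0 := by rintro rfl; rw [pow_zero] at hi; exact hb1 (orderOf_eq_one_iff.mp hi)
    have h2 : A.subgroupOf B ≤ zpowers ⟨b, hb⟩ := by
      apply Cyc.le_of_card_dvd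
      rw [Nat.card_congr (subgroupOfEquivOfLe hAB).toEquiv, hAcard, Nat.card_zpowers, Subgroup.orderOf_mk, hi]
      exact dvd_pow_self 3 hi0
    intro a ha
    obtain ⟨k, hk⟩ := h2 (show (⟨a, hAB ha⟩ : B) ∈ A.subgroupOf B from mem_subgroupOf.mpr ha)
    exact ⟨k, congrArg Subtype.val hk⟩
  have hBP : B ≤ normalizer (P : Set X) := by rw [hB]; exact zpowers_le.mpr hdP
  have hPA : ⁅P, A⁆ ≠ ⊥ := by
    intro h
    rw [commutator_eq_bot_iff_le_centralizer] at h
    have h1 : A ≤ zpowers d ⊓ centralizer (P : Set X) := by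
      refine le_inf (hB ▸ hAB) ?_
      intro a ha
      rw [mem_centralizer_iff]
      intro x hx
      exact (mem_centralizer_iff.mp (h hx) a ha).symm
    rw [hfaith, le_bot_iff] at h1
    rw [h1, card_bot] at hAcard
    omega
  obtain ⟨Q, hQ⟩ := (Set.toFinite {Q : Subgroup X | Q ≤ P ∧ B ≤ normalizer (Q : Set X) ∧ ⁅Q, A⁆ ≠ ⊥}).exists_minimal ⟨P, le_rfl, hBP, hPA⟩
  obtain ⟨hQP, hBQ, hQA⟩ := hQ.prop
  have hQ2 : IsPGroup 2 Q := hP.to_le hQP
  have hmin : ∀ U : Subgroup X, U < Q → B ≤ normalizer (U : Set X) → ⁅U, A⁆ = ⊥ := by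
    intro U hU hBU
    by_contra hUA
    exact hU.not_ge (hQ.le_of_le ⟨hU.le.trans hQP, hBU, hUA⟩ hU.le)
  have hAp : (Nat.card A).Coprime 2 := by rw [hAcard]; norm_num
  obtain ⟨hQAQ, hor, -, -⟩ := MinAct.hall_higman (p := 2) hQ2 hBQ hAB hBA hAp hQA hmin
  have hcen := MinAct.inf_centralizer_le_commutator (hAB.trans hBQ) (MinAct.coprime_of_pgroup hQ2 hAp) hQAQ
  -- the free action
  have hfree : ∀ Z : Subgroup X, Z ≤ Q → Q ⊓ centralizer (A : Set X) ≤ Z → B ≤ normalizer (Z : Set X) → 3 ^ n ∣ Nat.card Q - Nat.card Z := by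
    intro Z hZQ hZ hBZ
    letI act : MulAction B {x : X // x ∈ Q ∧ x ∉ Z} :=
      { smul := fun b x => ⟨(b : X) * (x : X) * (b : X)⁻¹, (mem_normalizer_iff.mp (hBQ b.2) _).mp x.2.1, fun h => x.2.2 ((mem_normalizer_iff.mp (hBZ b.2) _).mpr h)⟩
        one_smul := fun x => Subtype.ext (by change (1 : X) * (x : X) * (1 : X)⁻¹ = x; group)
        mul_smul := fun a b x => Subtype.ext (by
          change ((a : X) * b) * (x : X) * ((a : X) * b)⁻¹ = (a : X) * ((b : X) * (x : X) * (b : X)⁻¹) * (a : X)⁻¹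
          group) }
    have h1 := FrobGrp.card_dvd_of_free (H := B) (X := {x : X // x ∈ Q ∧ x ∉ Z}) (by
      intro x
      rw [eq_bot_iff]
      intro b hb
      rw [mem_bot]
      by_contra hb1
      have hb2 : (b : X) * (x : X) * (b : X)⁻¹ = x := congrArg Subtype.val (show b • x = x from hb)
      have h2 := hsub b b.2 (fun h => hb1 (Subtype.ext h))
      apply x.2.2
      apply hZ
      refine mem_inf.mpr ⟨x.2.1, ?_⟩
      rw [mem_centralizer_iff]
      intro a ha
      obtain ⟨k, hk⟩ := h2 ha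
      have h3 : Commute (b : X) (x : X) := mul_inv_eq_iff_eq_mul.mp hb2
      rw [← show (b : X) ^ k = a from hk]
      exact (h3.zpow_left k).eq)
    have h2 : Nat.card {x : X // x ∈ Q ∧ x ∉ Z} = Nat.card Q - Nat.card Z := by
      have h3 : (Q : Set X) \ (Z : Set X) = {x : X | x ∈ Q ∧ x ∉ Z} := rfl
      have h4 := Set.ncard_diff (s := (Z : Set X)) (t := (Q : Set X)) hZQ (Set.toFinite _)
      exact h4
    rw [hBcard, h2] at h1
    exact h1
  have h9 : ∀ m, 3 ^ n ∣ m → 9 ∣ m := fun m h => (show (9 : ℕ) = 3 ^ 2 by norm_num) ▸ (pow_dvd_pow 3 hn2).trans h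
  rcases hor with hel | hsp
  · -- elementary abelian
    have hQc : IsMulCommutative Q := hel.1
    have hcard := hrank Q hQP hQc ⊤ (by
      rw [Cfsg.Agent.H2.PUtil.isMulCommutative_iff]
      intro a _ b _
      exact Subtype.ext ((Cfsg.Agent.H2.PUtil.isMulCommutative_iff.mp hQc) a a.2 b b.2)) (fun a _ => Subtype.ext (hel.2 a a.2))
    rw [card_top] at hcard
    have hcomm : ⁅Q, Q⁆ = ⊥ := by
      rw [commutator_eq_bot_iff_le_centralizer]
      intro x hx
      rw [mem_centralizer_iff]
      intro y hy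
      exact (Cfsg.Agent.H2.PUtil.isMulCommutative_iff.mp hQc) y hy x hx
    rw [hcomm] at hcen
    have h1 := h9 _ (hfree ⊥ bot_le hcen (by rw [normalizer_eq_top]; exact le_top))
    rw [card_bot] at h1
    have h2 : Nat.card Q = 1 := by
      have := Nat.card_pos (α := Q)
      have h3 : Nat.card Q - 1 = 0 := Nat.eq_zero_of_dvd_of_lt h1 (by norm_num at hcard; omega)
      omega
    apply hQA
    rw [card_eq_one.mp h2, commutator_bot_left]
  · -- special
    obtain ⟨hQp, hΦ, hD⟩ := hsp
    obtain ⟨Z, hZ⟩ : ∃ Z : Subgroup Q, Z = center Q := ⟨_, rfl⟩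
    obtain ⟨Z', hZ'⟩ : ∃ Z' : Subgroup X, Z' = Z.map Q.subtype := ⟨_, rfl⟩
    have hZZ' : Nat.card Z' = Nat.card Z := by
      rw [hZ']; exact (Nat.card_congr (Z.equivMapOfInjective _ Q.subtype_injective).toEquiv).symm
    have hZ'Q : Z' ≤ Q := hZ' ▸ map_subtype_le _
    have hQQ : ⁅Q, Q⁆ = Z' := by rw [hZ', hZ, ← hD, map_subtype_commutator]
    rw [hQQ] at hcen
    have hBZ : B ≤ normalizer (Z' : Set X) := by
      haveI : Z.Characteristic := by rw [hZ]; infer_instance
      rw [hZ']
      exact hBQ.trans (MinAct.normalizer_le_normalizer_char Z)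
    have hsq : ∀ x : Q, x ^ 2 ∈ Z := by
      intro x
      rw [hZ, ← hΦ]
      exact Nilp.pow_mem_frattini hQ2 x
    have hZc : Z ≤ center Q := hZ.le
    have hel : ∀ z ∈ Z, z ^ 2 = 1 := by
      intro z hz
      rw [hZ, ← hD, commutator_eq_closure] at hz
      have hcz : ∀ w, w ∈ closure (commutatorSet Q) → w ∈ center Q := by
        intro w hw
        rw [← commutator_eq_closure, hD] at hw
        exact hw
      induction hz using closure_induction with
      | mem w hw =>
        obtain ⟨a, b, rfl⟩ := hw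
        have hc : ⁅a, b⁆ ∈ center Q := hcz _ (subset_closure ⟨a, b, rfl⟩)
        have ha2 : a ^ 2 ∈ center Q := hZc (hsq a)
        have h1 : b * a * b⁻¹ = ⁅a, b⁆⁻¹ * a := by rw [commutatorElement_def]; group
        have h2 : b * a ^ 2 * b⁻¹ = a ^ 2 := by rw [mem_center_iff.mp ha2 b, mul_inv_cancel_right]
        have h3 : (b * a * b⁻¹) ^ 2 = a ^ 2 := by rw [conj_pow, h2]
        rw [h1] at h3
        have h4 : Commute ⁅a, b⁆⁻¹ a := (show Commute ⁅a, b⁆ a from (mem_center_iff.mp hc a).symm).inv_left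
        rw [h4.mul_pow] at h3
        have h5 : (⁅a, b⁆⁻¹) ^ 2 = 1 := mul_eq_right.mp h3
        rw [inv_pow, inv_eq_one] at h5
        exact h5
      | one => exact one_pow 2
      | mul u v hu hv ihu ihv =>
        have h1 : Commute u v := mem_center_iff.mp (hcz v hv) u
        rw [h1.mul_pow, ihu, ihv, one_mul]
      | inv u hu ihu => rw [inv_pow, ihu, inv_one]
    -- the order of `Z`
    have hZle : Nat.card Z' ≤ 4 := by
      have h1 := hrank Z' (hZ'Q.trans hQP) (by
        rw [Cfsg.Agent.H2.PUtil.isMulCommutative_iff]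
        intro a ha b hb
        rw [hZ'] at ha hb
        obtain ⟨a, ha, rfl⟩ := ha
        obtain ⟨b, hb, rfl⟩ := hb
        exact congrArg Subtype.val (mem_center_iff.mp (hZc hb) a)) ⊤ (by
        rw [Cfsg.Agent.H2.PUtil.isMulCommutative_iff]
        rintro ⟨a, ha⟩ _ ⟨b, hb⟩ _
        rw [hZ'] at ha hb
        obtain ⟨a, ha2, rfl⟩ := ha
        obtain ⟨b, hb2, rfl⟩ := hb
        exact Subtype.ext (congrArg Q.subtype (mem_center_iff.mp (hZc hb2) a))) (by
        rintro ⟨a, ha⟩ _
        rw [hZ'] at ha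
        obtain ⟨a, ha2, rfl⟩ := ha
        exact Subtype.ext (congrArg Q.subtype (hel a ha2)))
      rw [card_top] at h1
      norm_num at h1
      exact h1
    have hZne : Z' ≠ ⊥ := by
      intro h
      have h1 : ⁅Q, Q⁆ = ⊥ := hQQ.trans h
      rw [commutator_eq_bot_iff_le_centralizer] at h1
      have h2 : Q ≤ Z' := by
        intro x hx
        rw [hZ', hZ]
        refine ⟨⟨x, hx⟩, ?_, rfl⟩
        rw [SetLike.mem_coe, mem_center_iff]
        intro y
        exact Subtype.ext (mem_centralizer_iff.mp (h1 hx) y y.2)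
      rw [h, le_bot_iff] at h2
      exact hQA (by rw [h2, commutator_bot_left])
    have hB3 : IsPGroup 3 B := IsPGroup.of_card hBcard
    have hZfix : ∀ z ∈ Z', d * z * d⁻¹ = z → z = 1 := by
      intro z hz hdz
      have h1 : z ∈ P ⊓ centralizer {d} := mem_inf.mpr ⟨hQP (hZ'Q hz), mem_centralizer_singleton_iff.mpr (mul_inv_eq_iff_eq_mul.mp hdz).symm⟩
      rw [hfpf, mem_bot] at h1
      exact h1
    have hZ4 : Nat.card Z' = 4 := by
      have h1 := Cfsg.Agent.H2.SixElt.card_mod hB3 hBZ
      have h2 : (Z' ⊓ centralizer (B : Set X) : Subgroup X) = ⊥ := by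
        rw [eq_bot_iff]
        intro z hz
        obtain ⟨hz1, hz2⟩ := mem_inf.mp hz
        apply mem_bot.mpr
        apply hZfix z hz1
        rw [mem_centralizer_iff.mp hz2 d (hB ▸ mem_zpowers d), mul_inv_cancel_right]
      rw [h2, card_bot] at h1
      have h3 : Nat.card Z' ≠ 1 := fun h => hZne (card_eq_one.mp h)
      have h4 := Nat.card_pos (α := Z')
      have h5 : Nat.card Z' % 3 = 1 := h1
      omega
    have hZc4 : Nat.card Z = 4 := hZZ' ▸ hZ4
    -- involutions
    have hinv : ∀ x : Q, x ^ 2 = 1 ↔ x ∈ Z := by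
      intro x
      refine ⟨?_, hel x⟩
      intro hx
      by_contra hxZ
      obtain ⟨V, hV⟩ : ∃ V : Subgroup Q, V = closure ((Z : Set Q) ∪ {x}) := ⟨_, rfl⟩
      have hgen : ∀ a ∈ (Z : Set Q) ∪ {x}, ∀ b ∈ (Z : Set Q) ∪ {x}, a * b = b * a := by
        rintro a (ha | ha) b (hb | hb)
        · exact mem_center_iff.mp (hZc hb) a
        · exact (mem_center_iff.mp (hZc ha) b).symm
        · exact mem_center_iff.mp (hZc hb) a
        · rw [Set.mem_singleton_iff] at ha hb; rw [ha, hb]
      have hVc : ∀ a ∈ V, ∀ b ∈ V, a * b = b * a := by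
        intro a ha b hb
        rw [hV] at ha hb
        induction ha using closure_induction with
        | mem a ha =>
          induction hb using closure_induction with
          | mem b hb => exact hgen a ha b hb
          | one => rw [mul_one, one_mul]
          | mul u v _ _ hu hv => exact (Commute.mul_right (show Commute a u from hu) (show Commute a v from hv)).eq
          | inv u _ hu => exact (show Commute a u from hu).inv_right.eq
        | one => rw [mul_one, one_mul]
        | mul u v _ _ hu hv => exact (Commute.mul_left (show Commute u b from hu) (show Commute v b from hv)).eq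
        | inv u _ hu => exact (show Commute u b from hu).inv_left.eq
      have hV2 : ∀ a ∈ V, a ^ 2 = 1 := by
        intro a ha
        have ha' := ha
        rw [hV] at ha
        have hcl : closure ((Z : Set Q) ∪ {x}) ≤ V := hV.ge
        induction ha using closure_induction with
        | mem a ha =>
          rcases ha with ha | ha
          · exact hel a ha
          · rw [Set.mem_singleton_iff] at ha; rw [ha]; exact hx
        | one => exact one_pow 2
        | mul u v hu hv ihu ihv =>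
          rw [(show Commute u v from hVc u (hcl hu) v (hcl hv)).mul_pow, ihu (hcl hu), ihv (hcl hv), one_mul]
        | inv u hu ihu => rw [inv_pow, ihu (hcl hu), inv_one]
      have h1 := hrank (V.map Q.subtype) ((map_subtype_le _).trans hQP) (by
        rw [Cfsg.Agent.H2.PUtil.isMulCommutative_iff]
        rintro _ ⟨a, ha, rfl⟩ _ ⟨b, hb, rfl⟩
        exact congrArg Subtype.val (hVc a ha b hb)) ⊤ (by
        rw [Cfsg.Agent.H2.PUtil.isMulCommutative_iff]
        rintro ⟨_, ⟨a, ha, rfl⟩⟩ _ ⟨_, ⟨b, hb, rfl⟩⟩ _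
        exact Subtype.ext (congrArg Q.subtype (hVc a ha b hb))) (by
        rintro ⟨_, ⟨a, ha, rfl⟩⟩ _
        exact Subtype.ext (congrArg Q.subtype (hV2 a ha)))
      rw [card_top, Nat.card_congr (V.equivMapOfInjective _ Q.subtype_injective).symm.toEquiv] at h1
      have h2 : Z < V := by
        refine lt_of_le_of_ne ?_ ?_
        · intro z hz; rw [hV]; exact subset_closure (Or.inl hz)
        · intro h; apply hxZ; rw [h, hV]; exact subset_closure (Or.inr rfl)
      have h3 : Nat.card Z < Nat.card V := by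
        have := Set.ncard_lt_ncard (s := (Z : Set Q)) (t := (V : Set Q)) h2 (Set.toFinite _)
        exact this
      norm_num at h1
      omega
    -- the automorphism
    obtain ⟨φ, hφ⟩ : ∃ φ : MulAut Q, ∀ x, ((φ x : Q) : X) = d * x * d⁻¹ :=
      ⟨Q.normalizerMonoidHom ⟨d, hBQ (hB ▸ mem_zpowers d)⟩, fun x => rfl⟩
    -- the order of `Q`
    have hd9 := h9 _ (hfree Z' hZ'Q hcen hBZ)
    rw [hZ4] at hd9
    obtain ⟨a, ha⟩ := IsPGroup.iff_card.mp hQ2
    have hZlt : Z' ≠ Q := by
      intro h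
      have h1 := hmin
      apply hQA
      -- `Q` is abelian
      have h2 : ⁅Q, Q⁆ = Q := hQQ.trans h
      exfalso
      have h3 : Group.IsSolvable Q := by haveI := hQ2.isNilpotent; infer_instance
      have h4 : Z = ⊤ := by
        rw [eq_top_iff]
        intro x _
        have h5 : (x : X) ∈ Z' := h.ge x.2
        rw [hZ'] at h5
        obtain ⟨y, hy, hyx⟩ := h5
        rwa [← Subtype.ext hyx]
      have h6 : ⁅Q, Q⁆ = ⊥ := by
        rw [commutator_eq_bot_iff_le_centralizer]
        intro x hx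
        rw [mem_centralizer_iff]
        intro y hy
        have h7 : (⟨x, hx⟩ : Q) ∈ center Q := hZc (by rw [h4]; exact mem_top _)
        exact congrArg Subtype.val (mem_center_iff.mp h7 ⟨y, hy⟩)
      exact hZne (hQQ.symm.trans h6)
    have hQcard : 256 ≤ Nat.card Q ∧ 16 ∣ Nat.card Q := by
      have h1 : 4 < Nat.card Q := by
        rw [← hZ4]
        exact Set.ncard_lt_ncard (s := (Z' : Set X)) (t := (Q : Set X)) (lt_of_le_of_ne hZ'Q (fun h => hZlt (SetLike.coe_injective h))) (Set.toFinite _)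
      rw [ha] at hd9 h1 ⊢
      have h8 : 8 ≤ a := by
        by_contra h
        have : a < 8 := by omega
        interval_cases a <;> revert h1 hd9 <;> decide
      exact ⟨le_trans (by norm_num) (Nat.pow_le_pow_right (by norm_num) h8), (show (16 : ℕ) = 2 ^ 4 by norm_num) ▸ pow_dvd_pow 2 (by omega)⟩
    refine no_special Z hZc hZc4 hsq hinv φ ?_ ?_ hQcard.1 hQcard.2
    · intro z hz
      have h1 : d * (z : X) * d⁻¹ ∈ Z' := (mem_normalizer_iff.mp (hBZ (hB ▸ mem_zpowers d)) _).mp (hZ' ▸ ⟨z, hz, rfl⟩)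
      rw [hZ'] at h1
      obtain ⟨w, hw, hwz⟩ := h1
      have h2 : φ z = w := Subtype.ext ((hφ z).trans hwz.symm)
      rw [h2]; exact hw
    · intro z hz hφz
      have h1 := hφ z
      rw [hφz] at h1
      exact Subtype.ext (hZfix z (hZ' ▸ ⟨z, hz, rfl⟩) h1.symm)

end Cfsg.Agent.S3738
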