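import Cfsg.Statements.S3739
import Mathlib
import Cfsg.Agent.H2.SixElt
import Cfsg.Agent.Lib.PGrpK
import Cfsg.Agent.Lib.Cores
import Cfsg.Agent.Lib.Basic

set_option autoImplicit false
open Cfsg

namespace Cfsg.Agent.S3739

open Subgroup Cfsg.Agent.Lib Cfsg.Agent.H2.SixElt

theorem ext_elem {G : Type*} [Group G] [Finite G] (hno : ∀ E : Subgroup G, Cfsg.IsElementaryAbelian 2 E → Nat.card E ≠ 8)
    {W : Subgroup G} (hW : Cfsg.IsElementaryAbelian 2 W) (h4 : Nat.card W = 4) {t : G} (ht : t ^ 2 = 1) (htc : ∀ w ∈ W, w * t = t * w) : t ∈ W := by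
  by_contra htW
  obtain ⟨E, -, -, hE1, hE2⟩ := PGrpK.extend h4 hW.2 ht htW htc
  exact hno E ⟨⟨⟨fun a b => Subtype.ext (PGrpK.comm_of_sq hE2 a a.2 b b.2)⟩⟩, hE2⟩ (by rw [hE1])

theorem card_le_four {G : Type*} [Group G] [Finite G] (hno : ∀ E : Subgroup G, Cfsg.IsElementaryAbelian 2 E → Nat.card E ≠ 8)
    {W : Subgroup G} (hW : Cfsg.IsElementaryAbelian 2 W) : ∃ k, k ≤ 2 ∧ Nat.card W = 2 ^ k := by
  haveI : Fact (Nat.Prime 2) := ⟨Nat.prime_two⟩
  have hWp : IsPGroup 2 W := fun x => ⟨1, by rw [pow_one]; exact Subtype.ext (hW.2 x x.2)⟩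
  obtain ⟨k, hk⟩ := IsPGroup.iff_card.mp hWp
  refine ⟨k, ?_, hk⟩
  by_contra hcon
  push Not at hcon
  obtain ⟨E, hE⟩ := Sylow.exists_subgroup_card_pow_prime 2 (show 2 ^ 3 ∣ Nat.card W by rw [hk]; exact pow_dvd_pow 2 (by omega))
  have hE2 : ∀ x ∈ E.map W.subtype, x ^ 2 = 1 := by
    rintro _ ⟨x, hx, rfl⟩
    exact hW.2 x x.2
  exact hno (E.map W.subtype) ⟨⟨⟨fun a b => Subtype.ext (PGrpK.comm_of_sq hE2 a a.2 b b.2)⟩⟩, hE2⟩ (by
    rw [Subgroup.card_map_of_injective W.subtype_injective, hE]; norm_num)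

theorem mem_cent_zp {G : Type*} [Group G] {s x : G} : x ∈ centralizer ((zpowers s : Subgroup G) : Set G) ↔ s * x = x * s := by
  constructor
  · intro h; exact mem_centralizer_iff.mp h s (mem_zpowers s)
  · intro h
    rw [mem_centralizer_iff]
    intro a ha
    obtain ⟨k, rfl⟩ := mem_zpowers_iff.mp ha
    exact (show Commute s x from h).zpow_left k

/-- Let G be a finite group with C_G(O₂(G)) ≤ O₂(G) containing an element of order 6, and let d be a non-identity 3-element of G normalizing a nontrivial elementary abelian 2-subgroup W with C_W(d) = 1. Then G has an elementary abelian subgroup of order 8. -/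
theorem result {G : Type*} [Group G] [Finite G] (hchar : Subgroup.centralizer (Cfsg.pCore 2 G : Set G) ≤ Cfsg.pCore 2 G) (hsix : ∃ g : G, orderOf g = 6) (d : G) (hd1 : d ≠ 1) (hd : IsPGroup 3 ↥(Subgroup.zpowers d)) (W : Subgroup G) (hW : Cfsg.IsElementaryAbelian 2 W) (hW1 : W ≠ ⊥) (hdW : d ∈ Subgroup.normalizer (W : Set G)) (hfpf : W ⊓ Subgroup.centralizer {d} = ⊥) : ∃ E : Subgroup G, Cfsg.IsElementaryAbelian 2 E ∧ Nat.card E = 8 := by
  classical
  haveI : Fact (Nat.Prime 2) := ⟨Nat.prime_two⟩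
  haveI : Fact (Nat.Prime 3) := ⟨Nat.prime_three⟩
  by_contra hcon
  have hno : ∀ E : Subgroup G, Cfsg.IsElementaryAbelian 2 E → Nat.card E ≠ 8 := fun E h1 h2 => hcon ⟨E, h1, h2⟩
  obtain ⟨k, hk2, hk⟩ := card_le_four hno hW
  have hWp : IsPGroup 2 W := IsPGroup.of_card hk
  -- `d`-invariant subgroups of `W`
  have hdX : ∀ X : Subgroup G, X ≤ W → d ∈ normalizer (X : Set G) → Nat.card X % 3 = 1 := by
    intro X hX hdX
    have h1 := card_mod hd (zpowers_le.mpr hdX)
    have h2 : X ⊓ centralizer ((zpowers d : Subgroup G) : Set G) = ⊥ := by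
      rw [eq_bot_iff, ← hfpf]
      intro x hx
      obtain ⟨h3, h4⟩ := mem_inf.mp hx
      refine mem_inf.mpr ⟨hX h3, ?_⟩
      rw [mem_centralizer_iff]
      intro y hy
      rw [Set.mem_singleton_iff] at hy
      subst hy
      exact mem_cent_zp.mp h4
    rw [h2, card_bot] at h1
    exact h1
  have hW4 : Nat.card W = 4 := by
    have h1 := hdX W le_rfl hdW
    rw [hk] at h1 ⊢
    have h2 : k = 0 ∨ k = 1 ∨ k = 2 := by omega
    rcases h2 with rfl | rfl | rfl
    · exact absurd (card_eq_one.mp (by rw [hk, pow_zero])) hW1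
    · norm_num at h1
    · norm_num
  have hdW' : ∀ X : Subgroup G, X ≤ W → d ∈ normalizer (X : Set G) → X = ⊥ ∨ X = W := by
    intro X hX hdXn
    have h1 := hdX X hX hdXn
    have h2 := card_dvd_of_le hX
    rw [hW4] at h2
    have h3 := Nat.le_of_dvd (by norm_num) h2
    have h4 : Nat.card X = 1 ∨ Nat.card X = 4 := by
      have := Nat.card_pos (α := X)
      omega
    rcases h4 with h4 | h4
    · left; exact card_eq_one.mp h4
    · right; exact Subgroup.eq_of_le_of_card_ge hX (by rw [h4, hW4])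
  obtain ⟨Q, hQ⟩ : ∃ Q, Q = Cfsg.pCore 2 G := ⟨_, rfl⟩
  rw [← hQ] at hchar
  haveI hQn : Q.Normal := hQ ▸ Cores.pCore_normal 2
  have hQp : IsPGroup 2 Q := hQ ▸ Cores.pCore_isPGroup 2
  have hQb : Q ≠ ⊥ := by
    intro h
    rw [h] at hchar
    have h1 : d ∈ (⊥ : Subgroup G) := hchar (by
      rw [mem_centralizer_iff]
      intro y hy
      rw [mem_bot.mp hy, one_mul, mul_one])
    exact hd1 (mem_bot.mp h1)
  have hnQ : ∀ g, g ∈ normalizer (Q : Set G) := fun g => by rw [normalizer_eq_top]; exact mem_top g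
  -- `Ω₁(Z(Q))`
  let Ω : Subgroup G :=
    { carrier := {x | (x ∈ Q ∧ x ∈ centralizer (Q : Set G)) ∧ x ^ 2 = 1}
      one_mem' := ⟨⟨one_mem _, one_mem _⟩, one_pow 2⟩
      mul_mem' := by
        rintro a b ⟨⟨ha, ha'⟩, ha2⟩ ⟨⟨hb, hb'⟩, hb2⟩
        refine ⟨⟨mul_mem ha hb, mul_mem ha' hb'⟩, ?_⟩
        rw [(show Commute a b from mem_centralizer_iff.mp hb' a ha).mul_pow, ha2, hb2, one_mul]
      inv_mem' := by
        rintro a ⟨⟨ha, ha'⟩, ha2⟩
        exact ⟨⟨inv_mem ha, inv_mem ha'⟩, by rw [inv_pow, ha2, inv_one]⟩ }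
  have hΩ : ∀ x, x ∈ Ω ↔ (x ∈ Q ∧ x ∈ centralizer (Q : Set G)) ∧ x ^ 2 = 1 := fun x => Iff.rfl
  haveI hΩn : Ω.Normal := ⟨fun x hx g => by
    obtain ⟨⟨h1, h2⟩, h3⟩ := (hΩ x).mp hx
    refine (hΩ _).mpr ⟨⟨hQn.conj_mem x h1 g, ?_⟩, ?_⟩
    · exact (inferInstance : (centralizer (Q : Set G)).Normal).conj_mem x h2 g
    · have : (g * x * g⁻¹) ^ 2 = g * x ^ 2 * g⁻¹ := by rw [sq, sq]; group
      rw [this, h3]; group⟩
  have hΩQ : Ω ≤ Q := fun x hx => ((hΩ x).mp hx).1.1
  have hΩc : Ω ≤ centralizer (Q : Set G) := fun x hx => ((hΩ x).mp hx).1.2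
  have hΩb : Ω ≠ ⊥ := by
    haveI : Nontrivial Q := (nontrivial_iff_ne_bot Q).mpr hQb
    haveI := hQp.center_nontrivial
    have h1 : 2 ∣ Nat.card (center Q) := by
      obtain ⟨k, hk, hk2⟩ := (hQp.to_subgroup (center Q)).nontrivial_iff_card.mp inferInstance
      rw [hk2]
      exact dvd_pow_self 2 hk.ne'
    obtain ⟨z, hz⟩ := exists_prime_orderOf_dvd_card' 2 h1
    intro h
    have h2 : ((z : Q) : G) ∈ Ω := by
      refine (hΩ _).mpr ⟨⟨z.1.2, ?_⟩, ?_⟩
      · rw [mem_centralizer_iff]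
        intro y hy
        exact congrArg Subtype.val (mem_center_iff.mp z.2 ⟨y, hy⟩)
      · have := hz ▸ pow_orderOf_eq_one z
        exact congrArg (fun u : center Q => ((u : Q) : G)) this
    rw [h, mem_bot] at h2
    have h3 : z = 1 := Subtype.ext (Subtype.ext h2)
    rw [h3, orderOf_one] at hz
    omega
  have hΩp : IsPGroup 2 Ω := hQp.to_le hΩQ
  have hWQ : W ≤ Q := by
    have h1 : d ∈ normalizer ((W ⊓ Q : Subgroup G) : Set G) :=
      (Cfsg.Agent.Lib.SchurZas.le_normalizer_inf (zpowers_le.mpr hdW) (zpowers_le.mpr (hnQ d))) (mem_zpowers d)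
    rcases hdW' _ inf_le_left h1 with h2 | h2
    · exfalso
      have h3 := card_mod hWp (show W ≤ normalizer (Ω : Set G) from le_normalizer_of_normal)
      have h4 : 2 ∣ Nat.card Ω := by
        obtain ⟨j, hj⟩ := IsPGroup.iff_card.mp hΩp
        rw [hj]
        apply dvd_pow_self
        rintro rfl
        exact hΩb (card_eq_one.mp hj)
      have h5 : Nat.card (Ω ⊓ centralizer (W : Set G) : Subgroup G) ≠ 1 := by
        intro h
        rw [h] at h3
        have := (Nat.modEq_zero_iff_dvd.mpr h4).symm.trans h3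
        exact absurd this (by decide)
      obtain ⟨⟨t, ht⟩, ht1⟩ := (ne_bot_iff_exists_ne_one (H := Ω ⊓ centralizer (W : Set G))).mp (fun h => h5 (by rw [h, card_bot]))
      obtain ⟨ht2, ht3⟩ := mem_inf.mp ht
      have h6 := ext_elem hno hW hW4 ((hΩ t).mp ht2).2 (fun w hw => mem_centralizer_iff.mp ht3 w hw)
      have h7 : t ∈ W ⊓ Q := mem_inf.mpr ⟨h6, hΩQ ht2⟩
      rw [h2, mem_bot] at h7
      exact ht1 (Subtype.ext h7)
    · rw [← h2]; exact inf_le_right
  have hΩW : Ω = W := by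
    have h1 : Ω ≤ W := by
      intro t ht
      exact ext_elem hno hW hW4 ((hΩ t).mp ht).2 (fun w hw => mem_centralizer_iff.mp (hΩc ht) w (hWQ hw))
    exact (hdW' Ω h1 (by rw [normalizer_eq_top]; exact mem_top d)).resolve_left hΩb
  haveI hWn : W.Normal := hΩW ▸ hΩn
  have hWc : W ≤ centralizer (Q : Set G) := hΩW ▸ hΩc
  have hinv : ∀ x ∈ Q, x ^ 2 = 1 ↔ x ∈ W := by
    intro x hx
    constructor
    · intro h
      exact ext_elem hno hW hW4 h (fun w hw => (mem_centralizer_iff.mp (hWc hw) x hx).symm)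
    · exact fun h => hW.2 x h
  have hnW : ∀ g, g ∈ normalizer (W : Set G) := fun g => by rw [normalizer_eq_top]; exact mem_top g
  -- 3-elements
  have h3W : ∀ s : G, IsPGroup 3 (zpowers s) → ∀ w ∈ W, w ≠ 1 → s * w = w * s → W ≤ centralizer ((zpowers s : Subgroup G) : Set G) := by
    intro s hs w hw hw1 hsw
    have h1 := card_mod hs (zpowers_le.mpr (hnW s))
    have h2 : W ⊓ centralizer ((zpowers s : Subgroup G) : Set G) ≤ W := inf_le_left
    have h3 := card_dvd_of_le h2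
    have h4 : Nat.card (W ⊓ centralizer ((zpowers s : Subgroup G) : Set G) : Subgroup G) ≠ 1 := by
      intro h
      have h5 : w ∈ W ⊓ centralizer ((zpowers s : Subgroup G) : Set G) := mem_inf.mpr ⟨hw, mem_cent_zp.mpr hsw⟩
      rw [card_eq_one.mp h, mem_bot] at h5
      exact hw1 h5
    rw [hW4] at h1 h3
    have h5 := Nat.le_of_dvd (by norm_num) h3
    have h6 : Nat.card (W ⊓ centralizer ((zpowers s : Subgroup G) : Set G) : Subgroup G) % 3 = 1 := h1.symm
    have h7 : Nat.card (W ⊓ centralizer ((zpowers s : Subgroup G) : Set G) : Subgroup G) = 4 := by omega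
    have h8 := Subgroup.eq_of_le_of_card_ge h2 (by rw [h7, hW4])
    rw [← h8]; exact inf_le_right
  obtain ⟨g, hg⟩ := hsix
  have hto : orderOf (g ^ 3) = 2 := by
    rw [orderOf_pow' g (by norm_num), hg]; rfl
  have hso : orderOf (g ^ 2) = 3 := by
    rw [orderOf_pow' g (by norm_num), hg]; rfl
  obtain ⟨t, ht⟩ : ∃ t, t = g ^ 3 := ⟨_, rfl⟩
  obtain ⟨s₀, hs₀⟩ : ∃ s, s = g ^ 2 := ⟨_, rfl⟩
  rw [← ht] at hto
  rw [← hs₀] at hso
  have hst : s₀ * t = t * s₀ := by rw [ht, hs₀, ← pow_add, ← pow_add]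
  have ht2 : t ^ 2 = 1 := hto ▸ pow_orderOf_eq_one t
  have ht1 : t ≠ 1 := by rintro rfl; rw [orderOf_one] at hto; omega
  have hs₀p : IsPGroup 3 (zpowers s₀) := IsPGroup.of_card (n := 1) (by rw [Nat.card_zpowers, hso]; norm_num)
  have hs₀W : W ≤ centralizer ((zpowers s₀ : Subgroup G) : Set G) := by
    by_cases htW : t ∈ W
    · exact h3W s₀ hs₀p t htW ht1 hst
    · have htp : IsPGroup 2 (zpowers t) := IsPGroup.of_card (n := 1) (by rw [Nat.card_zpowers, hto]; norm_num)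
      have h1 := card_mod htp (zpowers_le.mpr (hnW t))
      obtain ⟨U, hU⟩ : ∃ U : Subgroup G, U = W ⊓ centralizer ((zpowers t : Subgroup G) : Set G) := ⟨_, rfl⟩
      rw [← hU, hW4] at h1
      have hUW : U ≤ W := hU ▸ inf_le_left
      have h2 := card_dvd_of_le hUW
      rw [hW4] at h2
      have h3 := Nat.le_of_dvd (by norm_num) h2
      have h4 : Nat.card U % 2 = 0 := h1.symm
      have h5 : Nat.card U ≠ 4 := by
        intro h
        have h6 := Subgroup.eq_of_le_of_card_ge hUW (by rw [h, hW4])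
        apply htW
        apply ext_elem hno hW hW4 ht2
        intro w hw
        rw [← h6, hU] at hw
        exact (mem_cent_zp.mp (mem_inf.mp hw).2).symm
      have h6 : Nat.card U = 2 := by
        have := Nat.card_pos (α := U)
        omega
      have hs₀U : s₀ ∈ normalizer (U : Set G) := by
        apply mem_norm_fin
        intro u hu
        rw [hU] at hu ⊢
        obtain ⟨hu1, hu2⟩ := mem_inf.mp hu
        refine mem_inf.mpr ⟨hWn.conj_mem u hu1 s₀, mem_cent_zp.mpr ?_⟩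
        have h7 := mem_cent_zp.mp hu2
        have h8 : s₀⁻¹ * t = t * s₀⁻¹ := ((show Commute s₀ t from hst).inv_left).eq
        calc t * (s₀ * u * s₀⁻¹) = (t * s₀) * u * s₀⁻¹ := by group
          _ = s₀ * (t * u) * s₀⁻¹ := by rw [← hst]; group
          _ = s₀ * u * (t * s₀⁻¹) := by rw [h7]; group
          _ = _ := by rw [← h8]; group
      have h7 := card_mod hs₀p (zpowers_le.mpr hs₀U)
      rw [h6] at h7
      have h8 := card_dvd_of_le (inf_le_left : U ⊓ centralizer ((zpowers s₀ : Subgroup G) : Set G) ≤ U)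
      rw [h6] at h8
      have h9 : Nat.card (U ⊓ centralizer ((zpowers s₀ : Subgroup G) : Set G) : Subgroup G) ≠ 1 := by
        intro h
        rw [h] at h7
        exact absurd h7 (by decide)
      obtain ⟨⟨w, hw⟩, hw1⟩ := (ne_bot_iff_exists_ne_one (H := U ⊓ centralizer ((zpowers s₀ : Subgroup G) : Set G))).mp (fun h => h9 (by rw [h, card_bot]))
      obtain ⟨hw2, hw3⟩ := mem_inf.mp hw
      exact h3W s₀ hs₀p w (hUW hw2) (fun h => hw1 (Subtype.ext h)) (mem_cent_zp.mp hw3)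
  -- the Sylow subgroup
  obtain ⟨S, hS⟩ := hd.exists_le_sylow
  obtain ⟨S', hS'⟩ := hs₀p.exists_le_sylow
  obtain ⟨a, ha⟩ := MulAction.exists_smul_eq G S' S
  have hC : s₀ ∈ centralizer (W : Set G) := by
    rw [mem_centralizer_iff]
    intro w hw
    exact (mem_cent_zp.mp (hs₀W hw)).symm
  have h1 : a * s₀ * a⁻¹ ∈ (S : Subgroup G) := by
    rw [← ha]
    exact Subgroup.smul_mem_pointwise_smul s₀ (MulAut.conj a) (S' : Subgroup G) (hS' (mem_zpowers s₀))
  have h2 : a * s₀ * a⁻¹ ∈ centralizer (W : Set G) := (inferInstance : (centralizer (W : Set G)).Normal).conj_mem _ hC a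
  have hSp : IsPGroup 3 (S : Subgroup G) := S.isPGroup'
  obtain ⟨T, hT⟩ : ∃ T : Subgroup G, T = (S : Subgroup G) ⊓ centralizer (W : Set G) := ⟨_, rfl⟩
  have hTS : T ≤ (S : Subgroup G) := hT ▸ inf_le_left
  have hST : (S : Subgroup G) ≤ normalizer (T : Set G) := by
    rw [hT]
    exact Cfsg.Agent.Lib.SchurZas.le_normalizer_inf le_normalizer le_normalizer_of_normal
  have hTp : IsPGroup 3 T := hSp.to_le hTS
  have hTb : T ≠ ⊥ := by
    intro h
    have h3 : a * s₀ * a⁻¹ ∈ T := hT ▸ mem_inf.mpr ⟨h1, h2⟩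
    rw [h, mem_bot] at h3
    have h4 : s₀ = 1 := by
      have := congrArg (fun x => a⁻¹ * x * a) h3
      simpa [mul_assoc] using this
    rw [h4, orderOf_one] at hso
    omega
  have h3 := card_mod hSp hST
  have h4 : 3 ∣ Nat.card T := by
    obtain ⟨j, hj⟩ := IsPGroup.iff_card.mp hTp
    rw [hj]
    apply dvd_pow_self
    rintro rfl
    exact hTb (card_eq_one.mp hj)
  have h5 : 3 ∣ Nat.card (T ⊓ centralizer ((S : Subgroup G) : Set G) : Subgroup G) :=
    (Nat.modEq_zero_iff_dvd.mp (h3.symm.trans (Nat.modEq_zero_iff_dvd.mpr h4)))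
  obtain ⟨s, hs⟩ := exists_prime_orderOf_dvd_card' 3 h5
  obtain ⟨hsT, hsS⟩ := mem_inf.mp s.2
  have hs' : orderOf (s : G) = 3 := by rw [orderOf_coe]; exact hs
  have hTC : T ≤ centralizer (W : Set G) := hT ▸ inf_le_right
  have hsC : (s : G) ∈ centralizer (W : Set G) := hTC hsT
  refine core hQp hWQ hW4 hinv hs' (fun w hw => (mem_centralizer_iff.mp hsC w hw).symm) hd hdW' (hnQ _) (hnQ _)
    ((mem_centralizer_iff.mp hsS d (hS (mem_zpowers d))).symm) ?_
  intro h
  have h6 : (s : G) ∈ Q := hchar (by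
    rw [mem_centralizer_iff]
    intro y hy
    exact (mem_cent_zp.mp (h hy)).symm)
  obtain ⟨j, hj⟩ := hQp ⟨s, h6⟩
  have h7 : orderOf (s : G) ∣ 2 ^ j := orderOf_dvd_of_pow_eq_one (congrArg Subtype.val hj)
  rw [hs'] at h7
  have := Nat.prime_three.dvd_of_dvd_pow h7
  omega

end Cfsg.Agent.S3739
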