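import Cfsg.Statements.S3741
import Cfsg.Agent.H2.PUtil

set_option autoImplicit false
open Cfsg

namespace Cfsg.Agent.S3741

open Subgroup
open scoped commutatorElement

/-- counting commuting pairs -/
theorem pairs {G : Type*} [Group G] [Finite G] {p : ℕ} [Fact p.Prime] (hG : IsPGroup p G)
    (A B : Subgroup G) (hAB : ⁅A, B⁆ ≤ A ⊓ B) (hcard : Nat.card ↥⁅A, B⁆ ≤ p) :
    p * Nat.card {x : A × B // (x.1 : G) * x.2 = x.2 * x.1} =
      Nat.card A * Nat.card B +
        (p - 1) * (Nat.card (A ⊓ centralizer (B : Set G) : Subgroup G) * Nat.card B) := by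
  classical
  have hp : p.Prime := Fact.out
  have hDp : IsPGroup p (⁅A, B⁆ : Subgroup G) := hG.to_subgroup _
  have hX : B ≤ centralizer ((⁅A, B⁆ : Subgroup G) : Set G) :=
    H2.PUtil.centralizes_of_card_le (hG.to_subgroup _) (normalizer_commutator_ge_right A B) hDp hcard
  have hz : ∀ d ∈ ⁅A, B⁆, ∀ b ∈ B, d * b = b * d := fun d hd b hb => mem_centralizer_iff.1 (hX hb) d hd
  have := Fintype.ofFinite A
  have := Fintype.ofFinite B
  have h1 : Nat.card {x : A × B // (x.1 : G) * x.2 = x.2 * x.1} =
      ∑ a : A, Nat.card {b : B // (a : G) * b = b * a} := by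
    rw [← Nat.card_sigma]
    refine Nat.card_congr ?_
    exact (Equiv.subtypeProdEquivSigmaSubtype (fun (a : A) (b : B) => (a : G) * b = b * a))
  rw [h1, Finset.mul_sum]
  have h2 : ∀ a : A, p * Nat.card {b : B // (a : G) * b = b * a} =
      Nat.card B + (if (a : G) ∈ centralizer (B : Set G) then (p - 1) * Nat.card B else 0) := by
    intro a
    have h3 := H2.PUtil.card_centralizing (B := B) (a : G) hcard hDp
      (fun b hb => commutator_mem_commutator a.2 hb) hz
    split_ifs with h
    · rw [h3.1 h]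
      obtain ⟨q, rfl⟩ : ∃ q, p = q + 1 := ⟨p - 1, by have := hp.pos; omega⟩
      simp; ring
    · rw [h3.2 h]; simp
  simp only [h2]
  rw [Finset.sum_add_distrib, Finset.sum_const, Finset.card_univ, ← Nat.card_eq_fintype_card,
    ← Finset.sum_filter, Finset.sum_const, smul_eq_mul, smul_eq_mul]
  have h4 : (Finset.univ.filter (fun a : A => (a : G) ∈ centralizer (B : Set G))).card =
      Nat.card (A ⊓ centralizer (B : Set G) : Subgroup G) := by
    rw [← Fintype.card_subtype, ← Nat.card_eq_fintype_card]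
    refine Nat.card_congr ?_
    exact Equiv.subtypeSubtypeEquivSubtypeInter (fun a => a ∈ A) (fun a => a ∈ centralizer (B : Set G))
  rw [h4]; ring

/-- Let A and B be subgroups of a finite p-group with [A, B] ≤ A ∩ B and [A, B] of order at most p. Then |A : C_A(B)| = |B : C_B(A)|. -/
theorem result {G : Type*} [Group G] [Finite G] {p : ℕ} [Fact p.Prime] (hG : IsPGroup p G) (A B : Subgroup G) (hAB : ⁅A, B⁆ ≤ A ⊓ B) (hcard : Nat.card ↥⁅A, B⁆ ≤ p) : (A ⊓ Subgroup.centralizer (B : Set G)).relIndex A = (B ⊓ Subgroup.centralizer (A : Set G)).relIndex B := by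
  have h1 := pairs hG A B hAB hcard
  have h2 := pairs hG B A (by rw [commutator_comm, inf_comm]; exact hAB) (by rw [commutator_comm]; exact hcard)
  have hp : p.Prime := Fact.out
  have h3 : Nat.card {x : A × B // (x.1 : G) * x.2 = x.2 * x.1} =
      Nat.card {x : B × A // (x.1 : G) * x.2 = x.2 * x.1} :=
    Nat.card_congr ((Equiv.prodComm A B).subtypeEquiv (fun x => ⟨fun h => h.symm, fun h => h.symm⟩))
  rw [h3, h2] at h1
  have h4 : Nat.card (A ⊓ centralizer (B : Set G) : Subgroup G) * Nat.card B =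
      Nat.card (B ⊓ centralizer (A : Set G) : Subgroup G) * Nat.card A := by
    have h5 : (p - 1) * (Nat.card (A ⊓ centralizer (B : Set G) : Subgroup G) * Nat.card B) =
      (p - 1) * (Nat.card (B ⊓ centralizer (A : Set G) : Subgroup G) * Nat.card A) := by
      have : Nat.card A * Nat.card B = Nat.card B * Nat.card A := mul_comm _ _
      omega
    exact Nat.eq_of_mul_eq_mul_left (by have := hp.two_le; omega) h5
  have h6 := Lib.Basic.relIndex_mul_card (inf_le_left : A ⊓ centralizer (B : Set G) ≤ A)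
  have h7 := Lib.Basic.relIndex_mul_card (inf_le_left : B ⊓ centralizer (A : Set G) ≤ B)
  have hpos1 : 0 < Nat.card (A ⊓ centralizer (B : Set G) : Subgroup G) := Nat.card_pos
  have hpos2 : 0 < Nat.card (B ⊓ centralizer (A : Set G) : Subgroup G) := Nat.card_pos
  rw [← h6, ← h7] at h4
  have h8 : Nat.card (A ⊓ centralizer (B : Set G) : Subgroup G) * Nat.card (B ⊓ centralizer (A : Set G) : Subgroup G) *
     ((B ⊓ centralizer (A : Set G)).relIndex B) = Nat.card (A ⊓ centralizer (B : Set G) : Subgroup G) * Nat.card (B ⊓ centralizer (A : Set G) : Subgroup G) * ((A ⊓ centralizer (B : Set G)).relIndex A) := by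
    calc _ = Nat.card (A ⊓ centralizer (B : Set G) : Subgroup G) * ((B ⊓ centralizer (A : Set G)).relIndex B * Nat.card (B ⊓ centralizer (A : Set G) : Subgroup G)) := by ring
      _ = _ := h4
      _ = _ := by ring
  exact (Nat.eq_of_mul_eq_mul_left (Nat.mul_pos hpos1 hpos2) h8).symm

end Cfsg.Agent.S3741
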