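import Cfsg.Statements.S3742
import Mathlib

set_option autoImplicit false
open Cfsg

namespace Cfsg.Agent.S3742

abbrev Q8 := QuaternionGroup 2

/-- the face subset -/
def sub : Q8 → (Fin 4 → Bool)
  | .a k => if k = 1 then ![true, true, false, false] else ![false, false, true, true]
  | .xa k => if k = 0 then ![true, false, true, false] else if k = 2 then ![false, true, false, true]
      else if k = 3 then ![true, false, false, true] else ![false, true, true, false]

def ofS (s : Fin 4 → Bool) : Q8 :=
  if s 0 && s 1 then .a 1 else if s 0 && s 2 then .xa 0 else if s 0 && s 3 then .xa 3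
  else if s 2 && s 3 then .a 3 else if s 1 && s 3 then .xa 2 else .xa 1

def act (σ : Equiv.Perm (Fin 4)) (x : Q8) : Q8 :=
  if x = 1 ∨ x = .a 2 then x else
    ofS (fun t => xor (sub x (σ.symm t)) (decide (Equiv.Perm.sign σ = -1)))

theorem act_mul : ∀ (σ : Equiv.Perm (Fin 4)) (x y : Q8), act σ (x * y) = act σ x * act σ y := by
  decide +kernel

theorem act_comp : ∀ (σ τ : Equiv.Perm (Fin 4)) (x : Q8), act (σ * τ) x = act σ (act τ x) := by
  decide +kernel

theorem act_inj : ∀ (σ : Equiv.Perm (Fin 4)), act σ (.a 1) = .a 1 → act σ (.xa 0) = .xa 0 → σ = 1 := by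
  decide +kernel

theorem act_one : ∀ x : Q8, act 1 x = x := by decide +kernel

theorem act_trans : ∀ u v : Q8, u ^ 2 ≠ 1 → v ^ 2 ≠ 1 → v ≠ u → v ≠ u⁻¹ →
    ∃ σ : Equiv.Perm (Fin 4), act σ (.a 1) = u ∧ act σ (.xa 0) = v := by
  decide +kernel

theorem gen : ∀ x : Q8, ∃ i j : Fin 4, x = (.a 1 : Q8) ^ (i : ℕ) * (.xa 0 : Q8) ^ (j : ℕ) := by
  decide +kernel

def toAut : Equiv.Perm (Fin 4) →* MulAut Q8 where
  toFun σ :=
    { toFun := act σ
      invFun := act σ⁻¹
      left_inv := fun x => by rw [← act_comp, inv_mul_cancel, act_one]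
      right_inv := fun x => by rw [← act_comp, mul_inv_cancel, act_one]
      map_mul' := act_mul σ }
  map_one' := by ext x; exact act_one x
  map_mul' := fun σ τ => by ext x; exact act_comp σ τ x

/-- The automorphism group of the quaternion group of order 8 is isomorphic to the symmetric group of degree 4. -/
theorem result : Nonempty (MulAut (QuaternionGroup 2) ≃* Equiv.Perm (Fin 4)) := by
  have h1 : Function.Injective toAut := by
    rw [injective_iff_map_eq_one]
    intro σ h
    apply act_inj
    · exact congrArg (fun f : MulAut Q8 => f (.a 1)) h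
    · exact congrArg (fun f : MulAut Q8 => f (.xa 0)) h
  have h2 : Function.Surjective toAut := by
    intro φ
    obtain ⟨σ, h3, h4⟩ := act_trans (φ (.a 1)) (φ (.xa 0))
      (by rw [← map_pow]; intro h; exact absurd ((map_eq_one_iff φ φ.injective).1 h) (by decide))
      (by rw [← map_pow]; intro h; exact absurd ((map_eq_one_iff φ φ.injective).1 h) (by decide))
      (by intro h; exact absurd (φ.injective h) (by decide))
      (by rw [← map_inv]; intro h; exact absurd (φ.injective h) (by decide))
    refine ⟨σ, ?_⟩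
    ext x
    obtain ⟨i, j, rfl⟩ := gen x
    rw [map_mul, map_mul, map_pow, map_pow, map_pow, map_pow]
    have h5 : toAut σ (.a 1) = φ (.a 1) := h3
    have h6 : toAut σ (.xa 0) = φ (.xa 0) := h4
    rw [h5, h6]
  exact ⟨(MulEquiv.ofBijective toAut ⟨h1, h2⟩).symm⟩

end Cfsg.Agent.S3742
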