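import Cfsg.Statements.S3745
import Mathlib
import Cfsg.Agent.H2.HallA

set_option autoImplicit false
open Cfsg

namespace Cfsg.Agent.S3745

open Subgroup Cfsg.Agent.Lib.Basic Cfsg.Agent.Lib.Hall Cfsg.Agent.Lib.SchurZas
open scoped Pointwise

theorem isHall_subgroupOf {X : Type*} [Group X] {G H : Subgroup X} {π : Set ℕ} (h : Cfsg.IsPiHallOf π H G) :
    IsHall π (H.subgroupOf G) := by
  refine ⟨?_, h.2.2⟩
  rw [Nat.card_congr (subgroupOfEquivOfLe h.1).toEquiv]
  exact h.2.1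

/-- Coprime action on a solvable group and Hall subgroups. Let A and G be subgroups of a finite group with A normalizing G, the orders of A and G coprime, and G solvable, and let π be a set of primes. Then (a) G has an A-invariant Hall π-subgroup; (b) any two A-invariant Hall π-subgroups of G are conjugate by an element of C_G(A); (c) every A-invariant π-subgroup of G lies in an A-invariant Hall π-subgroup of G. -/
theorem result {X : Type*} [Group X] [Finite X] (A G : Subgroup X) (hAG : A ≤ Subgroup.normalizer (G : Set X)) (hcop : (Nat.card A).Coprime (Nat.card G)) (hsolv : Group.IsSolvable G) (π : Set ℕ) : (∃ H : Subgroup X, Cfsg.IsPiHallOf π H G ∧ A ≤ Subgroup.normalizer (H : Set X)) ∧ (∀ H₁ H₂ : Subgroup X, Cfsg.IsPiHallOf π H₁ G → A ≤ Subgroup.normalizer (H₁ : Set X) → Cfsg.IsPiHallOf π H₂ G → A ≤ Subgroup.normalizer (H₂ : Set X) → ∃ c ∈ G ⊓ Subgroup.centralizer (A : Set X), H₂ = H₁.map (MulAut.conj c).toMonoidHom) ∧ (∀ U : Subgroup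 X, U ≤ G → A ≤ Subgroup.normalizer (U : Set X) → (∀ p : ℕ, p.Prime → p ∣ Nat.card U → p ∈ π) → ∃ H : Subgroup X, Cfsg.IsPiHallOf π H G ∧ A ≤ Subgroup.normalizer (H : Set X) ∧ U ≤ H) := by
  open Subgroup in
  refine ⟨?_, ?_, ?_⟩
  · obtain ⟨H, h1, h2, -⟩ := Cfsg.Agent.H2.HallA.exists_ge (U := ⊥) hAG hcop hsolv π bot_le
      (by rw [normalizer_eq_top]; exact le_top) (by
        intro p hp hd
        rw [Subgroup.card_bot] at hd
        exact absurd (Nat.dvd_one.1 hd) hp.one_lt.ne')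
    exact ⟨H, h1, h2⟩
  · intro H₁ H₂ h1 h2 h3 h4
    obtain ⟨g, hg⟩ := hall_conj (sep_of_solvable π hsolv) (solvCond_of_solvable π hsolv)
      (isHall_subgroupOf h1) (isHall_subgroupOf h3)
    have h5 : MulAut.conj (g : X) • H₁ = H₂ := conj_smul_subgroupOf' g h1.1 h3.1 hg
    obtain ⟨c, hc, hcc⟩ := Cfsg.Agent.Lib.Coprime.conj_invariant hAG hcop (Or.inr hsolv) h2 h4 ⟨g, g.2, h5⟩
    exact ⟨c, hc, hcc.symm⟩
  · intro U hU hAU hUπ
    obtain ⟨H, h1, h2, h3⟩ := Cfsg.Agent.H2.HallA.exists_ge hAG hcop hsolv π hU hAU hUπ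
    exact ⟨H, h1, h2, h3⟩

end Cfsg.Agent.S3745
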