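import Cfsg.Statements.S3746
import Mathlib
import Cfsg.Agent.Lib.Components

set_option autoImplicit false
open Cfsg

namespace Cfsg.Agent.S3746

open Subgroup
open Lib.Components
open scoped commutatorElement

/-- Let Z ≤ Z(G) be a central subgroup of a finite group G and E a subgroup of G containing Z whose image E/Z is a component of G/Z (subnormal and quasisimple). Then the derived subgroup [E, E] is a component of G. -/
theorem result {G : Type*} [Group G] [Finite G] (Z : Subgroup G) (hZ : Z ≤ Subgroup.center G) [Z.Normal] (E : Subgroup G) (hZE : Z ≤ E) (hE : Cfsg.IsComponent (E.map (QuotientGroup.mk' Z))) : Cfsg.IsComponent ⁅E, E⁆ := by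
  set q := QuotientGroup.mk' Z with hq
  have hqs : Function.Surjective q := QuotientGroup.mk'_surjective Z
  have hker : q.ker = Z := QuotientGroup.ker_mk' Z
  have hEsub : E.IsSubnormal := by
    have h1 : (E.map q).comap q = E := by
      rw [comap_map_eq, hker]; exact sup_eq_left.2 hZE
    rw [← h1]
    exact hE.1.comap q
  set D := ⁅E, E⁆ with hD
  have hDE : D ≤ E := commutator_le.2 (fun a ha b hb => by
    rw [commutatorElement_def]; exact E.mul_mem (E.mul_mem (E.mul_mem ha hb) (E.inv_mem ha)) (E.inv_mem hb))
  have hEn : E ≤ normalizer (D : Set G) := normalizer_commutator_ge_left E E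
  have hDsub : D.IsSubnormal := by
    exact Subgroup.IsSubnormal.step _ _ hDE hEsub (normal_subgroupOf_of_le_normalizer hEn)
  have hDq : D.map q = E.map q := by
    rw [hD, map_commutator]; exact component_commutator hE
  have hEDZ : E = D ⊔ Z := by
    apply le_antisymm _ (sup_le hDE hZE)
    have h1 : E ≤ (D.map q).comap q := by rw [hDq]; exact le_comap_map q E
    rwa [comap_map_eq, hker] at h1
  have comm_of : ∀ N : Subgroup G, N ⊔ Z = E → ⁅E, E⁆ ≤ ⁅N, N⁆ := by
    intro N hN
    rw [commutator_le]
    intro a ha b hb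
    rw [← hN] at ha hb
    obtain ⟨d, hd, z, hz, rfl⟩ := mem_sup_of_normal_right.1 ha
    obtain ⟨e, he, w, hw, rfl⟩ := mem_sup_of_normal_right.1 hb
    rw [commutatorElement_mul_center (hZ hz) (hZ hw)]
    exact commutator_mem_commutator hd he
  have hDD : ⁅D, D⁆ = D := le_antisymm (commutator_le.2 (fun a ha b hb => by
    rw [commutatorElement_def]; exact D.mul_mem (D.mul_mem (D.mul_mem ha hb) (D.inv_mem ha)) (D.inv_mem hb)))
    (comm_of D hEDZ.symm)
  refine ⟨hDsub, ?_⟩
  rw [quasisimple_iff]
  refine ⟨?_, ?_, ?_⟩
  · rw [Subgroup.nontrivial_iff_ne_bot]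
    intro h
    rw [h, Subgroup.map_bot] at hDq
    exact component_ne_bot hE hDq.symm
  · have : Group.IsPerfect D := Subgroup.isPerfect_iff.2 hDD
    exact this.commutator_eq_top
  · intro N hN
    set N' := N.map D.subtype with hN'
    have hN'D : N' ≤ D := map_subtype_le N
    have hDn : D ≤ normalizer (N' : Set G) := by
      intro d hd
      rw [mem_normalizer_iff]
      intro x
      constructor
      · rintro ⟨y, hy, rfl⟩
        exact ⟨⟨d, hd⟩ * y * ⟨d, hd⟩⁻¹, hN.conj_mem y hy _, rfl⟩
      · rintro ⟨y, hy, hyx⟩
        have h2 : x = d⁻¹ * (y : G) * d := by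
          have : (y : G) = d * x * d⁻¹ := hyx
          rw [this]; group
        refine ⟨⟨d, hd⟩⁻¹ * y * ⟨d, hd⟩, ?_, by rw [h2]; rfl⟩
        have := hN.conj_mem y hy (⟨d, hd⟩⁻¹)
        rwa [inv_inv] at this
    have hEn' : E ≤ normalizer (N' : Set G) := by
      rw [hEDZ]
      refine sup_le hDn ?_
      intro z hz
      rw [mem_normalizer_iff]
      intro x
      have := mem_center_iff.1 (hZ hz) x
      rw [← this, mul_inv_cancel_right]
    have hNq : ((N'.map q).subgroupOf (E.map q)).Normal := by
      apply normal_subgroupOf_of_le_normalizer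
      rintro _ ⟨e, he, rfl⟩
      exact le_normalizer_map q ⟨e, hEn' he, rfl⟩
    rcases quasisimple_normal hE.2 _ hNq with h | h
    · left
      rw [subgroupOf_eq_top] at h
      have h1 : E ≤ N' ⊔ Z := by
        have h2 : E ≤ (N'.map q).comap q := by rw [← map_le_iff_le_comap]; exact h
        rwa [comap_map_eq, hker] at h2
      have h3 := comm_of N' (le_antisymm (sup_le (hN'D.trans hDE) hZE) h1)
      have h4 : D ≤ N' := h3.trans (commutator_le.2 (fun a ha b hb => by
        rw [commutatorElement_def]; exact N'.mul_mem (N'.mul_mem (N'.mul_mem ha hb) (N'.inv_mem ha)) (N'.inv_mem hb)))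
      rw [eq_top_iff]
      intro d _
      obtain ⟨y, hy, hyd⟩ := h4 d.2
      have : y = d := Subtype.ext hyd
      rw [← this]; exact hy
    · right
      have h1 : ⁅D, N'⁆ ≤ Z := by
        rw [commutator_le]
        intro d hd n hn
        have h2 : (⟨q n, mem_map_of_mem q (hDE (hN'D hn))⟩ : E.map q) ∈ center (E.map q) :=
          h (by rw [mem_subgroupOf]; exact mem_map_of_mem q hn)
        have h3 := mem_center_iff.1 h2 ⟨q d, mem_map_of_mem q (hDE hd)⟩
        have h4 : q d * q n = q n * q d := congrArg Subtype.val h3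
        rw [← hker, MonoidHom.mem_ker, map_commutatorElement, commutatorElement_eq_one_iff_mul_comm]
        exact h4
      have h5 : ⁅⁅D, N'⁆, D⁆ = ⊥ := by
        rw [commutator_eq_bot_iff_le_centralizer]
        intro x hx
        rw [mem_centralizer_iff]
        intro y _
        exact mem_center_iff.1 (hZ (h1 hx)) y
      have h6 := commutator_eq_bot_of_perfect hDD h5
      intro n hn
      rw [mem_center_iff]
      intro d
      have h7 : ⁅(d : G), (n : G)⁆ = 1 := by
        have := commutator_mem_commutator d.2 (mem_map_of_mem D.subtype hn)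
        rw [h6] at this
        exact this
      exact Subtype.ext (commutatorElement_eq_one_iff_mul_comm.1 h7)

end Cfsg.Agent.S3746
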