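import Cfsg.Statements.S3747
import Mathlib
import Cfsg.Agent.Lib.Components

set_option autoImplicit false
open Cfsg

namespace Cfsg.Agent.S3747

open Subgroup Lib.Components
open scoped commutatorElement
universe u

/-- the join of centreless components has trivial centre -/
theorem sup_center {G : Type u} [Group G] [Finite G] (S : Finset (Subgroup G))
    (hS : ∀ K ∈ S, IsComponent K ∧ K ⊓ centralizer (K : Set G) = ⊥) :
    sSup (S : Set (Subgroup G)) ⊓ centralizer ((sSup (S : Set (Subgroup G)) : Subgroup G) : Set G) = ⊥ := by
  classical
  induction S using Finset.induction_on with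
  | empty => simp
  | insert K S hKS ih =>
    have ih' := ih fun L hL => hS L (Finset.mem_insert_of_mem hL)
    have hK := hS K (Finset.mem_insert_self _ _)
    rw [eq_bot_iff]
    rintro x ⟨hx1, hx2⟩
    rw [Finset.coe_insert, sSup_insert] at hx1 hx2
    have hcomm : sSup (S : Set (Subgroup G)) ≤ centralizer (K : Set G) := by
      refine sSup_le fun L hL => ?_
      rw [← commutator_eq_bot_iff_le_centralizer]
      refine component_commute_of_ne (hS L (Finset.mem_insert_of_mem hL)).1 hK.1 ?_
      rintro rfl
      exact hKS hL
    obtain ⟨k, hk, e, he, rfl⟩ := (Lib.Basic.mem_sup_iff_left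
      (hcomm.trans (centralizer_le_normalizer _))).1 hx1
    have hkP : k ∈ K ⊓ centralizer (K : Set G) := by
      refine ⟨hk, mem_centralizer_iff.2 fun y hy => ?_⟩
      have h1 := mem_centralizer_iff.1 hx2 y (mem_sup_left hy)
      have h2 := mem_centralizer_iff.1 (hcomm he) y hy
      have h3 : y * k * e = k * y * e := by
        calc y * k * e = y * (k * e) := by group
          _ = k * (e * y) := by rw [h1]; group
          _ = k * y * e := by rw [← h2]; group
      exact mul_right_cancel h3
    rw [hK.2, mem_bot] at hkP
    subst hkP
    rw [one_mul] at hx2 ⊢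
    have : e ∈ (sSup (S : Set (Subgroup G)) ⊓ centralizer ((sSup (S : Set (Subgroup G)) : Subgroup G) : Set G) : Subgroup G) :=
      ⟨he, mem_centralizer_iff.2 fun y hy => mem_centralizer_iff.1 hx2 y (mem_sup_right hy)⟩
    rw [ih'] at this
    exact this

theorem part_a {G : Type u} [Group G] [Finite G] (K : Subgroup G) (hK : IsComponent K)
    (hc : center K = ⊥) : (normalClosure (K : Set G) ≠ ⊥ ∧ ∀ N : Subgroup G, N.Normal →
      N ≤ normalClosure (K : Set G) → N = ⊥ ∨ N = normalClosure (K : Set G)) := by
  classical
  refine ⟨?_, ?_⟩
  · intro h
    apply component_ne_bot hK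
    rw [eq_bot_iff, ← h]
    exact le_normalClosure
  intro N hN hNM
  rcases component_le_or_commute hK hN.isSubnormal with h | h
  · right
    exact le_antisymm hNM (normalClosure_le_normal h)
  · left
    -- finset of conjugates
    have hf : (Set.range fun g : G => K.map (MulAut.conj g).toMonoidHom).Finite := Set.toFinite _
    have hsup : normalClosure (K : Set G) = sSup (hf.toFinset : Set (Subgroup G)) := by
      rw [Set.Finite.coe_toFinset]
      apply le_antisymm
      · have hn : (sSup (Set.range fun g : G => K.map (MulAut.conj g).toMonoidHom)).Normal := by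
          rw [← normalizer_eq_top_iff, eq_top_iff]
          intro x _
          rw [mem_normalizer_iff]
          have key : ∀ (x y : G), y ∈ sSup (Set.range fun g : G => K.map (MulAut.conj g).toMonoidHom) →
              x * y * x⁻¹ ∈ sSup (Set.range fun g : G => K.map (MulAut.conj g).toMonoidHom) := by
            intro x y hy
            have h1 : sSup (Set.range fun g : G => K.map (MulAut.conj g).toMonoidHom) ≤
                (sSup (Set.range fun g : G => K.map (MulAut.conj g).toMonoidHom)).comap (MulAut.conj x).toMonoidHom := by
              apply sSup_le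
              rintro _ ⟨g, rfl⟩
              rintro _ ⟨z, hz, rfl⟩
              show x * (g * z * g⁻¹) * x⁻¹ ∈ sSup (Set.range fun g : G => K.map (MulAut.conj g).toMonoidHom)
              have h2 : K.map (MulAut.conj (x * g)).toMonoidHom ≤ sSup (Set.range fun g : G => K.map (MulAut.conj g).toMonoidHom) :=
                le_sSup ⟨x * g, rfl⟩
              apply h2
              exact ⟨z, hz, by simp [mul_assoc]⟩
            exact h1 hy
          intro y
          refine ⟨key x y, fun h => ?_⟩
          have := key x⁻¹ _ h
          have e : x⁻¹ * (x * y * x⁻¹) * x⁻¹⁻¹ = y := by group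
          rwa [e] at this
        apply normalClosure_le_normal
        have h1 : K ≤ sSup (Set.range fun g : G => K.map (MulAut.conj g).toMonoidHom) := by
          refine le_sSup ⟨1, ?_⟩
          simp only [map_one]
          exact Subgroup.map_id K
        exact h1
      · apply sSup_le
        rintro _ ⟨g, rfl⟩
        rintro _ ⟨z, hz, rfl⟩
        exact (normalClosure_normal (s := (K : Set G))).conj_mem z (subset_normalClosure hz) g
    have hcent : K ⊓ centralizer (K : Set G) = ⊥ := by
      rw [← map_center_eq, hc, Subgroup.map_bot]
    have h2 := sup_center hf.toFinset (by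
      intro L hL
      rw [Set.Finite.mem_toFinset] at hL
      obtain ⟨g, rfl⟩ := hL
      refine ⟨component_map_equiv (MulAut.conj g) hK, ?_⟩
      rw [eq_bot_iff]
      rintro _ ⟨⟨y, hy, rfl⟩, hy2⟩
      have h3 : y ∈ K ⊓ centralizer (K : Set G) := by
        refine ⟨hy, mem_centralizer_iff.2 fun z hz => ?_⟩
        have h4 := mem_centralizer_iff.1 hy2 _ ⟨z, hz, rfl⟩
        have h5 : (MulAut.conj g) z * (MulAut.conj g) y = (MulAut.conj g) y * (MulAut.conj g) z := h4
        rw [← map_mul, ← map_mul] at h5
        exact (MulAut.conj g).injective h5
      rw [hcent, mem_bot] at h3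
      rw [h3, mem_bot, map_one])
    rw [← hsup] at h2
    rw [eq_bot_iff, ← h2]
    refine le_inf hNM ?_
    -- N centralizes M: C(N) is normal and contains K
    have h6 : K ≤ centralizer (N : Set G) := by rwa [commutator_eq_bot_iff_le_centralizer] at h
    have h7 : normalClosure (K : Set G) ≤ centralizer (N : Set G) := normalClosure_le_normal h6
    rw [← commutator_eq_bot_iff_le_centralizer] at h7 ⊢
    rw [commutator_comm]; exact h7

/-- Let G be a finite group. (a) If K is a component of G with trivial centre, then the normal closure of K in G is a minimal normal subgroup of G. (b) If the Fitting subgroup of G is trivial, then the layer E(G) is generated by the minimal normal subgroups of G. -/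
theorem result {G : Type*} [Group G] [Finite G] : (∀ K : Subgroup G, Cfsg.IsComponent K → Subgroup.center ↥K = ⊥ → (Subgroup.normalClosure (K : Set G) ≠ ⊥ ∧ ∀ N : Subgroup G, N.Normal → N ≤ Subgroup.normalClosure (K : Set G) → N = ⊥ ∨ N = Subgroup.normalClosure (K : Set G))) ∧ (Cfsg.fittingSubgroup G = ⊥ → sSup {N : Subgroup G | N ≠ ⊥ ∧ N.Normal ∧ ∀ N' : Subgroup G, N'.Normal → N' ≤ N → N' = ⊥ ∨ N' = N} = Cfsg.layer G) := by
  refine ⟨part_a, ?_⟩
  intro hF
  apply le_antisymm
  · apply sSup_le
    rintro N ⟨hN0, hN, hmin⟩
    have hL : (layer G).Normal := layer_normal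
    rcases hmin (N ⊓ layer G) inferInstance inf_le_left with h | h
    · exfalso
      have h1 : ⁅layer G, N⁆ = ⊥ := by
        rw [eq_bot_iff, ← h]
        exact le_inf (commutator_le_right _ _) (commutator_le_left _ _)
      have h2 : N ≤ centralizer (generalizedFittingSubgroup G : Set G) := by
        have h3 : generalizedFittingSubgroup G = layer G := by
          show layer G ⊔ fittingSubgroup G = layer G
          rw [hF, sup_bot_eq]
        rw [h3, ← commutator_eq_bot_iff_le_centralizer, commutator_comm]
        exact h1
      have h4 := h2.trans centralizer_generalizedFitting_le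
      have h5 : N ≤ layer G := by
        have h3 : generalizedFittingSubgroup G = layer G := by
          show layer G ⊔ fittingSubgroup G = layer G
          rw [hF, sup_bot_eq]
        rwa [h3] at h4
      rw [inf_eq_left.2 h5] at h
      exact hN0 h
    · exact inf_eq_left.1 h
  · apply sSup_le
    intro K hK
    have hcK : center K = ⊥ := by
      have h1 : ((center K).map K.subtype).IsSubnormal := by
        have h2 : ((center K).map K.subtype).subgroupOf K = center K := by
          rw [subgroupOf, comap_map_eq_self_of_injective K.subtype_injective]
        refine Subgroup.IsSubnormal.step _ K (map_subtype_le _) hK.1 ?_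
        rw [h2]; infer_instance
      have h3 : Group.IsNilpotent ((center K).map K.subtype) := by
        have : Group.IsNilpotent (center K) := isNilpotent_of_isMulCommutative inferInstance
        exact Group.nilpotent_of_mulEquiv ((center K).equivMapOfInjective K.subtype K.subtype_injective)
      have h4 := subnormal_nilpotent_le_fitting h1 h3
      rw [hF, le_bot_iff, Subgroup.map_eq_bot_iff_of_injective _ K.subtype_injective] at h4
      exact h4
    obtain ⟨h1, h2⟩ := part_a K hK hcK
    exact le_normalClosure.trans (le_sSup ⟨h1, normalClosure_normal, h2⟩)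

end Cfsg.Agent.S3747
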