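import Cfsg.Statements.S3748
import Cfsg.Agent.Lib.FitCrit
import Cfsg.Agent.Lib.PNilp

set_option autoImplicit false
open Cfsg

namespace Cfsg.Agent.S3748

open Subgroup Lib.Components
open scoped commutatorElement

/-- Call a proper subgroup M of G primitive when M = N_G(N) for every non-trivial normal subgroup N of M. If M is a primitive subgroup of the finite group G, then no non-trivial subnormal subgroup of G is contained in M; in particular M ∩ F(G) = 1. -/
theorem result {G : Type*} [Group G] [Finite G] (M : Subgroup G) (hM : M ≠ ⊤) (hprim : ∀ N : Subgroup G, N ≤ M → M ≤ Subgroup.normalizer (N : Set G) → N ≠ ⊥ → Subgroup.normalizer (N : Set G) = M) : (∀ L : Subgroup G, L.IsSubnormal → L ≤ M → L = ⊥) ∧ M ⊓ Cfsg.fittingSubgroup G = ⊥ := by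
  classical
  have hFn : (fittingSubgroup G).Normal := Lib.Cores.fitting_normal
  -- no nontrivial normal subgroup of G in M
  have hcore : ∀ N : Subgroup G, N.Normal → N ≤ M → N = ⊥ := by
    intro N hN hNM
    by_contra hne
    have h1 := hprim N hNM (by rw [normalizer_eq_top_iff.mpr hN]; exact le_top) hne
    rw [normalizer_eq_top_iff.mpr hN] at h1
    exact hM h1.symm
  have hF : M ⊓ fittingSubgroup G = ⊥ := by
    by_contra hne
    have hMn : M ≤ normalizer ((M ⊓ fittingSubgroup G : Subgroup G) : Set G) := by
      intro m hm
      apply H2.PUtil.mem_normalizer_of_conj_mem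
      rintro x ⟨hx1, hx2⟩
      exact ⟨M.mul_mem (M.mul_mem hm hx1) (M.inv_mem hm), hFn.conj_mem x hx2 m⟩
    have h1 := hprim _ inf_le_left hMn hne
    by_cases hFM : fittingSubgroup G ≤ M
    · have h2 := hcore _ hFn hFM
      rw [h2, inf_bot_eq] at hne
      exact hne rfl
    · have hlt : M ⊓ fittingSubgroup G < fittingSubgroup G :=
        lt_of_le_of_ne inf_le_right (fun h => hFM (by rw [← h]; exact inf_le_left))
      have h2 := Lib.PNilp.lt_inf_normalizer Lib.Cores.fitting_nilpotent hlt
      rw [h1, inf_comm] at h2
      exact lt_irrefl _ h2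
  refine ⟨?_, hF⟩
  intro L hL hLM
  by_contra hL1
  -- minimal nontrivial subnormal subgroup inside L
  obtain ⟨E, hE⟩ := (Set.toFinite {E : Subgroup G | E.IsSubnormal ∧ E ≤ L ∧ E ≠ ⊥}).exists_minimal
    ⟨L, hL, le_rfl, hL1⟩
  obtain ⟨hEs, hEL, hE1⟩ := hE.prop
  have hEM := hEL.trans hLM
  have hEnt : Nontrivial E := (nontrivial_iff_ne_bot E).2 hE1
  have hsimple : IsSimpleGroup E := ⟨fun N hN => by
    by_cases hN1 : N = ⊥
    · exact Or.inl hN1
    right
    have h1 : (N.map E.subtype).IsSubnormal := by
      have h2 : (N.map E.subtype).subgroupOf E = N := by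
        rw [subgroupOf, comap_map_eq_self_of_injective E.subtype_injective]
      exact Subgroup.IsSubnormal.step _ E (map_subtype_le _) hEs (by rw [h2]; exact hN)
    have h3 : N.map E.subtype ≠ ⊥ := by
      rw [Ne, Subgroup.map_eq_bot_iff_of_injective _ E.subtype_injective]; exact hN1
    have h4 := hE.le_of_le ⟨h1, (map_subtype_le _).trans hEL, h3⟩ (map_subtype_le _)
    rw [eq_top_iff]
    intro x _
    obtain ⟨y, hy, hyx⟩ := h4 x.2
    have : y = x := Subtype.ext hyx
    rw [← this]; exact hy⟩
  by_cases hab : IsMulCommutative E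
  · -- E ≤ F(G)
    have h1 : E ≤ fittingSubgroup G := subnormal_nilpotent_le_fitting hEs (isNilpotent_of_isMulCommutative hab)
    apply hE1
    rw [eq_bot_iff, ← hF]
    exact le_inf hEM h1
  · -- E is a component
    have hperf : commutator E = ⊤ := by
      have h1 : (commutator E).Normal := inferInstance
      rcases h1.eq_bot_or_eq_top with h2 | h2
      · exfalso
        apply hab
        refine ⟨⟨fun a b => ?_⟩⟩
        have h3 : ⁅a, b⁆ ∈ commutator E := commutator_mem_commutator (mem_top a) (mem_top b)
        rw [h2, mem_bot] at h3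
        exact commutatorElement_eq_one_iff_mul_comm.1 h3
      · exact h2
    have hEc : IsComponent E := by
      refine ⟨hEs, ?_⟩
      rw [quasisimple_iff]
      refine ⟨hEnt, hperf, fun N hN => ?_⟩
      rcases hN.eq_bot_or_eq_top with h2 | h2
      · right; rw [h2]; exact bot_le
      · left; exact h2
    -- N = join of components contained in M conjugate ... : all components contained in M
    set N : Subgroup G := sSup {K : Subgroup G | IsComponent K ∧ K ≤ M} with hN
    have hNM : N ≤ M := sSup_le fun K hK => hK.2
    have hEN : E ≤ N := le_sSup ⟨hEc, hEM⟩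
    have hNn : M ≤ normalizer (N : Set G) := by
      intro m hm
      apply H2.PUtil.mem_normalizer_of_conj_mem
      intro x hx
      have h1 : N ≤ N.comap (MulAut.conj m).toMonoidHom := by
        apply sSup_le
        rintro K ⟨hK, hKM⟩
        have h2 : K.map (MulAut.conj m).toMonoidHom ≤ N := by
          apply le_sSup
          refine ⟨component_map_equiv (MulAut.conj m) hK, ?_⟩
          rintro _ ⟨y, hy, rfl⟩
          exact M.mul_mem (M.mul_mem hm (hKM hy)) (M.inv_mem hm)
        exact Subgroup.map_le_iff_le_comap.1 h2
      exact h1 hx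
    have hN1 : N ≠ ⊥ := by rintro h; rw [h, le_bot_iff] at hEN; exact hE1 hEN
    have h3 := hprim N hNM hNn hN1
    -- every component is in M
    have hall : layer G ≤ M := by
      apply sSup_le
      intro K hK
      by_cases hKM : K ≤ M
      · exact hKM
      · rw [← h3]
        refine le_trans ?_ (centralizer_le_normalizer _)
        rw [← commutator_eq_bot_iff_le_centralizer, commutator_comm, commutator_eq_bot_iff_le_centralizer]
        apply sSup_le
        rintro J ⟨hJ, hJM⟩
        rw [← commutator_eq_bot_iff_le_centralizer]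
        apply component_commute_of_ne hJ hK
        rintro rfl; exact hKM hJM
    have h4 := hcore (layer G) layer_normal hall
    have h5 := component_le_layer hEc
    rw [h4, le_bot_iff] at h5
    exact hE1 h5

end Cfsg.Agent.S3748
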