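import Cfsg.Statements.S3749
import Cfsg.Agent.H2.SixElt
import Cfsg.Agent.Lib.Coprime
import Cfsg.Agent.Lib.Cores

set_option autoImplicit false
open Cfsg

namespace Cfsg.Agent.S3749

open Subgroup Cfsg.Agent.Lib Cfsg.Agent.Lib.Cores
open scoped Pointwise

/-- Call a proper subgroup M of G primitive when M = N_G(N) for every non-trivial normal subgroup N of M. Let M be a primitive subgroup of the finite group G, p a prime with O_p(M) ≠ 1, and N a normal subgroup of G with M ∩ N = 1. Then p does not divide the order of N; for every prime q there is exactly one Sylow q-subgroup of N normalized by M; and if the order of N has at least two prime divisors then M is not a maximal subgroup of G. -/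
theorem result {G : Type*} [Group G] [Finite G] (M : Subgroup G) (hM : M ≠ ⊤) (hprim : ∀ N : Subgroup G, N ≤ M → M ≤ Subgroup.normalizer (N : Set G) → N ≠ ⊥ → Subgroup.normalizer (N : Set G) = M) {p : ℕ} [Fact p.Prime] (hOp : Cfsg.pCore p ↥M ≠ ⊥) (N : Subgroup G) [N.Normal] (hMN : M ⊓ N = ⊥) : ¬ p ∣ Nat.card N ∧ (∀ q : ℕ, [Fact q.Prime] → ∃! Q : Sylow q ↥N, M ≤ Subgroup.normalizer ((Q : Subgroup ↥N).map N.subtype : Set G)) ∧ ((∃ q r : ℕ, q.Prime ∧ r.Prime ∧ q ≠ r ∧ q ∣ Nat.card N ∧ r ∣ Nat.card N) → ¬ IsCoatom M) := by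
  classical
  obtain ⟨A, hA⟩ : ∃ A : Subgroup G, A = (Cfsg.pCore p M).map M.subtype := ⟨_, rfl⟩
  haveI hcn := Cfsg.Agent.Lib.Cores.pCore_normal (G := M) p
  have hAM : A ≤ M := hA ▸ map_subtype_le _
  have hAp : IsPGroup p A := hA ▸ (pCore_isPGroup (G := M) p).map _
  have hA1 : A ≠ ⊥ := by
    intro h
    rw [hA, Subgroup.map_eq_bot_iff_of_injective _ M.subtype_injective] at h
    exact hOp h
  have hMA : M ≤ normalizer (A : Set G) := by
    rw [le_normalizer_iff]
    intro m hm a ha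
    rw [hA] at ha ⊢
    obtain ⟨a, ha, rfl⟩ := ha
    exact ⟨⟨m, hm⟩ * a * ⟨m, hm⟩⁻¹, hcn.conj_mem a ha _, rfl⟩
  have hNA := hprim A hAM hMA hA1
  have hfix : ∀ x ∈ N, x ∈ centralizer (A : Set G) → x = 1 := by
    intro x hx hxA
    have h1 : x ∈ M := by
      rw [← hNA]
      exact centralizer_le_normalizer _ hxA
    have h2 : x ∈ M ⊓ N := ⟨h1, hx⟩
    rw [hMN] at h2
    exact mem_bot.mp h2
  have hAN : A ≤ normalizer (N : Set G) := by rw [normalizer_eq_top]; exact le_top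
  have hpN : ¬ p ∣ Nat.card N := by
    intro hd
    have h1 := Cfsg.Agent.H2.SixElt.card_mod hAp hAN
    have h2 : (N ⊓ centralizer (A : Set G) : Subgroup G) = ⊥ := by
      rw [eq_bot_iff]
      intro x hx
      exact mem_bot.mpr (hfix x (mem_inf.mp hx).1 (mem_inf.mp hx).2)
    rw [h2, card_bot] at h1
    have h3 := (Nat.modEq_zero_iff_dvd.mpr hd).symm.trans h1
    exact (Fact.out : p.Prime).one_lt.ne' (Nat.dvd_one.mp ((Nat.modEq_zero_iff_dvd).mp h3.symm))
  have hcop : (Nat.card A).Coprime (Nat.card N) := by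
    obtain ⟨n, hn⟩ := IsPGroup.iff_card.mp hAp
    rw [hn]
    exact Nat.Coprime.pow_left n ((Nat.Prime.coprime_iff_not_dvd Fact.out).mpr hpN)
  have hAs : Group.IsSolvable A := by haveI := hAp.isNilpotent; infer_instance
  have huniq : ∀ q : ℕ, [Fact q.Prime] → ∃! Q : Sylow q ↥N, M ≤ Subgroup.normalizer ((Q : Subgroup ↥N).map N.subtype : Set G) := by
    intro q hq
    have hu : ∀ P Q : Sylow q N, A ≤ normalizer (((P : Subgroup N).map N.subtype : Subgroup G) : Set G) →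
        A ≤ normalizer (((Q : Subgroup N).map N.subtype : Subgroup G) : Set G) → P = Q := by
      intro P Q hP hQ
      obtain ⟨c, hc, hcPQ⟩ := Coprime.invariant_sylow_conj hAN hcop (Or.inl hAs) q P Q hP hQ
      have h1 : c = 1 := Subtype.ext (hfix c c.2 hc)
      rw [h1, map_one, one_smul] at hcPQ
      exact hcPQ
    obtain ⟨Q, hQ⟩ := Coprime.exists_invariant_sylow hAN hcop (Or.inl hAs) q
    refine ⟨Q, ?_, fun Q' hQ' => hu _ _ (hAM.trans hQ') hQ⟩
    intro m hm
    have hmap : ∀ x : G, x ∈ (Q : Subgroup N).map N.subtype → m * x * m⁻¹ ∈ (Q : Subgroup N).map N.subtype := by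
      let φ : MulAut N := MulAut.conjNormal m
      have hφ : ∀ x : N, ((φ x : N) : G) = m * x * m⁻¹ := fun x => MulAut.conjNormal_apply m x
      obtain ⟨Q', hQ'⟩ : ∃ Q' : Sylow q N, (Q' : Subgroup N) = (Q : Subgroup N).map φ.toMonoidHom := ⟨Q.mapSurjective (f := φ.toMonoidHom) φ.surjective, rfl⟩
      have h1 : Q' = Q := by
        apply hu _ _ ?_ hQ
        rw [le_normalizer_iff]
        intro a ha x hx
        rw [hQ'] at hx ⊢
        obtain ⟨_, ⟨x, hx, rfl⟩, rfl⟩ := hx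
        have ha' : m⁻¹ * a * m ∈ A := by
          have := (mem_normalizer_iff.mp (hMA (inv_mem hm)) a).mp ha
          rwa [inv_inv] at this
        have h2 := le_normalizer_iff.mp hQ _ ha' (x : G) ⟨x, hx, rfl⟩
        obtain ⟨y, hy, hyx⟩ := h2
        refine ⟨φ y, ⟨y, hy, rfl⟩, ?_⟩
        change ((φ y : N) : G) = a * ((φ x : N) : G) * a⁻¹
        rw [hφ, hφ]
        have h3 : (y : G) = (m⁻¹ * a * m) * (x : G) * (m⁻¹ * a * m)⁻¹ := hyx
        rw [h3]; group
      rintro _ ⟨x, hx, rfl⟩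
      refine ⟨φ x, ?_, hφ x⟩
      have h2 : φ x ∈ (Q : Subgroup N).map φ.toMonoidHom := ⟨x, hx, rfl⟩
      rw [← hQ', h1] at h2
      exact h2
    exact Cfsg.Agent.H2.SixElt.mem_norm_fin hmap
  refine ⟨hpN, huniq, ?_⟩
  rintro ⟨q, r, hq, hr, hqr, hqd, hrd⟩ hco
  haveI : Fact q.Prime := ⟨hq⟩
  obtain ⟨Q, hQ, -⟩ := huniq q
  obtain ⟨R, hR⟩ : ∃ R, R = (Q : Subgroup N).map N.subtype := ⟨_, rfl⟩
  rw [← hR] at hQ
  have hRN : R ≤ N := hR ▸ map_subtype_le _
  have hRcard : Nat.card R = Nat.card Q := by rw [hR]; exact Nat.card_congr (((Q : Subgroup N).equivMapOfInjective _ N.subtype_injective).symm.toEquiv)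
  have hR1 : ¬ R ≤ M := by
    intro h
    have h1 : R ≤ M ⊓ N := le_inf h hRN
    rw [hMN, le_bot_iff] at h1
    rw [h1, card_bot, Q.card_eq_multiplicity] at hRcard
    have h2 := dvd_pow_self q (hq.factorization_pos_of_dvd Nat.card_pos.ne' hqd).ne'
    rw [← hRcard] at h2
    exact hq.one_lt.ne' (Nat.dvd_one.mp h2)
  have htop : M ⊔ R = ⊤ := hco.2 _ (lt_of_le_of_ne le_sup_left (fun h => hR1 (h ▸ le_sup_right)))
  have hNR : N ≤ R := by
    intro x hx
    have h1 : x ∈ ((R ⊔ M : Subgroup G) : Set G) := by rw [sup_comm, htop]; exact mem_top x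
    rw [coe_mul_of_right_le_normalizer_left R M hQ] at h1
    obtain ⟨y, hy, m, hm, rfl⟩ := h1
    have h2 : m ∈ M ⊓ N := ⟨hm, by
      have e0 : m = y⁻¹ * (y * m) := by group
      rw [e0]; exact N.mul_mem (N.inv_mem (hRN hy)) hx⟩
    rw [hMN, mem_bot] at h2
    simp only [h2, mul_one]; exact hy
  have h1 : r ∣ Nat.card Q := hRcard ▸ hrd.trans (card_dvd_of_le hNR)
  obtain ⟨n, hn⟩ := IsPGroup.iff_card.mp Q.isPGroup'
  rw [hn] at h1
  exact hqr ((Nat.prime_dvd_prime_iff_eq hr hq).mp (hr.dvd_of_dvd_pow h1)).symm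

end Cfsg.Agent.S3749
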