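import Cfsg.Statements.S3750
import Cfsg.Agent.Lib.Components
import Cfsg.Agent.Lib.Cores
import Cfsg.Agent.Lib.Nilp

set_option autoImplicit false
open Cfsg

namespace Cfsg.Agent.S3750

open Subgroup Cfsg.Agent.Lib Cfsg.Agent.Lib.Cores Cfsg.Agent.Lib.Components
open scoped commutatorElement

/-- Call a proper subgroup M of G primitive when M = N_G(N) for every non-trivial normal subgroup N of M. Let M be a primitive subgroup of the finite group G and N a normal subgroup of G with M ∩ F*(N) ≠ 1. Then F(G) = 1 and F*(N) = F*(G) = E(G); in particular every minimal normal subgroup of G is contained in N. -/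
theorem result {G : Type*} [Group G] [Finite G] (M : Subgroup G) (hM : M ≠ ⊤) (hprim : ∀ N : Subgroup G, N ≤ M → M ≤ Subgroup.normalizer (N : Set G) → N ≠ ⊥ → Subgroup.normalizer (N : Set G) = M) (N : Subgroup G) [N.Normal] (hMF : M ⊓ (Cfsg.generalizedFittingSubgroup ↥N).map N.subtype ≠ ⊥) : Cfsg.fittingSubgroup G = ⊥ ∧ (Cfsg.generalizedFittingSubgroup ↥N).map N.subtype = Cfsg.generalizedFittingSubgroup G ∧ Cfsg.generalizedFittingSubgroup G = Cfsg.layer G ∧ ∀ K : Subgroup G, K.Normal → K ≠ ⊥ → (∀ K' : Subgroup G, K'.Normal → K' ≤ K → K' = ⊥ ∨ K' = K) → K ≤ N := by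
  classical
  obtain ⟨A, hA⟩ : ∃ A, A = M ⊓ (Cfsg.generalizedFittingSubgroup ↥N).map N.subtype := ⟨_, rfl⟩
  have hAM : A ≤ M := hA ▸ inf_le_left
  have hA1 : A ≠ ⊥ := hA ▸ hMF
  have hAN : A ≤ N := by rw [hA]; exact inf_le_right.trans (map_subtype_le _)
  haveI hLc : (Cfsg.layer N).Characteristic := by
    rw [characteristic_iff_map_le]
    intro φ
    exact layer_map_equiv_le φ
  haveI hFc : (Cfsg.fittingSubgroup N).Characteristic := fitting_characteristic
  haveI hGn : ((Cfsg.generalizedFittingSubgroup ↥N).map N.subtype).Normal := by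
    have : (Cfsg.generalizedFittingSubgroup ↥N).Characteristic := by
      have h1 : Cfsg.generalizedFittingSubgroup ↥N = Cfsg.layer N ⊔ Cfsg.fittingSubgroup N := rfl
      rw [h1]; infer_instance
    infer_instance
  have hMA : M ≤ normalizer (A : Set G) := by
    rw [le_normalizer_iff]
    intro m hm a ha
    rw [hA] at ha ⊢
    obtain ⟨h1, h2⟩ := mem_inf.mp ha
    exact mem_inf.mpr ⟨mul_mem (mul_mem hm h1) (inv_mem hm), hGn.conj_mem a h2 m⟩
  have hNA := hprim A hAM hMA hA1
  -- normal subgroups commuting with `A` are trivial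
  have hcl : ∀ K : Subgroup G, K.Normal → (∀ k ∈ K, ∀ a ∈ A, k * a = a * k) → K = ⊥ := by
    intro K hK hKA
    by_contra hK1
    have h1 : K ≤ M := by
      rw [← hNA]
      intro k hk
      apply centralizer_le_normalizer
      rw [mem_centralizer_iff]
      exact fun a ha => (hKA k hk a ha).symm
    have h2 := hprim K h1 (by haveI := hK; rw [normalizer_eq_top]; exact le_top) hK1
    haveI := hK
    rw [normalizer_eq_top] at h2
    exact hM h2.symm
  have hdisj : ∀ K : Subgroup G, K.Normal → K ⊓ N = ⊥ → K = ⊥ := by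
    intro K hK hKN
    apply hcl K hK
    intro k hk a ha
    exact commute_of_normal_of_disjoint K N hK inferInstance (disjoint_iff.mpr hKN) k a hk (hAN ha)
  -- `F(N) = 1`
  have hFN : Cfsg.fittingSubgroup N = ⊥ := by
    by_contra hF1
    haveI := fitting_nilpotent (G := N)
    haveI := (nontrivial_iff_ne_bot _).mpr hF1
    have hc : center (Cfsg.fittingSubgroup N) ≠ ⊥ := by
      have h0 := Nilp.normal_inf_center_ne_bot (⊤ : Subgroup (Cfsg.fittingSubgroup N)) top_ne_bot
      rwa [top_inf_eq] at h0
    obtain ⟨Z, hZ⟩ : ∃ Z : Subgroup N, Z = (center (Cfsg.fittingSubgroup N)).map (Cfsg.fittingSubgroup N).subtype := ⟨_, rfl⟩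
    haveI hZc : Z.Characteristic := by rw [hZ]; infer_instance
    have hZ1 : Z ≠ ⊥ := by
      rw [hZ, Ne, Subgroup.map_eq_bot_iff_of_injective _ (Cfsg.fittingSubgroup N).subtype_injective]; exact hc
    have hZF : Z ≤ Cfsg.fittingSubgroup N := hZ ▸ map_subtype_le _
    have hZcomm : ∀ z ∈ Z, ∀ x ∈ Cfsg.generalizedFittingSubgroup N, z * x = x * z := by
      intro z hz
      have h1 : Cfsg.generalizedFittingSubgroup ↥N ≤ centralizer {z} := by
        refine sup_le ?_ ?_
        · intro x hx
          rw [mem_centralizer_singleton_iff]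
          have h2 := layer_commute_fitting (G := N)
          rw [commutator_eq_bot_iff_le_centralizer] at h2
          exact (mem_centralizer_iff.mp (h2 hx) z (hZF hz)).symm
        · intro x hx
          rw [mem_centralizer_singleton_iff]
          rw [hZ] at hz
          obtain ⟨z, hz, rfl⟩ := hz
          exact congrArg Subtype.val (mem_center_iff.mp hz ⟨x, hx⟩)
      intro x hx
      exact (mem_centralizer_singleton_iff.mp (h1 hx)).symm
    have h3 := hcl (Z.map N.subtype) inferInstance (by
      rintro _ ⟨z, hz, rfl⟩ a ha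
      rw [hA] at ha
      obtain ⟨a, ha2, rfl⟩ := (mem_inf.mp ha).2
      exact congrArg N.subtype (hZcomm z hz a ha2))
    rw [Subgroup.map_eq_bot_iff_of_injective _ N.subtype_injective] at h3
    exact hZ1 h3
  -- `F(G) = 1`
  have hFG : Cfsg.fittingSubgroup G = ⊥ := by
    haveI := fitting_normal (G := G)
    haveI := fitting_nilpotent (G := G)
    apply hdisj _ inferInstance
    have h1 : (Cfsg.fittingSubgroup G).subgroupOf N ≤ Cfsg.fittingSubgroup N := fitting_subgroupOf_le N
    rw [hFN, le_bot_iff] at h1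
    rw [eq_bot_iff]
    intro x hx
    obtain ⟨hx1, hx2⟩ := mem_inf.mp hx
    have h3 : (⟨x, hx2⟩ : N) ∈ (Cfsg.fittingSubgroup G).subgroupOf N := mem_subgroupOf.mpr hx1
    rw [h1, mem_bot] at h3
    exact mem_bot.mpr (congrArg Subtype.val h3)
  have hgN : Cfsg.generalizedFittingSubgroup ↥N = Cfsg.layer N := by
    have h1 : Cfsg.generalizedFittingSubgroup ↥N = Cfsg.layer N ⊔ Cfsg.fittingSubgroup N := rfl
    rw [h1, hFN, sup_bot_eq]
  have hgG : Cfsg.generalizedFittingSubgroup G = Cfsg.layer G := by
    have h1 : Cfsg.generalizedFittingSubgroup G = Cfsg.layer G ⊔ Cfsg.fittingSubgroup G := rfl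
    rw [h1, hFG, sup_bot_eq]
  have hNs : N.IsSubnormal := (inferInstance : N.Normal).isSubnormal
  have hlay : (Cfsg.layer N).map N.subtype = Cfsg.layer G := by
    apply le_antisymm
    · rw [map_le_iff_le_comap]
      refine sSup_le fun K hK => ?_
      rw [← map_le_iff_le_comap]
      exact component_le_layer (component_map_subtype hNs hK)
    · refine sSup_le fun K hK => ?_
      rcases component_le_or_commute hK hNs with h | h
      · have h1 := component_le_layer (component_subgroupOf hK h)
        have h2 := map_mono (f := N.subtype) h1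
        rwa [map_subgroupOf_eq_of_le h] at h2
      · exfalso
        rw [commutator_eq_bot_iff_le_centralizer] at h
        haveI := layer_normal (G := G)
        have h1 := hcl (Cfsg.layer G ⊓ centralizer (N : Set G)) inferInstance (by
          intro k hk a ha
          exact (mem_centralizer_iff.mp (mem_inf.mp hk).2 a (hAN ha)).symm)
        have h2 : K ≤ ⊥ := h1 ▸ le_inf (component_le_layer hK) h
        exact component_ne_bot hK (le_bot_iff.mp h2)
  refine ⟨hFG, by rw [hgN, hlay, hgG], hgG, ?_⟩
  intro K hK hK1 hmin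
  haveI := hK
  rcases hmin (K ⊓ N) inferInstance inf_le_left with h | h
  · exact absurd (hdisj K hK h) hK1
  · exact inf_eq_left.mp h

end Cfsg.Agent.S3750
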