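import Cfsg.Statements.S3751
import Cfsg.Agent.H2.PrimPair

set_option autoImplicit false
open Cfsg

namespace Cfsg.Agent.S3751

open Subgroup Cfsg.Agent.Lib Cfsg.Agent.H2.PrimPair

theorem pair_ok {G : Type*} [Group G] [Finite G] {p : ℕ} [Fact p.Prime] (hloc : Cfsg.IsOfLocalCharacteristic p G)
    {M1 M2 : Subgroup G} (h1 : MaxL p M1) (h2 : MaxL p M2) (hne : M1 ≠ M2) (hp : p ∣ Nat.card ↥(M1 ⊓ M2)) :
    ∃ M₁ M₂ : Subgroup G, M₁ ≠ M₂ ∧ (∀ A : Subgroup G, A ≠ ⊥ → A ≤ M₁ ⊓ M₂ → (M₁ ≤ Subgroup.normalizer (A : Set G) → M₂ ⊓ Subgroup.normalizer (A : Set G) = M₁ ⊓ M₂) ∧ (M₂ ≤ Subgroup.normalizer (A : Set G) → M₁ ⊓ Subgroup.normalizer (A : Set G) = M₁ ⊓ M₂)) ∧ Subgroup.centralizer (Cfsg.pCore p ↥M₁ : Set ↥M₁) ≤ Cfsg.pCore p ↥M₁ ∧ Subgroup.centralizer (Cfsg.pCore p ↥M₂ : Set ↥M₂) ≤ Cfsg.pCore p ↥M₂ ∧ (Cfsg.pCore p ↥M₁).map M₁.subtype ⊔ (Cfsg.pCore p ↥M₂).map M₂.subtype ≤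 M₁ ⊓ M₂ := by
  obtain ⟨L1, L2, hL1, hL2, hL, hQ1, hQ2⟩ := exists_pair h1 h2 hne hp
  refine ⟨L1, L2, hL, fun A hA hAL => ⟨fun h => ?_, fun h => ?_⟩, hL1.1.cent hloc, hL2.1.cent hloc, ?_⟩
  · rw [hL1.prim hloc hA (hAL.trans inf_le_left) h, inf_comm]
  · rw [hL2.prim hloc hA (hAL.trans inf_le_right) h]
  · exact sup_le (le_inf (Q_le L1) hQ1) (le_inf hQ2 (Q_le L2))

/-- Two distinct subgroups M₁, M₂ of G form a primitive pair when, for {i, j} = {1, 2}, every non-trivial normal subgroup A of M_i contained in M₁ ∩ M₂ satisfies N_{M_j}(A) = M₁ ∩ M₂; the pair has characteristic p when moreover C_{M_i}(O_p(M_i)) ≤ O_p(M_i) for both i and O_p(M₁)O_p(M₂) ≤ M₁ ∩ M₂. Let G be a finite group, p a prime dividing its order, with O_p(G) = 1 and every p-local subgroup of characteristic p. Then either G has a primitive pair of characteristic p, or every maximal p-local subgroup M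 of G is strongly p-embedded in G: M is a proper subgroup, p divides its order, and for every g ∉ M the order of M ∩ gMg⁻¹ is prime to p. -/
theorem result {G : Type*} [Group G] [Finite G] {p : ℕ} [Fact p.Prime] (hloc : Cfsg.IsOfLocalCharacteristic p G) (hOp : Cfsg.pCore p G = ⊥) : (∃ M₁ M₂ : Subgroup G, M₁ ≠ M₂ ∧ (∀ A : Subgroup G, A ≠ ⊥ → A ≤ M₁ ⊓ M₂ → (M₁ ≤ Subgroup.normalizer (A : Set G) → M₂ ⊓ Subgroup.normalizer (A : Set G) = M₁ ⊓ M₂) ∧ (M₂ ≤ Subgroup.normalizer (A : Set G) → M₁ ⊓ Subgroup.normalizer (A : Set G) = M₁ ⊓ M₂)) ∧ Subgroup.centralizer (Cfsg.pCore p ↥M₁ : Set ↥M₁) ≤ Cfsg.pCore p ↥M₁ ∧ Subgroup.centralizer (Cfsg.pCore p ↥M₂ : Set ↥M₂) ≤ Cfsg.pCore p ↥M₂ ∧ (Cfsg.pCore p ↥M₁).map M₁.subtype ⊔ (Cfsg.pCore p ↥M₂).map M₂.subtype ≤ M₁ ⊓ M₂) ∨ (∀ M : Subgroup G, (∃ T : Subgroup G, IsPGroup p T ∧ T ≠ ⊥ ∧ M = Subgroup.normalizer (T : Set G)) → (∀ L : Subgroup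 G, (∃ T : Subgroup G, IsPGroup p T ∧ T ≠ ⊥ ∧ L = Subgroup.normalizer (T : Set G)) → M ≤ L → L = M) → M ≠ ⊤ ∧ p ∣ Nat.card M ∧ ∀ g : G, g ∉ M → ¬ p ∣ Nat.card ↥(M ⊓ M.map (MulAut.conj g).toMonoidHom)) := by
  by_contra hcon
  push Not at hcon
  obtain ⟨hno, M, hM1, hM2, hM3⟩ := hcon
  have hM : MaxL p M := ⟨hM1, hM2⟩
  have htop : M ≠ ⊤ := by
    intro htop
    have h1 := hM.1.Q_ne
    apply h1
    rw [eq_bot_iff, ← hOp]
    apply Cores.le_pCore _ (Q_isP M)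
    rw [← Subgroup.normalizer_eq_top_iff, hM.norm_Q, htop]
  have hdvd : p ∣ Nat.card M := by
    have h1 : p ∣ Nat.card (Q p M) := by
      obtain ⟨n, hn⟩ := (IsPGroup.iff_card.1 (Q_isP (p := p) M))
      rcases Nat.eq_zero_or_pos n with h0 | h0
      · exfalso
        rw [h0, pow_zero] at hn
        exact hM.1.Q_ne (Subgroup.card_eq_one.1 hn)
      · rw [hn]; exact dvd_pow_self p h0.ne'
    exact h1.trans (Subgroup.card_dvd_of_le (Q_le M))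
  obtain ⟨g, hg, hgp⟩ := hM3 htop hdvd
  have hne : M ≠ M.map (MulAut.conj g).toMonoidHom := by
    intro heq
    apply hg
    apply hM.mem_of_norm
    rw [mem_normalizer_iff]
    intro y
    constructor
    · intro hy
      rw [heq]
      exact ⟨y, hy, rfl⟩
    · intro hy
      rw [heq] at hy
      obtain ⟨z, hz, e⟩ := hy
      have : g * z * g⁻¹ = g * y * g⁻¹ := e
      have : z = y := by simpa using this
      rwa [← this]
  obtain ⟨M₁, M₂, a, b, c, d, e⟩ := pair_ok hloc hM (hM.conj (MulAut.conj g)) hne hgp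
  exact hno M₁ M₂ a b c d e

end Cfsg.Agent.S3751
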