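import Cfsg.Statements.S3760


set_option autoImplicit false
open Cfsg

namespace Cfsg.Agent.S3760

open Subgroup

/-- Let the group G act transitively on a set X, let x ∈ X with stabilizer H = G_x, and let K ≤ H. Then N_G(K) acts transitively on the set of fixed points of K if and only if every G-conjugate of K contained in H is already an H-conjugate of K. -/
theorem result {G : Type*} [Group G] {X : Type*} [MulAction G X] (htrans : ∀ a b : X, ∃ g : G, g • a = b) (x : X) (K : Subgroup G) (hK : K ≤ MulAction.stabilizer G x) : (∀ a b : X, (∀ k ∈ K, k • a = a) → (∀ k ∈ K, k • b = b) → ∃ g ∈ Subgroup.normalizer (K : Set G), g • a = b) ↔ ∀ g : G, K.map (MulAut.conj g).toMonoidHom ≤ MulAction.stabilizer G x → ∃ h ∈ MulAction.stabilizer G x, K.map (MulAut.conj g).toMonoidHom = K.map (MulAut.conj h).toMonoidHom := by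
  have hmn : ∀ g : G, K.map (MulAut.conj g).toMonoidHom = K → g ∈ normalizer (K : Set G) := by
    intro g hg
    rw [mem_normalizer_iff]
    intro y
    constructor
    · intro hy
      rw [← hg]
      exact ⟨y, hy, rfl⟩
    · intro hy
      rw [← hg] at hy
      obtain ⟨w, hw, hwy⟩ := hy
      have : g * w * g⁻¹ = g * y * g⁻¹ := hwy
      rwa [← mul_left_cancel (mul_right_cancel this)]
  have hmn' : ∀ g : G, g ∈ normalizer (K : Set G) → K.map (MulAut.conj g).toMonoidHom = K := by
    intro g hg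
    rw [mem_normalizer_iff] at hg
    ext y
    constructor
    · rintro ⟨w, hw, rfl⟩
      exact (hg w).mp hw
    · intro hy
      refine ⟨g⁻¹ * y * g, ?_, ?_⟩
      · apply (hg _).mpr
        have e : g * (g⁻¹ * y * g) * g⁻¹ = y := by group
        rw [e]; exact hy
      · change g * (g⁻¹ * y * g) * g⁻¹ = y
        group
  have hmm : ∀ g h : G, (K.map (MulAut.conj h).toMonoidHom).map (MulAut.conj g).toMonoidHom =
      K.map (MulAut.conj (g * h)).toMonoidHom := by
    intro g h
    rw [map_map]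
    congr 1
    ext y
    change g * (h * y * h⁻¹) * g⁻¹ = (g * h) * y * (g * h)⁻¹
    group
  constructor
  · intro h g hg
    have hx : ∀ k ∈ K, k • x = x := fun k hk => hK hk
    have hgx : ∀ k ∈ K, k • (g⁻¹ • x) = g⁻¹ • x := by
      intro k hk
      have h1 : g * k * g⁻¹ ∈ MulAction.stabilizer G x := hg ⟨k, hk, rfl⟩
      rw [MulAction.mem_stabilizer_iff] at h1
      calc k • (g⁻¹ • x) = g⁻¹ • ((g * k * g⁻¹) • x) := by
            rw [smul_smul, smul_smul]; congr 1; group
        _ = g⁻¹ • x := by rw [h1]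
    obtain ⟨n, hn, hnx⟩ := h _ _ hgx hx
    refine ⟨g * n⁻¹, ?_, ?_⟩
    · rw [MulAction.mem_stabilizer_iff]
      calc (g * n⁻¹) • x = (g * n⁻¹) • (n • (g⁻¹ • x)) := by rw [hnx]
        _ = (1 : G) • x := by rw [smul_smul, smul_smul]; congr 1; group
        _ = x := one_smul _ _
    · rw [← hmm, hmn' _ (inv_mem hn)]
  · intro h a b ha hb
    have key : ∀ a : X, (∀ k ∈ K, k • a = a) → ∃ n ∈ normalizer (K : Set G), n • x = a := by
      intro a ha
      obtain ⟨g, hg⟩ := htrans x a
      have h1 : K.map (MulAut.conj g⁻¹).toMonoidHom ≤ MulAction.stabilizer G x := by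
        rintro _ ⟨k, hk, rfl⟩
        change g⁻¹ * k * g⁻¹⁻¹ ∈ _
        rw [MulAction.mem_stabilizer_iff, inv_inv, mul_smul, mul_smul, hg, ha k hk, ← hg, inv_smul_smul]
      obtain ⟨c, hc, hgc⟩ := h _ h1
      refine ⟨g * c, hmn _ ?_, ?_⟩
      · rw [← hmm, ← hgc, hmm, mul_inv_cancel]
        ext y
        simp
      · rw [mul_smul, MulAction.mem_stabilizer_iff.mp hc, hg]
    obtain ⟨n₁, hn₁, h₁⟩ := key a ha
    obtain ⟨n₂, hn₂, h₂⟩ := key b hb
    refine ⟨n₂ * n₁⁻¹, mul_mem hn₂ (inv_mem hn₁), ?_⟩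
    rw [← h₁, mul_smul, inv_smul_smul, h₂]

end Cfsg.Agent.S3760
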