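import Cfsg.Statements.S3766
import Cfsg.Agent.Lib.FitCrit

set_option autoImplicit false
open Cfsg

namespace Cfsg.Agent.S3766

open Subgroup Lib.Coprime Lib.CoprimeB
open scoped commutatorElement

/-- chief pair -/
def Chief {G : Type*} [Group G] (U V : Subgroup G) : Prop :=
  U.Normal ∧ V.Normal ∧ V < U ∧ ∀ W : Subgroup G, W.Normal → V ≤ W → W ≤ U → W = V ∨ W = U

theorem fitting_centralizes {G : Type*} [Group G] [Finite G] {U V : Subgroup G} (h : Chief U V)
    {g : G} (hg : g ∈ fittingSubgroup G) : ∀ u ∈ U, u * g * u⁻¹ * g⁻¹ ∈ V := by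
  obtain ⟨hU, hV, hVU, hmin⟩ := h
  have hFn : (fittingSubgroup G).Normal := Lib.Cores.fitting_normal
  have hW : (⁅U, fittingSubgroup G⁆ ⊔ V).Normal := inferInstance
  have hWU : ⁅U, fittingSubgroup G⁆ ⊔ V ≤ U := sup_le (commutator_le_left _ _) hVU.le
  rcases hmin _ hW le_sup_right hWU with h1 | h1
  · intro u hu
    rw [← h1]
    exact mem_sup_left (commutator_mem_commutator hu hg)
  · exfalso
    -- in G/V
    let π := QuotientGroup.mk' V
    have hs : Function.Surjective π := QuotientGroup.mk'_surjective V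
    have hUb : U.map π ≠ ⊥ := by
      intro h2
      rw [Subgroup.map_eq_bot_iff, QuotientGroup.ker_mk'] at h2
      exact hVU.not_ge h2
    have hFb : ((fittingSubgroup G).map π).Normal := Normal.map hFn _ hs
    have hUn : (U.map π).Normal := Normal.map hU _ hs
    have hFnil : Group.IsNilpotent ((fittingSubgroup G).map π) := by
      have h2 : Group.IsNilpotent (fittingSubgroup G) := Lib.Cores.fitting_nilpotent
      exact Group.nilpotent_of_surjective (π.subgroupMap (fittingSubgroup G)) (π.subgroupMap_surjective _)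
    have heq : ⁅U.map π, (fittingSubgroup G).map π⁆ = U.map π := by
      rw [← map_commutator]
      conv_rhs => rw [← h1]
      rw [Subgroup.map_sup, QuotientGroup.map_mk'_self, sup_bot_eq]
    have hle : U.map π ≤ (fittingSubgroup G).map π := by
      rw [← heq]; exact commutator_le_right _ _
    exact H2.PUtil.commutator_ne hFnil hle hUb heq

/-- Let G be a finite solvable group and N a normal subgroup of G. Call a pair V < U of normal subgroups of G a chief factor of G when no normal subgroup of G lies strictly between them; an element g centralizes the chief factor U/V when u g u⁻¹ g⁻¹ ∈ V for all u ∈ U. Then an element of G lies in the Fitting subgroup F(N) if and only if it lies in N and centralizes every chief factor of G; and also if and only if it lies in N and centralizes every chief factor U/V of G with U ≤ F(N). -/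
theorem result {G : Type*} [Group G] [Finite G] (hG : Group.IsSolvable G) (N : Subgroup G) [N.Normal] (g : G) : (g ∈ (Cfsg.fittingSubgroup ↥N).map N.subtype ↔ g ∈ N ∧ ∀ U V : Subgroup G, (U.Normal ∧ V.Normal ∧ V < U ∧ ∀ W : Subgroup G, W.Normal → V ≤ W → W ≤ U → W = V ∨ W = U) → ∀ u ∈ U, u * g * u⁻¹ * g⁻¹ ∈ V) ∧ (g ∈ (Cfsg.fittingSubgroup ↥N).map N.subtype ↔ g ∈ N ∧ ∀ U V : Subgroup G, (U.Normal ∧ V.Normal ∧ V < U ∧ ∀ W : Subgroup G, W.Normal → V ≤ W → W ≤ U → W = V ∨ W = U) → U ≤ (Cfsg.fittingSubgroup ↥N).map N.subtype → ∀ u ∈ U, u * g * u⁻¹ * g⁻¹ ∈ V) := by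
  classical
  have hN : N.Normal := inferInstance
  have hFN : (fittingSubgroup N).map N.subtype = fittingSubgroup G ⊓ N :=
    Lib.Components.fitting_subnormal_map hN.isSubnormal
  -- the set K
  let K : Subgroup G :=
    { carrier := {g | g ∈ N ∧ ∀ U V : Subgroup G, Chief U V → U ≤ (fittingSubgroup N).map N.subtype →
        ∀ u ∈ U, u * g * u⁻¹ * g⁻¹ ∈ V}
      one_mem' := ⟨one_mem _, fun U V h _ u _ => by simpa using V.one_mem⟩
      mul_mem' := by
        rintro a b ⟨ha, ha'⟩ ⟨hb, hb'⟩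
        refine ⟨mul_mem ha hb, fun U V h hU u hu => ?_⟩
        have h1 := ha' U V h hU u hu
        have h2 := h.2.1.conj_mem _ (hb' U V h hU u hu) a
        have e : u * (a * b) * u⁻¹ * (a * b)⁻¹ = (u * a * u⁻¹ * a⁻¹) * (a * (u * b * u⁻¹ * b⁻¹) * a⁻¹) := by group
        rw [e]; exact V.mul_mem h1 h2
      inv_mem' := by
        rintro a ⟨ha, ha'⟩
        refine ⟨inv_mem ha, fun U V h hU u hu => ?_⟩
        have h1 := h.2.1.conj_mem _ (V.inv_mem (ha' U V h hU u hu)) a⁻¹
        have e : a⁻¹ * (u * a * u⁻¹ * a⁻¹)⁻¹ * a⁻¹⁻¹ = u * a⁻¹ * u⁻¹ * a⁻¹⁻¹ := by group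
        rw [e] at h1; exact h1 }
  have hKn : K.Normal := ⟨by
    rintro a ⟨ha, ha'⟩ g
    refine ⟨hN.conj_mem a ha g, fun U V h hU u hu => ?_⟩
    have h1 : g⁻¹ * u * g⁻¹⁻¹ ∈ U := h.1.conj_mem u hu g⁻¹
    have h2 := h.2.1.conj_mem _ (ha' U V h hU _ h1) g
    have e : g * (g⁻¹ * u * g⁻¹⁻¹ * a * (g⁻¹ * u * g⁻¹⁻¹)⁻¹ * a⁻¹) * g⁻¹ = u * (g * a * g⁻¹) * u⁻¹ * (g * a * g⁻¹)⁻¹ := by group
    rw [e] at h2; exact h2⟩
  have hKs : Group.IsSolvable K := inferInstance
  have hKN : K ≤ N := fun x hx => hx.1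
  have hKF : K ≤ fittingSubgroup G := by
    apply Lib.FitCrit.le_fitting hKs
    intro q hq x hx hxq y hy hyK
    have hq' : Fact q.Prime := ⟨hq⟩
    have hOn := Lib.Cores.pCore_normal (G := G) q
    have hOp := Lib.Cores.pCore_isPGroup (G := G) q
    set P : Subgroup G := pCore q G ⊓ K with hP
    have hPn : P.Normal := inferInstance
    have hPp : IsPGroup q P := hOp.to_le inf_le_left
    have hPF : P ≤ (fittingSubgroup N).map N.subtype := by
      rw [hFN]
      exact le_inf (inf_le_left.trans (le_sSup ⟨hOn, hOp.isNilpotent⟩)) (inf_le_right.trans hKN)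
    have hcen : ⁅P, zpowers x⁆ = ⊥ := by
      by_contra hne
      obtain ⟨P₀, hP₀⟩ := (Set.toFinite {Q : Subgroup G | Q.Normal ∧ Q ≤ P ∧ ⁅Q, zpowers x⁆ ≠ ⊥}).exists_minimal
        ⟨P, hPn, le_rfl, hne⟩
      obtain ⟨hP₀n, hP₀P, hP₀x⟩ := hP₀.prop
      have hP₀1 : (⊥ : Subgroup G) < P₀ := by
        rw [bot_lt_iff_ne_bot]; rintro rfl; exact hP₀x (commutator_bot_left _)
      obtain ⟨V, hV⟩ := (Set.toFinite {Q : Subgroup G | Q.Normal ∧ Q < P₀}).exists_maximal ⟨⊥, inferInstance, hP₀1⟩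
      obtain ⟨hVn, hVlt⟩ := hV.prop
      have hch : Chief P₀ V := by
        refine ⟨hP₀n, hVn, hVlt, fun W hW h1 h2 => ?_⟩
        by_cases h3 : W = P₀
        · exact Or.inr h3
        · left
          exact le_antisymm (hV.le_of_ge ⟨hW, lt_of_le_of_ne h2 h3⟩ h1) h1
      have hVx : ⁅V, zpowers x⁆ = ⊥ := by
        by_contra h4
        exact hVlt.not_ge (hP₀.le_of_le ⟨hVn, hVlt.le.trans hP₀P, h4⟩ hVlt.le)
      apply hP₀x
      apply le_centralizer_of_commutator_le (N := V)
        (by rw [normalizer_eq_top_iff.mpr hP₀n]; exact le_top)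
        (Lib.MinAct.coprime_of_pgroup (hPp.to_le hP₀P) (by rw [Nat.card_zpowers]; exact hxq))
        (Or.inl inferInstance) _ hVx
      rw [commutator_le]
      intro u hu a ha
      have haK : a ∈ K := (zpowers_le.2 hx) ha
      have := haK.2 P₀ V hch (hP₀P.trans hPF) u hu
      rw [commutatorElement_def]; exact this
    rw [commutator_eq_bot_iff_le_centralizer] at hcen
    exact mem_centralizer_iff.1 (hcen ⟨hy, hyK⟩) x (mem_zpowers x)
  refine ⟨⟨?_, ?_⟩, ⟨?_, ?_⟩⟩
  · intro hg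
    rw [hFN] at hg
    exact ⟨hg.2, fun U V h => fitting_centralizes h hg.1⟩
  · rintro ⟨hgN, hg⟩
    rw [hFN]
    exact ⟨hKF ⟨hgN, fun U V h _ => hg U V h⟩, hgN⟩
  · intro hg
    rw [hFN] at hg
    exact ⟨hg.2, fun U V h _ => fitting_centralizes h hg.1⟩
  · rintro ⟨hgN, hg⟩
    rw [hFN]
    exact ⟨hKF ⟨hgN, fun U V h hU => hg U V h hU⟩, hgN⟩

end Cfsg.Agent.S3766
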