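import Cfsg.Statements.S3768
import Mathlib
import Cfsg.Agent.Lib.CharFrobThm
import Cfsg.Agent.Lib.FrobGrp

set_option autoImplicit false
open Cfsg

namespace Cfsg.Agent.S3768

open Subgroup Cfsg.Agent.Lib.Basic
open scoped Pointwise commutatorElement

/-- Let G be a finite Frobenius group with Frobenius complement R and Frobenius kernel K (the identity together with the elements in no conjugate of R), and let N be a normal subgroup of G not containing K. Then G/N is a Frobenius group with Frobenius complement RN/N whose Frobenius kernel is the image of K. -/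
theorem result {G : Type*} [Group G] [Finite G] (R : Subgroup G) (hR : Cfsg.IsFrobeniusComplement R) (N : Subgroup G) [N.Normal] (hKN : ¬ Cfsg.frobeniusKernel R ⊆ N) : Cfsg.IsFrobeniusComplement (R.map (QuotientGroup.mk' N)) ∧ Cfsg.frobeniusKernel (R.map (QuotientGroup.mk' N)) = QuotientGroup.mk' N '' Cfsg.frobeniusKernel R := by
  open Subgroup in
  open Cfsg.Agent.Lib in
  obtain ⟨K, hK, hKn, hKR⟩ := CharFrobThm.frobenius (show Frob.TI R from hR.2.2)
  have hfree : ∀ h ∈ R, h ≠ 1 → ∀ k ∈ K, k * h = h * k → k = 1 := fun h hh h1 k hk hc =>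
    FrobGrp.kernel_not_commute hR hK.symm hh h1 hk hc
  have hKR1 : ∀ x, x ∈ K → x ∈ R → x = 1 := by
    intro x h1 h2
    have : x ∈ K ⊓ R := ⟨h1, h2⟩
    rwa [FrobGrp.kernel_inf hK.symm, mem_bot] at this
  -- `N ≤ K`
  have hNK : N ≤ K := by
    by_contra hNK
    rw [← hK] at hKN
    apply hKN
    obtain ⟨x, hxN, hxK⟩ := SetLike.not_le_iff_exists.1 hNK
    have h1 : x ∉ Cfsg.frobeniusKernel R := by rw [← hK]; exact hxK
    rw [FrobGrp.mem_frobeniusKernel] at h1
    push Not at h1
    obtain ⟨hx1, g, hg⟩ := h1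
    set c := g⁻¹ * x * g with hc
    have hcN : c ∈ N := by
      have := Normal.conj_mem (H := N) inferInstance x hxN g⁻¹
      rwa [inv_inv] at this
    have hc1 : c ≠ 1 := by
      intro h2
      apply hx1
      have : x = g * c * g⁻¹ := by rw [hc]; group
      rw [this, h2]; group
    intro k hk
    obtain ⟨u, hu, hue⟩ := ClassSizes.exists_conj_of_coset K c (fun u hu huc => hfree c hg hc1 u hu huc) hk
    have h3 : k = c⁻¹ * (u * c * u⁻¹) := by rw [hue]; group
    rw [h3]
    have h4 := Normal.conj_mem (H := N) inferInstance c hcN u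
    exact mul_mem (inv_mem hcN) h4
  have hsup : K ⊔ R = ⊤ := hKR.sup_eq_top
  have hker : Cfsg.frobeniusKernel R = (K : Set G) := hK.symm
  set π := QuotientGroup.mk' N with hπ
  have hsurj : Function.Surjective π := QuotientGroup.mk'_surjective N
  haveI : (K.map π).Normal := Normal.map hKn _ hsurj
  have h1 : K.map π ⊓ R.map π = ⊥ := by
    rw [eq_bot_iff]
    rintro _ ⟨⟨k, hk, rfl⟩, ⟨r, hr, hrk⟩⟩
    have h2 : r⁻¹ * k ∈ N := QuotientGroup.eq.1 hrk
    have h3 : r ∈ K := by
      have h4 := mul_mem hk (inv_mem (hNK h2))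
      have h5 : k * (r⁻¹ * k)⁻¹ = r := by group
      rwa [h5] at h4
    have h4 := hKR1 r h3 hr
    rw [mem_bot, ← hrk, h4, map_one]
  have h2 : K.map π ⊔ R.map π = ⊤ := by
    rw [← Subgroup.map_sup, hsup, Subgroup.map_top_of_surjective _ hsurj]
  have h3 : K.map π ≠ ⊥ := by
    intro h4
    rw [Subgroup.map_eq_bot_iff, QuotientGroup.ker_mk'] at h4
    apply hKN
    rw [hker]
    exact h4
  have h4 : R.map π ≠ ⊥ := by
    intro h4
    rw [Subgroup.map_eq_bot_iff, QuotientGroup.ker_mk'] at h4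
    apply hR.1
    rw [eq_bot_iff]
    intro r hr
    exact hKR1 r (hNK (h4 hr)) hr
  have h5 := FrobGrp.frobenius_of_complement h1 h2 h3 h4 (by
    rintro _ ⟨r, hr, rfl⟩ hr1 _ ⟨k, hk, rfl⟩ hc
    rw [← map_mul, ← map_mul] at hc
    have hr1' : r ≠ 1 := by
      rintro rfl
      exact hr1 (map_one _)
    have h6 : (r * k)⁻¹ * (k * r) ∈ N := QuotientGroup.eq.1 hc.symm
    -- `k⁻¹ r⁻¹ k r ∈ N`
    have h7 : r⁻¹ * (k * r * k⁻¹) ∈ N := by
      have h8 := Normal.conj_mem (H := N) inferInstance _ h6 k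
      have h9 : k * ((r * k)⁻¹ * (k * r)) * k⁻¹ = r⁻¹ * (k * r * k⁻¹) := by group
      rwa [h9] at h8
    obtain ⟨u, hu, hue⟩ := ClassSizes.exists_conj_of_coset N r (fun u hu huc => hfree r hr hr1' u (hNK hu) huc) h7
    have h8 : u * r * u⁻¹ = k * r * k⁻¹ := by rw [hue]; group
    have h9 : u⁻¹ * k = 1 := by
      apply hfree r hr hr1' _ (mul_mem (inv_mem (hNK hu)) hk)
      calc u⁻¹ * k * r = u⁻¹ * (k * r * k⁻¹) * k := by group
        _ = u⁻¹ * (u * r * u⁻¹) * k := by rw [h8]
        _ = r * (u⁻¹ * k) := by group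
    have h10 : k = u := (inv_mul_eq_one.1 h9).symm
    rw [h10]
    exact (QuotientGroup.eq_one_iff _).2 hu)
  refine ⟨h5.1, ?_⟩
  rw [h5.2, hker]
  rfl

end Cfsg.Agent.S3768
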