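import Cfsg.Statements.S3771
import Cfsg.Agent.H2.PUtil

set_option autoImplicit false
open Cfsg

namespace Cfsg.Agent.S3771

open Subgroup
open scoped commutatorElement

/-- Let p be a prime and R a finite p-group of p-rank at most 2 (no elementary abelian subgroup of order p³) in which every element has order dividing p. Then R has order at most p³. -/
theorem result {R : Type*} [Group R] [Finite R] {p : ℕ} [Fact p.Prime] (hR : IsPGroup p R) (hrank : Cfsg.PRankLE p 2 R) (hexp : ∀ x : R, x ^ p = 1) : Nat.card R ≤ p ^ 3 := by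
  have hp : p.Prime := Fact.out
  have hnil : Group.IsNilpotent R := hR.isNilpotent
  obtain ⟨A, hAn, hAc, hAmax⟩ := H2.PUtil.exists_max_abelian_normal (G := R)
  have hCA := Lib.Nilp.centralizer_eq_of_maximal_abelian_normal A hAc hAmax
  have hA2 : Nat.card A ≤ p ^ 2 := hrank A hAc (fun a _ => hexp a)
  by_cases hcen : A ≤ center R
  · have : centralizer (A : Set R) = ⊤ := by
      rw [eq_top_iff]
      intro x _
      rw [mem_centralizer_iff]
      intro a ha
      exact (mem_center_iff.1 (hcen ha) x).symm
    rw [this] at hCA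
    rw [← Subgroup.card_top, hCA]
    exact hA2.trans (Nat.pow_le_pow_right hp.pos (by norm_num))
  obtain ⟨b, hbA, hbZ⟩ := SetLike.not_le_iff_exists.1 hcen
  have hA1 : A ≠ ⊥ := by rintro rfl; exact hcen bot_le
  have hD : ⁅A, (⊤ : Subgroup R)⁆ < A :=
    lt_of_le_of_ne (commutator_le_left A ⊤) (H2.PUtil.commutator_top_ne hA1)
  have hDc := H2.PUtil.card_le_of_lt (n := 1) (hR.to_subgroup A) hD hA2
  rw [pow_one] at hDc
  have hDp : IsPGroup p (⁅A, (⊤ : Subgroup R)⁆ : Subgroup R) := hR.to_subgroup _
  have hcent := H2.PUtil.centralizes_of_card_le (hR.to_subgroup (⊤ : Subgroup R))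
    (normalizer_commutator_ge_right A ⊤) hDp hDc
  have h1 := (H2.PUtil.card_centralizing (B := ⊤) b hDc hDp
    (fun c _ => commutator_mem_commutator hbA (mem_top c))
    (fun d hd c hc => mem_centralizer_iff.1 (hcent hc) d hd)).2 (by
      intro h
      apply hbZ
      rwa [Subgroup.coe_top, Subgroup.centralizer_univ] at h)
  -- A = Z ⊔ ⟨b⟩
  have hZ := Lib.Nilp.normal_inf_center_ne_bot A hA1
  have hZlt : A ⊓ center R < (A ⊓ center R) ⊔ zpowers b := by
    refine lt_of_le_of_ne le_sup_left ?_
    intro h
    have : b ∈ A ⊓ center R := by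
      rw [h]; exact (le_sup_right : zpowers b ≤ _) (mem_zpowers b)
    exact hbZ this.2
  have hle : (A ⊓ center R) ⊔ zpowers b ≤ A :=
    sup_le inf_le_left (by rwa [zpowers_le])
  have hAeq : (A ⊓ center R) ⊔ zpowers b = A := by
    by_contra hne
    have h2 := H2.PUtil.card_le_of_lt (n := 1) (hR.to_subgroup A) (lt_of_le_of_ne hle hne) hA2
    have h3 := H2.PUtil.card_le_of_lt (n := 0) (hR.to_subgroup _) hZlt h2
    rw [pow_zero] at h3
    apply hZ
    rw [← Subgroup.card_eq_one]
    have := Nat.card_pos (α := (A ⊓ center R : Subgroup R))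
    omega
  have h4 : Nat.card {c : (⊤ : Subgroup R) // b * (c : R) = c * b} ≤ Nat.card A := by
    refine Nat.card_le_card_of_injective (fun c => (⟨(c.1 : R), ?_⟩ : A)) ?_
    · rw [← hCA, mem_centralizer_iff]
      have h5 : A ≤ centralizer {(c.1 : R)} := by
        rw [← hAeq, sup_le_iff]
        constructor
        · intro z hz
          rw [mem_centralizer_singleton_iff]
          exact ((mem_center_iff.1 hz.2) _).symm
        · rw [zpowers_le, mem_centralizer_singleton_iff]
          exact c.2
      intro a ha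
      have := h5 ha
      rw [mem_centralizer_singleton_iff] at this
      exact this
    · intro c d h
      have : (c.1 : R) = d.1 := by simpa using h
      exact Subtype.ext (Subtype.ext this)
  calc Nat.card R = Nat.card (⊤ : Subgroup R) := Subgroup.card_top.symm
    _ = p * Nat.card {c : (⊤ : Subgroup R) // b * (c : R) = c * b} := h1.symm
    _ ≤ p * p ^ 2 := Nat.mul_le_mul_left _ (h4.trans hA2)
    _ = p ^ 3 := by ring

end Cfsg.Agent.S3771
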