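import Cfsg.Statements.S3772
import Mathlib
import Cfsg.Agent.H2.QuadSum
import Cfsg.Agent.Lib.Nilp

set_option autoImplicit false
open Cfsg

namespace Cfsg.Agent.S3772

open Subgroup Cfsg.Agent.H2.QuadSum

theorem core3772 {G : Type*} [Group G] [Finite G] (hG : IsPGroup 2 G) (hΦ : Nat.card (frattini G) = 2) (d : ℕ)
    (hd : (frattini G).index = 2 ^ d) :
    ∃ (R : Subgroup G) (z : ℕ), Nat.card R = 2 ^ z ∧ frattini G ≤ center G ∧ center G ≤ R ∧ 1 ≤ z ∧
      (Nat.card {x : G // x ^ 2 = 1} = 2 ^ d ∨
        ∃ t : ℕ, 2 * t = d + 1 + z ∧ z ≤ d ∧ ((2 * (Nat.card {x : G // x ^ 2 = 1}) : ℤ) = 2 ^ (d + 1) + 2 ^ t ∨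
          (2 * (Nat.card {x : G // x ^ 2 = 1}) : ℤ) = 2 ^ (d + 1) - 2 ^ t)) := by
  classical
  have := Fintype.ofFinite G
  obtain ⟨w, hw⟩ : ∃ w : frattini G, w ≠ 1 := by
    have : Nontrivial (frattini G) := by
      rw [← Finite.one_lt_card_iff_nontrivial, hΦ]; norm_num
    exact exists_ne 1
  have hmem : ∀ a ∈ frattini G, a = 1 ∨ a = w := by
    intro a ha
    by_contra hno
    push Not at hno
    have h3 : 2 < Nat.card (frattini G) := by
      have := Fintype.ofFinite (frattini G)
      rw [Nat.card_eq_fintype_card]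
      rw [Fintype.two_lt_card_iff]
      exact ⟨1, w, ⟨a, ha⟩, hw.symm, fun h => hno.1 (congrArg Subtype.val h).symm, fun h => hno.2 (congrArg Subtype.val h).symm⟩
    omega
  have hfn : (frattini G).Normal := inferInstance
  have hcent : frattini G ≤ center G := by
    intro a ha
    rw [mem_center_iff]
    intro g
    rcases hmem a ha with rfl | rfl
    · rw [mul_one, one_mul]
    · have h1 := hfn.conj_mem _ ha g
      rcases hmem _ h1 with h2 | h2
      · exfalso
        apply hw
        apply Subtype.ext
        have : (w : G) = g⁻¹ * (g * w * g⁻¹) * g := by group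
        rw [this, h2]
        show g⁻¹ * 1 * g = 1
        group
      · exact mul_inv_eq_iff_eq_mul.mp h2
  have hw2 : (w : G) * w = 1 := by
    rcases hmem _ ((frattini G).mul_mem w.2 w.2) with h | h
    · exact h
    · exfalso
      apply hw
      apply Subtype.ext
      exact mul_eq_left.mp h
  have hw1 : (w : G) ≠ 1 := fun h => hw (Subtype.ext h)
  have D : Data (frattini G) (fun g => if g = 1 then 1 else -1) :=
    { cent := hcent
      comm := fun g h => Cfsg.Agent.Lib.Nilp.commutator_le_frattini hG (by
        have := commutator_mem_commutator (mem_top g) (mem_top h)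
        exact this)
      sq := fun g => Cfsg.Agent.Lib.Nilp.pow_mem_frattini hG g
      mul := by
        intro a ha b hb
        rcases hmem a ha with rfl | rfl <;> rcases hmem b hb with rfl | rfl
        · simp
        · simp
        · simp
        · simp [hw2, hw1]
      sign := by
        intro a _
        by_cases h : a = 1
        · left; simp [h]
        · right; simp [h]
      one := by simp }
  obtain ⟨z, hz⟩ := IsPGroup.iff_card.mp (hG.to_subgroup (rad D))
  have hz1 : 1 ≤ z := by
    have h1 : 2 ∣ 2 ^ z := by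
      rw [← hz, ← hΦ]
      exact card_dvd_of_le (hcent.trans (center_le_rad D))
    rcases Nat.eq_zero_or_pos z with h | h
    · rw [h] at h1; norm_num at h1
    · exact h
  refine ⟨rad D, z, hz, hcent, center_le_rad D, hz1, ?_⟩
  have hcard : Nat.card G = 2 ^ (d + 1) := by
    rw [← (frattini G).card_mul_index, hΦ, hd, pow_succ, mul_comm]
  obtain ⟨j, hj⟩ : ∃ j, j = Nat.card {x : G // x ^ 2 = 1} := ⟨_, rfl⟩
  rw [← hj]
  have hT : (∑ g : G, (fun g : G => if g = 1 then (1 : ℤ) else -1) (g ^ 2)) = 2 * (j : ℤ) - 2 ^ (d + 1) := by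
    have h1 : ∀ g : G, (fun g : G => if g = 1 then (1 : ℤ) else -1) (g ^ 2) = 2 * (if g ^ 2 = 1 then 1 else 0) - 1 := by
      intro g
      show (if g ^ 2 = 1 then (1 : ℤ) else -1) = _
      split_ifs <;> norm_num
    rw [Finset.sum_congr rfl fun g _ => h1 g, Finset.sum_sub_distrib, ← Finset.mul_sum, Finset.sum_boole, Finset.sum_const,
      Finset.card_univ, nsmul_eq_mul, mul_one, ← Nat.card_eq_fintype_card, hcard, hj, Nat.card_eq_fintype_card, Fintype.card_subtype]
    push_cast
    ring
  have hsq := sq_sum D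
  rw [hT] at hsq
  rcases hsq with h0 | ⟨hall, h1⟩
  · left
    have h2 : 2 * (j : ℤ) - 2 ^ (d + 1) = 0 := by
      exact pow_eq_zero_iff (two_ne_zero) |>.mp h0
    have h3 : (j : ℤ) = 2 ^ d := by
      rw [pow_succ] at h2; linarith
    exact_mod_cast h3
  · right
    rw [hcard, hz] at h1
    have hzd : z ≤ d := by
      by_contra hlt
      push Not at hlt
      have h2 : rad D = ⊤ := by
        apply Subgroup.eq_top_of_le_card
        rw [hcard, hz]
        exact Nat.pow_le_pow_right (by norm_num) hlt
      have h3 : ∀ x : G, x ^ 2 = 1 := by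
        intro x
        have h4 := hall x (h2 ▸ mem_top x)
        by_contra h5
        simp only [h5, if_false] at h4
        norm_num at h4
      have h4 := Cfsg.Agent.Lib.Nilp.frattini_eq_bot_of_elementary (V := G) (p := 2) (fun x y => by
        have e1 := h3 (x * y)
        have e2 := h3 x
        have e3 := h3 y
        rw [pow_two] at e1 e2 e3
        calc x * y = x * (x * y * (x * y)) * y := by rw [e1]; group
          _ = (x * x) * (y * x) * (y * y) := by group
          _ = y * x := by rw [e2, e3]; group) h3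
      rw [h4, card_bot] at hΦ
      norm_num at hΦ
    have h2 : (2 * (j : ℤ) - 2 ^ (d + 1)).natAbs ^ 2 = 2 ^ (d + 1 + z) := by
      have : (((2 * (j : ℤ) - 2 ^ (d + 1)).natAbs ^ 2 : ℕ) : ℤ) = ((2 ^ (d + 1 + z) : ℕ) : ℤ) := by
        rw [Nat.cast_pow, Int.natCast_natAbs, sq_abs, h1, pow_add 2 (d + 1) z]
        push_cast
        ring
      exact_mod_cast this
    obtain ⟨t, -, ht⟩ := (Nat.dvd_prime_pow Nat.prime_two).mp (show (2 * (j : ℤ) - 2 ^ (d + 1)).natAbs ∣ 2 ^ (d + 1 + z) by
      rw [← h2]; exact dvd_pow_self _ two_ne_zero)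
    refine ⟨t, ?_, hzd, ?_⟩
    · rw [ht, ← pow_mul] at h2
      have := Nat.pow_right_injective le_rfl h2
      omega
    · rcases Int.natAbs_eq (2 * (j : ℤ) - 2 ^ (d + 1)) with h3 | h3
      · left
        rw [ht] at h3
        push_cast at h3
        linarith
      · right
        rw [ht] at h3
        push_cast at h3
        linarith

/-- Let G be a finite 2-group whose Frattini subgroup Φ(G) has order 2, with |G : Φ(G)| = 2^d, and let j be the number of elements x of G with x² = 1. Then j = 2^d, or j = 2^d + 2^(d−r) or j = 2^d − 2^(d−r) for some positive integer r with 2r ≤ d. Moreover if d = 2r and j is 2^d + 2^r or 2^d − 2^r, then G is extraspecial. -/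
theorem result {G : Type*} [Group G] [Finite G] (hG : IsPGroup 2 G) (hΦ : Nat.card (frattini G) = 2) (d : ℕ) (hd : (frattini G).index = 2 ^ d) : (Nat.card {x : G // x ^ 2 = 1} = 2 ^ d ∨ ∃ r : ℕ, 1 ≤ r ∧ 2 * r ≤ d ∧ (Nat.card {x : G // x ^ 2 = 1} = 2 ^ d + 2 ^ (d - r) ∨ Nat.card {x : G // x ^ 2 = 1} + 2 ^ (d - r) = 2 ^ d)) ∧ (∀ r : ℕ, d = 2 * r → (Nat.card {x : G // x ^ 2 = 1} = 2 ^ d + 2 ^ r ∨ Nat.card {x : G // x ^ 2 = 1} + 2 ^ r = 2 ^ d) → Cfsg.IsExtraspecial 2 G) := by
  obtain ⟨R, z, hz, hcent, hR, hz1, hj⟩ := core3772 hG hΦ d hd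
  obtain ⟨j, hjdef⟩ : ∃ j, j = Nat.card {x : G // x ^ 2 = 1} := ⟨_, rfl⟩
  rw [← hjdef] at hj ⊢
  constructor
  · rcases hj with h | ⟨t, ht, hzd, h⟩
    · exact Or.inl h
    · right
      refine ⟨d + 1 - t, by omega, by omega, ?_⟩
      have h1 : d - (d + 1 - t) = t - 1 := by omega
      rw [h1]
      obtain ⟨s, rfl⟩ : ∃ s, t = s + 1 := ⟨t - 1, by omega⟩
      rw [Nat.add_sub_cancel]
      rcases h with h | h
      · left
        rw [pow_succ, pow_succ] at h
        have : (j : ℤ) = 2 ^ d + 2 ^ s := by linarith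
        exact_mod_cast this
      · right
        rw [pow_succ, pow_succ] at h
        have : (j : ℤ) + 2 ^ s = 2 ^ d := by linarith
        exact_mod_cast this
  · intro r hr h
    have hpos : (0 : ℤ) < 2 ^ r := by positivity
    rcases hj with h1 | ⟨t, ht, hzd, h1⟩
    · exfalso
      rw [h1] at h
      have : 0 < 2 ^ r := by positivity
      omega
    · have htr : t = r + 1 := by
        have h2 : (2 : ℤ) ^ t = 2 ^ (r + 1) := by
          rw [pow_succ]
          rcases h with h | h
          · have h' : (j : ℤ) = 2 ^ d + 2 ^ r := by exact_mod_cast h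
            rcases h1 with h1 | h1
            · rw [h', pow_succ] at h1; linarith
            · rw [h', pow_succ] at h1
              have : (0 : ℤ) < 2 ^ t := by positivity
              linarith
          · have h' : (j : ℤ) + 2 ^ r = 2 ^ d := by exact_mod_cast h
            rcases h1 with h1 | h1
            · have h3 : (j : ℤ) = 2 ^ d - 2 ^ r := by linarith
              rw [h3, pow_succ] at h1
              have : (0 : ℤ) < 2 ^ t := by positivity
              linarith
            · have h3 : (j : ℤ) = 2 ^ d - 2 ^ r := by linarith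
              rw [h3, pow_succ] at h1
              linarith
        exact pow_right_injective₀ (by norm_num : (0 : ℤ) < 2) (by norm_num) h2
      have hz' : z = 1 := by omega
      rw [hz', pow_one] at hz
      have hRe : frattini G = R := Subgroup.eq_of_le_of_card_ge (hcent.trans hR) (by rw [hz, hΦ])
      have hZ : center G = frattini G := le_antisymm (hRe ▸ hR) hcent
      have hd1 : 1 ≤ d := by omega
      have hna : commutator G ≠ ⊥ := by
        intro hc
        have h2 : center G = ⊤ := (commutator_eq_bot_iff_center_eq_top G).mp hc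
        rw [h2] at hZ
        rw [← hZ, index_top] at hd
        have : 1 < 2 ^ d := Nat.one_lt_two_pow (by omega)
        omega
      have hcf : commutator G = frattini G := by
        apply Subgroup.eq_of_le_of_card_ge (Cfsg.Agent.Lib.Nilp.commutator_le_frattini hG)
        rw [hΦ]
        have : Nat.card (commutator G) ≠ 1 := fun h => hna (card_eq_one.mp h)
        have := Nat.card_pos (α := commutator G)
        omega
      exact ⟨⟨hG, hZ.symm, hcf.trans hZ.symm⟩, by rw [hZ, hΦ]⟩

end Cfsg.Agent.S3772
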