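import Cfsg.Statements.S3773
import Mathlib
import Cfsg.Agent.H2.QuadCount
import Cfsg.Agent.H2.MetacB
import Cfsg.Agent.Lib.Nilp
import Cfsg.Agent.Lib.Basic

set_option autoImplicit false
open Cfsg

namespace Cfsg.Agent.S3773

open Subgroup Cfsg.Agent.H2.QuadCount

/-- Let G be a finite 2-group of nilpotency class at most 2 and exponent dividing 4 in which the elements x with x² = 1 form a subgroup N. Then |G| ≤ |N|³, and |G| < |N|³ unless G is special. -/
theorem result {G : Type*} [Group G] [Finite G] (hG : IsPGroup 2 G) (hcl : (⊤ : Subgroup G).lowerCentralSeries 2 = ⊥) (hexp : ∀ x : G, x ^ 4 = 1) (hN : ∀ x y : G, x ^ 2 = 1 → y ^ 2 = 1 → (x * y) ^ 2 = 1) : Nat.card G ≤ Nat.card {x : G // x ^ 2 = 1} ^ 3 ∧ (¬ Cfsg.IsSpecial 2 G → Nat.card G < Nat.card {x : G // x ^ 2 = 1} ^ 3) := by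
  classical
  have hp2 : Fact (Nat.Prime 2) := ⟨Nat.prime_two⟩
  -- class two
  have hcz : commutator G ≤ center G := by
    have h1 : (⊤ : Subgroup G).lowerCentralSeries 2 = ⁅(⊤ : Subgroup G).lowerCentralSeries 1, ⊤⁆ := rfl
    have h2 : (⊤ : Subgroup G).lowerCentralSeries 1 = ⁅(⊤ : Subgroup G), ⊤⁆ := rfl
    rw [hcl, h2] at h1
    have h3 := commutator_eq_bot_iff_le_centralizer.mp h1.symm
    rw [show centralizer ((⊤ : Subgroup G) : Set G) = center G from centralizer_univ] at h3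
    exact h3
  have hc : ∀ a b g : G, g * (a * b * a⁻¹ * b⁻¹) = (a * b * a⁻¹ * b⁻¹) * g := by
    intro a b g
    exact mem_center_iff.mp (hcz (commutator_mem_commutator (mem_top a) (mem_top b))) g
  -- (xy)^2 = x^2 y^2 [y,x] ; squares of commutators
  have hcsq : ∀ a b : G, (a * b * a⁻¹ * b⁻¹) ^ 2 = a ^ 2 * b * (a ^ 2)⁻¹ * b⁻¹ := by
    intro a b
    have h1 := hc a b a⁻¹
    have h2 : a ^ 2 * b * (a ^ 2)⁻¹ * b⁻¹ = a * (a * b * a⁻¹ * b⁻¹) * (b * a⁻¹ * b⁻¹) := by rw [sq]; group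
    rw [h2, hc a b a, sq]
    group
  have hcc : ∀ a b : G, (a * b * a⁻¹ * b⁻¹) ^ 2 = 1 := by
    intro a b
    obtain ⟨c, hcdef⟩ : ∃ c, c = b * a * b⁻¹ * a⁻¹ := ⟨_, rfl⟩
    have hcen : ∀ g, g * c = c * g := fun g => by rw [hcdef]; exact hc b a g
    have hba : b * a = c * (a * b) := by rw [hcdef]; group
    have hinv : a * b * a⁻¹ * b⁻¹ = c⁻¹ := by rw [hcdef]; group
    rw [hinv]
    -- c^4 = 1 from [b^4,a] and c^6 = 1
    have hpw : ∀ n : ℕ, b ^ n * a = c ^ n * (a * b ^ n) := by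
      intro n
      induction n with
      | zero => simp
      | succ n ih =>
        have e2 : b * c ^ n = c ^ n * b := (show Commute b c from hcen b).pow_right n
        calc b ^ (n + 1) * a = b * (b ^ n * a) := by rw [pow_succ']; group
          _ = (b * c ^ n) * (a * b ^ n) := by rw [ih]; group
          _ = c ^ n * (b * a) * b ^ n := by rw [e2]; group
          _ = (c ^ n * c) * (a * (b * b ^ n)) := by rw [hba]; group
          _ = c ^ (n + 1) * (a * b ^ (n + 1)) := by rw [← pow_succ, ← pow_succ']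
    have h4 : c ^ 4 = 1 := by
      have h1 := hpw 4
      rw [hexp b, one_mul, mul_one] at h1
      exact (eq_mul_inv_of_mul_eq h1.symm).trans (mul_inv_cancel a)
    have hsqab : (a * b) ^ 2 = c * (a ^ 2 * b ^ 2) := by
      calc (a * b) ^ 2 = a * (b * a) * b := by rw [sq]; group
        _ = (a * c) * (a * b) * b := by rw [hba]; group
        _ = c * (a * a * (b * b)) := by rw [hcen a]; group
        _ = _ := by rw [sq, sq]
    have h2 : c ^ 2 = 1 := by
      have h1 := hexp (a * b)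
      have e1 : (a * b) ^ 4 = ((a * b) ^ 2) * ((a * b) ^ 2) := by rw [← pow_add]
      have e2 : b ^ 2 * a ^ 2 = a ^ 2 * b ^ 2 := by
        have h5 := hpw 2
        have hcen2 : ∀ g, g * c ^ 2 = c ^ 2 * g := fun g => (show Commute g c from hcen g).pow_right 2
        calc b ^ 2 * a ^ 2 = (b ^ 2 * a) * a := by rw [sq a, mul_assoc]
          _ = (c ^ 2 * (a * b ^ 2)) * a := by rw [h5]
          _ = c ^ 2 * (a * (b ^ 2 * a)) := by simp only [mul_assoc]
          _ = c ^ 2 * (a * (c ^ 2 * (a * b ^ 2))) := by rw [h5]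
          _ = c ^ 2 * ((a * c ^ 2) * (a * b ^ 2)) := by simp only [mul_assoc]
          _ = c ^ 2 * ((c ^ 2 * a) * (a * b ^ 2)) := by rw [hcen2 a]
          _ = (c ^ 2 * c ^ 2) * (a * a * b ^ 2) := by simp only [mul_assoc]
          _ = a ^ 2 * b ^ 2 := by rw [← pow_add, h4, one_mul, ← sq]
      rw [e1, hsqab] at h1
      have e3 : c * (a ^ 2 * b ^ 2) * (c * (a ^ 2 * b ^ 2)) = (c * c) * (a ^ 2 * (b ^ 2 * a ^ 2) * b ^ 2) := by
        calc c * (a ^ 2 * b ^ 2) * (c * (a ^ 2 * b ^ 2)) = c * ((a ^ 2 * b ^ 2) * c) * (a ^ 2 * b ^ 2) := by group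
          _ = c * (c * (a ^ 2 * b ^ 2)) * (a ^ 2 * b ^ 2) := by rw [hcen]
          _ = _ := by group
      rw [e3, e2] at h1
      have e4 : a ^ 2 * (a ^ 2 * b ^ 2) * b ^ 2 = 1 := by
        calc a ^ 2 * (a ^ 2 * b ^ 2) * b ^ 2 = (a ^ 2 * a ^ 2) * (b ^ 2 * b ^ 2) := by group
          _ = 1 := by rw [← pow_add, ← pow_add, hexp a, hexp b, one_mul]
      rw [e4, mul_one, ← sq] at h1
      exact h1
    rw [inv_pow, h2, inv_one]
  have hsqc : ∀ a : G, a ^ 2 ∈ center G := by
    intro a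
    rw [mem_center_iff]
    intro b
    have h1 := hcsq a b
    rw [hcc a b] at h1
    have h2 : a ^ 2 * b * (a ^ 2)⁻¹ = b := mul_inv_eq_one.mp h1.symm
    exact (mul_inv_eq_iff_eq_mul.mp h2).symm
  -- the Frattini subgroup
  let Ω : Subgroup G :=
    { carrier := {x | x ∈ center G ∧ x ^ 2 = 1}
      one_mem' := ⟨one_mem _, one_pow 2⟩
      mul_mem' := by
        rintro a b ⟨ha, ha2⟩ ⟨hb, hb2⟩
        exact ⟨mul_mem ha hb, hN a b ha2 hb2⟩
      inv_mem' := by
        rintro a ⟨ha, ha2⟩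
        exact ⟨inv_mem ha, by rw [inv_pow, ha2, inv_one]⟩ }
  have hΩn : Ω.Normal := ⟨fun x hx g => by
    rw [mem_center_iff.mp hx.1 g, mul_inv_cancel_right]; exact hx⟩
  have hcomΩ : commutator G ≤ Ω := by
    rw [_root_.commutator_def, commutator_le]
    intro a _ b _
    exact ⟨hcz (commutator_mem_commutator (mem_top a) (mem_top b)), hcc a b⟩
  have hAΩ : frattini G ≤ Ω := Cfsg.Agent.Lib.Nilp.frattini_le_of_elementary_quotient (p := 2) Ω hcomΩ
    (fun x => ⟨hsqc x, by rw [← pow_mul]; exact hexp x⟩)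
  obtain ⟨A, hAdef⟩ : ∃ A, A = frattini G := ⟨_, rfl⟩
  have hAcomm : commutator G ≤ A := hAdef ▸ Cfsg.Agent.Lib.Nilp.commutator_le_frattini hG
  have hAsq : ∀ g : G, g ^ 2 ∈ A := fun g => hAdef ▸ Cfsg.Agent.Lib.Nilp.pow_mem_frattini hG g
  rw [← hAdef] at hAΩ
  have hAc : A ≤ center G := fun a ha => (hAΩ ha).1
  have hA2 : ∀ a ∈ A, a ^ 2 = 1 := fun a ha => (hAΩ ha).2
  have hAcom' : ∀ g h : G, g * h * g⁻¹ * h⁻¹ ∈ A := fun g h => hAcomm (commutator_mem_commutator (mem_top g) (mem_top h))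
  -- numbers
  let N : Subgroup G :=
    { carrier := {x | x ^ 2 = 1}
      one_mem' := one_pow 2
      mul_mem' := fun {a b} ha hb => hN a b ha hb
      inv_mem' := fun {a} ha => by show a⁻¹ ^ 2 = 1; rw [inv_pow, show a ^ 2 = 1 from ha, inv_one] }
  have hNcard : Nat.card {x : G // x ^ 2 = 1} = Nat.card N := rfl
  have hAN : A ≤ N := fun a ha => hA2 a ha
  obtain ⟨k, hk⟩ := IsPGroup.iff_card.mp hG
  obtain ⟨m, hm⟩ := IsPGroup.iff_card.mp (hG.to_subgroup A)
  obtain ⟨w, hw⟩ := IsPGroup.iff_card.mp (hG.to_subgroup N)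
  have hmw : m ≤ w := by
    have h1 := card_dvd_of_le hAN
    rw [hm, hw] at h1
    exact (Nat.pow_dvd_pow_iff_le_right (by norm_num : 1 < 2)).mp h1
  have hmain : k ≤ m + 2 * w := by
    have h1 := count_dvd A hAc hA2 hAcom' hAsq A hAc ((k + m + 1) / 2) (by
      rw [hk, hm, ← pow_add]
      exact pow_dvd_pow 2 (by omega))
    rw [hNcard, hm, hw, ← pow_add] at h1
    have h2 := (Nat.pow_dvd_pow_iff_le_right (by norm_num : 1 < 2)).mp h1
    omega
  rw [hNcard, hk, hw, ← pow_mul]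
  refine ⟨Nat.pow_le_pow_right (by norm_num) (by omega), ?_⟩
  intro hns
  apply Nat.pow_lt_pow_right (by norm_num)
  by_contra hlt
  push Not at hlt
  have hwm : w = m := by omega
  have hk3 : k = 3 * m := by omega
  subst hwm
  have hNA : A = N := Subgroup.eq_of_le_of_card_ge hAN (by rw [hm, hw])
  have hmemA : ∀ x : G, x ^ 2 = 1 → x ∈ A := fun x hx => by rw [hNA]; exact hx
  apply hns
  have hZ : center G = A := by
    apply le_antisymm _ hAc
    intro z hz
    by_contra hzA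
    have hz2 : z ^ 2 ≠ 1 := fun h => hzA (hmemA z h)
    have hoz : orderOf z = 4 := by
      have h1 : orderOf z ∣ 4 := orderOf_dvd_of_pow_eq_one (hexp z)
      have h2 : ¬ orderOf z ∣ 2 := fun h => hz2 (orderOf_dvd_iff_pow_eq_one.mp h)
      have h3 : orderOf z ≤ 4 := Nat.le_of_dvd (by norm_num) h1
      interval_cases h : orderOf z
      · simp at h1
      · exact absurd (one_dvd 2) h2
      · exact absurd dvd_rfl h2
      · omega
      · rfl
    have hZn : (zpowers z).Normal := ⟨fun x hx g => by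
      have hxc : x ∈ center G := (zpowers_le.mpr hz) hx
      rw [mem_center_iff.mp hxc g, mul_inv_cancel_right]; exact hx⟩
    have hzz : ∀ x ∈ A, x ∈ zpowers z → x = 1 ∨ x = z ^ 2 := by
      intro x hxA hxz
      rw [← mem_powers_iff_mem_zpowers, Submonoid.mem_powers_iff] at hxz
      obtain ⟨n, rfl⟩ := hxz
      have h1 := hA2 _ hxA
      rw [← pow_mul, ← orderOf_dvd_iff_pow_eq_one, hoz] at h1
      have h2 : 2 ∣ n := by omega
      obtain ⟨j, rfl⟩ := h2
      rcases Nat.even_or_odd' j with ⟨i, rfl | rfl⟩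
      · left
        rw [show 2 * (2 * i) = 4 * i by ring, pow_mul, hexp, one_pow]
      · right
        rw [show 2 * (2 * i + 1) = 4 * i + 2 by ring, pow_add, pow_mul, hexp, one_pow, one_mul]
    have hinf : Nat.card (A ⊓ zpowers z : Subgroup G) = 2 := by
      have h1 : (A ⊓ zpowers z : Subgroup G) = zpowers (z ^ 2) := by
        apply le_antisymm
        · intro x hx
          rcases hzz x hx.1 hx.2 with h | h
          · rw [h]; exact one_mem _
          · rw [h]; exact mem_zpowers _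
        · rw [zpowers_le]
          exact mem_inf.mpr ⟨hAsq z, pow_mem (mem_zpowers z) 2⟩
      rw [h1, Nat.card_zpowers, orderOf_pow, hoz]
      norm_num
    have hker : (QuotientGroup.mk' (zpowers z)).ker = zpowers z := QuotientGroup.ker_mk' _
    have hAQ := Cfsg.Agent.H2.MetacB.card_eq_inf_mul_map (QuotientGroup.mk' (zpowers z)) A
    rw [hker, inf_comm (zpowers z) A, hinf, hm] at hAQ
    have hQ : Nat.card (G ⧸ zpowers z) * 4 = 2 ^ (3 * w) := by
      rw [← hk3, ← hk, card_eq_card_quotient_mul_card_subgroup (zpowers z), Nat.card_zpowers, hoz]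
    obtain ⟨B, hB⟩ : ∃ B, B = A.map (QuotientGroup.mk' (zpowers z)) := ⟨_, rfl⟩
    rw [← hB] at hAQ
    have hBc : B ≤ center (G ⧸ zpowers z) := by
      rw [hB]
      rintro _ ⟨a, ha, rfl⟩
      rw [mem_center_iff]
      intro g
      obtain ⟨g, rfl⟩ := QuotientGroup.mk'_surjective _ g
      rw [← map_mul, ← map_mul, mem_center_iff.mp (hAc ha) g]
    have hw1 : 1 ≤ w := by
      rcases Nat.eq_zero_or_pos w with h | h
      · rw [h] at hAQ; omega
      · exact h
    obtain ⟨v, rfl⟩ : ∃ v, w = v + 1 := ⟨w - 1, by omega⟩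
    have hBv : Nat.card B = 2 ^ v := by
      rw [pow_succ] at hAQ
      omega
    have hQv : Nat.card (G ⧸ zpowers z) = 2 ^ (3 * v + 1) := by
      rw [show 3 * (v + 1) = 3 * v + 1 + 2 by ring, pow_add _ (3 * v + 1)] at hQ
      omega
    have h1 := count_dvd B hBc (by
      rw [hB]
      rintro _ ⟨a, ha, rfl⟩
      rw [← map_pow, hA2 a ha, map_one]) (by
      intro g h
      obtain ⟨g, rfl⟩ := QuotientGroup.mk'_surjective _ g
      obtain ⟨h, rfl⟩ := QuotientGroup.mk'_surjective _ h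
      rw [hB]
      exact ⟨_, hAcom' g h, rfl⟩) (by
      intro g
      obtain ⟨g, rfl⟩ := QuotientGroup.mk'_surjective _ g
      rw [hB]
      exact ⟨_, hAsq g, rfl⟩) B hBc (2 * v + 1) (by
      rw [hQv, hBv, ← pow_add]
      exact pow_dvd_pow 2 (by omega))
    have hS : Nat.card {q : G ⧸ zpowers z // q ^ 2 = 1} = Nat.card B := by
      apply Nat.card_congr
      refine Equiv.subtypeEquivRight fun q => ?_
      obtain ⟨g, rfl⟩ := QuotientGroup.mk'_surjective _ q
      constructor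
      · intro h
        rw [← map_pow] at h
        have h2 : g ^ 2 ∈ zpowers z := (QuotientGroup.eq_one_iff _).mp h
        rw [hB]
        rcases hzz _ (hAsq g) h2 with h3 | h3
        · exact ⟨g, hmemA g h3, rfl⟩
        · have h4 : (g * z⁻¹) ^ 2 = 1 := by
            have h5 : Commute g z⁻¹ := ((show Commute g z from mem_center_iff.mp hz g)).inv_right
            rw [h5.mul_pow, h3, ← mul_pow_sub_one (by norm_num : (2:ℕ) ≠ 0) z] 
            group
          refine ⟨g * z⁻¹, hmemA _ h4, ?_⟩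
          rw [QuotientGroup.mk'_apply, QuotientGroup.mk'_apply, QuotientGroup.eq]
          have : (g * z⁻¹)⁻¹ * g = z := by
            have h5 : g * z = z * g := mem_center_iff.mp hz g
            group
          rw [this]; exact mem_zpowers z
      · rw [hB]
        rintro ⟨a, ha, hag⟩
        rw [← hag, ← map_pow, hA2 a ha, map_one]
    rw [hS, hBv, ← pow_add] at h1
    have h2 := (Nat.pow_dvd_pow_iff_le_right (by norm_num : 1 < 2)).mp h1
    omega
  have hC : commutator G = A := by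
    apply le_antisymm hAcomm
    by_contra hAC
    have hne : (commutator G).subgroupOf A ≠ ⊤ := by
      rw [Ne, subgroupOf_eq_top]; exact hAC
    obtain ⟨H₀, hH₀, hcH₀⟩ := Cfsg.Agent.Lib.Basic.exists_le_coatom hne
    have hi := Cfsg.Agent.Lib.Nilp.index_eq_prime_of_coatom (hG.to_subgroup A) hH₀
    obtain ⟨H, hH⟩ : ∃ H, H = H₀.map A.subtype := ⟨_, rfl⟩
    have hHA : H ≤ A := hH ▸ map_subtype_le _
    have hcH : commutator G ≤ H := by
      intro x hx
      rw [hH]
      exact ⟨⟨x, hAcomm hx⟩, hcH₀ hx, rfl⟩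
    have hHcard : Nat.card H * 2 = 2 ^ w := by
      rw [hH, card_map_of_injective A.subtype_injective, ← hm, ← H₀.card_mul_index, hi]
    have hHmem : ∀ a (ha : a ∈ A), a ∈ H ↔ (⟨a, ha⟩ : A) ∈ H₀ := by
      intro a ha
      rw [hH]
      constructor
      · rintro ⟨b, hb, hba⟩
        have : b = ⟨a, ha⟩ := Subtype.ext hba
        exact this ▸ hb
      · intro h; exact ⟨_, h, rfl⟩
    have hmulH : ∀ a ∈ A, ∀ b ∈ A, (a * b ∈ H ↔ (a ∈ H ↔ b ∈ H)) := by
      intro a ha b hb
      rw [hHmem a ha, hHmem b hb, hHmem _ (A.mul_mem ha hb)]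
      exact mul_mem_iff_of_index_two hi (a := ⟨a, ha⟩) (b := ⟨b, hb⟩)
    have hHn : H.Normal := ⟨fun x hx g => by
      rw [mem_center_iff.mp (hAc (hHA hx)) g, mul_inv_cancel_right]; exact hx⟩
    have hHcom : ∀ g h : G, g * h * g⁻¹ * h⁻¹ ∈ H := fun g h => hcH (commutator_mem_commutator (mem_top g) (mem_top h))
    obtain ⟨g₀, hg₀⟩ : ∃ g₀ : G, g₀ ^ 2 ∉ H := by
      by_contra hno
      push Not at hno
      have h1 := Cfsg.Agent.Lib.Nilp.frattini_le_of_elementary_quotient (p := 2) H hcH hno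
      rw [← hAdef] at h1
      have h2 := card_dvd_of_le h1
      have h3 := Nat.le_of_dvd Nat.card_pos h2
      rw [hm] at h3
      have := Nat.card_pos (α := H)
      omega
    have hsqmul : ∀ g h : G, ((g * h) ^ 2 ∈ H ↔ g ^ 2 * h ^ 2 ∈ H) := by
      intro g h
      have e : (g * h) ^ 2 = (g ^ 2 * h ^ 2) * (h⁻¹ ^ 2 * (g⁻¹ * h * g⁻¹⁻¹ * h⁻¹) * (h⁻¹ ^ 2)⁻¹) := by
        simp only [sq]; group
      rw [e]
      exact H.mul_mem_cancel_right (hHn.conj_mem _ (hHcom g⁻¹ h) _)
    let G₁ : Subgroup G :=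
      { carrier := {g | g ^ 2 ∈ H}
        one_mem' := by show (1 : G) ^ 2 ∈ H; rw [one_pow]; exact one_mem _
        mul_mem' := by
          intro a b ha hb
          exact (hsqmul a b).mpr (H.mul_mem ha hb)
        inv_mem' := by
          intro a ha
          show a⁻¹ ^ 2 ∈ H
          rw [inv_pow]; exact H.inv_mem ha }
    have hG₁mem : ∀ g, g ∈ G₁ ↔ g ^ 2 ∈ H := fun g => Iff.rfl
    have hG₁i : G₁.index = 2 := by
      rw [index_eq_two_iff]
      refine ⟨g₀, fun b => ?_⟩
      rw [hG₁mem, hG₁mem, hsqmul, hmulH _ (hAsq b) _ (hAsq g₀)]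
      by_cases hb : b ^ 2 ∈ H
      · exact Or.inr ⟨hb, fun h => hg₀ (h.mp hb)⟩
      · exact Or.inl ⟨⟨fun h => absurd h hb, fun h => absurd h hg₀⟩, hb⟩
    have hG₁c : Nat.card G₁ * 2 = 2 ^ (3 * w) := by
      have h9 := G₁.card_mul_index
      rw [hG₁i, hk, hk3] at h9
      exact h9
    have hAG₁ : A ≤ G₁ := fun a ha => by
      rw [hG₁mem, hA2 a ha]; exact one_mem _
    have hw1 : 1 ≤ w := by
      rcases Nat.eq_zero_or_pos w with h | h
      · rw [h] at hHcard; omega
      · exact h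
    obtain ⟨v, rfl⟩ : ∃ v, w = v + 1 := ⟨w - 1, by omega⟩
    have hHv : Nat.card H = 2 ^ v := by rw [pow_succ] at hHcard; omega
    have hG₁v : Nat.card G₁ = 2 ^ (3 * v + 2) := by
      rw [show 3 * (v + 1) = 3 * v + 2 + 1 by ring, pow_succ] at hG₁c
      omega
    have h1 := count_dvd (H.subgroupOf G₁) (by
      intro x hx
      rw [mem_center_iff]
      intro g
      exact Subtype.ext (mem_center_iff.mp (hAc (hHA hx)) g)) (by
      intro x hx
      exact Subtype.ext (hA2 _ (hHA hx))) (by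
      intro g h
      rw [mem_subgroupOf]
      exact hHcom g h) (by
      intro g
      rw [mem_subgroupOf]
      exact g.2) (A.subgroupOf G₁) (by
      intro x hx
      rw [mem_center_iff]
      intro g
      exact Subtype.ext (mem_center_iff.mp (hAc hx) g)) (2 * v + 2) (by
      rw [hG₁v, Nat.card_congr (subgroupOfEquivOfLe hAG₁).toEquiv, hm, ← pow_add]
      exact pow_dvd_pow 2 (by omega))
    have hS : Nat.card {g : G₁ // g ^ 2 = 1} = Nat.card A := by
      rw [← Nat.card_congr (subgroupOfEquivOfLe hAG₁).toEquiv]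
      apply Nat.card_congr
      refine Equiv.subtypeEquivRight fun g => ?_
      rw [mem_subgroupOf]
      constructor
      · intro h
        exact hmemA _ (congrArg Subtype.val h)
      · intro h
        exact Subtype.ext (hA2 _ h)
    rw [hS, Nat.card_congr (subgroupOfEquivOfLe (hHA.trans hAG₁)).toEquiv, hHv, hm, ← pow_add] at h1
    have h2 := (Nat.pow_dvd_pow_iff_le_right (by norm_num : 1 < 2)).mp h1
    omega
  exact ⟨hG, by rw [hZ, hAdef], by rw [hC, hZ]⟩

end Cfsg.Agent.S3773
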