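import Cfsg.Statements.S3774
import Mathlib

set_option autoImplicit false
open Cfsg

namespace Cfsg.Agent.S3774

/-- Let G be a nontrivial finite 2-group whose automorphism group permutes the involutions of G transitively. Then every involution of G is central, so that the involutions together with 1 form the subgroup Ω₁(Z(G)), and if this subgroup has order q then |G| is a power of q. -/
theorem result {G : Type*} [Group G] [Finite G] [Nontrivial G] (hG : IsPGroup 2 G) (htrans : ∀ x y : G, x ≠ 1 → x ^ 2 = 1 → y ≠ 1 → y ^ 2 = 1 → ∃ a : MulAut G, a x = y) : (∀ x : G, x ^ 2 = 1 → x ∈ Subgroup.center G) ∧ ∃ m : ℕ, Nat.card G = Nat.card {z : G // z ^ 2 = 1} ^ m := by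
  classical
  haveI h2f : Fact (Nat.Prime 2) := ⟨Nat.prime_two⟩
  -- an involution in the centre
  obtain ⟨z0, hz0, hz01, hz02⟩ : ∃ z ∈ Subgroup.center G, z ≠ 1 ∧ z ^ 2 = 1 := by
    haveI := hG.center_nontrivial
    have h1 : 2 ∣ Nat.card (Subgroup.center G) := by
      obtain ⟨n, hn⟩ := IsPGroup.iff_card.mp (hG.to_subgroup (Subgroup.center G))
      rw [hn]
      apply dvd_pow_self
      rintro rfl
      rw [pow_zero] at hn
      exact (Finite.one_lt_card (α := Subgroup.center G)).ne' hn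
    obtain ⟨z, hz⟩ := exists_prime_orderOf_dvd_card' 2 h1
    refine ⟨z, z.2, ?_, ?_⟩
    · intro h
      have : z = 1 := Subtype.ext h
      rw [this, orderOf_one] at hz; omega
    · have : z ^ 2 = 1 := hz ▸ pow_orderOf_eq_one z
      exact congrArg Subtype.val this
  have hcen : ∀ x : G, x ^ 2 = 1 → x ∈ Subgroup.center G := by
    intro x hx
    by_cases hx1 : x = 1
    · rw [hx1]; exact one_mem _
    obtain ⟨a, ha⟩ := htrans z0 x hz01 hz02 hx1 hx
    have h1 : (Subgroup.center G).map a.toMonoidHom = Subgroup.center G :=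
      Subgroup.characteristic_iff_map_eq.mp inferInstance a
    rw [← h1]
    exact ⟨z0, hz0, ha⟩
  refine ⟨hcen, ?_⟩
  -- the involution below an element
  let f : {g : G // g ≠ 1} → {z : G // z ^ 2 = 1 ∧ z ≠ 1} := fun g => ⟨(g : G) ^ (orderOf (g : G) / 2), by
    have hev : 2 ∣ orderOf (g : G) := by
      obtain ⟨k, hk⟩ := (IsPGroup.iff_orderOf.mp hG) g
      rw [hk]
      apply dvd_pow_self
      rintro rfl
      rw [pow_zero] at hk
      exact g.2 (orderOf_eq_one_iff.mp hk)
    have hpos : 0 < orderOf (g : G) := orderOf_pos _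
    obtain ⟨m, hm⟩ := hev
    have hm' : orderOf (g : G) / 2 = m := by omega
    rw [hm']
    refine ⟨by rw [← pow_mul, mul_comm, ← hm, pow_orderOf_eq_one], ?_⟩
    intro h
    have := Nat.le_of_dvd (by omega) (orderOf_dvd_of_pow_eq_one h)
    omega⟩
  have hfib : ∀ z z' : {z : G // z ^ 2 = 1 ∧ z ≠ 1}, Nat.card {g // f g = z} = Nat.card {g // f g = z'} := by
    have haux : ∀ z z' : {z : G // z ^ 2 = 1 ∧ z ≠ 1}, ∀ a : MulAut G, a z = z' → ∀ g : {g : G // g ≠ 1}, f g = z →
        f ⟨a g, fun h => g.2 (a.injective (h.trans (map_one a).symm))⟩ = z' := by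
      intro z z' a ha g hg
      apply Subtype.ext
      change (a (g : G)) ^ (orderOf (a (g : G)) / 2) = z'
      rw [MulEquiv.orderOf_eq, ← map_pow, ← ha, ← hg]
    intro z z'
    obtain ⟨a, ha⟩ := htrans z z' z.2.2 z.2.1 z'.2.2 z'.2.1
    refine Nat.card_congr ⟨fun g => ⟨⟨a g.1, fun h => g.1.2 (a.injective (h.trans (map_one a).symm))⟩, haux z z' a ha g.1 g.2⟩,
      fun g => ⟨⟨a.symm g.1, fun h => g.1.2 (a.symm.injective (h.trans (map_one a.symm).symm))⟩, haux z' z a.symm (by rw [← ha]; exact a.symm_apply_apply _) g.1 g.2⟩, fun g => ?_, fun g => ?_⟩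
    · apply Subtype.ext; apply Subtype.ext; exact a.symm_apply_apply _
    · apply Subtype.ext; apply Subtype.ext; exact a.apply_symm_apply _
  have hsum : Nat.card {g : G // g ≠ 1} = Nat.card {z : G // z ^ 2 = 1 ∧ z ≠ 1} * Nat.card {g // f g = ⟨z0, hz02, hz01⟩} := by
    letI : Fintype {z : G // z ^ 2 = 1 ∧ z ≠ 1} := Fintype.ofFinite _
    rw [← Nat.card_congr (Equiv.sigmaFiberEquiv f), Nat.card_sigma]
    rw [Finset.sum_congr rfl (fun z _ => hfib z ⟨z0, hz02, hz01⟩), Finset.sum_const, Finset.card_univ, smul_eq_mul, Nat.card_eq_fintype_card (α := {z : G // z ^ 2 = 1 ∧ z ≠ 1})]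
  -- the subgroup of involutions
  let Ω : Subgroup G := { carrier := {z | z ^ 2 = 1}
                          one_mem' := one_pow 2
                          mul_mem' := by
                            intro a b ha hb
                            have h1 : a * b = b * a := ((Subgroup.mem_center_iff.mp (hcen a ha)) b).symm
                            change (a * b) ^ 2 = 1
                            rw [(show Commute a b from h1).mul_pow, ha, hb, one_mul]
                          inv_mem' := by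
                            intro a ha
                            change (a⁻¹) ^ 2 = 1
                            rw [inv_pow, ha, inv_one] }
  obtain ⟨n, hn⟩ := IsPGroup.iff_card.mp (hG.to_subgroup Ω)
  obtain ⟨N, hN⟩ := IsPGroup.iff_card.mp hG
  have hΩ : Nat.card {z : G // z ^ 2 = 1} = 2 ^ n := hn
  have h1 : Nat.card {g : G // g ≠ 1} = 2 ^ N - 1 := by
    rw [← hN]
    have := Nat.card_congr (Equiv.sumCompl (fun g : G => g = 1))
    rw [Nat.card_sum] at this
    have h2 : Nat.card {g : G // g = 1} = 1 := by simp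
    have h3 : Nat.card {g : G // ¬ g = 1} = Nat.card {g : G // g ≠ 1} := rfl
    omega
  have h2 : Nat.card {z : G // z ^ 2 = 1 ∧ z ≠ 1} = 2 ^ n - 1 := by
    rw [← hΩ]
    have h3 := Nat.card_congr (Equiv.sumCompl (fun z : {z : G // z ^ 2 = 1} => (z : G) = 1))
    rw [Nat.card_sum] at h3
    have h4 : Nat.card {z : {z : G // z ^ 2 = 1} // (z : G) = 1} = 1 := by
      rw [Nat.card_eq_one_iff_unique]
      refine ⟨⟨fun a b => ?_⟩, ⟨⟨⟨1, one_pow 2⟩, rfl⟩⟩⟩
      apply Subtype.ext; apply Subtype.ext; rw [a.2, b.2]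
    have h5 : Nat.card {z : {z : G // z ^ 2 = 1} // ¬ (z : G) = 1} = Nat.card {z : G // z ^ 2 = 1 ∧ z ≠ 1} := by
      exact Nat.card_congr (Equiv.subtypeSubtypeEquivSubtypeInter (fun z : G => z ^ 2 = 1) (fun z => ¬ z = 1))
    omega
  rw [h1, h2] at hsum
  have hdvd : 2 ^ n - 1 ∣ 2 ^ N - 1 := ⟨_, hsum⟩
  have hn0 : n ≠ 0 := by
    rintro rfl
    have h3 : Nat.card {z : G // z ^ 2 = 1 ∧ z ≠ 1} = 0 := by rw [h2]; rfl
    rw [Nat.card_eq_zero] at h3
    rcases h3 with h3 | h3
    · exact h3.false ⟨z0, hz02, hz01⟩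
    · haveI := h3
      exact not_finite {z : G // z ^ 2 = 1 ∧ z ≠ 1}
  have hg := Nat.pow_sub_one_gcd_pow_sub_one 2 n N
  rw [Nat.gcd_eq_left hdvd] at hg
  have hgp : 2 ^ n = 2 ^ n.gcd N := by
    have e1 : 1 ≤ 2 ^ n := Nat.one_le_two_pow
    have e2 : 1 ≤ 2 ^ n.gcd N := Nat.one_le_two_pow
    omega
  have hnN : n ∣ N := by
    have := Nat.pow_right_injective (le_refl 2) hgp
    rw [this]; exact Nat.gcd_dvd_right _ _
  obtain ⟨m, rfl⟩ := hnN
  exact ⟨m, by rw [hN, hΩ, ← pow_mul]⟩

end Cfsg.Agent.S3774
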