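import Cfsg.Statements.S3775
import Cfsg.Agent.H2.MaschkeAb

set_option autoImplicit false
open Cfsg

namespace Cfsg.Agent.S3775

open Subgroup Cfsg.Agent.H2.MaschkeAb

theorem inv_iff {A : Type*} [CommGroup A] [Finite A] (X : Subgroup (MulAut A)) (B : Subgroup A) :
    (∀ x ∈ X, B.map x.toMonoidHom = B) ↔ Inv X.subtype B := by
  constructor
  · intro h x b hb
    have := h x.1 x.2
    rw [← this]
    exact ⟨b, hb, rfl⟩
  · intro h x hx
    exact map_eq_of_inv X.subtype B h ⟨x, hx⟩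

theorem one_three {A : Type*} [CommGroup A] [Finite A] {p : ℕ} [Fact p.Prime] (hA : IsPGroup p A) (X : Subgroup (MulAut A)) (hX : (Nat.card X).Coprime p)
    (h : ¬ ∃ B C : Subgroup A, B ≠ ⊥ ∧ C ≠ ⊥ ∧ (∀ x ∈ X, B.map x.toMonoidHom = B) ∧ (∀ x ∈ X, C.map x.toMonoidHom = C) ∧ B ⊓ C = ⊥ ∧ B ⊔ C = ⊤) :
    (∀ B : Subgroup A, (∀ x ∈ X, B.map x.toMonoidHom = B) → (∀ b ∈ B, b ^ p = 1) → B = ⊥ ∨ ∀ a : A, a ∈ B ↔ a ^ p = 1) := by
  intro B hB hBp
  by_contra hcon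
  push Not at hcon
  obtain ⟨h0, a, ha⟩ := hcon
  have ha1 : a ∉ B ∧ a ^ p = 1 := by
    rcases ha with ⟨ha, hb⟩ | ⟨ha, hb⟩
    · exact absurd (hBp a ha) hb
    · exact ⟨ha, hb⟩
  obtain ⟨B', C', h1, h2, h3, h4, h5, h6⟩ := decomp hA X.subtype hX ((inv_iff X B).1 hB) hBp h0 ⟨a, ha1⟩
  exact h ⟨B', C', h1, h2, (inv_iff X B').2 h3, (inv_iff X C').2 h4, h5, h6⟩

theorem three_two {A : Type*} [CommGroup A] [Finite A] {p : ℕ} [Fact p.Prime] (hA : IsPGroup p A) (X : Subgroup (MulAut A))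
    (h : ∀ B : Subgroup A, (∀ x ∈ X, B.map x.toMonoidHom = B) → (∀ b ∈ B, b ^ p = 1) → B = ⊥ ∨ ∀ a : A, a ∈ B ↔ a ^ p = 1) :
    ∀ B : Subgroup A, (∀ x ∈ X, B.map x.toMonoidHom = B) → ∃ i : ℕ, ∀ a : A, a ∈ B ↔ a ^ p ^ i = 1 := by
  classical
  intro B hB
  obtain ⟨m, hm⟩ := IsPGroup.iff_card.1 hA
  have hm' : ∀ a : A, a ^ p ^ m = 1 := fun a => by rw [← hm]; exact pow_card_eq_one'
  by_cases htop : ∀ a : A, a ∈ B
  · exact ⟨m, fun a => ⟨fun _ => hm' a, fun _ => htop a⟩⟩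
  have hex : ∃ i, ¬ ∀ a : A, a ^ p ^ i = 1 → a ∈ B := by
    refine ⟨m, fun h => htop fun a => h a (hm' a)⟩
  have h1 := Nat.find_spec hex
  have h2 : ∀ j < Nat.find hex, ∀ a : A, a ^ p ^ j = 1 → a ∈ B := fun j hj => by
    have := Nat.find_min hex hj
    push Not at this
    exact this
  generalize Nat.find hex = i at h1 h2
  obtain ⟨k, rfl⟩ : ∃ k, i = k + 1 := by
    rcases i with _ | k
    · exfalso
      apply h1
      intro a ha
      rw [pow_zero, pow_one] at ha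
      rw [ha]; exact B.one_mem
    · exact ⟨k, rfl⟩
  refine ⟨k, fun a => ⟨fun ha => ?_, h2 k (Nat.lt_succ_self k) a⟩⟩
  by_contra hne
  have hBi : Inv X.subtype B := (inv_iff X B).1 hB
  have hBk : Inv X.subtype (B.map (powMonoidHom (p ^ k))) := hBi.map _
  let V : Subgroup A := B.map (powMonoidHom (p ^ k)) ⊓ (⊥ : Subgroup A).comap (powMonoidHom p)
  have hV : Inv X.subtype V := hBk.inf ((Inv.bot _).comap _)
  have hVne : V ≠ ⊥ := by
    intro hV0
    have h3 : ∀ j, a ^ p ^ (k + j) ≠ 1 := by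
      intro j
      induction j with
      | zero => exact hne
      | succ j ih =>
        intro h4
        apply ih
        have h5 : a ^ p ^ (k + j) ∈ V := by
          refine ⟨⟨a ^ p ^ j, B.pow_mem ha _, ?_⟩, ?_⟩
          · show (a ^ p ^ j) ^ p ^ k = _
            rw [← pow_mul, ← pow_add, add_comm]
          · show (a ^ p ^ (k + j)) ^ p ∈ (⊥ : Subgroup A)
            rw [mem_bot, ← pow_mul, ← pow_succ]
            exact h4
        rw [hV0] at h5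
        exact h5
    apply h3 m
    rw [add_comm, pow_add, pow_mul, hm' a, one_pow]
  have hVall : ∀ a : A, a ∈ V ↔ a ^ p = 1 := by
    rcases h V ((inv_iff X V).2 hV) (fun b hb => hb.2) with h3 | h3
    · exact absurd h3 hVne
    · exact h3
  apply h1
  intro x hx
  have h4 : x ^ p ^ k ∈ V := by
    rw [hVall, ← pow_mul, ← pow_succ]
    exact hx
  obtain ⟨b, hb, hbx⟩ := h4.1
  have hbx' : b ^ p ^ k = x ^ p ^ k := hbx
  have h5 : (x * b⁻¹) ^ p ^ k = 1 := by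
    rw [mul_pow, inv_pow, hbx', mul_inv_cancel]
  have h6 := h2 k (Nat.lt_succ_self k) _ h5
  have := B.mul_mem h6 hb
  rwa [inv_mul_cancel_right] at this

theorem two_one {A : Type*} [CommGroup A] [Finite A] {p : ℕ} [Fact p.Prime] (hA : IsPGroup p A) (X : Subgroup (MulAut A))
    (h : ∀ B : Subgroup A, (∀ x ∈ X, B.map x.toMonoidHom = B) → ∃ i : ℕ, ∀ a : A, a ∈ B ↔ a ^ p ^ i = 1) :
    ¬ ∃ B C : Subgroup A, B ≠ ⊥ ∧ C ≠ ⊥ ∧ (∀ x ∈ X, B.map x.toMonoidHom = B) ∧ (∀ x ∈ X, C.map x.toMonoidHom = C) ∧ B ⊓ C = ⊥ ∧ B ⊔ C = ⊤ := by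
  rintro ⟨B, C, hB, hC, hBi, hCi, hinf, -⟩
  obtain ⟨i, hi⟩ := h B hBi
  obtain ⟨j, hj⟩ := h C hCi
  rcases le_total i j with hij | hij
  · have : B ≤ C := by
      intro b hb
      rw [hj]
      obtain ⟨d, rfl⟩ := Nat.exists_eq_add_of_le hij
      rw [pow_add, pow_mul, (hi b).1 hb, one_pow]
    rw [inf_eq_left.2 this] at hinf
    exact hB hinf
  · have : C ≤ B := by
      intro b hb
      rw [hi]
      obtain ⟨d, rfl⟩ := Nat.exists_eq_add_of_le hij
      rw [pow_add, pow_mul, (hj b).1 hb, one_pow]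
    rw [inf_eq_right.2 this] at hinf
    exact hC hinf

theorem two_three {A : Type*} [CommGroup A] [Finite A] {p : ℕ} [Fact p.Prime] (hA : IsPGroup p A) (X : Subgroup (MulAut A))
    (h : ∀ B : Subgroup A, (∀ x ∈ X, B.map x.toMonoidHom = B) → ∃ i : ℕ, ∀ a : A, a ∈ B ↔ a ^ p ^ i = 1) :
    ∀ B : Subgroup A, (∀ x ∈ X, B.map x.toMonoidHom = B) → (∀ b ∈ B, b ^ p = 1) → B = ⊥ ∨ ∀ a : A, a ∈ B ↔ a ^ p = 1 := by
  intro B hB hBp
  obtain ⟨i, hi⟩ := h B hB
  rcases i with _ | i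
  · left
    rw [eq_bot_iff]
    intro b hb
    have := (hi b).1 hb
    rw [pow_zero, pow_one] at this
    exact this
  · right
    intro a
    refine ⟨hBp a, fun ha => ?_⟩
    rw [hi, pow_succ', pow_mul, ha, one_pow]

/-- Let A be a finite abelian p-group and X a group of automorphisms of A of order prime to p. Call a subgroup of A invariant when every element of X maps it onto itself. Then the following are equivalent: (i) A is not the direct product of two nontrivial invariant subgroups; (ii) every invariant subgroup of A is one of the subgroups Ω_i(A) = {a : a^(p^i) = 1}; (iii) the subgroup Ω₁(A) of elements of order dividing p has no invariant subgroups other than 1 and itself. -/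
theorem result {A : Type*} [CommGroup A] [Finite A] {p : ℕ} [Fact p.Prime] (hA : IsPGroup p A) (X : Subgroup (MulAut A)) (hX : (Nat.card X).Coprime p) : ((¬ ∃ B C : Subgroup A, B ≠ ⊥ ∧ C ≠ ⊥ ∧ (∀ x ∈ X, B.map x.toMonoidHom = B) ∧ (∀ x ∈ X, C.map x.toMonoidHom = C) ∧ B ⊓ C = ⊥ ∧ B ⊔ C = ⊤) ↔ (∀ B : Subgroup A, (∀ x ∈ X, B.map x.toMonoidHom = B) → ∃ i : ℕ, ∀ a : A, a ∈ B ↔ a ^ p ^ i = 1)) ∧ ((∀ B : Subgroup A, (∀ x ∈ X, B.map x.toMonoidHom = B) → ∃ i : ℕ, ∀ a : A, a ∈ B ↔ a ^ p ^ i = 1) ↔ (∀ B : Subgroup A, (∀ x ∈ X, B.map x.toMonoidHom = B) → (∀ b ∈ B, b ^ p = 1) → B = ⊥ ∨ ∀ a : A, a ∈ B ↔ a ^ p = 1)) := by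
  exact ⟨⟨fun h => three_two hA X (one_three hA X hX h), two_one hA X⟩,
    ⟨two_three hA X, three_two hA X⟩⟩

end Cfsg.Agent.S3775
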