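import Cfsg.Statements.S3778
import Mathlib
import Cfsg.Agent.H2.Breadth

set_option autoImplicit false
open Cfsg

namespace Cfsg.Agent.S3778

open Subgroup Cfsg.Agent.H2.Breadth

/-- If G is a finite p-group in which every conjugacy class has at most p^b elements (every element has centralizer of index at most p^b), then G is abelian when b = 0, and when b ≥ 1 its nilpotency class c satisfies (c − 1)(p − 1) < bp, that is c < bp/(p − 1) + 1, and hence c ≤ 2b. -/
theorem result {G : Type*} [Group G] [Finite G] {p : ℕ} [Fact p.Prime] (hG : IsPGroup p G) (b : ℕ) (hb : ∀ x : G, (Subgroup.centralizer ({x} : Set G)).index ≤ p ^ b) : ∃ c : ℕ, (⊤ : Subgroup G).lowerCentralSeries c = ⊥ ∧ (b ≠ 0 → (c - 1) * (p - 1) < b * p ∧ c ≤ 2 * b) ∧ (b = 0 → c ≤ 1) := by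
  classical
  haveI hn : Group.IsNilpotent G := hG.isNilpotent
  have hp : p.Prime := Fact.out
  have hp1 := hp.one_lt
  refine ⟨Group.nilpotencyClass G, Subgroup.lowerCentralSeries_nilpotencyClass, ?_, ?_⟩
  · intro hb0
    have h1 := main hG hb
    have h2 : 0 < Nat.card G := Nat.card_pos
    have h3 : (Group.nilpotencyClass G - 1) * (p - 1) < b * p := by
      by_contra hcon
      push Not at hcon
      have h4 : b * p * Nat.card G ≤ (Group.nilpotencyClass G - 1) * (p - 1) * Nat.card G := Nat.mul_le_mul_right _ hcon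
      have h5 : p * (b * (Nat.card G - 1)) < b * p * Nat.card G := by
        obtain ⟨m, hm⟩ : ∃ m, Nat.card G = m + 1 := ⟨Nat.card G - 1, by omega⟩
        rw [hm]; simp only [Nat.add_sub_cancel]
        have h6 : 0 < b * p := Nat.mul_pos (Nat.pos_of_ne_zero hb0) (by omega)
        calc p * (b * m) = b * p * m := by ring
          _ < b * p * (m + 1) := Nat.mul_lt_mul_of_pos_left (Nat.lt_succ_self m) h6
      omega
    refine ⟨h3, ?_⟩
    by_contra hcon
    push Not at hcon
    obtain ⟨r, hr⟩ : ∃ r, p = r + 2 := ⟨p - 2, by omega⟩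
    have h4 : 2 * b * (p - 1) ≤ (Group.nilpotencyClass G - 1) * (p - 1) := Nat.mul_le_mul_right _ (by omega)
    have h5 : 2 * b * (p - 1) < b * p := lt_of_le_of_lt h4 h3
    rw [hr] at h5
    have h6 : r + 2 - 1 = r + 1 := by omega
    rw [h6] at h5
    nlinarith
  · rintro rfl
    by_contra hcon
    push Not at hcon
    have h1 := K_ne_top (G := G) (i := 0) (by omega)
    apply h1
    rw [eq_top_iff]
    intro g _
    by_contra hg
    have h2 := card_le hG hb g 1
    have h3 : ((Finset.range 1).filter (fun i => g ∉ K G i)).card = 1 := by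
      rw [Finset.card_eq_one]
      refine ⟨0, ?_⟩
      ext i
      simp only [Finset.mem_filter, Finset.mem_range, Finset.mem_singleton]
      constructor
      · intro h; omega
      · rintro rfl; exact ⟨by omega, hg⟩
    omega

end Cfsg.Agent.S3778
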