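import Cfsg.Statements.S3780
import Mathlib
import Cfsg.Agent.H2.PUtil
import Cfsg.Agent.Lib.NilpB

set_option autoImplicit false
open Cfsg

namespace Cfsg.Agent.S3780

open Subgroup

/-- nilpotent endomorphism: `|A| ≤ |ker d| ^ m` if `d ^ m = 0` -/
theorem card_le_ker_pow {A : Type*} [AddCommGroup A] [Finite A] (d : AddMonoid.End A) (m : ℕ) :
    Nat.card (AddMonoidHom.ker (d ^ m : AddMonoid.End A)) ≤ Nat.card (AddMonoidHom.ker d) ^ m := by
  induction m with
  | zero =>
    have : AddMonoidHom.ker ((d ^ 0 : AddMonoid.End A)) = ⊥ := by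
      ext x
      rw [pow_zero]
      exact ⟨fun h => h, fun h => h⟩
    rw [this, AddSubgroup.card_bot, pow_zero]
  | succ m ih =>
    -- restrict d to ker d^(m+1) → ker d^m
    let K : AddSubgroup A := AddMonoidHom.ker (d ^ (m + 1) : AddMonoid.End A)
    let g : K →+ A := (d : A →+ A).comp K.subtype
    have h1 := g.ker.card_mul_index
    rw [AddSubgroup.index_ker] at h1
    have h2 : Nat.card g.ker ≤ Nat.card (AddMonoidHom.ker d) := by
      refine Nat.card_le_card_of_injective (fun x => (⟨(x : K), x.2⟩ : AddMonoidHom.ker d)) ?_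
      intro x y hxy
      have : ((x : K) : A) = ((y : K) : A) := congrArg (fun z : AddMonoidHom.ker d => (z : A)) hxy
      exact Subtype.ext (Subtype.ext this)
    have h3 : Nat.card g.range ≤ Nat.card (AddMonoidHom.ker (d ^ m : AddMonoid.End A)) := by
      refine Nat.card_le_card_of_injective (fun x => (⟨(x : A), ?_⟩ : AddMonoidHom.ker (d ^ m : AddMonoid.End A))) ?_
      · obtain ⟨y, hy⟩ := x.2
        rw [← hy]
        have h4 : (d ^ (m + 1) : AddMonoid.End A) (y : A) = 0 := y.2
        rw [pow_succ] at h4
        exact h4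
      · intro x y hxy
        exact Subtype.ext (congrArg (fun z : AddMonoidHom.ker (d ^ m : AddMonoid.End A) => (z : A)) hxy)
    show Nat.card K ≤ _
    rw [← h1, pow_succ, mul_comm]
    exact Nat.mul_le_mul (h3.trans ih) h2

theorem omega_card {V : Type*} [CommGroup V] [Finite V] {p : ℕ} [Fact p.Prime] (α : MulAut V)
    (hα : α ^ p = 1) : Nat.card (powMonoidHom p : V →* V).ker ≤ Nat.card {v : V // α v = v} ^ p := by
  have hp : p.Prime := Fact.out
  set W : Subgroup V := (powMonoidHom p : V →* V).ker with hW
  have hWm : ∀ v, v ∈ W ↔ v ^ p = 1 := fun v => Iff.rfl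
  let A := Additive W
  -- α restricted
  let a : AddMonoid.End A := MonoidHom.toAdditive (((α : V →* V).comp W.subtype).codRestrict W
    (fun v => by rw [hWm]; show (α v) ^ p = 1; rw [← map_pow, (hWm v).1 v.2, map_one]))
  have ha : ∀ v : W, ((Additive.toMul (a (Additive.ofMul v)) : W) : V) = α v := fun v => rfl
  have hap : ∀ (n : ℕ) (v : W), ((Additive.toMul ((a ^ n) (Additive.ofMul v)) : W) : V) = (α ^ n) v := by
    intro n
    induction n with
    | zero => intro v; rfl
    | succ n ih =>
      intro v
      have h1 : (a ^ (n + 1)) (Additive.ofMul v) = a ((a ^ n) (Additive.ofMul v)) := by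
        rw [pow_succ']; rfl
      rw [h1]
      have h2 := ha (Additive.toMul ((a ^ n) (Additive.ofMul v)))
      have h3 : Additive.ofMul (Additive.toMul ((a ^ n) (Additive.ofMul v))) = (a ^ n) (Additive.ofMul v) := rfl
      rw [h3] at h2
      rw [h2, ih v, pow_succ']; rfl
  have hap1 : a ^ p = 1 := by
    apply AddMonoidHom.ext
    intro x
    have h1 := hap p (Additive.toMul x)
    rw [hα] at h1
    have h2 : Additive.toMul ((a ^ p) x) = Additive.toMul x := Subtype.ext h1
    exact h2
  have hp0 : ((p : ℕ) : AddMonoid.End A) = 0 := by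
    apply AddMonoidHom.ext
    intro x
    have h1 : ((p : ℕ) : AddMonoid.End A) x = p • x := AddMonoid.End.natCast_apply p x
    have h2 : (Additive.toMul x) ^ p = 1 := Subtype.ext (Additive.toMul x).2
    exact h1.trans h2
  have hd : (a - 1) ^ p = 0 := by
    by_cases hnt : Nontrivial (AddMonoid.End A)
    · have hc : CharP (AddMonoid.End A) p := (CharP.charP_iff_prime_eq_zero hp).2 hp0
      rw [sub_pow_char_of_commute p (Commute.one_right a), hap1, one_pow, sub_self]
    · rw [not_nontrivial_iff_subsingleton] at hnt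
      exact Subsingleton.elim _ _
  have h1 := card_le_ker_pow (a - 1) p
  rw [hd] at h1
  have h2 : AddMonoidHom.ker (0 : AddMonoid.End A) = ⊤ := AddMonoidHom.ker_zero
  rw [h2, AddSubgroup.card_top] at h1
  have h3 : Nat.card A = Nat.card W := rfl
  rw [h3] at h1
  refine h1.trans (Nat.pow_le_pow_left ?_ p)
  refine Nat.card_le_card_of_injective (fun x => (⟨((Additive.toMul (x : A) : W) : V), ?_⟩ : {v : V // α v = v})) ?_
  · have h4 : a (x : A) - (x : A) = 0 := x.2
    rw [sub_eq_zero] at h4
    have h5 := ha (Additive.toMul (x : A))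
    have h6 : Additive.ofMul (Additive.toMul (x : A)) = (x : A) := rfl
    rw [h6, h4] at h5
    exact h5.symm
  · intro x y hxy
    have h4 : ((Additive.toMul (x : A) : W) : V) = ((Additive.toMul (y : A) : W) : V) :=
      congrArg (fun z : {v : V // α v = v} => (z : V)) hxy
    exact Subtype.ext (Subtype.ext h4 : (Additive.toMul (x : A) : W) = Additive.toMul (y : A))

/-- Let V be a finite abelian p-group and α an automorphism of V of order p whose fixed-point subgroup has order p^n. Then V can be generated by pn elements: some subset of V with at most pn elements generates V. -/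
theorem result {V : Type*} [CommGroup V] [Finite V] {p : ℕ} [Fact p.Prime] (hV : IsPGroup p V) (α : MulAut V) (hα : orderOf α = p) (n : ℕ) (hfix : Nat.card {v : V // α v = v} = p ^ n) : ∃ S : Finset V, S.card ≤ p * n ∧ Subgroup.closure (S : Set V) = ⊤ := by
  classical
  have hp : p.Prime := Fact.out
  have := Fintype.ofFinite V
  have h1 := omega_card (p := p) α (by rw [← hα]; exact pow_orderOf_eq_one α)
  rw [hfix, ← pow_mul] at h1
  have hfr : frattini V ≤ (powMonoidHom p : V →* V).range := by
    apply Lib.Nilp.frattini_le_of_elementary_quotient (p := p)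
    · rw [commutator_def, commutator_le]
      intro a _ b _
      have : a * b * a⁻¹ * b⁻¹ = 1 := by rw [mul_comm a b]; group
      show a * b * a⁻¹ * b⁻¹ ∈ _
      rw [this]; exact one_mem _
    · intro x; exact ⟨x, rfl⟩
  have hfr' : (powMonoidHom p : V →* V).range ≤ frattini V := by
    rintro _ ⟨x, rfl⟩
    exact Lib.Nilp.pow_mem_frattini hV x
  have hfe : frattini V = (powMonoidHom p : V →* V).range := le_antisymm hfr hfr'
  have hidx : (frattini V).index = Nat.card (powMonoidHom p : V →* V).ker := by
    have h2 := (frattini V).card_mul_index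
    have h3 := (powMonoidHom p : V →* V).ker.card_mul_index
    rw [Subgroup.index_ker] at h3
    rw [hfe] at h2 ⊢
    apply Nat.eq_of_mul_eq_mul_left (Nat.card_pos (α := (powMonoidHom p : V →* V).range))
    rw [h2, ← h3, mul_comm]
  obtain ⟨k, hk⟩ := hV.index (frattini V)
  obtain ⟨T, _, hTc, hT⟩ := Lib.NilpB.exists_subset_card_eq hV hk Finset.univ (by
    rw [Finset.coe_univ, Subgroup.closure_univ])
  refine ⟨T, ?_, hT⟩
  rw [hTc]
  rw [← hidx, hk] at h1
  have := (Nat.pow_le_pow_iff_right hp.one_lt).1 h1
  rwa [mul_comm] at this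

end Cfsg.Agent.S3780
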