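import Cfsg.Statements.S3781
import Mathlib
import Cfsg.Agent.H2.PUtil
import Cfsg.Agent.Lib.CommNine

set_option autoImplicit false
open Cfsg

namespace Cfsg.Agent.S3781

open Subgroup Cfsg.Agent.Lib.Basic
open scoped commutatorElement

theorem lcs_normal {G : Type*} [Group G] (N : Subgroup G) [hN : N.Normal] (i : ℕ) : (N.lowerCentralSeries i).Normal := by
  induction i with
  | zero => exact hN
  | succ k ih =>
    rw [Subgroup.lowerCentralSeries_succ]
    exact Subgroup.commutator_normal _ _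

theorem sup_lt {G : Type*} [Group G] [Finite G] {p : ℕ} [Fact p.Prime] (hG : IsPGroup p G) (K L : Subgroup G)
    [K.Normal] [hL : L.Normal] (hLK : L < K) : ⁅K, (⊤ : Subgroup G)⁆ ⊔ L < K := by
  refine lt_of_le_of_ne (sup_le (commutator_le_left K ⊤) hLK.le) ?_
  intro h
  haveI hnil : Group.IsNilpotent (G ⧸ L) := (hG.to_quotient L).isNilpotent
  have h1 : K.map (QuotientGroup.mk' L) ≠ ⊥ := by
    intro h
    rw [Subgroup.map_eq_bot_iff, QuotientGroup.ker_mk'] at h
    exact hLK.not_ge h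
  apply Cfsg.Agent.H2.PUtil.commutator_top_ne h1
  have h2 := congrArg (Subgroup.map (QuotientGroup.mk' L)) h
  rw [Subgroup.map_sup, Subgroup.map_commutator, Subgroup.map_top_of_surjective _ (QuotientGroup.mk'_surjective L)] at h2
  have h3 : L.map (QuotientGroup.mk' L) = ⊥ := by
    rw [Subgroup.map_eq_bot_iff, QuotientGroup.ker_mk']
  rw [h3, sup_bot_eq] at h2
  exact h2

theorem mul_card_le {G : Type*} [Group G] [Finite G] {p : ℕ} [Fact p.Prime] (hG : IsPGroup p G) {K L : Subgroup G}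
    (hLK : L < K) : p * Nat.card L ≤ Nat.card K := by
  have hp : p.Prime := Fact.out
  have h1 := card_mul_relIndex hLK.le
  have h2 : L.relIndex K ≠ 1 := fun h => hLK.not_ge (relIndex_eq_one.1 h)
  obtain ⟨k, hk⟩ := (hG.to_subgroup K).exists_card_eq
  have h3 : L.relIndex K ∣ p ^ k := by rw [← hk, ← h1]; exact dvd_mul_left _ _
  obtain ⟨m, -, hm⟩ := (Nat.dvd_prime_pow hp).1 h3
  have hm0 : m ≠ 0 := by
    rintro rfl
    exact h2 (by rw [hm, pow_zero])
  have h4 : p ≤ L.relIndex K := by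
    rw [hm]
    exact Nat.le_self_pow hm0 p
  rw [← h1, mul_comm]
  exact Nat.mul_le_mul_left _ h4

theorem key0 {G : Type*} [Group G] [Finite G] {p : ℕ} [Fact p.Prime] (hG : IsPGroup p G) (K L : Subgroup G)
    [K.Normal] [L.Normal] (hLK : L ≤ K) (hc : Nat.card K ≤ p * Nat.card L) :
      ⁅K, (⊤ : Subgroup G)⁆ ≤ L := by
  have hp : p.Prime := Fact.out
  rcases eq_or_lt_of_le hLK with h | h
  · rw [h]; exact commutator_le_left K ⊤
  · have h1 := mul_card_le hG (sup_lt hG K L h)
    have h2 : Nat.card ↥(⁅K, (⊤ : Subgroup G)⁆ ⊔ L) ≤ Nat.card L :=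
      Nat.le_of_mul_le_mul_left (h1.trans hc) hp.pos
    have h3 : L = ⁅K, (⊤ : Subgroup G)⁆ ⊔ L := Subgroup.eq_of_le_of_card_ge le_sup_right h2
    rw [h3]
    exact le_sup_left

theorem key {G : Type*} [Group G] [Finite G] {p : ℕ} [Fact p.Prime] (hG : IsPGroup p G) (j : ℕ) :
    ∀ (K L : Subgroup G) [K.Normal] [L.Normal], L ≤ K → Nat.card K ≤ p ^ (j + 1) * Nat.card L →
      ⁅K, (⊤ : Subgroup G).lowerCentralSeries j⁆ ≤ L := by
  have hp : p.Prime := Fact.out
  induction j with
  | zero =>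
    intro K L _ _ hLK hc
    rw [Subgroup.lowerCentralSeries_zero]
    rw [zero_add, pow_one] at hc
    exact key0 hG K L hLK hc
  | succ j ih =>
    intro K L hKn hLn hLK hc
    rcases eq_or_lt_of_le hLK with h | h
    · rw [h]
      haveI := lcs_normal (⊤ : Subgroup G) (j + 1)
      exact commutator_le_left K _
    · have hW := sup_lt hG K L h
      have h1 := mul_card_le hG hW
      have h2 : Nat.card ↥(⁅K, (⊤ : Subgroup G)⁆ ⊔ L) ≤ p ^ (j + 1) * Nat.card L := by
        apply Nat.le_of_mul_le_mul_left (c := p) _ hp.pos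
        refine h1.trans (hc.trans (le_of_eq ?_))
        ring
      have h3 := ih (⁅K, (⊤ : Subgroup G)⁆ ⊔ L) L le_sup_right h2
      obtain ⟨L', hL'n, hLL', hL'K, hcL'⟩ := Cfsg.Agent.H2.PUtil.exists_normal_step hG h
      have h4 : ⁅K, (⊤ : Subgroup G).lowerCentralSeries j⁆ ≤ L' := by
        apply ih K L' hL'K
        rw [hcL']
        refine hc.trans (le_of_eq ?_)
        ring
      have h5 : ⁅L', (⊤ : Subgroup G)⁆ ≤ L := key0 hG L' L hLL' (le_of_eq hcL')
      rw [Subgroup.lowerCentralSeries_succ, commutator_comm]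
      have hL1 : ∀ X : Subgroup G, X ≤ normalizer (L : Set G) := fun X => by
        rw [normalizer_eq_top]; exact le_top
      apply Cfsg.Agent.Lib.CommNine.three_sub_le (hL1 _) (hL1 _) (hL1 _)
      · refine le_trans (commutator_mono ?_ le_rfl) h3
        rw [commutator_comm]
        exact le_sup_left
      · exact (commutator_mono h4 le_rfl).trans h5

/-- Let G be a finite p-group and n ≥ 1, and write γ_1(G) = G, γ_{k+1}(G) = [γ_k(G), G], and likewise γ_k(N) for a subgroup N. Let N be a normal subgroup of G contained in γ_n(G). If i > 1 and γ_{i+1}(N) ≠ 1, then |γ_i(N) : γ_{i+1}(N)| ≥ p^n. -/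
theorem result {G : Type*} [Group G] [Finite G] {p : ℕ} [Fact p.Prime] (hG : IsPGroup p G) (n : ℕ) (hn : 1 ≤ n) (N : Subgroup G) [N.Normal] (hN : N ≤ (⊤ : Subgroup G).lowerCentralSeries (n - 1)) (i : ℕ) (hi : 1 < i) (hne : N.lowerCentralSeries i ≠ ⊥) : p ^ n ≤ (N.lowerCentralSeries i).relIndex (N.lowerCentralSeries (i - 1)) := by
  open Subgroup in
  have hp : p.Prime := Fact.out
  by_contra hlt
  push Not at hlt
  have hin := lcs_normal N i
  have hi1n := lcs_normal N (i - 1)
  have hsucc : N.lowerCentralSeries i = ⁅N.lowerCentralSeries (i - 1), N⁆ := by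
    obtain ⟨m, rfl⟩ : ∃ m, i = m + 1 := ⟨i - 1, by omega⟩
    rw [Subgroup.lowerCentralSeries_succ]
    rfl
  have hle : N.lowerCentralSeries i ≤ N.lowerCentralSeries (i - 1) := by
    rw [hsucc]
    exact Subgroup.commutator_le_left _ _
  -- a normal subgroup of index `p`
  obtain ⟨M, hMn, hMle, hMc⟩ : ∃ M : Subgroup G, M.Normal ∧ M < N.lowerCentralSeries i ∧
      Nat.card (N.lowerCentralSeries i) ≤ p * Nat.card M := by
    obtain ⟨M, hM⟩ := (Set.toFinite {M : Subgroup G | M.Normal ∧ M < N.lowerCentralSeries i}).exists_maximal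
      ⟨⊥, inferInstance, bot_lt_iff_ne_bot.2 hne⟩
    haveI := hM.prop.1
    obtain ⟨M', hM'n, hMM', hM'K, hcM'⟩ := Cfsg.Agent.H2.PUtil.exists_normal_step hG hM.prop.2
    have h1 : M' = N.lowerCentralSeries i := by
      by_contra hne'
      have h2 := hM.le_of_ge (y := M') ⟨hM'n, lt_of_le_of_ne hM'K hne'⟩ hMM'
      have h3 : M = M' := le_antisymm hMM' h2
      rw [h3] at hcM'
      have := hp.one_lt
      have h4 : 0 < Nat.card M' := Nat.card_pos
      nlinarith
    refine ⟨M, hM.prop.1, hM.prop.2, ?_⟩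
    rw [← h1, hcM']
  have h1 : Nat.card (N.lowerCentralSeries (i - 1)) ≤ p ^ (n - 1 + 1) * Nat.card M := by
    have h2 := Cfsg.Agent.Lib.Basic.card_mul_relIndex hle
    obtain ⟨k, hk⟩ := (hG.to_subgroup (N.lowerCentralSeries (i - 1))).exists_card_eq
    have h3 : (N.lowerCentralSeries i).relIndex (N.lowerCentralSeries (i - 1)) ∣ p ^ k := by
      rw [← hk, ← h2]; exact dvd_mul_left _ _
    obtain ⟨m, -, hm⟩ := (Nat.dvd_prime_pow hp).1 h3
    rw [hm] at hlt h2
    have h4 : m < n := (Nat.pow_lt_pow_iff_right hp.one_lt).1 hlt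
    have h5 : p ^ m * p ≤ p ^ (n - 1 + 1) := by
      rw [← pow_succ]
      exact Nat.pow_le_pow_right hp.pos (by omega)
    calc Nat.card (N.lowerCentralSeries (i - 1)) = Nat.card (N.lowerCentralSeries i) * p ^ m := h2.symm
      _ ≤ (p * Nat.card M) * p ^ m := Nat.mul_le_mul_right _ hMc
      _ = (p ^ m * p) * Nat.card M := by ring
      _ ≤ _ := Nat.mul_le_mul_right _ h5
  have h2 := key hG (n - 1) (N.lowerCentralSeries (i - 1)) M (hMle.le.trans hle) h1
  apply hMle.not_ge
  rw [hsucc]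
  exact (Subgroup.commutator_mono le_rfl hN).trans h2

end Cfsg.Agent.S3781
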