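import Mathlib
import Cfsg.Statements.S3784


set_option autoImplicit false
open Cfsg

namespace Cfsg.Agent.S3784

theorem odd_factor (q : ℕ) (hq : Odd q) (m : ℕ) : ∃ k : ℕ, Odd k ∧ q ^ (2 * m + 1) + 1 = (q + 1) * k := by
  induction m with
  | zero => exact ⟨1, odd_one, by simp⟩
  | succ m ih =>
    obtain ⟨k, hk, h⟩ := ih
    obtain ⟨t, ht⟩ := hq
    obtain ⟨s, hs⟩ := hk
    refine ⟨q ^ 2 * k - (q - 1), ?_, ?_⟩
    · have h1 : q ^ 2 * k - (q - 1) = q ^ 2 * k - 2 * t := by rw [ht]; simp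
      rw [h1]
      have h2 : Odd (q ^ 2 * k) := by
        rw [ht, hs]
        exact (Odd.pow ⟨t, rfl⟩).mul ⟨s, rfl⟩
      have h3 : 2 * t ≤ q ^ 2 * k := by
        rw [ht, hs]; nlinarith [sq_nonneg t, Nat.zero_le (t * s), Nat.zero_le (t ^ 2 * s)]
      exact Nat.Odd.sub_even h3 h2 (even_two_mul t)
    · have h3 : q - 1 ≤ q ^ 2 * k := by
        rw [ht, hs]; simp only [Nat.add_sub_cancel]; nlinarith [sq_nonneg t, Nat.zero_le (t * s), Nat.zero_le (t ^ 2 * s)]
      have hq1 : 1 ≤ q := by omega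
      zify [h3, hq1]
      have h' : (q : ℤ) ^ (2 * m + 1) + 1 = (q + 1) * k := by exact_mod_cast h
      have : (q : ℤ) ^ (2 * (m + 1) + 1) = q ^ 2 * q ^ (2 * m + 1) := by ring
      rw [this]
      linear_combination (q : ℤ) ^ 2 * h'

theorem odd_factor' (q : ℕ) (hq : Odd q) (m : ℕ) : ∃ k : ℕ, Odd k ∧ q ^ (2 * m + 1) = (q - 1) * k + 1 := by
  obtain ⟨t, ht⟩ := hq
  have hqt : q - 1 = 2 * t := by omega
  rw [hqt]
  induction m with
  | zero => exact ⟨1, odd_one, by simp [ht]⟩
  | succ m ih =>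
    obtain ⟨k, hk, h⟩ := ih
    refine ⟨q ^ 2 * k + (q + 1), ?_, ?_⟩
    · have h2 : Odd (q ^ 2 * k) := by
        rw [ht]
        exact (Odd.pow ⟨t, rfl⟩).mul hk
      have h3 : Even (q + 1) := by rw [ht]; exact ⟨t + 1, by ring⟩
      exact h2.add_even h3
    · have : q ^ (2 * (m + 1) + 1) = q ^ 2 * q ^ (2 * m + 1) := by ring
      rw [this, h, ht]; ring

theorem eq_one_of_odd_dvd_two_pow {k n : ℕ} (hk : Odd k) (h : k ∣ 2 ^ n) : k = 1 := by
  obtain ⟨j, _, hj⟩ := (Nat.dvd_prime_pow Nat.prime_two).1 h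
  rcases Nat.eq_zero_or_pos j with h0 | h0
  · rw [hj, h0, pow_zero]
  · exfalso
    rw [hj] at hk
    exact (Nat.not_even_iff_odd.2 hk) (even_two.pow_of_ne_zero h0.ne')

/-- Let p, q be primes and a, b positive integers with p^a = q^b + 1. Then either p = 2, b = 1, a is prime and q = 2^a − 1; or q = 2, a = 1, b is a power of 2 and p = 2^b + 1; or p^a = 9 and q^b = 8. -/
theorem result (p q a b : ℕ) (hp : p.Prime) (hq : q.Prime) (ha : 1 ≤ a) (hb : 1 ≤ b) (h : p ^ a = q ^ b + 1) : (p = 2 ∧ b = 1 ∧ a.Prime ∧ q + 1 = 2 ^ a) ∨ (q = 2 ∧ a = 1 ∧ (∃ m : ℕ, b = 2 ^ m) ∧ p = 2 ^ b + 1) ∨ (p ^ a = 9 ∧ q ^ b = 8) := by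
  rcases hp.eq_two_or_odd' with rfl | hpo
  · -- p = 2
    have hqo : Odd q := by
      rcases hq.eq_two_or_odd' with rfl | h1
      · exfalso
        have h2 : Even (2 ^ a) := even_two.pow_of_ne_zero (by omega)
        have h3 : Even (2 ^ b) := even_two.pow_of_ne_zero (by omega)
        rw [h] at h2
        exact (Nat.not_even_iff_odd.2 h3.add_one) h2
      · exact h1
    rcases Nat.even_or_odd' b with ⟨m, rfl | rfl⟩
    · exfalso
      have hm : m ≠ 0 := by rintro rfl; omega
      have h1 : q ^ (2 * m) % 4 = 1 := by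
        rw [pow_mul]
        have h2 : q ^ 2 % 4 = 1 := by
          obtain ⟨t, rfl⟩ := hqo
          have : (2 * t + 1) ^ 2 = 4 * (t * t + t) + 1 := by ring
          omega
        rw [Nat.pow_mod, h2]; simp
      rcases Nat.lt_or_ge a 2 with h2 | h2
      · have : a = 1 := by omega
        subst this
        have h3 : 1 < q ^ (2 * m) := Nat.one_lt_pow (by omega) hq.one_lt
        rw [pow_one] at h
        omega
      · obtain ⟨c, rfl⟩ : ∃ c, a = c + 2 := ⟨a - 2, by omega⟩
        rw [pow_add] at h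
        omega
    · obtain ⟨k, hk, hk'⟩ := odd_factor q hqo m
      rw [← h] at hk'
      have h1 : k = 1 := eq_one_of_odd_dvd_two_pow hk ⟨q + 1, by rw [hk']; ring⟩
      rw [h1, mul_one, h] at hk'
      have h2 : q ^ (2 * m + 1) = q ^ 1 := by rw [pow_one]; omega
      have h3 : 2 * m + 1 = 1 := Nat.pow_right_injective hq.two_le h2
      left
      have h4 : q + 1 = 2 ^ a := by rw [h, h3, pow_one]
      refine ⟨rfl, h3, ?_, h4⟩
      have h5 : (2 ^ a - 1).Prime := by rw [← h4]; simpa using hq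
      have ha1 : a ≠ 1 := by
        rintro rfl
        have := hq.two_le
        omega
      exact (Nat.prime_of_pow_sub_one_prime ha1 h5).2
  · -- q = 2
    have hq2 : q = 2 := by
      rcases hq.eq_two_or_odd' with h1 | h1
      · exact h1
      · exfalso
        have h2 : Odd (p ^ a) := hpo.pow
        have h3 : Odd (q ^ b) := h1.pow
        rw [h] at h2
        exact (Nat.not_even_iff_odd.2 h2) h3.add_one
    subst hq2
    rcases Nat.even_or_odd' a with ⟨m, rfl | rfl⟩
    · right; right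
      have hm : m ≠ 0 := by rintro rfl; omega
      have hpm : 1 < p ^ m := Nat.one_lt_pow hm hp.one_lt
      obtain ⟨x, hx⟩ : ∃ x, p ^ m = x + 1 := ⟨p ^ m - 1, by omega⟩
      have h1 : 2 ^ b = x * (x + 2) := by
        have : p ^ (2 * m) = (p ^ m) ^ 2 := by ring
        rw [this, hx] at h
        nlinarith
      obtain ⟨i, _, hi⟩ := (Nat.dvd_prime_pow Nat.prime_two).1 (Dvd.intro _ h1.symm)
      obtain ⟨j, _, hj⟩ := (Nat.dvd_prime_pow Nat.prime_two).1 (Dvd.intro_left _ h1.symm)
      have hi1 : i ≠ 0 := by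
        rintro rfl
        rw [pow_zero] at hi
        rw [hi] at hj
        have : j ≠ 0 := by rintro rfl; simp at hj
        have : Even (2 ^ j) := even_two.pow_of_ne_zero this
        rw [← hj] at this
        exact absurd this (by decide)
      have hi2 : i = 1 := by
        by_contra hne
        have h3 : 4 ∣ x := by rw [hi]; exact (pow_dvd_pow 2 (show 2 ≤ i by omega))
        have h4 : j < 2 := by
          by_contra h5
          have : 4 ∣ x + 2 := by rw [hj]; exact (pow_dvd_pow 2 (show 2 ≤ j by omega))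
          omega
        have h6 : x + 2 ≤ 2 := by
          rw [hj]
          calc 2 ^ j ≤ 2 ^ 1 := Nat.pow_le_pow_right (by norm_num) (by omega)
            _ = 2 := by norm_num
        omega
      subst hi2
      rw [pow_one] at hi
      subst hi
      constructor
      · have : p ^ (2 * m) = (p ^ m) ^ 2 := by ring
        rw [this, hx]; norm_num
      · rw [h1]
    · obtain ⟨k, hk, hk'⟩ := odd_factor' p hpo m
      have h0 : 2 ^ b = (p - 1) * k := by omega
      have h1 : k = 1 := eq_one_of_odd_dvd_two_pow hk ⟨p - 1, by rw [h0]; ring⟩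
      rw [h1, mul_one] at hk'
      have h2 : p ^ (2 * m + 1) = p ^ 1 := by rw [pow_one]; have := hp.one_lt; omega
      have h3 : 2 * m + 1 = 1 := Nat.pow_right_injective hp.two_le h2
      right; left
      have h4 : p = 2 ^ b + 1 := by rw [h3, pow_one] at h; exact h
      refine ⟨rfl, h3, ?_, h4⟩
      rw [h4] at hp
      exact Nat.pow_of_pow_add_prime (by norm_num) (by omega) hp

end Cfsg.Agent.S3784
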