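import Cfsg.Statements.S3785
import Cfsg.Agent.Lib.FitCrit

set_option autoImplicit false
open Cfsg

namespace Cfsg.Agent.S3785

open Subgroup Lib.Coprime Lib.CoprimeB

/-- Let G be a finite solvable group whose Fitting subgroup F(G) has odd order. If an element g of G commutes with every element of prime order of F(G), then g ∈ F(G). -/
theorem result {G : Type*} [Group G] [Finite G] (hG : Group.IsSolvable G) (hodd : Odd (Nat.card (Cfsg.fittingSubgroup G))) (g : G) (hg : ∀ x ∈ Cfsg.fittingSubgroup G, (orderOf x).Prime → g * x = x * g) : g ∈ Cfsg.fittingSubgroup G := by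
  classical
  have hFn : (fittingSubgroup G).Normal := Lib.Cores.fitting_normal
  set S : Set G := {x | x ∈ fittingSubgroup G ∧ (orderOf x).Prime} with hS
  set K : Subgroup G := centralizer S with hK
  have hKn : K.Normal := ⟨by
    intro k hk g
    rw [mem_centralizer_iff] at hk ⊢
    intro x hx
    have h1 : g⁻¹ * x * g⁻¹⁻¹ ∈ S := by
      refine ⟨hFn.conj_mem x hx.1 g⁻¹, ?_⟩
      have : orderOf (g⁻¹ * x * g⁻¹⁻¹) = orderOf x :=
        orderOf_injective (MulAut.conj g⁻¹).toMonoidHom (MulAut.conj g⁻¹).injective x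
      rw [this]; exact hx.2
    have h2 := hk _ h1
    calc x * (g * k * g⁻¹) = g * ((g⁻¹ * x * g⁻¹⁻¹) * k) * g⁻¹ := by group
      _ = g * (k * (g⁻¹ * x * g⁻¹⁻¹)) * g⁻¹ := by rw [h2]
      _ = _ := by group⟩
  have hKs : Group.IsSolvable K := inferInstance
  have hle : K ≤ fittingSubgroup G := by
    apply Lib.FitCrit.le_fitting hKs
    intro q hq x hx hxq y hy _
    have hq' : Fact q.Prime := ⟨hq⟩
    have hPn := Lib.Cores.pCore_normal (G := G) q
    have hPp := Lib.Cores.pCore_isPGroup (G := G) q
    have hPF : pCore q G ≤ fittingSubgroup G := le_sSup ⟨hPn, hPp.isNilpotent⟩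
    by_cases hP1 : pCore q G = ⊥
    · rw [hP1, mem_bot] at hy
      rw [hy, one_mul, mul_one]
    have hq2 : q ≠ 2 := by
      rintro rfl
      obtain ⟨z, hz, hzo⟩ := H2.PUtil.exists_orderOf_prime hq hP1 hPp
      have h1 : 2 ∣ Nat.card (fittingSubgroup G) := by
        rw [← hzo]
        have := orderOf_dvd_natCard (⟨z, hPF hz⟩ : fittingSubgroup G)
        rwa [Subgroup.orderOf_mk] at this
      exact (Nat.not_even_iff_odd.2 hodd) (even_iff_two_dvd.2 h1)
    have h1 := Lib.MinAct.trivial_of_order_p (A := zpowers x) (P := pCore q G) hq2 hPp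
      (by rw [normalizer_eq_top_iff.mpr hPn]; exact le_top) (by rw [Nat.card_zpowers]; exact hxq)
      (by
        intro z hz hzp a ha
        by_cases hz1 : z = 1
        · rw [hz1, one_mul, mul_one]
        · have h2 : z ∈ S := ⟨hPF hz, by rw [orderOf_eq_prime hzp hz1]; exact hq⟩
          have h3 : a ∈ K := (zpowers_le.2 hx) ha
          exact (mem_centralizer_iff.1 h3 z h2).symm)
    rw [commutator_eq_bot_iff_le_centralizer] at h1
    exact (mem_centralizer_iff.1 (h1 hy) x (mem_zpowers x))
  apply hle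
  rw [mem_centralizer_iff]
  intro x hx
  exact (hg x hx.1 hx.2).symm

end Cfsg.Agent.S3785
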