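import Cfsg.Statements.S3790
import Mathlib
import Cfsg.Agent.H2.PLen

set_option autoImplicit false
open Cfsg

namespace Cfsg.Agent.S3790

universe u
open Subgroup Cfsg.Agent.H2.PLen

theorem aux (p : ℕ) [hp : Fact p.Prime] (r : ℕ) : ∀ (G : Type u) [Group G] [Finite G] (q : Fin r → ℕ)
    (_ : ∀ i, (q i).Prime ∧ q i ≠ p) (_ : Function.Injective q) (_ : ∀ s : ℕ, s.Prime → s ∣ Nat.card G → s ≠ p → ∃ i, q i = s)
    (l : Fin r → ℕ) (_ : ∀ i, Cfsg.PLengthLE (q i) (l i) G), Cfsg.PLengthLE p (Finset.univ.prod fun i => 1 + l i) G := by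
  induction r with
  | zero =>
    intro G _ _ q hq hinj hcover l hl
    rw [Finset.univ_eq_empty, Finset.prod_empty]
    apply one_of_isPGroup
    refine IsPGroup.iff_card.mpr ⟨_, Nat.eq_prime_pow_of_unique_prime_dvd Nat.card_pos.ne' ?_⟩
    intro d hd hdG
    by_contra hne
    obtain ⟨i, -⟩ := hcover d hd hdG hne
    exact i.elim0
  | succ r ih =>
    intro G _ _ q hq hinj hcover l hl
    haveI : Fact (q 0).Prime := ⟨(hq 0).1⟩
    have hch := ups_ch (G := G) (q 0)
    rw [Fin.prod_univ_succ]
    obtain ⟨M, hM⟩ : ∃ M, M = ∏ i : Fin r, (1 + l i.succ) := ⟨_, rfl⟩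
    rw [← hM]
    -- sections which are `q 0`-prime groups
    have hsec : ∀ (X : Type u) [Group X] [Finite X], (∀ i, Cfsg.PLengthLE (q i) (l i) X) → (Nat.card X ∣ Nat.card G) →
        (Nat.card X).Coprime (q 0) → Cfsg.PLengthLE p M X := by
      intro X _ _ h1 h2 h3
      rw [hM]
      refine ih X (fun i => q i.succ) (fun i => hq i.succ) (fun i j hij => Fin.succ_injective _ (hinj hij)) ?_ (fun i => l i.succ) (fun i => h1 i.succ)
      intro s hs hsX hsp
      obtain ⟨i, hi⟩ := hcover s hs (hsX.trans h2) hsp
      obtain rfl | ⟨j, rfl⟩ := Fin.eq_zero_or_eq_succ i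
      · exfalso
        rw [← hi] at hsX
        exact (hq 0).1.one_lt.ne' (Nat.eq_one_of_dvd_coprimes h3 hsX dvd_rfl)
      · exact ⟨j, hi⟩
    have hU : ∀ j, Cfsg.PLengthLE p ((1 + j) * M) (Cfsg.upperPSeries (q 0) G (2 * j + 1)).1 := by
      intro j
      induction j with
      | zero =>
        rw [Nat.add_zero, one_mul]
        apply hsec _ (fun i => by haveI : Fact (q i).Prime := ⟨(hq i).1⟩; exact subgroup (hl i) _) (card_subgroup_dvd_card _)
        apply coprime_of_elements
        intro x hx
        obtain ⟨m, hm, hxm⟩ := hch.even 0 x hx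
        exact ⟨m, hm, mem_bot.mp hxm⟩
      | succ j ihj =>
        have h1 : Cfsg.PLengthLE p ((1 + j) * M + 0) (Cfsg.upperPSeries (q 0) G (2 * j + 2)).1 := by
          apply ext' (Cfsg.Agent.Lib.PConB.ups_mono (q 0) (2 * j + 1)) ihj
          apply zero_of_coprime
          have h2 : IsPGroup (q 0) ((Cfsg.upperPSeries (q 0) G (2 * j + 1 + 1)).1 ⧸ (Cfsg.upperPSeries (q 0) G (2 * j + 1)).1.subgroupOf (Cfsg.upperPSeries (q 0) G (2 * j + 1 + 1)).1) := by
            intro x
            induction x using QuotientGroup.induction_on with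
            | _ x =>
            obtain ⟨m, hm⟩ := hch.odd j x x.2
            refine ⟨m, ?_⟩
            rw [← QuotientGroup.mk_pow]
            exact (QuotientGroup.eq_one_iff _).mpr hm
          obtain ⟨k, hk⟩ := IsPGroup.iff_card.mp h2
          rw [hk]
          exact Nat.Coprime.pow_left k ((Nat.coprime_primes (hq 0).1 hp.out).mpr (hq 0).2)
        rw [show (1 + (j + 1)) * M = ((1 + j) * M + 0) + M by ring]
        apply ext' (Cfsg.Agent.Lib.PConB.ups_mono (q 0) (2 * (j + 1))) h1
        apply hsec
        · intro i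
          haveI : Fact (q i).Prime := ⟨(hq i).1⟩
          exact quotient (subgroup (hl i) _) _
        · exact (card_quotient_dvd_card _).trans (card_subgroup_dvd_card _)
        · rw [← card_top]
          apply coprime_of_elements
          intro x _
          induction x using QuotientGroup.induction_on with
          | _ x =>
          obtain ⟨m, hm, hxm⟩ := hch.even (j + 1) x x.2
          refine ⟨m, hm, ?_⟩
          rw [← QuotientGroup.mk_pow]
          exact (QuotientGroup.eq_one_iff _).mpr hxm
    have h0 := hU (l 0)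
    have h1 : (Cfsg.upperPSeries (q 0) G (2 * l 0 + 1)).1 = ⊤ := hl 0
    rw [h1] at h0
    exact of_injective h0 (topEquiv (G := G)).symm.toMonoidHom (topEquiv (G := G)).symm.injective

/-- Let G be a finite solvable group and p a prime. Suppose p₁, …, p_r are distinct primes, all different from p, that include every prime dividing the order of G other than p, and that G has p_i-length at most l_i for each i. Then G has p-length at most the product of the numbers 1 + l_i. -/
theorem result {G : Type*} [Group G] [Finite G] (hG : Group.IsSolvable G) (p : ℕ) [Fact p.Prime] (r : ℕ) (q : Fin r → ℕ) (hq : ∀ i, (q i).Prime ∧ q i ≠ p) (hinj : Function.Injective q) (hcover : ∀ s : ℕ, s.Prime → s ∣ Nat.card G → s ≠ p → ∃ i, q i = s) (l : Fin r → ℕ) (hl : ∀ i, Cfsg.PLengthLE (q i) (l i) G) : Cfsg.PLengthLE p (Finset.univ.prod fun i => 1 + l i) G := by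
  exact aux p r G q hq hinj hcover l hl

end Cfsg.Agent.S3790
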