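import Cfsg.Statements.S3791
import Mathlib
import Cfsg.Agent.H2.PLen
import Cfsg.Agent.Lib.SchurZas

set_option autoImplicit false
open Cfsg

namespace Cfsg.Agent.S3791

universe u
open Subgroup Cfsg.Agent.H2.PLen Cfsg.Agent.Lib.Cores

theorem derived_le_of_quotient {G : Type*} [Group G] (N : Subgroup G) [N.Normal] {n : ℕ} (h : derivedSeries (G ⧸ N) n = ⊥) :
    derivedSeries G n ≤ N := by
  have h1 := map_derivedSeries_le_derivedSeries (QuotientGroup.mk' N) n
  rw [h, le_bot_iff, Subgroup.map_eq_bot_iff, QuotientGroup.ker_mk'] at h1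
  exact h1

theorem derived_of_le {G : Type*} [Group G] (H K : Subgroup G) (hHK : H ≤ K) {n : ℕ} (h : derivedSeries K n = ⊥) :
    derivedSeries H n = ⊥ := by
  rw [eq_bot_iff]
  intro x hx
  have h1 := (map_derivedSeries_le_derivedSeries (Subgroup.inclusion hHK) n) (mem_map_of_mem _ hx)
  rw [h, mem_bot] at h1
  rw [mem_bot]
  exact (Subgroup.inclusion_injective hHK) (h1.trans (map_one _).symm)

theorem derived_add {G : Type*} [Group G] (N : Subgroup G) {a b : ℕ} (h1 : derivedSeries G a ≤ N) (h2 : derivedSeries N b = ⊥) :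
    derivedSeries G (a + b) = ⊥ := by
  have h3 : ∀ k, derivedSeries G (a + k) ≤ (derivedSeries N k).map N.subtype := by
    intro k
    induction k with
    | zero =>
      rw [Nat.add_zero, derivedSeries_zero]
      intro x hx
      exact ⟨⟨x, h1 hx⟩, mem_top _, rfl⟩
    | succ k ih =>
      rw [← Nat.add_assoc, derivedSeries_succ, derivedSeries_succ, map_commutator]
      exact commutator_mono ih ih
  rw [eq_bot_iff]
  refine (h3 b).trans ?_
  rw [h2, Subgroup.map_bot]

theorem lift_derived {G : Type*} [Group G] [Finite G] {p : ℕ} [Fact p.Prime] (N : Subgroup G) [N.Normal] {d : ℕ}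
    (hd : ∀ P : Subgroup G, IsPGroup p P → derivedSeries P d = ⊥) (P : Subgroup (G ⧸ N)) (hP : IsPGroup p P) :
    derivedSeries P d = ⊥ := by
  obtain ⟨S, hS⟩ := hP.exists_le_sylow
  apply derived_of_le _ _ hS
  obtain ⟨T, rfl⟩ := Sylow.mapSurjective_surjective (QuotientGroup.mk'_surjective N) p S
  have h1 := hd T T.isPGroup'
  have h2 := derivedSeries_le_map_derivedSeries ((QuotientGroup.mk' N).subgroupMap_surjective (T : Subgroup G)) d
  rw [h1, Subgroup.map_bot, le_bot_iff] at h2
  exact h2

theorem aux (r : ℕ) (q : Fin r → ℕ) (hq : ∀ i, (q i).Prime) (d : Fin r → ℕ) (n : ℕ) : ∀ (G : Type u) [Group G] [Finite G],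
    Group.IsSolvable G → Nat.card G ≤ n →
    (∀ s : ℕ, s.Prime → s ∣ Nat.card G → ∃ i, q i = s) → ∀ l : Fin r → ℕ,
    (∀ i, ∀ P : Subgroup G, IsPGroup (q i) P → derivedSeries ↥P (d i) = ⊥) →
    (∀ i, Cfsg.PLengthLE (q i) (l i) G) → derivedSeries G (Finset.univ.sum fun i => d i * l i) = ⊥ := by
  induction n with
  | zero =>
    intro G _ _ _ h
    have := Nat.card_pos (α := G)
    omega
  | succ n ih =>
    intro G _ _ hs hn hcover l hd hl
    by_cases hnt : Nontrivial G
    swap
    · rw [not_nontrivial_iff_subsingleton] at hnt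
      exact Subsingleton.elim _ _
    by_cases hex : ∃ i, Cfsg.pPrimeCore (q i) G = ⊥
    · obtain ⟨i, hi⟩ := hex
      haveI : Fact (q i).Prime := ⟨hq i⟩
      haveI := pCore_normal (G := G) (q i)
      haveI := pPrimeCore_normal (G := G) (q i)
      -- `l i` is positive
      have hli : l i ≠ 0 := by
        intro h0
        have h1 := hl i
        rw [h0] at h1
        have h2 := coprime_of_zero h1
        have h3 : (⊤ : Subgroup G) ≤ Cfsg.pPrimeCore (q i) G := le_pPrimeCore inferInstance (by rw [card_top]; exact h2)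
        rw [hi] at h3
        exact top_ne_bot (le_bot_iff.mp h3)
      -- `O_q ≠ 1`
      have hO : Cfsg.pCore (q i) G ≠ ⊥ := by
        obtain ⟨p, hp, Q, hQn, hQp, hQb⟩ := Cfsg.Agent.Lib.SchurZas.exists_normal_pgroup_of_solvable hs
        haveI : Fact p.Prime := ⟨hp⟩
        by_cases hpq : p = q i
        · subst hpq
          intro h0
          exact hQb (le_bot_iff.mp (h0 ▸ le_pCore hQn hQp))
        · exfalso
          apply hQb
          rw [eq_bot_iff, ← hi]
          apply le_pPrimeCore hQn
          obtain ⟨k, hk⟩ := IsPGroup.iff_card.mp hQp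
          rw [hk]
          exact Nat.Coprime.pow_left k ((Nat.coprime_primes hp (hq i)).mpr hpq)
      have hcard : Nat.card (G ⧸ Cfsg.pCore (q i) G) ≤ n := by
        have h1 := card_eq_card_quotient_mul_card_subgroup (Cfsg.pCore (q i) G)
        have h2 : 1 < Nat.card (Cfsg.pCore (q i) G) := (Subgroup.one_lt_card_iff_ne_bot _).mpr hO
        have h3 := Nat.card_pos (α := G ⧸ Cfsg.pCore (q i) G)
        nlinarith
      have h1 : Cfsg.PLengthLE (q i) (l i - 1) (G ⧸ Cfsg.pCore (q i) G) := by
        apply shift hi
        rw [Nat.sub_add_cancel (Nat.one_le_iff_ne_zero.mpr hli)]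
        exact hl i
      have h2 := ih (G ⧸ Cfsg.pCore (q i) G) inferInstance hcard (fun s hs1 hs2 => hcover s hs1 (hs2.trans (card_quotient_dvd_card _)))
        (Function.update l i (l i - 1)) (by
          intro j P hP
          haveI : Fact (q j).Prime := ⟨hq j⟩
          exact lift_derived _ (hd j) P hP) (by
          intro j
          haveI : Fact (q j).Prime := ⟨hq j⟩
          by_cases hji : j = i
          · subst hji
            rw [Function.update_self]
            exact h1
          · rw [Function.update_of_ne hji]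
            exact quotient (hl j) _)
      have h3 := derived_le_of_quotient _ h2
      have h4 := derived_add _ h3 (hd i _ (pCore_isPGroup (G := G) (q i)))
      have h5 : (Finset.univ.sum fun j => d j * Function.update l i (l i - 1) j) + d i = Finset.univ.sum fun j => d j * l j := by
        rw [← Finset.add_sum_erase _ _ (Finset.mem_univ i), ← Finset.add_sum_erase _ (fun j => d j * l j) (Finset.mem_univ i),
          Function.update_self, Finset.sum_congr rfl (g := fun j => d j * l j) (fun j hj => by
            rw [Function.update_of_ne (Finset.ne_of_mem_erase hj)])]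
        have h6 : d i * (l i - 1) + d i = d i * l i := by
          rw [← Nat.mul_succ, Nat.succ_eq_add_one, Nat.sub_add_cancel (Nat.one_le_iff_ne_zero.mpr hli)]
        omega
      rwa [h5] at h4
    · push Not at hex
      -- all the cores are nontrivial
      have h1 : ∀ i, derivedSeries G (Finset.univ.sum fun i => d i * l i) ≤ Cfsg.pPrimeCore (q i) G := by
        intro i
        haveI : Fact (q i).Prime := ⟨hq i⟩
        haveI := pPrimeCore_normal (G := G) (q i)
        apply derived_le_of_quotient
        have hcard : Nat.card (G ⧸ Cfsg.pPrimeCore (q i) G) ≤ n := by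
          have h1 := card_eq_card_quotient_mul_card_subgroup (Cfsg.pPrimeCore (q i) G)
          have h2 : 1 < Nat.card (Cfsg.pPrimeCore (q i) G) := (Subgroup.one_lt_card_iff_ne_bot _).mpr (hex i)
          have h3 := Nat.card_pos (α := G ⧸ Cfsg.pPrimeCore (q i) G)
          nlinarith
        apply ih (G ⧸ Cfsg.pPrimeCore (q i) G) inferInstance hcard (fun s hs1 hs2 => hcover s hs1 (hs2.trans (card_quotient_dvd_card _)))
        · intro j P hP
          haveI : Fact (q j).Prime := ⟨hq j⟩
          exact lift_derived _ (hd j) P hP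
        · intro j
          haveI : Fact (q j).Prime := ⟨hq j⟩
          exact quotient (hl j) _
      rw [eq_bot_iff]
      by_contra hcon
      have h2 : derivedSeries G (Finset.univ.sum fun i => d i * l i) ≠ ⊥ := fun h => hcon h.le
      have h3 : Nat.card (derivedSeries G (Finset.univ.sum fun i => d i * l i)) ≠ 1 := fun h => h2 (card_eq_one.mp h)
      obtain ⟨s, hs1, hs2⟩ := Nat.exists_prime_and_dvd h3
      obtain ⟨i, rfl⟩ := hcover s hs1 (hs2.trans (card_subgroup_dvd_card _))
      haveI : Fact (q i).Prime := ⟨hq i⟩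
      exact hs1.one_lt.ne' (Nat.eq_one_of_dvd_coprimes (pPrimeCore_coprime (G := G) (q i)) (hs2.trans (card_dvd_of_le (h1 i))) dvd_rfl)

/-- The Hall–Higman bound on derived length: let G be a finite solvable group, let p₁, …, p_r be distinct primes that include every prime dividing the order of G, and suppose that for each i the Sylow p_i-subgroups of G have derived length at most d_i and G has p_i-length at most l_i. Then G has derived length at most Σ d_i l_i. -/
theorem result {G : Type*} [Group G] [Finite G] (hG : Group.IsSolvable G) (r : ℕ) (q : Fin r → ℕ) (hq : ∀ i, (q i).Prime) (hinj : Function.Injective q) (hcover : ∀ s : ℕ, s.Prime → s ∣ Nat.card G → ∃ i, q i = s) (d l : Fin r → ℕ) (hd : ∀ i, ∀ P : Subgroup G, (haveI := Fact.mk (hq i); ∃ S : Sylow (q i) G, (S : Subgroup G) = P) → derivedSeries ↥P (d i) = ⊥) (hl : ∀ i, Cfsg.PLengthLE (q i) (l i) G) : derivedSeries G (Finset.univ.sum fun i => d i * l i) = ⊥ := by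
  apply aux r q hq d _ G hG le_rfl hcover l ?_ hl
  intro i P hP
  haveI : Fact (q i).Prime := ⟨hq i⟩
  obtain ⟨S, hS⟩ := hP.exists_le_sylow
  exact derived_of_le _ _ hS (hd i S ⟨S, rfl⟩)

end Cfsg.Agent.S3791
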