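import Cfsg.Statements.S3800
import Cfsg.Agent.Lib.Coprime

set_option autoImplicit false
open Cfsg

namespace Cfsg.Agent.S3800

open Subgroup
open scoped Pointwise

/-- Let G be a finite group, N a normal subgroup of G whose order is prime to p, and P a p-subgroup of G. Then in G/N the normalizer of the image of P is the image of N_G(P), and the centralizer of the image of P is the image of C_G(P). -/
theorem result {G : Type*} [Group G] [Finite G] {p : ℕ} [Fact p.Prime] (N : Subgroup G) [N.Normal] (hN : (Nat.card N).Coprime p) (P : Subgroup G) (hP : IsPGroup p P) : Subgroup.normalizer ((P.map (QuotientGroup.mk' N)) : Set (G ⧸ N)) = (Subgroup.normalizer (P : Set G)).map (QuotientGroup.mk' N) ∧ Subgroup.centralizer ((P.map (QuotientGroup.mk' N)) : Set (G ⧸ N)) = (Subgroup.centralizer (P : Set G)).map (QuotientGroup.mk' N) := by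
  have hcop : (Nat.card P).Coprime (Nat.card N) := by
    obtain ⟨k, hk⟩ := hP.exists_card_eq
    rw [hk]
    exact Nat.Coprime.pow_left k hN.symm
  have hs : Group.IsSolvable P := by
    have := hP.isNilpotent
    infer_instance
  have hPN : P ≤ normalizer (N : Set G) := by rw [normalizer_eq_top]; exact le_top
  constructor
  · apply le_antisymm
    · intro y hy
      obtain ⟨x, rfl⟩ := QuotientGroup.mk'_surjective N y
      have h1 : (MulAut.conj x • P : Subgroup G).map (QuotientGroup.mk' N) = P.map (QuotientGroup.mk' N) := by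
        rw [Cfsg.Agent.Lib.SchurZas.map_conj_smul]
        exact Cfsg.Agent.Lib.Coprime.conj_smul_eq_of_mem_normalizer hy
      have hsup : N ⊔ P = N ⊔ (MulAut.conj x • P : Subgroup G) := by
        have h2 := congrArg (Subgroup.comap (QuotientGroup.mk' N)) h1
        rw [comap_map_eq, comap_map_eq, QuotientGroup.ker_mk'] at h2
        rw [sup_comm, ← h2, sup_comm]
      obtain ⟨n, hn, hconj⟩ := Cfsg.Agent.Lib.SchurZas.conj_of_coprime' hPN hcop
        (by rw [Cfsg.Agent.Lib.SchurZas.card_conj_smul]; exact hcop) hsup (Or.inl hs)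
      refine ⟨n⁻¹ * x, ?_, ?_⟩
      · apply Cfsg.Agent.Lib.Coprime.mem_normalizer_of_conj_smul_eq
        rw [map_mul, mul_smul, ← hconj, ← mul_smul, ← map_mul, inv_mul_cancel, map_one, one_smul]
      · rw [map_mul]
        have : QuotientGroup.mk' N n⁻¹ = 1 := (QuotientGroup.eq_one_iff _).mpr (inv_mem hn)
        rw [this, one_mul]
    · rintro _ ⟨x, hx, rfl⟩
      apply Cfsg.Agent.Lib.Coprime.mem_normalizer_of_conj_smul_eq
      rw [← Cfsg.Agent.Lib.SchurZas.map_conj_smul,
        Cfsg.Agent.Lib.Coprime.conj_smul_eq_of_mem_normalizer hx]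
  · apply le_antisymm
    · intro y hy
      obtain ⟨x, rfl⟩ := QuotientGroup.mk'_surjective N y
      have h1 : ∀ a ∈ P, x⁻¹ * (a * x * a⁻¹) ∈ N := by
        intro a ha
        have h2 := mem_centralizer_iff.mp hy (QuotientGroup.mk' N a) ⟨a, ha, rfl⟩
        rw [← QuotientGroup.eq_one_iff]
        change QuotientGroup.mk' N (x⁻¹ * (a * x * a⁻¹)) = 1
        rw [map_mul, map_mul, map_mul, map_inv, map_inv, h2]
        group
      obtain ⟨d, hd, hxd⟩ := Cfsg.Agent.Lib.Coprime.exists_mem_centralizer_coset hPN hcop (Or.inl hs) x h1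
      refine ⟨x * d, hxd, ?_⟩
      rw [map_mul]
      have : QuotientGroup.mk' N d = 1 := (QuotientGroup.eq_one_iff _).mpr hd
      rw [this, mul_one]
    · rintro _ ⟨x, hx, rfl⟩
      rw [mem_centralizer_iff]
      rintro _ ⟨a, ha, rfl⟩
      rw [← map_mul, ← map_mul, mem_centralizer_iff.mp hx a ha]

end Cfsg.Agent.S3800
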