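import Cfsg.Statements.S3950
import Cfsg.Agent.H2.SchurProd

set_option autoImplicit false
open Cfsg

namespace Cfsg.Agent.S3950

open Cfsg.Agent.Lib.SchurMult Cfsg.Agent.H2.SchurProd Cfsg.Agent.Lib.HeisGrp
open scoped commutatorElement

theorem symm_of_trivial {G : Type*} [CommGroup G] (h : Cfsg.HasCyclicSchurMultiplier G 1)
    {T : Type*} [CommGroup T] (c : G →* (G →* T)) (x y : G) : c x y = c y x := by
  let D : Subgroup (Heis c) :=
    { carrier := {a | a.x = a.y}
      one_mem' := rfl
      mul_mem' := by
        intro a b ha hb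
        change a.x * b.x = a.y * b.y
        rw [show a.x = a.y from ha, show b.x = b.y from hb]
      inv_mem' := by
        intro a ha
        change a.x⁻¹ = a.y⁻¹
        rw [show a.x = a.y from ha] }
  let ξ : D →* G := (MonoidHom.fst G G).comp (proj.comp D.subtype)
  have hξ : Function.Surjective ξ := fun g => ⟨⟨⟨g, g, 1⟩, rfl⟩, rfl⟩
  have hker : ξ.ker ≤ Subgroup.center D := by
    intro a ha
    have h1 : a.1.x = 1 := ha
    have h2 : a.1.y = 1 := by rw [← show a.1.x = a.1.y from a.2]; exact h1
    rw [Subgroup.mem_center_iff]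
    intro b
    apply Subtype.ext
    refine ext' (mul_comm _ _) (mul_comm _ _) ?_
    change b.1.t * a.1.t * c b.1.x a.1.y = a.1.t * b.1.t * c a.1.x b.1.y
    rw [h1, h2, map_one, map_one, MonoidHom.one_apply, mul_comm a.1.t]
  have hbot := inf_eq_bot_of_hasCyclic_one h ξ hξ hker
  let X : D := ⟨⟨x, x, 1⟩, rfl⟩
  let Y : D := ⟨⟨y, y, 1⟩, rfl⟩
  have h3 : ⁅X, Y⁆ ∈ ξ.ker ⊓ commutator D := by
    refine Subgroup.mem_inf.mpr ⟨?_, Subgroup.commutator_mem_commutator (Subgroup.mem_top _)
      (Subgroup.mem_top _)⟩
    rw [MonoidHom.mem_ker, map_commutatorElement, commutatorElement_eq_one_iff_mul_comm, mul_comm]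
  rw [hbot, Subgroup.mem_bot, commutatorElement_eq_one_iff_mul_comm] at h3
  have h4 := congrArg (fun a : D => a.1.t) h3
  change 1 * 1 * c x y = 1 * 1 * c y x at h4
  simpa using h4

/-- A finite abelian group has trivial Schur multiplier if and only if it is cyclic. -/
theorem result {G : Type*} [CommGroup G] [Finite G] : Cfsg.HasCyclicSchurMultiplier G 1 ↔ IsCyclic G := by
  constructor
  · intro h
    obtain ⟨ι, _, n, hn, ⟨e⟩⟩ := CommGroup.equiv_prod_multiplicative_zmod_of_finite G
    classical
    have hcop : Pairwise (Function.onFun Nat.Coprime n) := by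
      intro i j hij
      by_contra hne
      obtain ⟨p, hp, hpi, hpj⟩ := Nat.Prime.not_coprime_iff_dvd.mp hne
      have : Fact p.Prime := ⟨hp⟩
      let χ (k : ι) (hk : p ∣ n k) : G →* Multiplicative (ZMod p) :=
        ((AddMonoidHom.toMultiplicative (ZMod.castHom hk (ZMod p)).toAddMonoidHom).comp
          (Pi.evalMonoidHom _ k)).comp e.toMonoidHom
      let c : G →* (G →* Multiplicative (ZMod p)) :=
        { toFun := fun x =>
            { toFun := fun y => Multiplicative.ofAdd
                ((χ i hpi x).toAdd * (χ j hpj y).toAdd)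
              map_one' := by rw [map_one, toAdd_one, mul_zero]; rfl
              map_mul' := fun a b => by rw [map_mul (χ j hpj), toAdd_mul, mul_add]; rfl }
          map_one' := by
            refine MonoidHom.ext fun y => ?_
            change Multiplicative.ofAdd ((χ i hpi 1).toAdd * _) = 1
            rw [map_one, toAdd_one, zero_mul]; rfl
          map_mul' := by
            intro a b
            refine MonoidHom.ext fun y => ?_
            change Multiplicative.ofAdd ((χ i hpi (a * b)).toAdd * _) = _
            rw [map_mul (χ i hpi), toAdd_mul, add_mul]; rfl }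
      have hc := symm_of_trivial h c (e.symm (Pi.mulSingle i (Multiplicative.ofAdd 1)))
        (e.symm (Pi.mulSingle j (Multiplicative.ofAdd 1)))
      have h1 : ∀ (k l : ι) (hk : p ∣ n k), χ k hk (e.symm (Pi.mulSingle l
          (Multiplicative.ofAdd 1))) = if k = l then Multiplicative.ofAdd 1 else 1 := by
        intro k l hk
        change (AddMonoidHom.toMultiplicative (ZMod.castHom hk (ZMod p)).toAddMonoidHom)
          (Pi.evalMonoidHom _ k (e (e.symm _))) = _
        rw [MulEquiv.apply_symm_apply]
        split_ifs with hkl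
        · subst hkl
          rw [Pi.evalMonoidHom_apply, Pi.mulSingle_eq_same]
          change Multiplicative.ofAdd (ZMod.castHom hk (ZMod p) 1) = _
          rw [map_one]
        · rw [Pi.evalMonoidHom_apply, Pi.mulSingle_eq_of_ne hkl, map_one]
      change Multiplicative.ofAdd ((χ i hpi _).toAdd * (χ j hpj _).toAdd) =
        Multiplicative.ofAdd ((χ i hpi _).toAdd * (χ j hpj _).toAdd) at hc
      rw [h1, h1, h1, h1, if_pos rfl, if_pos rfl, if_neg hij, if_neg hij.symm] at hc
      have h2 : (1 : ZMod p) * 1 = 0 * 0 := hc
      simp at h2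
    have e' : Multiplicative (ZMod (∏ i, n i)) ≃* ((i : ι) → Multiplicative (ZMod (n i))) :=
      { toFun := fun x i => Multiplicative.ofAdd (ZMod.prodEquivPi n hcop x.toAdd i)
        invFun := fun f => Multiplicative.ofAdd ((ZMod.prodEquivPi n hcop).symm
          (fun i => (f i).toAdd))
        left_inv := fun x => by
          change Multiplicative.ofAdd ((ZMod.prodEquivPi n hcop).symm
            (ZMod.prodEquivPi n hcop x.toAdd)) = x
          rw [RingEquiv.symm_apply_apply]; rfl
        right_inv := fun f => by
          funext i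
          change Multiplicative.ofAdd (ZMod.prodEquivPi n hcop ((ZMod.prodEquivPi n hcop).symm
            (fun i => (f i).toAdd)) i) = f i
          rw [RingEquiv.apply_symm_apply]; rfl
        map_mul' := fun x y => by
          funext i
          change Multiplicative.ofAdd (ZMod.prodEquivPi n hcop (x.toAdd + y.toAdd) i) = _
          rw [map_add]; rfl }
    exact isCyclic_of_surjective (e'.trans e.symm).toMonoidHom (e'.trans e.symm).surjective
  · intro h
    apply hasCyclic_one_of
    intro Γ _ _ σ hσ
    have hcomm : ∀ a b : Γ, a * b = b * a := fun a b =>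
      (σ.isMulCommutative_of_isCyclic_of_ker_le_center hσ.2.1).is_comm.comm a b
    rw [eq_bot_iff]
    refine hσ.2.2.trans ?_
    rw [commutator_def, Subgroup.commutator_le]
    intro a _ b _
    rw [Subgroup.mem_bot, commutatorElement_eq_one_iff_mul_comm]
    exact hcomm a b

end Cfsg.Agent.S3950
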