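import Cfsg.Statements.S3951
import Cfsg.Agent.H2.SchurProd

set_option autoImplicit false
open Cfsg

namespace Cfsg.Agent.S3951

open Cfsg.Agent.Lib.SchurMult Cfsg.Agent.H2.SchurProd Cfsg.Agent.Lib.HeisGrp
open scoped commutatorElement

theorem trivial_of_cyclic {G : Type*} [Group G] [Finite G] [IsCyclic G] :
    Cfsg.HasCyclicSchurMultiplier G 1 := by
  apply hasCyclic_one_of
  intro Γ _ _ σ hσ
  have hcomm : ∀ a b : Γ, a * b = b * a := fun a b =>
    (σ.isMulCommutative_of_isCyclic_of_ker_le_center hσ.2.1).is_comm.comm a b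
  rw [eq_bot_iff]
  refine hσ.2.2.trans ?_
  rw [commutator_def, Subgroup.commutator_le]
  intro a _ b _
  rw [Subgroup.mem_bot, commutatorElement_eq_one_iff_mul_comm]
  exact hcomm a b

/-- the pairing `Z/m × Z/n → Z/n` for `n ∣ m` -/
def pair (m n : ℕ) (hnm : n ∣ m) :
    Multiplicative (ZMod m) →* (Multiplicative (ZMod n) →* Multiplicative (ZMod n)) where
  toFun x :=
    { toFun := fun y => Multiplicative.ofAdd (ZMod.castHom hnm (ZMod n) x.toAdd * y.toAdd)
      map_one' := by rw [toAdd_one, mul_zero]; rfl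
      map_mul' := fun a b => by rw [toAdd_mul, mul_add]; rfl }
  map_one' := by
    refine MonoidHom.ext fun y => ?_
    change Multiplicative.ofAdd (ZMod.castHom hnm (ZMod n) 0 * y.toAdd) = 1
    rw [map_zero, zero_mul]; rfl
  map_mul' := by
    intro a b
    refine MonoidHom.ext fun y => ?_
    change Multiplicative.ofAdd (ZMod.castHom hnm (ZMod n) (a.toAdd + b.toAdd) * y.toAdd) = _
    rw [map_add, add_mul]; rfl

theorem main (m n : ℕ) [NeZero m] [NeZero n] (hnm : n ∣ m) :
    Cfsg.HasCyclicSchurMultiplier (Multiplicative (ZMod m) × Multiplicative (ZMod n)) n := by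
  have hid : ∀ {G : Type} [Group G], Cfsg.IsStemExtension (MonoidHom.id G) := fun {G} _ =>
    ⟨Function.surjective_id, by rw [MonoidHom.ker_id]; exact bot_le,
      by rw [MonoidHom.ker_id]; exact bot_le⟩
  obtain ⟨Γ, iΓ, σ, hσ, ⟨e⟩⟩ := stem_heis (MonoidHom.id (Multiplicative (ZMod m)))
    (MonoidHom.id (Multiplicative (ZMod n))) hid hid (pair m n hnm) (by
      rw [eq_top_iff]
      intro t _
      apply Subgroup.subset_closure
      refine ⟨Multiplicative.ofAdd 1, t, ?_⟩
      change t = Multiplicative.ofAdd (ZMod.castHom hnm (ZMod n) 1 * t.toAdd)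
      rw [map_one, one_mul]; rfl)
  have hfin : Finite Γ := finite_of_stem σ hσ
  refine hasCyclic_of σ hσ ?_ ?_
  · rw [Nat.card_congr e.toEquiv, Nat.card_prod, Nat.card_prod, MonoidHom.ker_id, MonoidHom.ker_id,
      Subgroup.card_bot, Subgroup.card_bot, one_mul, one_mul]
    exact Nat.card_zmod n
  · intro Δ _ _ τ hτ
    have h1 : Cfsg.HasCyclicSchurMultiplier (Multiplicative (ZMod m)) 1 := trivial_of_cyclic
    have h2 : Cfsg.HasCyclicSchurMultiplier (Multiplicative (ZMod n)) 1 := trivial_of_cyclic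
    obtain ⟨f, hf⟩ := surj_prod h1 h2 τ hτ
    -- every element of the tensor product is a power of the generator
    let g := abTmul (Multiplicative (ZMod m)) (Multiplicative (ZMod n)) (Multiplicative.ofAdd 1)
      (Multiplicative.ofAdd 1)
    have hofp : ∀ (N : ℕ) (x : Multiplicative (ZMod N)), ∃ k : ℤ, x = (Multiplicative.ofAdd 1) ^ k := by
      intro N x
      obtain ⟨k, hk⟩ := ZMod.intCast_surjective x.toAdd
      refine ⟨k, ?_⟩
      rw [← ofAdd_zsmul, zsmul_one, hk]; rfl
    have hg : ∀ t, t ∈ Subgroup.zpowers g := by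
      have : (⊤ : Subgroup _) ≤ Subgroup.zpowers g := by
        rw [← closure_abTmul, Subgroup.closure_le]
        rintro _ ⟨x, y, rfl⟩
        obtain ⟨k, rfl⟩ := hofp m x
        obtain ⟨l, rfl⟩ := hofp n y
        refine ⟨k * l, ?_⟩
        simp only [map_zpow, g]
        rw [MonoidHom.zpow_apply, ← zpow_mul]
      exact fun t => this (Subgroup.mem_top t)
    have hgn : g ^ n = 1 := by
      have h3 : (Multiplicative.ofAdd (1 : ZMod n)) ^ n = 1 := by
        rw [← ofAdd_nsmul, nsmul_one, CharP.cast_eq_zero]; rfl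
      simp only [g]
      rw [← map_pow, h3, map_one]
    -- the image
    let f' : AbTensor (Multiplicative (ZMod m)) (Multiplicative (ZMod n)) →* τ.ker :=
      f.comp ((MonoidHom.inr _ _).comp (MonoidHom.inr _ _))
    have hf' : Function.Surjective f' := by
      intro k
      obtain ⟨⟨a, b, t⟩, rfl⟩ := hf k
      have : Subsingleton (Multiplicative (ZMod 1)) := inferInstanceAs (Subsingleton (ZMod 1))
      refine ⟨t, ?_⟩
      change f (1, 1, t) = _
      rw [Subsingleton.elim a 1, Subsingleton.elim b 1]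
    have hk : ∀ x, x ∈ Subgroup.zpowers (f' g) := by
      intro x
      obtain ⟨t, rfl⟩ := hf' x
      obtain ⟨k, rfl⟩ := hg t
      exact ⟨k, (map_zpow f' g k).symm⟩
    refine ⟨⟨⟨f' g, hk⟩⟩, ?_⟩
    rw [← orderOf_eq_card_of_forall_mem_zpowers hk]
    apply orderOf_dvd_of_pow_eq_one
    rw [← map_pow, hgn, map_one]

theorem congr_group {G H : Type} [Group G] [Group H] (e : G ≃* H) {A : Type} [CommGroup A]
    (h : Cfsg.HasSchurMultiplier G A) : Cfsg.HasSchurMultiplier H A := by
  have hker : ∀ {Γ : Type} [Group Γ] (σ : Γ →* G), (e.toMonoidHom.comp σ).ker = σ.ker := by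
    intro Γ _ σ
    ext x
    rw [MonoidHom.mem_ker, MonoidHom.mem_ker]
    change e (σ x) = 1 ↔ _
    rw [map_eq_one_iff e e.injective]
  have hker' : ∀ {Γ : Type} [Group Γ] (σ : Γ →* H), (e.symm.toMonoidHom.comp σ).ker = σ.ker := by
    intro Γ _ σ
    ext x
    rw [MonoidHom.mem_ker, MonoidHom.mem_ker]
    change e.symm (σ x) = 1 ↔ _
    rw [map_eq_one_iff e.symm e.symm.injective]
  obtain ⟨⟨Γ, i1, i2, σ, hσ, ⟨e'⟩⟩, h2⟩ := h
  refine ⟨⟨Γ, i1, i2, e.toMonoidHom.comp σ, ⟨e.surjective.comp hσ.1, ?_, ?_⟩, ?_⟩, ?_⟩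
  · rw [hker]; exact hσ.2.1
  · rw [hker]; exact hσ.2.2
  · rw [hker]; exact ⟨e'⟩
  · intro Γ _ _ σ hσ
    have := h2 Γ (e.symm.toMonoidHom.comp σ) ⟨e.symm.surjective.comp hσ.1, by
      rw [hker']; exact hσ.2.1, by rw [hker']; exact hσ.2.2⟩
    rwa [hker'] at this

/-- For positive integers `m` and `n` with `n` dividing `m`, the Schur multiplier of the abelian group `ZMod m × ZMod n` (written multiplicatively) is cyclic of order `n`. In particular the elementary abelian group of order `p ^ 2` has multiplier of order `p`. -/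
theorem result (m n : ℕ) [NeZero m] [NeZero n] (hnm : n ∣ m) : Cfsg.HasCyclicSchurMultiplier (Multiplicative (ZMod m × ZMod n)) n := by
  exact congr_group (G := Multiplicative (ZMod m) × Multiplicative (ZMod n))
    { toFun := fun x => Multiplicative.ofAdd (x.1.toAdd, x.2.toAdd)
      invFun := fun x => (Multiplicative.ofAdd x.toAdd.1, Multiplicative.ofAdd x.toAdd.2)
      left_inv := fun x => rfl
      right_inv := fun x => rfl
      map_mul' := fun x y => rfl } (main m n hnm)

end Cfsg.Agent.S3951
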