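import Cfsg.Statements.S3953
import Cfsg.Agent.Lib.SchurRes

set_option autoImplicit false
open Cfsg

namespace Cfsg.Agent.S3953

open Cfsg.Agent.Lib.SchurMult Cfsg.Agent.Lib.SchurRes

/-- Let `P` be a Sylow `p`-subgroup of the finite group `G`, let `A` be the Schur multiplier of `G` and `B` that of `P`. Then the `p`-primary component of `A` is isomorphic to a direct factor of `B`: there are subgroups `C` and `D` of `B` meeting trivially and generating `B`, with `C` isomorphic to the `p`-primary component of `A`. -/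
theorem result {G : Type*} [Group G] [Finite G] (p : ℕ) [Fact p.Prime] (P : Sylow p G) {A B : Type*} [CommGroup A] [CommGroup B] (hA : Cfsg.HasSchurMultiplier G A) (hB : Cfsg.HasSchurMultiplier P B) : ∃ C D : Subgroup B, C ⊓ D = ⊥ ∧ C ⊔ D = ⊤ ∧ Nonempty (CommGroup.primaryComponent A p ≃* C) := by
  have hfA := finite_of_hasSchurMultiplier hA
  have hfB := finite_of_hasSchurMultiplier hB
  obtain ⟨r, c, hrc⟩ := exists_res_cores (P : Subgroup G) hA hB
  have hp : p.Prime := Fact.out
  set m := (P : Subgroup G).index with hm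
  have hmp : Nat.Coprime m p := by
    rw [Nat.coprime_comm, hp.coprime_iff_not_dvd]
    exact P.not_dvd_index
  set N := Nat.card A with hN
  have hN0 : N ≠ 0 := Nat.card_pos.ne'
  set n' := N / p ^ N.factorization p with hn'
  set q := p ^ N.factorization p with hq
  have hNq : N = q * n' := (Nat.ordProj_mul_ordCompl_eq_self N p).symm
  have hcop : Nat.Coprime q n' := by
    apply Nat.Coprime.pow_left
    exact Nat.coprime_ordCompl hp hN0
  have hmem : ∀ a : A, a ∈ CommGroup.primaryComponent A p ↔ a ^ q = 1 := by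
    intro a
    constructor
    · rintro ⟨k, hk⟩
      have h1 : orderOf a ∣ q * n' := by rw [← hNq]; exact orderOf_dvd_natCard a
      have h2 : Nat.Coprime (orderOf a) n' := by
        apply Nat.Coprime.coprime_dvd_left (orderOf_dvd_of_pow_eq_one hk)
        apply Nat.Coprime.pow_left
        exact Nat.coprime_ordCompl hp hN0
      exact orderOf_dvd_iff_pow_eq_one.mp (h2.dvd_of_dvd_mul_right h1)
    · intro h
      exact ⟨N.factorization p, h⟩
  have hmq : Nat.Coprime m q := hmp.pow_right _
  -- injectivity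
  have hinj : ∀ a : A, a ^ q = 1 → r a = 1 → a = 1 := by
    intro a h1 h2
    have h3 : a ^ m = 1 := by rw [← hrc, h2, map_one]
    have h4 := pow_gcd_eq_one.mpr ⟨h3, h1⟩
    rw [hmq] at h4
    rwa [pow_one] at h4
  let C : Subgroup B := (CommGroup.primaryComponent A p).map r
  let D : Subgroup B := (powMonoidHom n' : A →* A).ker.comap c
  refine ⟨C, D, ?_, ?_, ?_⟩
  · rw [eq_bot_iff]
    rintro _ ⟨⟨a, ha, rfl⟩, hD⟩
    have h1 : a ^ q = 1 := (hmem a).mp ha
    have h2 : (c (r a)) ^ n' = 1 := hD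
    rw [hrc, ← pow_mul] at h2
    have h3 : Nat.Coprime (m * n') q := Nat.Coprime.mul_left hmq hcop.symm
    have h4 := pow_gcd_eq_one.mpr ⟨h2, h1⟩
    rw [h3] at h4
    rw [pow_one] at h4
    rw [h4, map_one]
    exact one_mem _
  · rw [eq_top_iff]
    intro b _
    have hb1 := Nat.gcd_eq_gcd_ab q n'
    rw [hcop] at hb1
    have hb2 := Nat.gcd_eq_gcd_ab m q
    rw [hmq] at hb2
    push_cast at hb1 hb2
    set y := c b with hy
    have hyN : y ^ (N : ℤ) = 1 := by rw [zpow_natCast]; exact pow_card_eq_one'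
    -- the p-part of y
    set yp := y ^ ((n' : ℤ) * Nat.gcdB q n') with hyp
    have hypq : yp ^ (q : ℤ) = 1 := by
      rw [hyp, ← zpow_mul]
      have : ((n' : ℤ) * Nat.gcdB q n') * q = N * Nat.gcdB q n' := by rw [hNq]; push_cast; ring
      rw [this, zpow_mul, hyN, one_zpow]
    set x := yp ^ (Nat.gcdA m q) with hx
    have hxq : x ^ q = 1 := by
      rw [← zpow_natCast, hx, ← zpow_mul, mul_comm, zpow_mul, hypq, one_zpow]
    have hxm : x ^ m = yp := by
      rw [← zpow_natCast, hx, ← zpow_mul]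
      have h1 : Nat.gcdA m q * (m : ℤ) = 1 + q * (- Nat.gcdB m q) := by linarith
      rw [h1, zpow_add, zpow_one, zpow_mul, hypq, one_zpow, mul_one]
    have hxC : r x ∈ C := ⟨x, (hmem x).mpr hxq, rfl⟩
    have hD : (r x)⁻¹ * b ∈ D := by
      change (c ((r x)⁻¹ * b)) ^ n' = 1
      rw [map_mul, map_inv, hrc, hxm, ← hy]
      have h1 : yp⁻¹ * y = y ^ ((q : ℤ) * Nat.gcdA q n') := by
        rw [hyp, ← zpow_neg, ← zpow_add_one]
        congr 1
        linarith
      rw [h1, ← zpow_natCast, ← zpow_mul]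
      have : ((q : ℤ) * Nat.gcdA q n') * n' = N * Nat.gcdA q n' := by rw [hNq]; push_cast; ring
      rw [this, zpow_mul, hyN, one_zpow]
    have := Subgroup.mul_mem_sup hxC hD
    rwa [mul_inv_cancel_left] at this
  · let f : CommGroup.primaryComponent A p →* C :=
      (r.comp (Subgroup.subtype _)).codRestrict _ (fun a => ⟨a, a.2, rfl⟩)
    refine ⟨MulEquiv.ofBijective f ⟨?_, ?_⟩⟩
    · rw [injective_iff_map_eq_one]
      intro a ha
      exact Subtype.ext (hinj a ((hmem a).mp a.2) (congrArg Subtype.val ha))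
    · rintro ⟨_, a, ha, rfl⟩
      exact ⟨⟨a, ha⟩, rfl⟩

end Cfsg.Agent.S3953
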