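import Cfsg.Statements.S3957
import Cfsg.Agent.Lib.SchurMult

set_option autoImplicit false
universe u v
open Cfsg

namespace Cfsg.Agent.S3957

open Cfsg.Agent.Lib.SchurMult
open scoped commutatorElement

/-- Let `Q` be a finite group with Schur multiplier `A` and let `τ : Δ →* Q` be a finite stem extension, `Δ` in the universe of `Q`. Then there is a finite stem extension `σ : Γ →* Q` with kernel isomorphic to `A` (a Schur covering group) and a surjective homomorphism `β : Γ →* Δ` with `τ ∘ β = σ`. -/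
theorem result {Q : Type u} [Group Q] [Finite Q] {A : Type v} [CommGroup A] (hA : Cfsg.HasSchurMultiplier Q A) {Δ : Type u} [Group Δ] [Finite Δ] (τ : Δ →* Q) (hτ : Cfsg.IsStemExtension τ) : ∃ (Γ : Type u) (_ : Group Γ) (_ : Finite Γ) (σ : Γ →* Q), Cfsg.IsStemExtension σ ∧ Nonempty (σ.ker ≃* A) ∧ ∃ β : Γ →* Δ, Function.Surjective β ∧ τ.comp β = σ := by
  have hQ := stdPres_surjective Q
  obtain ⟨φ, hφ⟩ := covHom_lift (stdPres Q) τ hτ.1 hτ.2.1 (MonoidHom.id Q)
  have hφ' : ∀ e, τ (φ e) = covHom (stdPres Q) e := hφ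
  -- φ is surjective
  have hmap := commutator_eq_map (covHom_surjective hQ) hτ.2.1 φ hφ'
  have hsurj : Function.Surjective φ := by
    intro d
    obtain ⟨e, he⟩ := covHom_surjective hQ (τ d)
    have h1 : (φ e)⁻¹ * d ∈ τ.ker := by
      rw [MonoidHom.mem_ker, map_mul, map_inv, hφ', he, inv_mul_cancel]
    have h2 := hτ.2.2 h1
    rw [hmap] at h2
    obtain ⟨c, _, hc⟩ := h2
    exact ⟨e * c, by rw [map_mul, hc, mul_inv_cancel_left]⟩
  -- complement
  have hker : φ.ker ≤ (covHom (stdPres Q)).ker := by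
    intro x hx
    rw [MonoidHom.mem_ker] at hx ⊢
    rw [← hφ', hx, map_one]
  obtain ⟨S, hS1, hS2, hS3⟩ := exists_compl_cov (stdPres Q) φ.ker hker
  have hSc := (hS1.trans hker).trans (ker_covHom_le (stdPres Q))
  have hn : S.Normal := normal_of_le_center hSc
  have hle : (covHom (stdPres Q)).ker ≤ S ⊔ Mult (stdPres Q) := by
    intro x hx
    have h1 : φ x ∈ τ.ker := by rw [MonoidHom.mem_ker, hφ']; exact hx
    have h2 := hτ.2.2 h1
    rw [hmap] at h2
    obtain ⟨c, hc, hc'⟩ := h2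
    have h3 : x * c⁻¹ ∈ φ.ker := by
      rw [MonoidHom.mem_ker, map_mul, map_inv, hc', mul_inv_cancel]
    rw [← hS3] at h3
    obtain ⟨s, hs, t, ht, hst⟩ := Subgroup.mem_sup_of_normal_left.mp h3
    have h4 : x = s * (t * c) := by rw [← mul_assoc, hst, inv_mul_cancel_right]
    rw [h4]
    refine Subgroup.mul_mem_sup hs (Subgroup.mem_inf.mpr ⟨?_, ?_⟩)
    · have h5 : t * c = s⁻¹ * x := by rw [h4]; group
      rw [h5]
      exact mul_mem (inv_mem (hker (hS1 hs))) hx
    · exact mul_mem (Subgroup.mem_inf.mp ht).2 hc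
  have hst := isStemExtension_lift (covHom_surjective hQ) (ker_covHom_le (stdPres Q)) S
    (hS1.trans hker) (hle.trans (sup_le_sup le_rfl inf_le_right))
  obtain ⟨e⟩ := nonempty_ker_lift_equiv S (hS1.trans hker) hle hS2
  obtain ⟨e'⟩ := (hasSchurMultiplier_iff hQ).mp hA
  refine ⟨Cov (stdPres Q) ⧸ S, inferInstance, finite_of_stem _ hst,
    QuotientGroup.lift S (covHom (stdPres Q)) (hS1.trans hker), hst, ⟨e.symm.trans e'.symm⟩,
    QuotientGroup.lift S φ hS1, ?_, ?_⟩
  · intro d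
    obtain ⟨x, rfl⟩ := hsurj d
    exact ⟨QuotientGroup.mk x, rfl⟩
  · refine MonoidHom.ext fun x => ?_
    obtain ⟨x, rfl⟩ := QuotientGroup.mk_surjective x
    exact hφ' x

end Cfsg.Agent.S3957
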