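import Cfsg.Statements.S3958
import Cfsg.Agent.Lib.SchurMult

set_option autoImplicit false
universe u v
open Cfsg

namespace Cfsg.Agent.S3958

open Cfsg.Agent.Lib.SchurMult
open scoped commutatorElement

/-- Let `σ : Γ →* Q` be a finite stem extension of the finite group `Q` with `Γ` of trivial Schur multiplier. Then `σ` is a Schur covering group of `Q`: for every finite stem extension `τ : Δ →* Q` with `Δ` in the same universe as `Q`, the kernel of `τ` is a homomorphic image of the kernel of `σ`. -/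
theorem result {Q : Type u} [Group Q] [Finite Q] {Γ : Type v} [Group Γ] [Finite Γ] (σ : Γ →* Q) (hσ : Cfsg.IsStemExtension σ) (hΓ : Cfsg.HasCyclicSchurMultiplier Γ 1) (Δ : Type u) [Group Δ] [Finite Δ] (τ : Δ →* Q) (hτ : Cfsg.IsStemExtension τ) : ∃ π : σ.ker →* τ.ker, Function.Surjective π := by
  have hQ := stdPres_surjective Q
  obtain ⟨φ, hφ⟩ := covHom_lift (stdPres Q) σ hσ.1 hσ.2.1 (MonoidHom.id Q)
  have hφ' : ∀ e, σ (φ e) = covHom (stdPres Q) e := hφ
  have hmap := commutator_eq_map (covHom_surjective hQ) hσ.2.1 φ hφ'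
  have hmap2 := map_ker_inf_commutator (covHom_surjective hQ) hσ.2.1 φ hφ'
  have hsurj : Function.Surjective φ := by
    intro d
    obtain ⟨e, he⟩ := covHom_surjective hQ (σ d)
    have h1 : (φ e)⁻¹ * d ∈ σ.ker := by
      rw [MonoidHom.mem_ker, map_mul, map_inv, hφ', he, inv_mul_cancel]
    have h2 := hσ.2.2 h1
    rw [hmap] at h2
    obtain ⟨c, _, hc⟩ := h2
    exact ⟨e * c, by rw [map_mul, hc, mul_inv_cancel_left]⟩
  have hker : φ.ker ≤ (covHom (stdPres Q)).ker := by
    intro x hx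
    rw [MonoidHom.mem_ker] at hx ⊢
    rw [← hφ', hx, map_one]
  -- `φ` is a central extension of `Γ`, so `ker φ ⊓ commutator = ⊥`
  have hbot := inf_eq_bot_of_hasCyclic_one hΓ φ hsurj (hker.trans (ker_covHom_le _))
  -- `Mult → ker σ` is injective and surjective
  obtain ⟨f, hf⟩ := exists_mult_surj_stem hQ τ hτ
  let g : Mult (stdPres Q) →* σ.ker := (φ.comp (Subgroup.subtype _)).codRestrict _ (by
    rintro ⟨x, hx⟩
    change σ (φ x) = 1
    rw [hφ']
    exact (Subgroup.mem_inf.mp hx).1)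
  have hg : Function.Bijective g := by
    refine ⟨?_, ?_⟩
    · rw [injective_iff_map_eq_one]
      rintro ⟨x, hx⟩ h
      have h1 : φ x = 1 := congrArg Subtype.val h
      have h2 : x ∈ φ.ker ⊓ commutator _ :=
        Subgroup.mem_inf.mpr ⟨h1, (Subgroup.mem_inf.mp hx).2⟩
      rw [hbot, Subgroup.mem_bot] at h2
      exact Subtype.ext h2
    · rintro ⟨x, hx⟩
      have h1 : x ∈ σ.ker ⊓ commutator Γ := Subgroup.mem_inf.mpr ⟨hx, hσ.2.2 hx⟩
      rw [← hmap2] at h1
      obtain ⟨e, he, rfl⟩ := h1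
      exact ⟨⟨e, he⟩, rfl⟩
  exact ⟨f.comp (MulEquiv.ofBijective g hg).symm.toMonoidHom,
    hf.comp (MulEquiv.ofBijective g hg).symm.surjective⟩

end Cfsg.Agent.S3958
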