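import Cfsg.Statements.S3961
import Cfsg.Agent.Lib.SchurMult

set_option autoImplicit false
universe u v
open Cfsg

namespace Cfsg.Agent.S3961

open Cfsg.Agent.Lib.SchurMult
open scoped commutatorElement

/-- Let `π : G →* Q` be a surjective homomorphism with central kernel from a finite perfect group `G` (a perfect cover of `Q`). Then `π` is universal, in the sense that every surjective homomorphism `ξ : X →* Q` with central kernel from a group `X` in the universe of `G` admits a homomorphism `η : G →* X` with `ξ ∘ η = π`, if and only if `G` has trivial Schur multiplier. -/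
theorem result {G : Type u} {Q : Type v} [Group G] [Group Q] [Finite G] (hG : Group.IsPerfect G) (π : G →* Q) (hπ : Function.Surjective π) (hker : π.ker ≤ Subgroup.center G) : (∀ (X : Type u) [Group X] (ξ : X →* Q), Function.Surjective ξ → ξ.ker ≤ Subgroup.center X → ∃ η : G →* X, ξ.comp η = π) ↔ Cfsg.HasCyclicSchurMultiplier G 1 := by
  have hG' := hG.commutator_eq_top
  constructor
  · intro h
    apply hasCyclic_one_of
    intro Γ _ _ σ hσ
    -- Γ is perfect
    have hΓ : commutator Γ = ⊤ := by
      rw [eq_top_iff]
      intro x _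
      have h0 : (commutator Γ).map σ = ⊤ := by
        rw [commutator_def, Subgroup.map_commutator, Subgroup.map_top_of_surjective _ hσ.1]
        exact hG'
      have h1 : σ x ∈ (commutator Γ).map σ := by rw [h0]; exact Subgroup.mem_top _
      obtain ⟨y, hy, hyx⟩ := h1
      have h2 : y⁻¹ * x ∈ σ.ker := by rw [MonoidHom.mem_ker, map_mul, map_inv, hyx, inv_mul_cancel]
      have h3 := mul_mem hy (hσ.2.2 h2)
      rwa [mul_inv_cancel_left] at h3
    have hcent : (π.comp σ).ker ≤ Subgroup.center Γ := by
      intro n hn
      have hc : ∀ x : Γ, ⁅n, x⁆ ∈ Subgroup.center Γ := by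
        intro x
        apply hσ.2.1
        rw [MonoidHom.mem_ker, map_commutatorElement, commutatorElement_eq_one_iff_mul_comm]
        have : σ n ∈ Subgroup.center G := hker hn
        exact (Subgroup.mem_center_iff.mp this _).symm
      let f : Γ →* Subgroup.center Γ := MonoidHom.mk' (fun x => ⟨⁅n, x⁆, hc x⟩) (by
        intro x y
        apply Subtype.ext
        change ⁅n, x * y⁆ = ⁅n, x⁆ * ⁅n, y⁆
        have h1 : ⁅n, x * y⁆ = ⁅n, x⁆ * (x * ⁅n, y⁆ * x⁻¹) := by
          simp only [commutatorElement_def]; group
        rw [h1, Subgroup.mem_center_iff.mp (hc y) x, mul_inv_cancel_right])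
      have h2 : commutator Γ ≤ f.ker := by
        rw [commutator_def, Subgroup.commutator_le]
        intro a _ b _
        rw [MonoidHom.mem_ker, map_commutatorElement, commutatorElement_eq_one_iff_mul_comm]
        exact Subtype.ext (Subgroup.mem_center_iff.mp (f b).2 (f a))
      rw [hΓ] at h2
      refine Subgroup.mem_center_iff.mpr ?_
      intro x
      have h3 : f x = 1 := h2 (Subgroup.mem_top x)
      have h4 : ⁅n, x⁆ = 1 := congrArg Subtype.val h3
      exact (commutatorElement_eq_one_iff_mul_comm.mp h4).symm
    obtain ⟨η, hη⟩ := h Γ (π.comp σ) (hπ.comp hσ.1) hcent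
    have h1 : σ.comp η = MonoidHom.id G := by
      apply hom_ext_of_perfect hG'
      intro e
      apply hker
      rw [MonoidHom.mem_ker, map_mul, map_inv]
      have := DFunLike.congr_fun hη e
      change (π (σ (η e)))⁻¹ * π e = 1
      change π (σ (η e)) = π e at this
      rw [this, inv_mul_cancel]
    have h2 : η.comp σ = MonoidHom.id Γ := by
      apply hom_ext_of_perfect hΓ
      intro e
      apply hσ.2.1
      rw [MonoidHom.mem_ker, map_mul, map_inv]
      have := DFunLike.congr_fun h1 (σ e)
      change (σ (η (σ e)))⁻¹ * σ e = 1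
      change σ (η (σ e)) = σ e at this
      rw [this, inv_mul_cancel]
    rw [eq_bot_iff]
    intro x hx
    have := DFunLike.congr_fun h2 x
    change η (σ x) = x at this
    rw [MonoidHom.mem_ker.mp hx, map_one] at this
    exact Subgroup.mem_bot.mpr this.symm
  · intro h X _ ξ hξ hc
    -- pullback
    let P : Subgroup (G × X) := (π.comp (MonoidHom.fst G X)).eqLocus (ξ.comp (MonoidHom.snd G X))
    have hP : ∀ x : G × X, x ∈ P ↔ π x.1 = ξ x.2 := fun x => Iff.rfl
    let q : P →* G := (MonoidHom.fst G X).comp P.subtype
    have hq : Function.Surjective q := by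
      intro g
      obtain ⟨x, hx⟩ := hξ (π g)
      exact ⟨⟨(g, x), hx.symm⟩, rfl⟩
    have hqc : q.ker ≤ Subgroup.center P := by
      rintro ⟨⟨g, x⟩, hgx⟩ hm
      have hg : g = 1 := hm
      subst hg
      have hx : x ∈ ξ.ker := by
        rw [MonoidHom.mem_ker]
        have : π 1 = ξ x := hgx
        rw [← this, map_one]
      refine Subgroup.mem_center_iff.mpr ?_
      rintro ⟨⟨g', x'⟩, hgx'⟩
      refine Subtype.ext (Prod.ext ?_ ?_)
      · change g' * 1 = 1 * g'
        rw [mul_one, one_mul]
      · exact Subgroup.mem_center_iff.mp (hc hx) x'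
    obtain ⟨h1, h2⟩ := perfect_commutator_of_central hq hqc hG'
    have hst : Cfsg.IsStemExtension (q.comp (commutator P).subtype) := by
      refine ⟨h2, ?_, ?_⟩
      · intro x hx
        refine Subgroup.mem_center_iff.mpr ?_
        intro y
        have h3 : (x : P) ∈ q.ker := hx
        exact Subtype.ext (Subgroup.mem_center_iff.mp (hqc h3) y)
      · rw [h1]; exact le_top
    have hbot := ker_eq_bot_of_hasCyclic_one h _ hst
    have hinj : Function.Injective (q.comp (commutator P).subtype) :=
      (MonoidHom.ker_eq_bot_iff _).mp hbot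
    let e : commutator P ≃* G := MulEquiv.ofBijective (q.comp (commutator P).subtype) ⟨hinj, h2⟩
    refine ⟨((MonoidHom.snd G X).comp P.subtype).comp
      ((commutator P).subtype.comp e.symm.toMonoidHom), ?_⟩
    refine MonoidHom.ext fun g => ?_
    obtain ⟨x, rfl⟩ := e.surjective g
    have h4 : e.symm (e x) = x := e.symm_apply_apply x
    change ξ (((e.symm (e x)) : P) : G × X).2 = π (((x : P) : G × X).1)
    rw [h4]
    exact ((x : P).2).symm

end Cfsg.Agent.S3961
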