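import Cfsg.Statements.S3962
import Cfsg.Agent.Lib.SchurMult

set_option autoImplicit false
open Cfsg

namespace Cfsg.Agent.S3962

open Cfsg.Agent.Lib.SchurMult
open scoped commutatorElement

/-- Let `G` be a perfect group and `π : G →* Q` a surjective homomorphism whose kernel is central. Then `π` maps the centre of `G` onto the centre of `Q`. Taking `π` to be the map to `G ⧸ Z(G)` shows that the central quotient of a perfect group has trivial centre. -/
theorem result {G Q : Type*} [Group G] [Group Q] (hG : Group.IsPerfect G) (π : G →* Q) (hπ : Function.Surjective π) (hker : π.ker ≤ Subgroup.center G) : (Subgroup.center G).map π = Subgroup.center Q := by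
  apply le_antisymm
  · rintro _ ⟨x, hx, rfl⟩
    rw [Subgroup.mem_center_iff]
    intro y
    obtain ⟨y, rfl⟩ := hπ y
    rw [← map_mul, Subgroup.mem_center_iff.mp hx y, map_mul]
  · intro q hq
    obtain ⟨g, rfl⟩ := hπ q
    refine ⟨g, ?_, rfl⟩
    -- x ↦ ⁅g, x⁆ is a hom into the centre
    have hc : ∀ x : G, ⁅g, x⁆ ∈ Subgroup.center G := by
      intro x
      apply hker
      rw [MonoidHom.mem_ker, map_commutatorElement, commutatorElement_eq_one_iff_mul_comm]
      exact (Subgroup.mem_center_iff.mp hq _).symm
    let f : G →* Subgroup.center G := MonoidHom.mk' (fun x => ⟨⁅g, x⁆, hc x⟩) (by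
      intro x y
      apply Subtype.ext
      change ⁅g, x * y⁆ = ⁅g, x⁆ * ⁅g, y⁆
      have h1 : ⁅g, x * y⁆ = ⁅g, x⁆ * (x * ⁅g, y⁆ * x⁻¹) := by
        simp only [commutatorElement_def]; group
      rw [h1, Subgroup.mem_center_iff.mp (hc y) x, mul_inv_cancel_right])
    have h2 : commutator G ≤ f.ker := by
      rw [commutator_def, Subgroup.commutator_le]
      intro a _ b _
      rw [MonoidHom.mem_ker, map_commutatorElement, commutatorElement_eq_one_iff_mul_comm]
      exact Subtype.ext (Subgroup.mem_center_iff.mp (f b).2 (f a))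
    rw [hG.commutator_eq_top] at h2
    refine Subgroup.mem_center_iff.mpr ?_
    intro x
    have h3 : f x = 1 := h2 (Subgroup.mem_top x)
    have h4 : ⁅g, x⁆ = 1 := congrArg Subtype.val h3
    exact (commutatorElement_eq_one_iff_mul_comm.mp h4).symm

end Cfsg.Agent.S3962
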