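import Cfsg.Statements.S3967
import Cfsg.Agent.H2.MetacyclicSchur

set_option autoImplicit false
open Cfsg

namespace Cfsg.Agent.S3967

open Cfsg.Agent.Lib.SchurMult Cfsg.Agent.H2.SchurMeta Cfsg.Agent.H2.DihedralSchur Cfsg.Agent.H2.MetacyclicSchur
open scoped commutatorElement

theorem main (m n r l d m' r' s' : ℕ) (hm : 0 < m) (hn : 0 < n)
    (hd : m = d * m') (hr : r = 1 + d * r') (hcop : Nat.Coprime m' r')
    (hs : ∑ i ∈ Finset.range n, r ^ i = m' * s') (hrn : r ^ n ≡ 1 [MOD m])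
    {G : Type} [Group G] (a b : G) (ham : a ^ m = 1) (hbn : b ^ n = a ^ (m' * l))
    (hba : b * a * b⁻¹ = a ^ r) (hgen : Subgroup.closure {a, b} = ⊤)
    (huniv : ∀ (H : Type) [Group H] (a' b' : H), a' ^ m = 1 → b' ^ n = a' ^ (m' * l) →
      b' * a' * b'⁻¹ = a' ^ r → ∃ F : G →* H, F a = a' ∧ F b = b') :
    Cfsg.HasCyclicSchurMultiplier G (Nat.gcd l (Nat.gcd d s')) := by
  have hd0 : 0 < d := by
    rcases Nat.eq_zero_or_pos d with h | h
    · rw [h, zero_mul] at hd; omega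
    · exact h
  have hm'0 : 0 < m' := by
    rcases Nat.eq_zero_or_pos m' with h | h
    · rw [h, mul_zero] at hd; omega
    · exact h
  set e := Nat.gcd l (Nat.gcd d s') with he
  have he0 : 0 < e := Nat.gcd_pos_of_pos_right _ (Nat.gcd_pos_of_pos_left _ hd0)
  have : NeZero e := ⟨he0.ne'⟩
  have he1 : e ∣ d := (Nat.gcd_dvd_right _ _).trans (Nat.gcd_dvd_left _ _)
  have he2 : e ∣ s' := (Nat.gcd_dvd_right _ _).trans (Nat.gcd_dvd_right _ _)
  have he3 : e ∣ l := Nat.gcd_dvd_left _ _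
  have hb := Nat.gcd_eq_gcd_ab m' r'
  rw [hcop] at hb
  subst hr
  have hrn' : (m : ℤ) ∣ (1 + d * r' : ℤ) ^ n - 1 := by
    have := (Nat.modEq_iff_dvd.mp hrn.symm)
    push_cast at this
    exact this
  obtain ⟨Γ, iΓ, fΓ, A, B, κ, hκc, hκo, hAm, hBAB, hBn, hgenΓ, hAk, hunivΓ⟩ :=
    exists_model m n d m' r' s' l e (Nat.gcdB m' r') (Nat.gcdA m' r') hm hn he0 hd
      (by push_cast at hb; linarith) he1 he2 he3 hs hrn'
  obtain ⟨F, hFA, hFB, hFκ⟩ := hunivΓ G a b ham hba hbn
  have hFs : Function.Surjective F := by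
    rw [← MonoidHom.range_eq_top, eq_top_iff, ← hgen, Subgroup.closure_le]
    rintro x (rfl | rfl)
    · exact ⟨A, hFA⟩
    · exact ⟨B, hFB⟩
  have hGfin : Finite G := Finite.of_surjective F hFs
  have hκn : (Subgroup.zpowers κ).Normal := normal_of_le_center (by
    rw [Subgroup.zpowers_le]; exact Subgroup.mem_center_iff.mpr hκc)
  have hker : F.ker = Subgroup.zpowers κ := by
    apply le_antisymm
    · let q := QuotientGroup.mk' (Subgroup.zpowers κ)
      have hqκ : q κ = 1 := (QuotientGroup.eq_one_iff κ).mpr (Subgroup.mem_zpowers κ)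
      obtain ⟨τ, hτa, hτb⟩ := huniv (Γ ⧸ Subgroup.zpowers κ) (q A) (q B)
        (by rw [← map_pow, hAm, map_zpow, hqκ, one_zpow])
        (by rw [← map_pow, ← map_pow, hBn])
        (by rw [← map_mul, ← map_inv, ← map_mul, hBAB, map_mul, map_zpow, hqκ, one_zpow, mul_one,
              map_pow])
      have hcomp : τ.comp F = q := by
        apply MonoidHom.eq_of_eqOn_dense hgenΓ
        rintro x (rfl | rfl | rfl)
        · change τ (F x) = _; rw [hFA, hτa]
        · change τ (F x) = _; rw [hFB, hτb]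
        · change τ (F x) = _; rw [hFκ, hqκ, map_one]
      intro x hx
      have h1 := DFunLike.congr_fun hcomp x
      change τ (F x) = q x at h1
      rw [MonoidHom.mem_ker.mp hx, map_one] at h1
      exact (QuotientGroup.eq_one_iff x).mp h1.symm
    · rw [Subgroup.zpowers_le]; exact hFκ
  have hcomA : A * ⁅B, A⁆ = ⁅B, A⁆ * A := by
    have h1 : ⁅B, A⁆ = A ^ (d * r') * κ ^ (Nat.gcdA m' r') := by
      rw [commutatorElement_def, hBAB, mul_assoc, (Commute.zpow_left
        (show Commute κ A⁻¹ from (hκc _).symm) _).eq, ← mul_assoc, add_comm 1, pow_succ]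
      group
    have c1 : Commute A (A ^ (d * r') * κ ^ (Nat.gcdA m' r')) :=
      ((Commute.refl A).pow_right _).mul_right ((show Commute A κ from hκc A).zpow_right _)
    rw [h1]; exact c1.eq
  have hκcomm : κ ∈ commutator Γ := by
    have h1 : ⁅B, A⁆ ^ m' = κ := by
      have h2 : ⁅B, A⁆ = A ^ (d * r') * κ ^ (Nat.gcdA m' r') := by
        rw [commutatorElement_def, hBAB, mul_assoc, (Commute.zpow_left
          (show Commute κ A⁻¹ from (hκc _).symm) _).eq, ← mul_assoc, add_comm 1, pow_succ]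
        group
      have c1 : Commute (A ^ (d * r')) (κ ^ (Nat.gcdA m' r')) :=
        ((show Commute A κ from hκc A).pow_left _).zpow_right _
      rw [h2, c1.mul_pow, ← pow_mul]
      have h3 : d * r' * m' = m * r' := by rw [hd]; ring
      rw [h3, pow_mul, hAm, ← zpow_natCast, ← zpow_natCast, ← zpow_mul, ← zpow_mul, ← zpow_add]
      have h4 : Nat.gcdB m' r' * (r' : ℤ) + Nat.gcdA m' r' * (m' : ℤ) = 1 := by
        push_cast at hb; linarith
      rw [h4, zpow_one]
    rw [← h1]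
    exact pow_mem (Subgroup.commutator_mem_commutator (Subgroup.mem_top _) (Subgroup.mem_top _)) _
  have hstem : Cfsg.IsStemExtension F := by
    refine ⟨hFs, ?_, ?_⟩
    · rw [hker, Subgroup.zpowers_le]; exact Subgroup.mem_center_iff.mpr hκc
    · rw [hker, Subgroup.zpowers_le]; exact hκcomm
  have hcard : Nat.card F.ker = e := by rw [hker, Nat.card_zpowers, hκo]
  refine hasCyclic_of F hstem hcard ?_
  have hoa : orderOf a = m := by
    apply Nat.dvd_antisymm
    · exact orderOf_dvd_of_pow_eq_one ham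
    · apply hAk
      rw [← hker, MonoidHom.mem_ker, map_pow, hFA, pow_orderOf_eq_one]
  intro Δ _ _ σ hσ
  obtain ⟨A', hA'⟩ := hσ.1 a
  obtain ⟨B', hB'⟩ := hσ.1 b
  obtain ⟨h1, h2, h3, h4⟩ := card_ker_mul σ hσ a b A' B' hA' hB' hgen ((1 + d * r' : ℕ) : ℤ)
    (by rw [hba, zpow_natCast])
  have hob : orderOf ⁅b, a⁆ = m' := by
    have h5 : ⁅b, a⁆ = a ^ (d * r') := by
      rw [commutatorElement_def, hba, add_comm 1, pow_succ, mul_inv_cancel_right]
    rw [h5, orderOf_pow, hoa, hd, Nat.gcd_mul_left, hcop, mul_one, Nat.mul_div_cancel_left _ hd0]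
  rw [hob] at h1
  have hcz : ∀ z ∈ σ.ker, ∀ x : Δ, x * z = z * x := fun z hz x =>
    Subgroup.mem_center_iff.mp (hσ.2.1 hz) x
  have d1 : orderOf ⁅B', A'⁆ ∣ m := by
    apply orderOf_dvd_of_pow_eq_one
    have h5 := comm_zpow_right h2 (m : ℤ)
    rw [zpow_natCast, zpow_natCast] at h5
    rw [← h5, commutatorElement_eq_one_iff_mul_comm]
    apply hcz
    rw [MonoidHom.mem_ker, map_pow, hA', ham]
  have hz : (A' ^ (m' * l))⁻¹ * B' ^ n ∈ σ.ker := by
    rw [MonoidHom.mem_ker, map_mul, map_inv, map_pow, map_pow, hA', hB', hbn, inv_mul_cancel]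
  have d2 : orderOf ⁅B', A'⁆ ∣ m' * s' := by
    apply orderOf_dvd_of_pow_eq_one
    have h5 := comm_pow_left _ h3 n
    have h6 : (∑ i ∈ Finset.range n, (((1 + d * r' : ℕ) : ℤ)) ^ i) = ((m' * s' : ℕ) : ℤ) := by
      rw [← hs]; push_cast; rfl
    rw [h6, zpow_natCast] at h5
    rw [← h5, commutatorElement_eq_one_iff_mul_comm]
    have h7 : B' ^ n = A' ^ (m' * l) * ((A' ^ (m' * l))⁻¹ * B' ^ n) := by rw [mul_inv_cancel_left]
    have h8 : Commute (A' ^ (m' * l) * ((A' ^ (m' * l))⁻¹ * B' ^ n)) A' :=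
      ((Commute.refl A').pow_left _).mul_left (hcz _ hz A').symm
    rw [← h7] at h8
    exact h8.eq
  have d3 : orderOf ⁅B', A'⁆ ∣ m' * l := by
    apply orderOf_dvd_of_pow_eq_one
    have h5 := comm_zpow_right h2 ((m' * l : ℕ) : ℤ)
    rw [zpow_natCast, zpow_natCast] at h5
    rw [← h5, commutatorElement_eq_one_iff_mul_comm]
    have h7 : A' ^ (m' * l) = B' ^ n * ((A' ^ (m' * l))⁻¹ * B' ^ n)⁻¹ := by group
    have hz' := inv_mem hz
    have h8 : Commute B' (B' ^ n * ((A' ^ (m' * l))⁻¹ * B' ^ n)⁻¹) :=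
      ((Commute.refl B').pow_right _).mul_right (hcz _ hz' B')
    rw [← h7] at h8
    exact h8.eq
  constructor
  · have hle : σ.ker ≤ Subgroup.zpowers ⁅B', A'⁆ := by rw [← h4]; exact hσ.2.2
    exact isCyclic_of_injective (Subgroup.inclusion hle) (Subgroup.inclusion_injective hle)
  · have h8 : Nat.card σ.ker * m' ∣ e * m' := by
      rw [h1]
      have h9 : orderOf ⁅B', A'⁆ ∣ Nat.gcd (m' * l) (Nat.gcd (m' * d) (m' * s')) := by
        apply Nat.dvd_gcd d3
        apply Nat.dvd_gcd _ d2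
        rw [mul_comm m' d, ← hd]; exact d1
      rwa [Nat.gcd_mul_left, Nat.gcd_mul_left, mul_comm, ← he] at h9
    exact Nat.dvd_of_mul_dvd_mul_right hm'0 h8

/-- Let `m, n ≥ 1`, `r ≥ 1` with `r ^ n ≡ 1 (mod m)`, and `l` a natural number; put `d = gcd(m, r - 1)`, `t = m l / d` and `h = d · gcd(m, 1 + r + ⋯ + r^(n-1)) / m`. The group presented by generators `a, b` and relations `a ^ m = 1`, `b ^ n = a ^ t`, `b a b⁻¹ = a ^ r` (a metacyclic group of order `m n`) has Schur multiplier cyclic of order `gcd(l, h)`. -/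
theorem result (m n r l : ℕ) (hm : 0 < m) (hn : 0 < n) (hr : 0 < r) (hrn : r ^ n ≡ 1 [MOD m]) : Cfsg.HasCyclicSchurMultiplier (PresentedGroup ({FreeGroup.of true ^ m, (FreeGroup.of false) ^ n * (FreeGroup.of true ^ (m * l / Nat.gcd m (r - 1)))⁻¹, FreeGroup.of false * FreeGroup.of true * (FreeGroup.of false)⁻¹ * (FreeGroup.of true ^ r)⁻¹} : Set (FreeGroup Bool))) (Nat.gcd l (Nat.gcd m (r - 1) * Nat.gcd m (∑ i ∈ Finset.range n, r ^ i) / m)) := by
  set d := Nat.gcd m (r - 1) with hd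
  have hd0 : 0 < d := Nat.gcd_pos_of_pos_left _ hm
  obtain ⟨m', hm'⟩ : d ∣ m := Nat.gcd_dvd_left _ _
  obtain ⟨r', hr'⟩ : d ∣ r - 1 := Nat.gcd_dvd_right _ _
  have hr1 : r = 1 + d * r' := by omega
  have hcop : Nat.Coprime m' r' := by
    have h1 : Nat.gcd (d * m') (d * r') = d := by rw [← hm', ← hr']
    rw [Nat.gcd_mul_left] at h1
    have h2 : d * Nat.gcd m' r' = d * 1 := by rw [h1, mul_one]
    exact Nat.eq_of_mul_eq_mul_left hd0 h2
  have hm'0 : 0 < m' := by
    rcases Nat.eq_zero_or_pos m' with h | h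
    · rw [h, mul_zero] at hm'; omega
    · exact h
  obtain ⟨s', hs'⟩ : m' ∣ ∑ i ∈ Finset.range n, r ^ i := by
    have h1 : (m : ℤ) ∣ (r : ℤ) ^ n - 1 := by
      have := (Nat.modEq_iff_dvd.mp hrn.symm)
      push_cast at this
      exact this
    rw [← geom_sum_mul] at h1
    have h2 : ((r : ℤ) - 1) = d * r' := by rw [hr1]; push_cast; ring
    rw [h2] at h1
    have h3 : (m : ℤ) = m' * d := by rw [hm']; push_cast; ring
    have h4 : (∑ i ∈ Finset.range n, (r : ℤ) ^ i) * (d * r') =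
      ((∑ i ∈ Finset.range n, (r : ℤ) ^ i) * r') * d := by ring
    rw [h3, h4] at h1
    have h5 := Int.dvd_of_mul_dvd_mul_right (by exact_mod_cast hd0.ne') h1
    have h6 : IsCoprime (m' : ℤ) (r' : ℤ) := Nat.isCoprime_iff_coprime.mpr hcop
    have h7 := h6.dvd_of_dvd_mul_right h5
    have h8 : ((m' : ℕ) : ℤ) ∣ ((∑ i ∈ Finset.range n, r ^ i : ℕ) : ℤ) := by
      push_cast; exact h7
    exact Int.natCast_dvd_natCast.mp h8
  have h1 : m * l / d = m' * l := by
    rw [hm', mul_assoc, Nat.mul_div_cancel_left _ hd0]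
  have h2 : d * Nat.gcd m (∑ i ∈ Finset.range n, r ^ i) / m = Nat.gcd d s' := by
    have h3 : Nat.gcd m (∑ i ∈ Finset.range n, r ^ i) = m' * Nat.gcd d s' := by
      rw [hs']
      conv_lhs => rw [hm', mul_comm d m']
      rw [Nat.gcd_mul_left]
    rw [h3, ← mul_assoc, ← hm', Nat.mul_div_cancel_left _ hm]
  rw [h2]
  rw [h1]
  refine main m n r l d m' r' s' hm hn hm' hr1 hcop hs' hrn (PresentedGroup.of true)
    (PresentedGroup.of false) ?_ ?_ ?_ ?_ ?_
  · have := PresentedGroup.one_of_mem (rels := ({FreeGroup.of true ^ m, (FreeGroup.of false) ^ n * (FreeGroup.of true ^ (m' * l))⁻¹, FreeGroup.of false * FreeGroup.of true * (FreeGroup.of false)⁻¹ * (FreeGroup.of true ^ r)⁻¹} : Set (FreeGroup Bool))) (x := FreeGroup.of true ^ m) (by simp)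
    rwa [map_pow] at this
  · have := PresentedGroup.one_of_mem (rels := ({FreeGroup.of true ^ m, (FreeGroup.of false) ^ n * (FreeGroup.of true ^ (m' * l))⁻¹, FreeGroup.of false * FreeGroup.of true * (FreeGroup.of false)⁻¹ * (FreeGroup.of true ^ r)⁻¹} : Set (FreeGroup Bool))) (x := (FreeGroup.of false) ^ n * (FreeGroup.of true ^ (m' * l))⁻¹) (by simp)
    rw [map_mul, map_inv, map_pow, map_pow, mul_inv_eq_one] at this
    exact this
  · have := PresentedGroup.one_of_mem (rels := ({FreeGroup.of true ^ m, (FreeGroup.of false) ^ n * (FreeGroup.of true ^ (m' * l))⁻¹, FreeGroup.of false * FreeGroup.of true * (FreeGroup.of false)⁻¹ * (FreeGroup.of true ^ r)⁻¹} : Set (FreeGroup Bool))) (x := FreeGroup.of false * FreeGroup.of true * (FreeGroup.of false)⁻¹ * (FreeGroup.of true ^ r)⁻¹) (by simp)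
    rw [map_mul, map_inv, map_pow, map_mul, map_mul, map_inv, mul_inv_eq_one] at this
    exact this
  · rw [← PresentedGroup.closure_range_of, Bool.range_eq]
    exact congrArg _ (Set.pair_comm _ _)
  · intro H _ a' b' ha' hb' hab'
    have hrel : ∀ w ∈ ({FreeGroup.of true ^ m, (FreeGroup.of false) ^ n * (FreeGroup.of true ^ (m' * l))⁻¹, FreeGroup.of false * FreeGroup.of true * (FreeGroup.of false)⁻¹ * (FreeGroup.of true ^ r)⁻¹} : Set (FreeGroup Bool)),
        FreeGroup.lift (fun i => bif i then a' else b') w = 1 := by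
      rintro w (rfl | rfl | rfl)
      · simp [ha']
      · simp [hb']
      · simp only [map_mul, map_inv, map_pow, FreeGroup.lift_apply_of, cond_true, cond_false]
        rw [hab', mul_inv_cancel]
    exact ⟨PresentedGroup.toGroup hrel, by simp, by simp⟩

end Cfsg.Agent.S3967
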