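import Cfsg.Statements.S3968
import Cfsg.Agent.Lib.CharLin
import Cfsg.Agent.Lib.CharNormal
import Cfsg.Agent.Lib.CharBurnside
import Cfsg.Agent.Lib.CharInt

set_option autoImplicit false
open Cfsg

namespace Cfsg.Agent.S3968

open Subgroup Cfsg.Agent.Lib.CharBasic Cfsg.Agent.Lib.CharInt Cfsg.Agent.Lib.CharRep Cfsg.Agent.Lib.CharLin Cfsg.Agent.Lib.CharNormal Cfsg.Agent.Lib.CharBurnside

/-- Let `p` be a prime and `G` a finite group with a faithful irreducible complex character of degree `p` (so `G` is an irreducible linear group in `p` variables). If `p ^ 2` divides the order of `G`, then the centre of `G` is nontrivial. -/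
theorem result {G : Type*} [Group G] [Finite G] (p : ℕ) (hp : p.Prime) (χ : Cfsg.IrrCharacter G) (hdeg : χ.1 1 = p) (hfaith : ∀ g : G, χ.1 g = χ.1 1 → g = 1) (hdiv : p ^ 2 ∣ Nat.card G) : Subgroup.center G ≠ ⊥ := by
  classical
  haveI : Fact p.Prime := ⟨hp⟩
  cases nonempty_fintype G
  intro hZ
  have hχc := isChar_of_irr χ.2
  -- scalar elements are trivial
  have hsc : ∀ g : G, ‖χ.1 g‖ = p → g = 1 := by
    intro g hg
    obtain ⟨n, ρ, hρ, hρχ⟩ := χ.2
    have hfin : χ.1 1 = (Module.finrank ℂ (Fin n → ℂ) : ℂ) := by rw [← hρχ]; exact ρ.char_one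
    have hfp : Module.finrank ℂ (Fin n → ℂ) = p := by
      have := hfin.symm.trans hdeg
      exact_mod_cast this
    have h1 : ‖ρ.character g‖ = (Module.finrank ℂ (Fin n → ℂ) : ℝ) := by
      rw [hρχ, hg, hfp]
    obtain ⟨ω, hω⟩ := (norm_char_eq_degree_iff ρ g).mp h1
    have hcen : g ∈ center G := by
      rw [mem_center_iff]
      intro x
      have h2 : ρ (x * g * (g * x)⁻¹) = LinearMap.id := by
        have h3 : ρ (x * g) = ρ (g * x) := by
          rw [map_mul, map_mul, hω]
          ext v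
          simp
        rw [map_mul, h3, ← map_mul, mul_inv_cancel, map_one]
        rfl
      have h4 : ρ.character (x * g * (g * x)⁻¹) = (Module.finrank ℂ (Fin n → ℂ) : ℂ) := (char_eq_degree_iff ρ _).mpr h2
      rw [hρχ, ← hfin] at h4
      exact mul_inv_eq_one.mp (hfaith _ h4)
    rw [hZ] at hcen
    exact mem_bot.mp hcen
  obtain ⟨P⟩ := (inferInstance : Nonempty (Sylow p G))
  have hPdvd : p ^ 2 ∣ Nat.card P := by
    have h1 := (Nat.Prime.pow_dvd_iff_le_factorization hp Nat.card_pos.ne').mp hdiv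
    rw [P.card_eq_multiplicity]
    exact pow_dvd_pow p h1
  have hP1 : Nontrivial P := by
    apply Finite.one_lt_card_iff_nontrivial.mp
    have h1 := Nat.le_of_dvd Nat.card_pos hPdvd
    have h2 := hp.two_le
    nlinarith
  -- vanishing
  have hvan : ∀ z : P, z ∈ center P → z ≠ 1 → χ.1 (z : G) = 0 := by
    intro z hz hz1
    have hcop : Nat.Coprime p (Subgroup.centralizer ({(z : G)} : Set G)).index := by
      rw [Nat.Prime.coprime_iff_not_dvd hp]
      intro hd
      have h1 : (P : Subgroup G) ≤ Subgroup.centralizer ({(z : G)} : Set G) := by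
        intro x hx
        rw [mem_centralizer_singleton_iff]
        exact congrArg Subtype.val (mem_center_iff.mp hz ⟨x, hx⟩)
      exact P.not_dvd_index (hd.trans (index_dvd_of_le h1))
    rcases zero_or_norm_of_coprime χ.2 (z : G) hdeg hcop with h | h
    · exact h
    · exact absurd (Subtype.ext (hsc _ h)) hz1
  -- the restriction
  have hres : Cfsg.IsCharacter P (fun x : P => χ.1 (x : G)) := isChar_comp (P : Subgroup G).subtype hχc
  obtain ⟨m, hm⟩ := exists_mult hres
  have hresval : ∀ x : P, χ.1 (x : G) = ∑ ψ : Cfsg.IrrCharacter P, (m ψ : ℂ) * ψ.1 x := by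
    intro x
    have := congrFun hm x
    simpa using this
  have hlin : ∀ ψ : Cfsg.IrrCharacter P, m ψ ≠ 0 → ψ.1 1 = 1 := by
    intro ψ hψ
    obtain ⟨d, hd0, hd⟩ := isIrr_one_eq ψ.2
    by_contra hne
    have hd1 : d ≠ 1 := by rintro rfl; exact hne (by rw [hd]; simp)
    have hdP : d ∣ Nat.card P := by
      obtain ⟨n, ρ, hρ, hρψ⟩ := ψ.2
      have h1 := degree_dvd_card ρ
      have h2 : (Module.finrank ℂ (Fin n → ℂ) : ℂ) = d := by rw [← hd, ← hρψ, ρ.char_one]
      have h3 : Module.finrank ℂ (Fin n → ℂ) = d := by exact_mod_cast h2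
      rwa [h3] at h1
    obtain ⟨k, hk⟩ := IsPGroup.iff_card.mp P.isPGroup'
    rw [hk] at hdP
    obtain ⟨j, -, hj⟩ := (Nat.dvd_prime_pow hp).mp hdP
    have hj0 : j ≠ 0 := by rintro rfl; rw [pow_zero] at hj; exact hd1 hj
    have hpd : p ∣ d := hj ▸ dvd_pow_self p hj0
    have hinner : Cfsg.classInner (fun x : P => χ.1 (x : G)) ψ.1 ≠ 0 := by
      rw [hm, inner_sum_irr (fun χ => (m χ : ℂ)) ψ]
      exact_mod_cast hψ
    have hsub := isChar_sub_constituent hres ψ.2 hinner
    obtain ⟨r, hr⟩ := isChar_one_eq hsub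
    have hr' : (p : ℂ) = r + d := by
      have h1 : χ.1 ((1 : P) : G) - ψ.1 1 = r := hr
      rw [OneMemClass.coe_one, hdeg, hd] at h1
      rw [← h1]; ring
    have hr2 : p = r + d := by exact_mod_cast hr'
    have hr0 : r = 0 := by
      have := Nat.le_of_dvd hd0 hpd
      omega
    have hdp : d = p := by omega
    -- a central element
    haveI := hP1
    haveI := P.isPGroup'.center_nontrivial
    obtain ⟨z, hz1⟩ := exists_ne (1 : center P)
    have h1 := hvan (z : P) z.2 (fun h => hz1 (Subtype.ext h))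
    have h2 := char_norm_le hsub (z : P)
    rw [hr, hr0] at h2
    have h3 : χ.1 ((z : P) : G) - ψ.1 (z : P) = 0 := by
      have h4 : ‖χ.1 ((z : P) : G) - ψ.1 (z : P)‖ ≤ 0 := by simpa using h2
      exact norm_le_zero_iff.mp h4
    rw [h1] at h3
    have h5 : ψ.1 (z : P) = 0 := by linear_combination -h3
    obtain ⟨n, ρ, hρ, hρψ⟩ := ψ.2
    obtain ⟨c, hc⟩ := center_scalar ρ (z : P) z.2
    have h6 : ‖ρ.character (z : P)‖ = (Module.finrank ℂ (Fin n → ℂ) : ℝ) := (norm_char_eq_degree_iff ρ _).mpr ⟨c, hc⟩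
    rw [hρψ, h5, norm_zero] at h6
    have h7 : (Module.finrank ℂ (Fin n → ℂ) : ℂ) = d := by rw [← hd, ← hρψ, ρ.char_one]
    have h8 : Module.finrank ℂ (Fin n → ℂ) = d := by exact_mod_cast h7
    rw [h8] at h6
    have h9 : d = 0 := by exact_mod_cast h6.symm
    omega
  -- abelian
  have hab : ∀ x y : P, x * y = y * x := by
    intro x y
    have h1 : χ.1 ((x * y * (y * x)⁻¹ : P) : G) = χ.1 1 := by
      have h2 := hresval (x * y * (y * x)⁻¹)
      have h3 := hresval 1
      rw [OneMemClass.coe_one] at h3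
      rw [h2, h3]
      apply Finset.sum_congr rfl
      intro ψ _
      by_cases hψ : m ψ = 0
      · rw [hψ]; simp
      · congr 1
        obtain ⟨l, hl⟩ := lin_iff.mp ⟨isChar_of_irr ψ.2, hlin ψ hψ⟩
        rw [hl, linFn_apply, linFn_apply, map_mul, map_inv, map_mul, map_mul, mul_comm (l y) (l x), mul_inv_cancel, map_one]
    exact mul_inv_eq_one.mp (Subtype.ext (hfaith _ h1))
  -- the trivial constituent
  have htriv : ∃ n : ℕ, Cfsg.classInner (fun x : P => χ.1 (x : G)) (fun _ => 1) = n := exists_nat_inner' hres isChar_trivial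
  obtain ⟨n, hn⟩ := htriv
  have hsum : ∑ x : P, χ.1 (x : G) * (starRingEnd ℂ) 1 = p := by
    refine (Finset.add_sum_erase Finset.univ (fun x : P => χ.1 (x : G) * (starRingEnd ℂ) 1) (Finset.mem_univ (1 : P))).symm.trans ?_
    rw [Finset.sum_eq_zero]
    · rw [OneMemClass.coe_one, hdeg]; simp
    · intro x hx
      rw [hvan x (mem_center_iff.mpr (fun y => hab y x)) (Finset.ne_of_mem_erase hx), zero_mul]
  have hcard : (p : ℂ) = Nat.card P * n := by
    have hne : (Nat.card P : ℂ) ≠ 0 := by exact_mod_cast Nat.card_pos.ne'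
    have h1 : (Nat.card P : ℂ)⁻¹ * ∑ x : P, χ.1 (x : G) * (starRingEnd ℂ) 1 = n := hn
    rw [hsum] at h1
    rw [← h1]; field_simp
  have hcard' : p = Nat.card P * n := by exact_mod_cast hcard
  have h1 : p ^ 2 ∣ p := hPdvd.trans (Dvd.intro n hcard'.symm)
  have h2 := Nat.le_of_dvd hp.pos h1
  have h3 := hp.two_le
  nlinarith

end Cfsg.Agent.S3968
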