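import Cfsg.Statements.S3969
import Mathlib
import Cfsg.Agent.H2.PUtil
import Cfsg.Agent.Lib.PNilp
import Cfsg.Agent.Lib.CoprimeB
import Cfsg.Agent.Lib.NilpB
import Cfsg.Agent.Lib.Wiel

set_option autoImplicit false
open Cfsg

namespace Cfsg.Agent.S3969

open Subgroup
open scoped commutatorElement

/-- size of the kernel of the `p`-power map on an abelian `p`-group -/
theorem card_omega_le {P : Type*} [CommGroup P] [Finite P] {p : ℕ} [Fact p.Prime]
    (hP : IsPGroup p P) (T : Finset P) (hT : closure (T : Set P) = ⊤) :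
    Nat.card (powMonoidHom p : P →* P).ker ≤ p ^ T.card := by
  set f : P →* P := powMonoidHom p with hf
  have h1 := Lib.NilpB.card_closure_sup_frattini_le hP T
  rw [hT, top_sup_eq, card_top] at h1
  have h2 : frattini P ≤ f.range := by
    apply Lib.Nilp.frattini_le_of_elementary_quotient (p := p)
    · rw [commutator_def, commutator_le]
      intro a _ b _
      have : ⁅a, b⁆ = 1 := commutatorElement_eq_one_iff_mul_comm.2 (mul_comm a b)
      rw [this]; exact one_mem _
    · intro x; exact ⟨x, rfl⟩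
  have h3 := f.ker.card_mul_index
  rw [Subgroup.index_ker] at h3
  have h4 : Nat.card (frattini P) ≤ Nat.card f.range := Nat.card_le_card_of_injective _ (inclusion_injective h2)
  have h5 : Nat.card f.ker * Nat.card f.range ≤ p ^ T.card * Nat.card f.range := by
    rw [h3]
    exact h1.trans (Nat.mul_le_mul_left _ h4)
  exact Nat.le_of_mul_le_mul_right h5 Nat.card_pos

theorem main {G : Type*} [Group G] [Finite G] (p : ℕ) [Fact p.Prime] (P : Sylow p G)
    (hab : IsMulCommutative (P : Subgroup G)) (d : ℕ) (T : Finset (P : Subgroup G)) (hTd : T.card ≤ d)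
    (hT : closure (T : Set (P : Subgroup G)) = ⊤)
    (hcop : ∀ i, 1 ≤ i → i ≤ d → Nat.Coprime (Nat.card G) (p ^ i - 1)) :
    Lib.PNilp.PNil p G := by
  classical
  have hp : p.Prime := Fact.out
  apply Lib.Wiel.pNil_of_normalizer_le_centralizer P
  intro g hg
  by_contra hgC
  obtain ⟨q, hq, x, hx, hxC, k, hk⟩ := Lib.MinNil.exists_primary_notMem hgC
  have hxN : x ∈ normalizer (P : Set G) := (zpowers_le.mpr hg) hx
  have hq' : Fact q.Prime := ⟨hq⟩
  have hPc : ∀ a ∈ (P : Subgroup G), ∀ b ∈ (P : Subgroup G), a * b = b * a := H2.PUtil.isMulCommutative_iff.1 hab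
  have hqp : q ≠ p := by
    rintro rfl
    have h1 := Lib.Wiel.mem_sylow_of_mem_normalizer P hxN hk
    apply hxC
    rw [mem_centralizer_iff]
    intro y hy
    exact hPc y hy x h1
  letI : CommGroup (P : Subgroup G) := { (inferInstance : Group (P : Subgroup G)) with mul_comm := hab.is_comm.comm }
  have hcard := card_omega_le P.isPGroup' T hT
  set V : Subgroup G := (powMonoidHom p : (P : Subgroup G) →* (P : Subgroup G)).ker.map (P : Subgroup G).subtype with hV
  have hVm : ∀ v, v ∈ V ↔ v ∈ (P : Subgroup G) ∧ v ^ p = 1 := by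
    intro v
    constructor
    · rintro ⟨w, hw, rfl⟩
      exact ⟨w.2, congrArg Subtype.val hw⟩
    · rintro ⟨h1, h2⟩
      exact ⟨⟨v, h1⟩, Subtype.ext h2, rfl⟩
  have hVcard : Nat.card V ≤ p ^ d := by
    have : Nat.card V = Nat.card (powMonoidHom p : (P : Subgroup G) →* (P : Subgroup G)).ker :=
      (Nat.card_congr ((powMonoidHom p : (P : Subgroup G) →* (P : Subgroup G)).ker.equivMapOfInjective _ (subtype_injective _)).toEquiv).symm
    rw [this]
    exact hcard.trans (Nat.pow_le_pow_right hp.pos hTd)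
  have hVP : V ≤ (P : Subgroup G) := fun v hv => ((hVm v).1 hv).1
  have hVp : IsPGroup p V := P.isPGroup'.to_le hVP
  -- x acts on V
  have hxz : zpowers x ≤ normalizer (P : Set G) := zpowers_le.2 hxN
  have hact : ∀ z ∈ zpowers x, ∀ v ∈ V, z * v * z⁻¹ ∈ V := by
    intro z hz v hv
    rw [hVm] at hv ⊢
    exact ⟨(mem_normalizer_iff.1 (hxz hz) v).1 hv.1, by rw [conj_pow, hv.2]; group⟩
  letI : MulAction (zpowers x) V :=
    { smul := fun z v => ⟨z * v * (z : G)⁻¹, hact z z.2 v v.2⟩
      one_smul := fun v => Subtype.ext (by show (1 : G) * v * (1 : G)⁻¹ = v; group)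
      mul_smul := fun a b v => Subtype.ext (by
        show ((a : G) * b) * v * ((a : G) * b)⁻¹ = a * (b * v * (b : G)⁻¹) * (a : G)⁻¹
        group) }
  have hxq : IsPGroup q (zpowers x) := IsPGroup.of_card (n := k) (by rw [Nat.card_zpowers, hk])
  have hmod := hxq.card_modEq_card_fixedPoints V
  -- fixed points form the subgroup V ⊓ C(x)
  have hfix : Nat.card (MulAction.fixedPoints (zpowers x) V) = Nat.card (V ⊓ centralizer ({x} : Set G) : Subgroup G) := by
    refine Nat.card_congr
      { toFun := fun v => ⟨v.1, v.1.2, ?_⟩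
        invFun := fun v => ⟨⟨v.1, v.2.1⟩, ?_⟩
        left_inv := fun v => rfl
        right_inv := fun v => rfl }
    · show (v.1 : G) ∈ centralizer ({x} : Set G)
      rw [mem_centralizer_singleton_iff]
      have h1 : x * (v.1 : G) * x⁻¹ = v.1 := congrArg Subtype.val (v.2 ⟨x, mem_zpowers x⟩)
      calc (v.1 : G) * x = x * (v.1 : G) * x⁻¹ * x := by rw [h1]
        _ = _ := by group
    · rintro ⟨z, hz⟩
      apply Subtype.ext
      show z * (v : G) * z⁻¹ = v
      obtain ⟨m, rfl⟩ := hz
      have h1 : (v : G) * x = x * v := mem_centralizer_singleton_iff.1 v.2.2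
      have h2 : Commute (x ^ m) (v : G) := (show Commute x (v : G) from h1.symm).zpow_left m
      show x ^ m * (v : G) * (x ^ m)⁻¹ = v
      rw [h2.eq]; group
  rw [hfix] at hmod
  set W := (V ⊓ centralizer ({x} : Set G) : Subgroup G) with hW
  have hWV : W < V := by
    refine lt_of_le_of_ne inf_le_left ?_
    intro heq
    apply hxC
    have h1 : zpowers x ≤ centralizer ((P : Subgroup G) : Set G) := by
      apply Lib.CoprimeB.abelian_trivial_of_prime_order hab hxz
      · rw [Nat.card_zpowers, hk]
        obtain ⟨m, hm⟩ := IsPGroup.iff_card.1 P.isPGroup'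
        rw [hm]
        exact Nat.Coprime.pow _ _ ((Nat.coprime_primes hq hp).2 hqp)
      · intro v hv hvo a ha
        have h2 : orderOf v = p := by
          obtain ⟨m, hm⟩ := IsPGroup.iff_orderOf.1 P.isPGroup' ⟨v, hv⟩
          rw [Subgroup.orderOf_mk] at hm
          rw [hm] at hvo ⊢
          have := (Nat.prime_dvd_prime_iff_eq hp hvo).1
          rcases Nat.eq_zero_or_pos m with h0 | h0
          · rw [h0, pow_zero] at hvo; exact absurd hvo (by norm_num)
          · exact (this (dvd_pow_self p h0.ne')).symm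
        have h3 : v ∈ V := (hVm v).2 ⟨hv, by rw [← h2]; exact pow_orderOf_eq_one v⟩
        rw [← heq] at h3
        have h4 : v * x = x * v := mem_centralizer_singleton_iff.1 h3.2
        obtain ⟨m, rfl⟩ := ha
        exact ((show Commute x v from h4.symm).zpow_left m).eq
    exact h1 (mem_zpowers x)
  obtain ⟨e, he⟩ := IsPGroup.iff_card.1 hVp
  obtain ⟨c, hc⟩ := IsPGroup.iff_card.1 (hVp.to_le hWV.le)
  have hlt := Lib.Basic.card_lt_card_of_lt hWV
  rw [he, hc] at hlt hmod
  have hce : c < e := (Nat.pow_lt_pow_iff_right hp.one_lt).1 hlt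
  rw [he] at hVcard
  have hed : e ≤ d := (Nat.pow_le_pow_iff_right hp.one_lt).1 hVcard
  have h5 : q ∣ p ^ e - p ^ c := (Nat.modEq_iff_dvd' hlt.le).1 hmod.symm
  have h6 : p ^ e - p ^ c = p ^ c * (p ^ (e - c) - 1) := by
    rw [Nat.mul_sub, ← pow_add, mul_one, Nat.add_sub_cancel' hce.le]
  rw [h6] at h5
  have h7 : q ∣ p ^ (e - c) - 1 := by
    rcases (hq.dvd_mul).1 h5 with h | h
    · exfalso
      exact hqp ((Nat.prime_dvd_prime_iff_eq hq hp).1 (hq.dvd_of_dvd_pow h))
    · exact h
  have hqG : q ∣ Nat.card G := by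
    have h8 : orderOf x ∣ Nat.card G := orderOf_dvd_natCard x
    rw [hk] at h8
    have hk0 : k ≠ 0 := by
      rintro rfl
      rw [pow_zero, orderOf_eq_one_iff] at hk
      rw [hk] at hxC
      exact hxC (one_mem _)
    exact (dvd_pow_self q hk0).trans h8
  have h9 := Nat.dvd_gcd hqG h7
  rw [Nat.Coprime.gcd_eq_one (hcop (e - c) (by omega) (by omega))] at h9
  exact hq.one_lt.ne' (Nat.dvd_one.1 h9)

/-- Let `P` be an abelian Sylow `p`-subgroup of the finite group `G`, generated by `d` elements (`d` its minimal number of generators). If the order of `G` is coprime to `(p - 1)(p ^ 2 - 1) ⋯ (p ^ d - 1)`, then `G` has a normal `p`-complement. (The classical statement needs only the largest number of cyclic factors of `P` of equal order in place of `d`; the form here follows from it.) -/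
theorem result {G : Type*} [Group G] [Finite G] (p : ℕ) [Fact p.Prime] (P : Sylow p G) (hab : IsMulCommutative (P : Subgroup G)) (hcop : Nat.Coprime (Nat.card G) (∏ i ∈ Finset.Icc 1 (Group.rank (P : Subgroup G)), (p ^ i - 1))) : Cfsg.HasNormalPComplement p G := by
  rw [Lib.PNilp.hasNormalPComplement_iff]
  obtain ⟨T, hT1, hT2⟩ := Group.rank_spec (P : Subgroup G)
  refine main p P hab (Group.rank (P : Subgroup G)) T hT1.le hT2 ?_
  intro i h1 h2
  exact Nat.Coprime.coprime_dvd_right (Finset.dvd_prod_of_mem (fun i => p ^ i - 1) (Finset.mem_Icc.2 ⟨h1, h2⟩)) hcop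

end Cfsg.Agent.S3969
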