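import Cfsg.Statements.S3970
import Mathlib
import Cfsg.Agent.S3969

set_option autoImplicit false
open Cfsg

namespace Cfsg.Agent.S3970

open Subgroup
universe u

/-- hypothesis -/
def Hyp (G : Type u) [Group G] [Finite G] : Prop :=
  ∀ p : ℕ, p.Prime → p ∣ Nat.card G → (∃ q : ℕ, q.Prime ∧ q ∣ Nat.card G ∧ p < q) →
    ∀ P : Sylow p G, IsMulCommutative (P : Subgroup G) ∧ Group.rank (P : Subgroup G) ≤ 2

theorem hyp_of_index (G : Type u) [Group G] [Finite G] (h : Hyp G) (N : Subgroup G) (p k : ℕ) (hp : p.Prime)
    (hi : N.index = p ^ k) (hNp : (Nat.card N).Coprime p) (hq : ∃ q : ℕ, q.Prime ∧ q ∣ Nat.card N ∧ ∀ r : ℕ, r.Prime → r ∣ Nat.card G → r ≤ q) : Hyp N := by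
  classical
  intro r hr hrN ⟨q, hq, hqN, hrq⟩ P
  have hr' : Fact r.Prime := ⟨hr⟩
  have hrG : r ∣ Nat.card G := hrN.trans (card_subgroup_dvd_card N)
  have hqG : q ∣ Nat.card G := hqN.trans (card_subgroup_dvd_card N)
  have hrp : r ≠ p := by
    rintro rfl
    have := Nat.dvd_gcd hrN dvd_rfl
    rw [hNp] at this
    exact hr.one_lt.ne' (Nat.dvd_one.1 this)
  -- the image of P is a Sylow subgroup of G
  have h1 : IsPGroup r ((P : Subgroup N).map N.subtype) := P.isPGroup'.map _
  have h2 : ¬ r ∣ ((P : Subgroup N).map N.subtype).index := by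
    rw [index_map_subtype, hr.dvd_mul]
    rintro (h3 | h3)
    · exact P.not_dvd_index h3
    · rw [hi] at h3
      exact hrp ((Nat.prime_dvd_prime_iff_eq hr hp).1 (hr.dvd_of_dvd_pow h3))
  have h3 := h r hr hrG ⟨q, hq, hqG, hrq⟩ (h1.toSylow h2)
  have e : (P : Subgroup N) ≃* ((h1.toSylow h2 : Sylow r G) : Subgroup G) :=
    (P : Subgroup N).equivMapOfInjective _ N.subtype_injective
  refine ⟨⟨⟨fun a b => e.injective ?_⟩⟩, ?_⟩
  · rw [map_mul, map_mul]
    exact h3.1.is_comm.comm _ _
  · rw [Group.rank_congr e]; exact h3.2

theorem aux (n : ℕ) : ∀ (G : Type u) [Group G] [Finite G], Nat.card G ≤ n → Hyp G → ¬ 12 ∣ Nat.card G →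
    Group.IsSolvable G := by
  induction n with
  | zero =>
    intro G _ _ h
    exact absurd h (by have := Nat.card_pos (α := G); omega)
  | succ n ih =>
    intro G _ _ hcard h h12
    classical
    by_cases h1 : Nat.card G = 1
    · have := (Nat.card_eq_one_iff_unique.1 h1).1
      infer_instance
    set p := (Nat.card G).minFac with hpdef
    have hp : p.Prime := Nat.minFac_prime h1
    have hp' : Fact p.Prime := ⟨hp⟩
    have hpG : p ∣ Nat.card G := Nat.minFac_dvd _
    have hmin : ∀ r : ℕ, r.Prime → r ∣ Nat.card G → p ≤ r := fun r hr hrG => Nat.minFac_le_of_dvd hr.two_le hrG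
    by_cases hbig : ∃ q : ℕ, q.Prime ∧ q ∣ Nat.card G ∧ p < q
    · -- normal p-complement
      obtain ⟨P⟩ := (inferInstance : Nonempty (Sylow p G))
      obtain ⟨hPab, hPr⟩ := h p hp hpG hbig P
      obtain ⟨T, hT1, hT2⟩ := Group.rank_spec (P : Subgroup G)
      have hpn : Lib.PNilp.PNil p G := by
        by_cases hp23 : p = 2 ∧ 3 ∣ Nat.card G
        · -- |P| = 2
          obtain ⟨hp2, h3⟩ := hp23
          have hc : Nat.card P = 2 := by
            obtain ⟨k, hk⟩ := IsPGroup.iff_card.1 P.isPGroup'
            have hk' : Nat.card P = 2 ^ k := by rw [hk, hp2]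
            have hk0 : k ≠ 0 := by
              rintro rfl
              have h4 := P.dvd_card_of_dvd_card hpG
              rw [hk, pow_zero] at h4
              exact hp.one_lt.ne' (Nat.dvd_one.1 h4)
            have hk1 : k < 2 := by
              by_contra hlt
              push Not at hlt
              apply h12
              have h5 : 2 ^ 2 ∣ Nat.card G := (pow_dvd_pow 2 hlt).trans (by rw [← hk']; exact card_subgroup_dvd_card _)
              exact Nat.Coprime.mul_dvd_of_dvd_of_dvd (by norm_num) h5 h3
            have : k = 1 := by omega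
            rw [hk', this, pow_one]
          have h2f : Fact (Nat.Prime 2) := ⟨Nat.prime_two⟩
          have hcyc : IsCyclic (P : Subgroup G) := isCyclic_of_prime_card hc
          obtain ⟨g, hg⟩ := hcyc.exists_generator
          refine S3969.main p P hPab 1 {g} (by simp) ?_ ?_
          · rw [Finset.coe_singleton, ← zpowers_eq_closure, eq_top_iff]
            intro x _; exact hg x
          · intro i hi hi'
            have : i = 1 := by omega
            rw [this, hp2]; simp
        · refine S3969.main p P hPab 2 T (by omega) hT2 ?_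
          intro i hi hi'
          have hcop : ∀ m : ℕ, m ≠ 0 → (∀ r : ℕ, r.Prime → r ∣ m → r ∣ Nat.card G → False) → Nat.Coprime (Nat.card G) m := by
            intro m _ hm
            exact Nat.Coprime.symm (Nat.coprime_of_dvd fun r hr h5 h6 => hm r hr h5 h6)
          have hp2 := hp.two_le
          have hi'' : i = 1 ∨ i = 2 := by omega
          have hm1 : ∀ r : ℕ, r.Prime → r ∣ p - 1 → r ∣ Nat.card G → False := by
            intro r hr h5 h6
            have := Nat.le_of_dvd (by omega) h5
            have := hmin r hr h6
            omega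
          have hm2 : ∀ r : ℕ, r.Prime → r ∣ p + 1 → r ∣ Nat.card G → False := by
            intro r hr h5 h6
            have h7 := hmin r hr h6
            have h8 := Nat.le_of_dvd (by omega) h5
            have h9 : r ≠ p := by
              rintro rfl
              have := (Nat.dvd_add_right dvd_rfl).1 h5
              exact hr.one_lt.ne' (Nat.dvd_one.1 this)
            have h10 : r = p + 1 := by omega
            -- p and p+1 primes → p = 2
            have h11 : p = 2 := by
              rcases hp.eq_two_or_odd' with h12 | h12
              · exact h12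
              · exfalso
                rw [h10] at hr
                rcases hr.eq_two_or_odd' with h13 | h13
                · omega
                · exact (Nat.not_even_iff_odd.2 h13) h12.add_one
            apply hp23
            refine ⟨h11, ?_⟩
            rw [h10, h11] at h6
            exact h6
          rcases hi'' with rfl | rfl
          · rw [pow_one]
            exact hcop _ (by omega) hm1
          · have e : p ^ 2 - 1 = (p - 1) * (p + 1) := by
              have := Nat.sq_sub_sq p 1
              rw [one_pow] at this
              rw [this]; ring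
            rw [e]
            exact Nat.Coprime.mul_right (hcop _ (by omega) hm1) (hcop _ (by omega) hm2)
      obtain ⟨N, hN, hNc, k, hk⟩ := hpn
      have hNt : N ≠ ⊤ := by
        rintro rfl
        rw [Subgroup.card_top] at hNc
        have := Nat.dvd_gcd hpG dvd_rfl
        rw [hNc] at this
        exact hp.one_lt.ne' (Nat.dvd_one.1 this)
      have hlt := Lib.Basic.card_lt_of_ne_top hNt
      -- largest prime
      obtain ⟨q, hq, hqm⟩ : ∃ q ∈ (Nat.card G).primeFactors, ∀ r ∈ (Nat.card G).primeFactors, r ≤ q := by
        obtain ⟨q, hq, hm⟩ := Finset.exists_max_image (Nat.card G).primeFactors id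
          ⟨p, Nat.mem_primeFactors.2 ⟨hp, hpG, Nat.card_pos.ne'⟩⟩
        exact ⟨q, hq, hm⟩
      have hqp : p < q := by
        obtain ⟨s, hs, hsG, hps⟩ := hbig
        exact hps.trans_le (hqm s (Nat.mem_primeFactors.2 ⟨hs, hsG, Nat.card_pos.ne'⟩))
      have hq1 := Nat.prime_of_mem_primeFactors hq
      have hqN : q ∣ Nat.card N := by
        have h5 := N.card_mul_index
        have h6 : q ∣ Nat.card N * N.index := by rw [h5]; exact Nat.dvd_of_mem_primeFactors hq
        rcases hq1.dvd_mul.1 h6 with h7 | h7
        · exact h7
        · rw [hk] at h7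
          have := (Nat.prime_dvd_prime_iff_eq hq1 hp).1 (hq1.dvd_of_dvd_pow h7)
          omega
      have hNs : Group.IsSolvable N := by
        apply ih N (by omega)
        · exact hyp_of_index G h N p k hp hk hNc ⟨q, hq1, hqN, fun r hr hrG =>
            hqm r (Nat.mem_primeFactors.2 ⟨hr, hrG, Nat.card_pos.ne'⟩)⟩
        · intro h5
          exact h12 (h5.trans (card_subgroup_dvd_card N))
      have hQ : IsPGroup p (G ⧸ N) := IsPGroup.of_card (n := k) (by rw [← hk]; rfl)
      have hQn : Group.IsNilpotent (G ⧸ N) := hQ.isNilpotent
      have hQs : Group.IsSolvable (G ⧸ N) := inferInstance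
      exact Group.isSolvable_of_ker_le_range N.subtype (QuotientGroup.mk' N)
        (by rw [QuotientGroup.ker_mk', Subgroup.range_subtype])
    · -- p-group
      push Not at hbig
      have hpg : IsPGroup p G := by
        have h5 : ∀ {d : ℕ}, d.Prime → d ∣ Nat.card G → d = p := fun {d} hd hdG =>
          le_antisymm (hbig d hd hdG) (hmin d hd hdG)
        exact IsPGroup.of_card (n := (Nat.card G).primeFactorsList.length)
          (Nat.eq_prime_pow_of_unique_prime_dvd Nat.card_pos.ne' h5)
      have : Group.IsNilpotent G := hpg.isNilpotent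
      infer_instance

/-- Let `G` be a finite group such that for every prime `p` dividing its order, other than the largest such prime, the Sylow `p`-subgroups are abelian and generated by at most two elements, and suppose `12` does not divide the order of `G`. Then `G` is solvable. In particular a group of cube-free order not divisible by `12` is solvable. -/
theorem result {G : Type*} [Group G] [Finite G] (h : ∀ p : ℕ, p.Prime → p ∣ Nat.card G → (∃ q : ℕ, q.Prime ∧ q ∣ Nat.card G ∧ p < q) → ∀ P : Sylow p G, IsMulCommutative (P : Subgroup G) ∧ Group.rank (P : Subgroup G) ≤ 2) (h12 : ¬ 12 ∣ Nat.card G) : Group.IsSolvable G := by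
  exact aux (Nat.card G) G le_rfl h h12

end Cfsg.Agent.S3970
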