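import Cfsg.Statements.S3971
import Mathlib
import Cfsg.Agent.H2.Small
import Cfsg.Agent.Lib.PNilp

set_option autoImplicit false
open Cfsg

namespace Cfsg.Agent.S3971

open Subgroup

/-- Let `G` be a finite group of order `2 ^ a * n` with `n` odd and not divisible by `3`, and suppose `G` has an element of order `2 ^ (a - 1)` (so a Sylow `2`-subgroup has a cyclic subgroup of index at most `2`). Then `G` has a normal subgroup of order `n`. -/
theorem result {G : Type*} [Group G] [Finite G] (a n : ℕ) (hG : Nat.card G = 2 ^ a * n) (hn : Odd n) (h3 : ¬ 3 ∣ n) (hx : ∃ x : G, orderOf x = 2 ^ (a - 1)) : ∃ N : Subgroup G, N.Normal ∧ Nat.card N = n := by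
  classical
  have h2 : Fact (Nat.Prime 2) := ⟨Nat.prime_two⟩
  obtain ⟨x, hx⟩ := hx
  -- Sylow 2-subgroup S containing x
  have hxp : IsPGroup 2 (zpowers x) := IsPGroup.of_card (n := a - 1) (by rw [Nat.card_zpowers, hx])
  obtain ⟨S₀, hS₀⟩ := hxp.exists_le_sylow
  have hScard : ∀ S : Sylow 2 G, Nat.card S = 2 ^ a := by
    intro S
    have h3 : (Nat.card G).factorization 2 = a := by
      rw [hG, Nat.factorization_mul (by positivity) (by rintro rfl; simp at hn), Nat.factorization_pow]
      have : n.factorization 2 = 0 := Nat.factorization_eq_zero_of_not_dvd (fun h => by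
        exact (Nat.not_even_iff_odd.2 hn) (even_iff_two_dvd.2 h))
      simp [this, Nat.prime_two.factorization]
    rw [S.card_eq_multiplicity, h3]
  have hpn : Lib.PNilp.PNil 2 G := by
    apply Lib.PNilp.pNil_of_frobCond
    intro Q hQ g hg hgo
    have h3g : ¬ 3 ∣ orderOf g := by
      intro h
      have h4 : 3 ∣ Nat.card G := h.trans (orderOf_dvd_natCard g)
      rw [hG] at h4
      rcases (Nat.Prime.dvd_mul Nat.prime_three).1 h4 with h5 | h5
      · exact absurd ((Nat.prime_dvd_prime_iff_eq Nat.prime_three Nat.prime_two).1 (Nat.prime_three.dvd_of_dvd_pow h5)) (by norm_num)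
      · exact h3 h5
    have ho : (orderOf g).Coprime 6 := by
      have h6 : (6 : ℕ) = 2 * 3 := by norm_num
      rw [h6]
      exact Nat.Coprime.mul_right hgo ((Nat.Prime.coprime_iff_not_dvd Nat.prime_three).2 h3g).symm
    apply H2.Small.centralizes_of_frattini hQ _ hg ho
    -- Q is generated by two elements
    obtain ⟨S, hS⟩ := hQ.exists_le_sylow
    obtain ⟨t, ht⟩ := MulAction.exists_smul_eq G S₀ S
    set y := t * x * t⁻¹ with hy
    have hyo : orderOf y = 2 ^ (a - 1) := by
      rw [← hx]; exact orderOf_injective (MulAut.conj t).toMonoidHom (MulAut.conj t).injective x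
    have hyS : zpowers y ≤ (S : Subgroup G) := by
      rw [zpowers_le, ← ht]
      exact ⟨x, hS₀ (mem_zpowers x), rfl⟩
    -- C = Q ∩ ⟨y⟩ cyclic
    set C : Subgroup Q := (zpowers y).subgroupOf Q with hC
    have hCc : IsCyclic C := by
      refine isCyclic_of_injective ((Q.subtype.comp C.subtype).codRestrict (zpowers y) (fun c => c.2)) ?_
      intro c d hcd
      have : ((c : Q) : G) = ((d : Q) : G) := congrArg (fun z : zpowers y => (z : G)) hcd
      exact Subtype.ext (Subtype.ext this)
    have hCi : C.index ≤ 2 := by
      have h4 : (zpowers y).relIndex S ≤ 2 := by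
        have h5 := Lib.Basic.relIndex_mul_card hyS
        have h6 : Nat.card (S : Subgroup G) = 2 ^ a := hScard S
        rw [Nat.card_zpowers, hyo, h6] at h5
        rcases Nat.eq_zero_or_pos a with rfl | ha
        · rw [show 0 - 1 = 0 from rfl, pow_zero, mul_one] at h5; omega
        · obtain ⟨b, rfl⟩ : ∃ b, a = b + 1 := ⟨a - 1, by omega⟩
          rw [Nat.add_sub_cancel, pow_succ, mul_comm (2 ^ b)] at h5
          have := Nat.eq_of_mul_eq_mul_right (by positivity) h5
          omega
      have h5 : (zpowers y).relIndex Q ≤ (zpowers y).relIndex S :=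
        relIndex_le_of_le_right hS (by
          intro h0
          have := Lib.Basic.relIndex_mul_card hyS
          rw [h0, zero_mul] at this
          exact Nat.card_pos.ne this)
      exact h5.trans h4
    -- generators
    obtain ⟨c, hc⟩ := hCc.exists_generator
    have hgen : ∃ s : Q, closure ({(c : Q), s} : Set Q) = ⊤ := by
      by_cases hCt : C = ⊤
      · refine ⟨1, ?_⟩
        rw [eq_top_iff, ← hCt]
        intro z hz
        obtain ⟨m, hm⟩ := hc ⟨z, hz⟩
        have : (c : Q) ^ m = z := congrArg Subtype.val hm
        rw [← this]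
        exact zpow_mem (subset_closure (Set.mem_insert _ _)) m
      · obtain ⟨s, hs⟩ : ∃ s : Q, s ∉ C := by
          by_contra h
          push Not at h
          exact hCt (eq_top_iff.2 fun z _ => h z)
        refine ⟨s, ?_⟩
        set K := closure ({(c : Q), s} : Set Q) with hK
        have hCK : C ≤ K := by
          intro z hz
          obtain ⟨m, hm⟩ := hc ⟨z, hz⟩
          have : (c : Q) ^ m = z := congrArg Subtype.val hm
          rw [← this]
          exact zpow_mem (subset_closure (Set.mem_insert _ _)) m
        have hlt : C < K := by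
          refine lt_of_le_of_ne hCK ?_
          intro h
          apply hs
          rw [h]
          exact subset_closure (Set.mem_insert_of_mem _ rfl)
        rw [← Subgroup.index_eq_one]
        have h4 := Subgroup.relIndex_mul_index hCK
        have h5 : 2 ≤ C.relIndex K := by
          have h6 : C.relIndex K ≠ 1 := by
            intro h; rw [relIndex_eq_one] at h; exact hlt.not_ge h
          have h7 : C.relIndex K ≠ 0 := by
            intro h
            rw [h, zero_mul] at h4
            exact (index_ne_zero_of_finite (H := C)) h4.symm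
          omega
        have h8 : K.index ≠ 0 := index_ne_zero_of_finite
        have h9 : C.relIndex K * K.index ≤ 2 := by rw [h4]; exact hCi
        by_contra h10
        have h11 : 2 ≤ K.index := by omega
        have := Nat.mul_le_mul h5 h11
        omega
    obtain ⟨s, hs⟩ := hgen
    have h4 := Lib.NilpB.card_closure_sup_frattini_le hQ ({(c : Q), s} : Finset Q)
    rw [Finset.coe_insert, Finset.coe_singleton, hs, top_sup_eq, card_top] at h4
    have h5 : ({(c : Q), s} : Finset Q).card ≤ 2 := Finset.card_le_two
    have h6 := (frattini Q).card_mul_index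
    have h7 : 2 ^ ({(c : Q), s} : Finset Q).card ≤ 4 := by
      calc 2 ^ ({(c : Q), s} : Finset Q).card ≤ 2 ^ 2 := Nat.pow_le_pow_right (by norm_num) h5
        _ = 4 := by norm_num
    have h8 : (frattini Q).index * Nat.card (frattini Q) ≤ 4 * Nat.card (frattini Q) := by
      rw [mul_comm (frattini Q).index, h6]
      exact h4.trans (Nat.mul_le_mul_right _ h7)
    exact Nat.le_of_mul_le_mul_right h8 Nat.card_pos
  obtain ⟨N, hN, hNc, k, hk⟩ := hpn
  refine ⟨N, hN, ?_⟩
  have h3 := N.card_mul_index
  rw [hk, hG] at h3
  have hN2 : (Nat.card N).Coprime (2 ^ k) := Nat.Coprime.pow_right k hNc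
  have hN3 : (Nat.card N).Coprime (2 ^ a) := Nat.Coprime.pow_right a hNc
  have hn2 : n.Coprime (2 ^ k) := Nat.Coprime.pow_right k hn.coprime_two_right
  apply Nat.dvd_antisymm
  · exact hN3.dvd_of_dvd_mul_left (Dvd.intro _ h3)
  · exact hn2.dvd_of_dvd_mul_right (by rw [h3]; exact dvd_mul_left _ _)

end Cfsg.Agent.S3971
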