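import Cfsg.Statements.S3979
import Cfsg.Agent.Lib.SchurMult

set_option autoImplicit false
open Cfsg

namespace Cfsg.Agent.S3979

open Cfsg.Agent.Lib.SchurMult
open scoped commutatorElement

/-- A finite cyclic group has trivial Schur multiplier: every finite stem extension of it is an isomorphism, said through `HasCyclicSchurMultiplier G 1`. -/
theorem result {G : Type*} [Group G] [Finite G] [IsCyclic G] : Cfsg.HasCyclicSchurMultiplier G 1 := by
  apply hasCyclic_one_of
  intro Γ _ _ σ hσ
  have hcomm : ∀ a b : Γ, a * b = b * a := commutative_of_cyclic_center_quotient σ hσ.2.1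
  rw [eq_bot_iff]
  refine hσ.2.2.trans ?_
  rw [commutator_def, Subgroup.commutator_le]
  intro a _ b _
  rw [Subgroup.mem_bot, commutatorElement_eq_one_iff_mul_comm]
  exact hcomm a b

end Cfsg.Agent.S3979
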