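import Cfsg.Statements.S3980
import Cfsg.Agent.H2.SchurProd

set_option autoImplicit false
universe u v w
open Cfsg

namespace Cfsg.Agent.S3980

open Cfsg.Agent.Lib.SchurMult Cfsg.Agent.H2.SchurProd

/-- Let `Q₁` and `Q₂` be finite groups whose commutator quotients have coprime orders, with Schur multipliers `A` and `B`. Then the Schur multiplier of `Q₁ × Q₂` is isomorphic to `A × B`. -/
theorem result {Q₁ : Type u} {Q₂ : Type v} [Group Q₁] [Group Q₂] [Finite Q₁] [Finite Q₂] {A B : Type w} [CommGroup A] [CommGroup B] (hA : Cfsg.HasSchurMultiplier Q₁ A) (hB : Cfsg.HasSchurMultiplier Q₂ B) (hcop : Nat.Coprime (Nat.card (Abelianization Q₁)) (Nat.card (Abelianization Q₂))) : Cfsg.HasSchurMultiplier (Q₁ × Q₂) (A × B) := by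
  have h := hasSchurMultiplier_prod hA hB
  have hsub1 : ∀ t : AbTensor Q₁ Q₂, t ^ Nat.card (Abelianization Q₁) = 1 := by
    intro t
    have h1 : t ^ Nat.card (Abelianization Q₁) = 1 := by
      have : t ∈ Subgroup.closure {t | ∃ x y, t = abTmul Q₁ Q₂ x y} := by
        rw [closure_abTmul]; trivial
      induction this using Subgroup.closure_induction with
      | mem x hx =>
        obtain ⟨a, b, rfl⟩ := hx
        rw [← MonoidHom.pow_apply, ← map_pow]
        have h2 : Abelianization.of (a ^ Nat.card (Abelianization Q₁)) = 1 := by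
          rw [map_pow, pow_card_eq_one']
        refine (abTmul_apply Q₁ Q₂ _ _).trans ?_
        rw [h2, ofMul_one, TensorProduct.zero_tmul]; rfl
      | one => exact one_pow _
      | mul x y _ _ hx hy => rw [mul_pow, hx, hy, one_mul]
      | inv x _ hx => rw [inv_pow, hx, inv_one]
    exact h1
  have hsub : ∀ t : AbTensor Q₁ Q₂, t = 1 := by
    intro t
    have h2 : t ^ Nat.card (Abelianization Q₂) = 1 := by
      have : t ∈ Subgroup.closure {t | ∃ x y, t = abTmul Q₁ Q₂ x y} := by
        rw [closure_abTmul]; trivial
      induction this using Subgroup.closure_induction with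
      | mem x hx =>
        obtain ⟨a, b, rfl⟩ := hx
        rw [← map_pow]
        have h2 : Abelianization.of (b ^ Nat.card (Abelianization Q₂)) = 1 := by
          rw [map_pow, pow_card_eq_one']
        refine (abTmul_apply Q₁ Q₂ _ _).trans ?_
        rw [h2, ofMul_one, TensorProduct.tmul_zero]; rfl
      | one => exact one_pow _
      | mul x y _ _ hx hy => rw [mul_pow, hx, hy, one_mul]
      | inv x _ hx => rw [inv_pow, hx, inv_one]
    have h3 := pow_gcd_eq_one.mpr ⟨hsub1 t, h2⟩
    rw [hcop] at h3
    rwa [pow_one] at h3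
  refine hasSchurMultiplier_congr ?_ h
  exact
    { toFun := fun a => (a.1, a.2.1)
      invFun := fun a => (a.1, a.2, 1)
      left_inv := fun a => Prod.ext rfl (Prod.ext rfl (hsub _).symm)
      right_inv := fun a => rfl
      map_mul' := fun a b => rfl }

end Cfsg.Agent.S3980
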