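import Cfsg.Statements.S3992
import Cfsg.Agent.H2.Eppo
import Cfsg.Agent.S1475

set_option autoImplicit false
open Cfsg

namespace Cfsg.Agent.S3992

open Subgroup Cfsg.Agent.H2.Eppo Cfsg.Agent.Lib.Cores

/-- Let G be a finite non-solvable group in which every element has prime-power order, and let R be its largest solvable normal subgroup. Then R is a p-group for some prime p; G/R has a non-abelian simple normal subgroup contained in every nontrivial normal subgroup of G/R (its unique minimal normal subgroup); and the order of every solvable subgroup of G has at most two prime divisors. -/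
theorem result {G : Type*} [Group G] [Finite G] (hns : ¬ Group.IsSolvable G) (hpp : ∀ g : G, g ≠ 1 → IsPrimePow (orderOf g))
    (R : Subgroup G) [R.Normal] (hRs : Group.IsSolvable ↥R) (hRmax : ∀ N : Subgroup G, N.Normal → Group.IsSolvable ↥N → N ≤ R) :
    (∃ p : ℕ, p.Prime ∧ IsPGroup p ↥R) ∧
      (∃ M : Subgroup (G ⧸ R), M.Normal ∧ IsSimpleGroup ↥M ∧ ¬ IsMulCommutative ↥M ∧
        ∀ N : Subgroup (G ⧸ R), N.Normal → N ≠ ⊥ → M ≤ N) ∧
      ∀ H : Subgroup G, Group.IsSolvable ↥H → (Nat.card ↥H).primeFactors.card ≤ 2 := by
  have hNC := nc_of_eppo hpp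
  refine ⟨radical hNC hns hRs hRmax, ?_, ?_⟩
  · apply top (hNC.quotient R)
    · by_contra hcon
      rw [not_nontrivial_iff_subsingleton] at hcon
      apply hns
      have h1 : R = ⊤ := by
        rw [eq_top_iff]
        intro x _
        exact (QuotientGroup.eq_one_iff x).mp (Subsingleton.elim _ _)
      rw [h1] at hRs
      haveI := hRs
      exact Group.isSolvable_of_isSolvable_injective (f := (topEquiv (G := G)).symm.toMonoidHom) (topEquiv (G := G)).symm.injective
    · intro N hN hNs
      haveI := hRs
      haveI := hNs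
      have h1 : Group.IsSolvable (N.comap (QuotientGroup.mk' R)) := by
        obtain ⟨π, hπ⟩ : ∃ π : (N.comap (QuotientGroup.mk' R)) →* N, ∀ x, ((π x : N) : G ⧸ R) = QuotientGroup.mk' R (x : G) :=
          ⟨((QuotientGroup.mk' R).comp (N.comap (QuotientGroup.mk' R)).subtype).codRestrict N (fun x => mem_comap.mp x.2), fun x => rfl⟩
        have hle : R ≤ N.comap (QuotientGroup.mk' R) := by
          intro x hx
          rw [mem_comap, show QuotientGroup.mk' R x = 1 from (QuotientGroup.eq_one_iff x).mpr hx]
          exact one_mem _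
        refine Group.isSolvable_of_ker_le_range (inclusion hle) π ?_
        intro x hx
        have h2 : QuotientGroup.mk' R (x : G) = 1 := by rw [← hπ, MonoidHom.mem_ker.mp hx]; rfl
        exact ⟨⟨(x : G), (QuotientGroup.eq_one_iff _).mp h2⟩, Subtype.ext rfl⟩
      have h2 := hRmax _ (hN.comap _) h1
      rw [eq_bot_iff]
      intro x hx
      obtain ⟨x, rfl⟩ := QuotientGroup.mk'_surjective R x
      exact mem_bot.mpr ((QuotientGroup.eq_one_iff x).mpr (h2 (mem_comap.mpr hx)))
  · intro H hH
    haveI := hH
    apply Cfsg.Agent.S1475.result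
    intro g
    by_cases hg : g = 1
    · exact Or.inr hg
    · left
      rw [← Subgroup.orderOf_coe]
      exact hpp _ (fun h => hg (Subtype.ext h))

end Cfsg.Agent.S3992
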