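import Cfsg.Statements.S3994
import Cfsg.Agent.Lib.FrobCount

set_option autoImplicit false
open Cfsg

namespace Cfsg.Agent.S3994

/-- Let G be a finite group and n a positive integer. The number of elements of G whose order is divisible by n is either 0 or divisible by the largest divisor of the order of G that is coprime to n. -/
theorem result {G : Type*} [Group G] [Finite G] (n : ℕ) (hn : 0 < n) :
    Nat.card {g : G // n ∣ orderOf g} = 0 ∨
      (Nat.card G / Nat.gcd (Nat.card G) (n ^ Nat.card G)) ∣ Nat.card {g : G // n ∣ orderOf g} := by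
  right
  have hG : Nat.card G ≠ 0 := Nat.card_pos.ne'
  have hgd : Nat.gcd (Nat.card G) (n ^ Nat.card G) ∣ Nat.card G := Nat.gcd_dvd_left _ _
  rw [Nat.dvd_iff_prime_pow_dvd_dvd]
  intro q k hq hk
  have : Fact q.Prime := ⟨hq⟩
  by_cases hqn : q ∣ n
  · have hv : q ^ (Nat.card G).factorization q ∣ Nat.gcd (Nat.card G) (n ^ Nat.card G) := by
      apply Nat.dvd_gcd (Nat.ordProj_dvd _ _)
      have h1 : (Nat.card G).factorization q ≤ Nat.card G := (Nat.factorization_lt q hG).le
      exact (pow_dvd_pow q h1).trans (pow_dvd_pow_of_dvd hqn _)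
    have hnd : ¬ q ∣ Nat.card G / Nat.gcd (Nat.card G) (n ^ Nat.card G) := by
      intro hd
      have h2 : q ^ (Nat.card G).factorization q * q ∣ Nat.card G := by
        calc q ^ (Nat.card G).factorization q * q ∣ Nat.gcd (Nat.card G) (n ^ Nat.card G) *
            (Nat.card G / Nat.gcd (Nat.card G) (n ^ Nat.card G)) := mul_dvd_mul hv hd
          _ = Nat.card G := Nat.mul_div_cancel' hgd
      rw [← pow_succ] at h2
      have := (hq.pow_dvd_iff_le_factorization hG).mp h2
      omega
    have hk0 : k = 0 := by
      by_contra hne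
      exact hnd ((dvd_pow_self q hne).trans hk)
    rw [hk0, pow_zero]
    exact one_dvd _
  · have h1 : q ^ k ∣ Nat.card G := hk.trans (Nat.div_dvd_of_dvd hgd)
    have h2 := (hq.pow_dvd_iff_le_factorization hG).mp h1
    exact (pow_dvd_pow q h2).trans (Cfsg.Agent.Lib.FrobCount.ppart_dvd_card_dvd_orderOf q G n hqn)

end Cfsg.Agent.S3994
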