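import Cfsg.Statements.S3995
import Mathlib
import Cfsg.Agent.Lib.FrobCount
import Cfsg.Agent.Lib.PGrpD
import Cfsg.Agent.Lib.PNilp

set_option autoImplicit false
open Cfsg

namespace Cfsg.Agent.S3995

open Subgroup

/-- the number of elements of order `m` -/
noncomputable def cc (G : Type*) [Group G] (m : ℕ) : ℕ := Nat.card {g : G // orderOf g = m}

theorem card_sol (G : Type*) [Group G] [Finite G] {m : ℕ} (hm : 0 < m) :
    Nat.card {g : G // g ^ m = 1} = ∑ d ∈ m.divisors, cc G d := by
  classical
  cases nonempty_fintype G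
  have h1 : Nat.card {g : G // g ^ m = 1} = (Finset.univ.filter fun g : G => g ^ m = 1).card := by
    rw [Nat.card_eq_fintype_card, Fintype.card_subtype]
  have h2 : ∀ d, cc G d = (Finset.univ.filter fun g : G => orderOf g = d).card := by
    intro d
    unfold cc
    rw [Nat.card_eq_fintype_card, Fintype.card_subtype]
  rw [h1, Finset.card_eq_sum_card_fiberwise (f := fun g : G => orderOf g) (t := m.divisors) (by
    intro g hg
    have hg' : g ^ m = 1 := (Finset.mem_filter.mp (Finset.mem_coe.mp hg)).2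
    exact Finset.mem_coe.mpr (Nat.mem_divisors.mpr ⟨orderOf_dvd_of_pow_eq_one hg', hm.ne'⟩))]
  apply Finset.sum_congr rfl
  intro d hd
  rw [h2]
  congr 1
  ext g
  simp only [Finset.mem_filter, Finset.mem_univ, true_and]
  constructor
  · exact fun h => h.2
  · exact fun h => ⟨by rw [← h] at hd; exact orderOf_dvd_iff_pow_eq_one.mp (Nat.mem_divisors.mp hd).1, h⟩

theorem sum_div_mul {m n : ℕ} (hmn : m.Coprime n) (f : ℕ → ℕ) :
    ∑ d ∈ (m * n).divisors, f d = ∑ x ∈ m.divisors, ∑ y ∈ n.divisors, f (x * y) := by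
  classical
  have h1 : (m * n).divisors = (m.divisors ×ˢ n.divisors).image (fun p => p.1 * p.2) := by
    rw [← Finset.mul_def, Nat.divisors_mul]
  rw [h1, Finset.sum_image (by intro x hx y hy; exact hmn.mul_injOn_divisors hx hy), Finset.sum_product]

theorem cc_one (G : Type*) [Group G] : cc G 1 = 1 := by
  unfold cc
  have : Unique {g : G // orderOf g = 1} := ⟨⟨⟨1, orderOf_one⟩⟩, fun x => Subtype.ext (orderOf_eq_one_iff.mp x.2)⟩
  exact Nat.card_unique

theorem cc_even (G : Type*) [Group G] [Finite G] {m : ℕ} (hm : 2 < m) : 2 ∣ cc G m := by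
  classical
  cases nonempty_fintype G
  unfold cc
  rw [Nat.card_eq_fintype_card, Fintype.card_subtype]
  have h1 : ∑ x ∈ Finset.univ.filter (fun g : G => orderOf g = m), (1 : ZMod 2) = 0 := by
    refine Finset.sum_involution (fun x _ => x⁻¹) (fun a _ => CharTwo.add_self_eq_zero 1) ?_ ?_ (fun a _ => inv_inv a)
    · intro a ha _ h2
      have h3 : orderOf a = m := (Finset.mem_filter.mp ha).2
      have h4 : a ^ 2 = 1 := by
        rw [sq]
        nth_rewrite 1 [← h2]
        exact inv_mul_cancel a
      have h5 := Nat.le_of_dvd (by norm_num) (orderOf_dvd_of_pow_eq_one h4)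
      omega
    · intro a ha
      have h3 : orderOf a = m := (Finset.mem_filter.mp ha).2
      exact Finset.mem_filter.mpr ⟨Finset.mem_univ _, by rw [orderOf_inv]; exact h3⟩
  rw [Finset.sum_const, nsmul_eq_mul, mul_one] at h1
  exact (ZMod.natCast_eq_zero_iff _ 2).mp h1

theorem cc_pos (G : Type*) [Group G] [Finite G] (g : G) : cc G (orderOf g) ≠ 0 := by
  unfold cc
  have : Nonempty {x : G // orderOf x = orderOf g} := ⟨⟨g, rfl⟩⟩
  exact Nat.card_pos.ne'

theorem exists_of_cc {G : Type*} [Group G] {m : ℕ} (h : cc G m ≠ 0) : ∃ g : G, orderOf g = m := by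
  unfold cc at h
  by_contra hcon
  push Not at hcon
  have : IsEmpty {x : G // orderOf x = m} := ⟨fun x => hcon x.1 x.2⟩
  exact h Nat.card_of_isEmpty

theorem exponent_eq {G : Type*} [Group G] [Finite G] {q : ℕ} (hq : q.Prime) (hG : IsPGroup q G) (hnt : Nontrivial G)
    (hno : ∀ g : G, orderOf g ≠ q ^ 2) : Monoid.exponent G = q := by
  have h1 : ∀ g : G, g ^ q = 1 := by
    intro g
    obtain ⟨k, hk⟩ := hG g
    obtain ⟨j, hj, hj2⟩ := (Nat.dvd_prime_pow hq).mp (orderOf_dvd_of_pow_eq_one hk)
    have hj3 : j < 2 := by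
      by_contra hcon
      push Not at hcon
      obtain ⟨i, rfl⟩ := Nat.exists_eq_add_of_le hcon
      apply hno (g ^ (q ^ i))
      rw [orderOf_pow' g (pow_ne_zero _ hq.ne_zero), hj2, Nat.gcd_eq_right (pow_dvd_pow q (by omega : i ≤ 2 + i)), pow_add,
        Nat.mul_div_cancel _ (pow_pos hq.pos _)]
    apply orderOf_dvd_iff_pow_eq_one.mp
    rw [hj2]
    have : j = 0 ∨ j = 1 := by omega
    rcases this with rfl | rfl
    · simp
    · simp
  have h2 : Monoid.exponent G ∣ q := Monoid.exponent_dvd_of_forall_pow_eq_one h1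
  rcases (Nat.dvd_prime hq).mp h2 with h3 | h3
  · exfalso
    obtain ⟨x, hx⟩ := exists_ne (1 : G)
    apply hx
    have := Monoid.pow_exponent_eq_one x
    rwa [h3, pow_one] at this
  · exact h3

theorem prod_iso {G : Type*} [Group G] [Finite G] {q : ℕ} [hq : Fact q.Prime] (hq2 : q ≠ 2) {b : ℕ} (hc : Nat.card G = 2 * q ^ b)
    {z : G} (hz : orderOf z = 2) (hzc : z ∈ center G) (P : Sylow q G) :
    Nonempty (G ≃* Multiplicative (ZMod 2) × P) := by
  have hqo : ¬ 2 ∣ q := fun h => hq2 ((Nat.prime_dvd_prime_iff_eq Nat.prime_two hq.out).mp h).symm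
  have hcP : Nat.card P = q ^ b := by
    rw [P.card_eq_multiplicity, hc, Nat.factorization_mul (by norm_num) (pow_ne_zero _ hq.out.ne_zero), Nat.factorization_pow]
    simp [Nat.Prime.factorization_self hq.out, Nat.factorization_eq_zero_of_not_dvd (show ¬ q ∣ 2 from fun h => hq2 ((Nat.prime_dvd_prime_iff_eq hq.out Nat.prime_two).mp h))]
  have h1 : Nat.card (zpowers z) = 2 := by rw [Nat.card_zpowers, hz]
  haveI : Fact (Nat.Prime 2) := ⟨Nat.prime_two⟩
  let e : Multiplicative (ZMod 2) ≃* zpowers z := mulEquivOfPrimeCardEq (p := 2) (by simp) h1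
  have hzz : ∀ y ∈ zpowers z, y ∈ center G := fun y hy => (zpowers_le.mpr hzc) hy
  let f : Multiplicative (ZMod 2) × P →* G :=
    MonoidHom.noncommCoprod ((zpowers z).subtype.comp e.toMonoidHom) (P : Subgroup G).subtype (fun m n =>
      (mem_center_iff.mp (hzz _ (e m).2) n).symm)
  have hinj : Function.Injective f := by
    rw [injective_iff_map_eq_one]
    rintro ⟨a, x⟩ hax
    have h2 : ((e a : zpowers z) : G) * (x : G) = 1 := hax
    have h3 : ((e a : zpowers z) : G) = (x : G)⁻¹ := eq_inv_of_mul_eq_one_left h2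
    have h4 : ((e a : zpowers z) : G) ∈ zpowers z ⊓ (P : Subgroup G) := mem_inf.mpr ⟨(e a).2, by rw [h3]; exact inv_mem x.2⟩
    have h5 : zpowers z ⊓ (P : Subgroup G) = ⊥ := by
      rw [← disjoint_iff]
      apply disjoint_of_coprime_natCard
      rw [h1, hcP]
      exact (Nat.Prime.coprime_iff_not_dvd Nat.prime_two).mpr (fun h => hqo (Nat.prime_two.dvd_of_dvd_pow h))
    rw [h5, mem_bot] at h4
    have h6 : e a = 1 := Subtype.ext h4
    have h7 : a = 1 := by
      have := e.injective (h6.trans (map_one e).symm)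
      exact this
    have h8 : x = 1 := Subtype.ext (by rw [h4, one_mul] at h2; exact h2)
    rw [h7, h8]; rfl
  have hbij : Function.Bijective f := by
    rw [Nat.bijective_iff_injective_and_card]
    refine ⟨hinj, ?_⟩
    rw [Nat.card_prod, hcP, hc]
    simp
  exact ⟨(MulEquiv.ofBijective f hbij).symm⟩

/-- Let G be a finite group such that the numbers of elements of each order that occurs in G (the numbers #{g : o(g) = m}, m ranging over the element orders of G) take exactly two values, 1 and some n ≠ 1. Then either G is a p-group of exponent p and order at least 3 for some prime p, or G is the quaternion group of order 8, or G is cyclic of order 4, or G ≅ Z₂ × P for a p-group P of exponent p with p an odd prime. -/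
theorem result {G : Type*} [Group G] [Finite G] (n : ℕ) (hn : n ≠ 1) (h : ((fun m : ℕ => Nat.card {g : G // orderOf g = m}) '' Set.range (orderOf : G → ℕ)) = {1, n}) :
    (∃ p : ℕ, p.Prime ∧ IsPGroup p G ∧ 3 ≤ Nat.card G ∧ Monoid.exponent G = p) ∨
      Nonempty (G ≃* QuaternionGroup 2) ∨ (IsCyclic G ∧ Nat.card G = 4) ∨
      (∃ (p : ℕ) (P : Type) (_ : Group P) (_ : Finite P), p.Prime ∧ p ≠ 2 ∧ IsPGroup p P ∧ Monoid.exponent P = p ∧
        Nonempty (G ≃* Multiplicative (ZMod 2) × P)) := by
  classical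
  have hval : ∀ g : G, cc G (orderOf g) = 1 ∨ cc G (orderOf g) = n := by
    intro g
    have h1 : cc G (orderOf g) ∈ ({1, n} : Set ℕ) := by
      rw [← h]
      exact ⟨orderOf g, ⟨g, rfl⟩, rfl⟩
    simpa using h1
  have hval' : ∀ m, cc G m = 0 ∨ cc G m = 1 ∨ cc G m = n := by
    intro m
    by_cases h0 : cc G m = 0
    · exact Or.inl h0
    · obtain ⟨g, rfl⟩ := exists_of_cc h0
      exact Or.inr (hval g)
  have hn0 : n ≠ 0 := by
    have h1 : n ∈ ({1, n} : Set ℕ) := by simp
    rw [← h] at h1
    obtain ⟨_, ⟨g, rfl⟩, hg⟩ := h1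
    rw [← hg]
    exact cc_pos G g
  have hbig : ∀ m, 2 < m → cc G m = 0 ∨ (cc G m = n ∧ 2 ∣ n) := by
    intro m hm
    have h1 := cc_even G hm
    rcases hval' m with h2 | h2 | h2
    · exact Or.inl h2
    · rw [h2] at h1; omega
    · exact Or.inr ⟨h2, h2 ▸ h1⟩
  have hfrob : ∀ m, m ∣ Nat.card G → m ∣ ∑ d ∈ m.divisors, cc G d := by
    intro m hm
    rw [← card_sol G (Nat.pos_of_dvd_of_pos hm Nat.card_pos)]
    exact Cfsg.Agent.Lib.FrobCount.dvd_card_pow_eq_one G m hm
  have hprime : ∀ q, q.Prime → q ∣ Nat.card G → cc G q ≠ 0 ∧ q ∣ 1 + cc G q := by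
    intro q hq hqG
    haveI : Fact q.Prime := ⟨hq⟩
    obtain ⟨x, hx⟩ := exists_prime_orderOf_dvd_card' q hqG
    refine ⟨by rw [← hx]; exact cc_pos G x, ?_⟩
    have h1 := hfrob q hqG
    rwa [hq.divisors, Finset.sum_pair hq.one_lt.ne, cc_one] at h1
  have hodd : ∀ q, q.Prime → q ≠ 2 → q ∣ Nat.card G → cc G q = n ∧ 2 ∣ n ∧ q ∣ 1 + n := by
    intro q hq hq2 hqG
    obtain ⟨h1, h2⟩ := hprime q hq hqG
    rcases hbig q (lt_of_le_of_ne hq.two_le (Ne.symm hq2)) with h3 | ⟨h3, h4⟩
    · exact absurd h3 h1
    · exact ⟨h3, h4, h3 ▸ h2⟩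
  have hsq : ∀ q, q.Prime → q ≠ 2 → ∀ g : G, orderOf g ≠ q ^ 2 := by
    intro q hq hq2 g hg
    have hqq : q ^ 2 ∣ Nat.card G := hg ▸ orderOf_dvd_natCard g
    obtain ⟨h1, h2, h3⟩ := hodd q hq hq2 ((dvd_pow_self q (by norm_num)).trans hqq)
    have h4 := hfrob _ hqq
    rw [Nat.divisors_prime_pow hq 2] at h4
    simp only [Finset.sum_map, Finset.sum_range_succ, Finset.sum_range_zero, Function.Embedding.coeFn_mk, pow_zero, pow_one,
      zero_add, cc_one] at h4
    have h5 : cc G (q ^ 2) = n := by
      rcases hbig (q ^ 2) (by nlinarith [hq.two_le]) with h6 | h6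
      · exact absurd h6 (by rw [← hg]; exact cc_pos G g)
      · exact h6.1
    rw [h1, h5] at h4
    have h6 : q ∣ n := (Nat.dvd_add_right h3).mp ((dvd_pow_self q (by norm_num)).trans h4)
    have h7 : q ∣ 1 := (Nat.dvd_add_left h6).mp h3
    exact hq.one_lt.ne' (Nat.dvd_one.mp h7)
  have htwo : ∀ q r, q.Prime → q ≠ 2 → q ∣ Nat.card G → r.Prime → r ≠ 2 → r ∣ Nat.card G → q = r := by
    intro q r hq hq2 hqG hr hr2 hrG
    by_contra hne
    have hcop : q.Coprime r := (Nat.coprime_primes hq hr).mpr hne
    obtain ⟨h1, h2, h3⟩ := hodd q hq hq2 hqG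
    obtain ⟨h1', -, h3'⟩ := hodd r hr hr2 hrG
    have h4 := hfrob _ (hcop.mul_dvd_of_dvd_of_dvd hqG hrG)
    rw [sum_div_mul hcop, hq.divisors, hr.divisors, Finset.sum_pair hq.one_lt.ne, Finset.sum_pair hr.one_lt.ne,
      Finset.sum_pair hr.one_lt.ne] at h4
    simp only [one_mul, mul_one, cc_one, h1, h1'] at h4
    have h5 : q ∣ 1 + n + (n + cc G (q * r)) := (dvd_mul_right q r).trans h4
    have hq3 : 3 ≤ q := Nat.lt_of_le_of_ne hq.two_le (Ne.symm hq2)
    have hr3 : 2 ≤ r := hr.two_le
    rcases hbig (q * r) (by nlinarith) with h6 | ⟨h6, -⟩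
    · rw [h6, add_zero] at h5
      have h7 : q ∣ n := (Nat.dvd_add_right h3).mp h5
      have h8 : q ∣ 1 := (Nat.dvd_add_left h7).mp h3
      exact hq.one_lt.ne' (Nat.dvd_one.mp h8)
    · rw [h6] at h5
      have h7 : q ∣ n + n := (Nat.dvd_add_right h3).mp h5
      have h8 : q ∣ 2 * n := by rw [two_mul]; exact h7
      have h9 : q ∣ n := (Nat.Coprime.dvd_mul_left ((Nat.coprime_primes hq Nat.prime_two).mpr hq2)).mp h8
      have h10 : q ∣ 1 := (Nat.dvd_add_left h9).mp h3
      exact hq.one_lt.ne' (Nat.dvd_one.mp h10)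
  have hcard0 : Nat.card G ≠ 0 := Nat.card_pos.ne'
  by_cases hexq : ∃ q, q.Prime ∧ q ≠ 2 ∧ q ∣ Nat.card G
  · obtain ⟨q, hq, hq2, hqG⟩ := hexq
    haveI : Fact q.Prime := ⟨hq⟩
    obtain ⟨h1, h2, h3⟩ := hodd q hq hq2 hqG
    have hq3 : 3 ≤ q := Nat.lt_of_le_of_ne hq.two_le (Ne.symm hq2)
    by_cases h2G : 2 ∣ Nat.card G
    · -- the unique involution
      right; right; right
      obtain ⟨h4, h5⟩ := hprime 2 Nat.prime_two h2G
      have hc2 : cc G 2 = 1 := by
        rcases hval' 2 with h6 | h6 | h6
        · exact absurd h6 h4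
        · exact h6
        · rw [h6] at h5; omega
      haveI : Fact (Nat.Prime 2) := ⟨Nat.prime_two⟩
      obtain ⟨z, hz⟩ := exists_prime_orderOf_dvd_card' 2 h2G
      have huniq : ∀ y : G, orderOf y = 2 → y = z := by
        intro y hy
        have h6 : Nat.card {g : G // orderOf g = 2} = 1 := hc2
        obtain ⟨h7, -⟩ := Nat.card_eq_one_iff_unique.mp h6
        exact congrArg Subtype.val (h7.elim (⟨y, hy⟩ : {g : G // orderOf g = 2}) ⟨z, hz⟩)
      have hzc : z ∈ center G := by
        rw [mem_center_iff]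
        intro g
        have h6 : g * z * g⁻¹ = z := huniq _ (by
          have := orderOf_injective (MulAut.conj g).toMonoidHom (MulAut.conj g).injective z
          rw [← hz, ← this]; rfl)
        exact mul_inv_eq_iff_eq_mul.mp h6
      -- no elements of order 4
      have h4G : ¬ 4 ∣ Nat.card G := by
        intro h4G
        have hd4 : Nat.divisors 4 = {1, 2, 4} := by decide
        have h6 := hfrob 4 h4G
        rw [hd4, Finset.sum_insert (by decide), Finset.sum_insert (by decide), Finset.sum_singleton, cc_one, hc2] at h6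
        have h7 : cc G 4 = n := by
          rcases hbig 4 (by norm_num) with h8 | h8
          · rw [h8] at h6; omega
          · exact h8.1
        have hcop : Nat.Coprime 4 q := by
          have : Nat.Coprime 2 q := (Nat.coprime_primes Nat.prime_two hq).mpr (Ne.symm hq2)
          exact Nat.Coprime.pow_left 2 this
        have h8 := hfrob (4 * q) (hcop.mul_dvd_of_dvd_of_dvd h4G hqG)
        rw [sum_div_mul hcop, hd4, hq.divisors] at h8
        simp only [Finset.sum_pair hq.one_lt.ne] at h8
        rw [Finset.sum_insert (by decide), Finset.sum_insert (by decide), Finset.sum_singleton] at h8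
        simp only [one_mul, mul_one, h1, h7, cc_one, hc2] at h8
        -- order 2q
        have h2q : cc G (2 * q) = n := by
          obtain ⟨x, hx⟩ := exists_prime_orderOf_dvd_card' q hqG
          have h9 : orderOf (z * x) = 2 * q := by
            have h10 : Commute z x := (mem_center_iff.mp hzc x).symm
            rw [h10.orderOf_mul_eq_mul_orderOf_of_coprime, hz, hx]
            rw [hz, hx]
            exact (Nat.coprime_primes Nat.prime_two hq).mpr (Ne.symm hq2)
          rcases hbig (2 * q) (by omega) with h10 | h10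
          · exact absurd h10 (by rw [← h9]; exact cc_pos G _)
          · exact h10.1
        rw [h2q] at h8
        have h9 : q ∣ 1 + n + (1 + n + (n + cc G (4 * q))) := (dvd_mul_left q 4).trans h8
        have h10 : q ∣ n + cc G (4 * q) := (Nat.dvd_add_right h3).mp ((Nat.dvd_add_right h3).mp h9)
        rcases hbig (4 * q) (by omega) with h11 | ⟨h11, -⟩
        · rw [h11, add_zero] at h10
          have h12 : q ∣ 1 := (Nat.dvd_add_left h10).mp h3
          exact hq.one_lt.ne' (Nat.dvd_one.mp h12)
        · rw [h11, ← two_mul] at h10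
          have h12 : q ∣ n := (Nat.Coprime.dvd_mul_left ((Nat.coprime_primes hq Nat.prime_two).mpr hq2)).mp h10
          have h13 : q ∣ 1 := (Nat.dvd_add_left h12).mp h3
          exact hq.one_lt.ne' (Nat.dvd_one.mp h13)
      have hcard : ∃ b, Nat.card G = 2 * q ^ b := by
        obtain ⟨m, hm⟩ := h2G
        have hm0 : m ≠ 0 := by rintro rfl; exact hcard0 (by simpa using hm)
        refine ⟨m.primeFactorsList.length, ?_⟩
        rw [hm]
        refine congrArg (2 * ·) ?_
        apply Nat.eq_prime_pow_of_unique_prime_dvd hm0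
        intro d hd hdm
        have hd2 : d ≠ 2 := by
          rintro rfl
          obtain ⟨c, rfl⟩ := hdm
          exact h4G ⟨c, by rw [hm]; ring⟩
        exact htwo d q hd hd2 (hdm.trans ⟨2, by rw [hm]; ring⟩) hq hq2 hqG
      obtain ⟨b, hb⟩ := hcard
      obtain ⟨P⟩ : Nonempty (Sylow q G) := inferInstance
      obtain ⟨e⟩ := prod_iso hq2 hb hz hzc P
      -- transport to `Type`
      haveI : Small.{0} P := inferInstance
      let e2 : Shrink.{0} P ≃* P := Shrink.mulEquiv
      haveI : Finite (Shrink.{0} P) := Finite.of_equiv P e2.symm.toEquiv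
      have hPn : Nontrivial P := by
        rw [← Finite.one_lt_card_iff_nontrivial]
        have h6 : q ∣ Nat.card P := P.dvd_card_of_dvd_card hqG
        have := Nat.le_of_dvd Nat.card_pos h6
        omega
      refine ⟨q, Shrink.{0} P, inferInstance, inferInstance, hq, hq2, P.isPGroup'.of_equiv e2.symm, ?_, ⟨e.trans (MulEquiv.prodCongr (MulEquiv.refl _) e2.symm)⟩⟩
      rw [Monoid.exponent_eq_of_mulEquiv e2]
      apply exponent_eq hq P.isPGroup' hPn
      intro g hg
      exact hsq q hq hq2 (g : G) (by rw [orderOf_coe]; exact hg)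
    · left
      have hcard : ∃ b, Nat.card G = q ^ b := by
        refine ⟨_, Nat.eq_prime_pow_of_unique_prime_dvd hcard0 ?_⟩
        intro d hd hdG
        exact htwo d q hd (by rintro rfl; exact h2G hdG) hdG hq hq2 hqG
      have hGq : IsPGroup q G := IsPGroup.iff_card.mpr hcard
      have hcl := Nat.le_of_dvd Nat.card_pos hqG
      refine ⟨q, hq, hGq, by omega, exponent_eq hq hGq ?_ (hsq q hq hq2)⟩
      rw [← Finite.one_lt_card_iff_nontrivial]
      omega
  · push Not at hexq
    have hG2 : IsPGroup 2 G := by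
      refine IsPGroup.iff_card.mpr ⟨_, Nat.eq_prime_pow_of_unique_prime_dvd hcard0 ?_⟩
      intro d hd hdG
      by_contra hne
      exact hexq d hd hne hdG
    haveI : Fact (Nat.Prime 2) := ⟨Nat.prime_two⟩
    obtain ⟨k, hk⟩ := IsPGroup.iff_card.mp hG2
    have hcard3 : 3 ≤ Nat.card G := by
      by_contra hcon
      have hle : Nat.card G ≤ 2 := by omega
      -- all values are 1
      obtain ⟨g, hg⟩ : ∃ g : G, cc G (orderOf g) = n := by
        have h1 : n ∈ ({1, n} : Set ℕ) := by simp
        rw [← h] at h1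
        obtain ⟨_, ⟨g, rfl⟩, hg⟩ := h1
        exact ⟨g, hg⟩
      by_cases hg1 : orderOf g = 1
      · rw [hg1, cc_one] at hg
        exact hn hg.symm
      have h2 : orderOf g ≤ 2 := (Nat.le_of_dvd Nat.card_pos (orderOf_dvd_natCard g)).trans hle
      have h3 : orderOf g = 2 := by
        have := orderOf_pos g
        omega
      have h4 : Nat.card G = 2 := le_antisymm hle (h3 ▸ (Nat.le_of_dvd Nat.card_pos (orderOf_dvd_natCard g)))
      have h5 := hfrob 2 (by rw [h4])
      rw [Nat.prime_two.divisors, Finset.sum_pair (by norm_num), cc_one] at h5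
      have h6 : Nat.card {x : G // x ^ 2 = 1} = 1 + cc G 2 := by
        rw [card_sol G (by norm_num), Nat.prime_two.divisors, Finset.sum_pair (by norm_num), cc_one]
      have h7 : Nat.card {x : G // x ^ 2 = 1} ≤ Nat.card G := Nat.card_le_card_of_injective Subtype.val Subtype.val_injective
      rw [h3] at hg
      omega
    have hk2 : 2 ≤ k := by
      by_contra hcon
      have : k = 0 ∨ k = 1 := by omega
      rcases this with rfl | rfl <;> norm_num at hk <;> omega
    by_cases h4 : cc G 4 = 0
    · left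
      refine ⟨2, Nat.prime_two, hG2, hcard3, exponent_eq Nat.prime_two hG2 ?_ ?_⟩
      · rw [← Finite.one_lt_card_iff_nontrivial]; omega
      · intro g hg
        have h5 := cc_pos G g
        rw [hg] at h5
        exact h5 h4
    · obtain ⟨h5, h6⟩ := hprime 2 Nat.prime_two (by rw [hk]; exact dvd_pow_self 2 (by omega))
      rcases hbig 4 (by norm_num) with h7 | ⟨h7, h8⟩
      · exact absurd h7 h4
      have hc2 : cc G 2 = 1 := by
        rcases hval' 2 with h9 | h9 | h9
        · exact absurd h9 h5
        · exact h9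
        · rw [h9] at h6; omega
      have huniq : ∀ x y : G, orderOf x = 2 → orderOf y = 2 → x = y := by
        intro x y hx hy
        have h6 : Nat.card {g : G // orderOf g = 2} = 1 := hc2
        obtain ⟨h7, -⟩ := Nat.card_eq_one_iff_unique.mp h6
        exact congrArg Subtype.val (h7.elim (⟨x, hx⟩ : {g : G // orderOf g = 2}) ⟨y, hy⟩)
      have h9 := hfrob 4 (by rw [hk]; exact pow_dvd_pow 2 hk2)
      have hd4 : Nat.divisors 4 = {1, 2, 4} := by decide
      rw [hd4, Finset.sum_insert (by decide), Finset.sum_insert (by decide), Finset.sum_singleton, cc_one, hc2, h7] at h9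
      have hc8 : cc G 8 = 0 := by
        rcases hbig 8 (by norm_num) with h10 | ⟨h10, -⟩
        · exact h10
        exfalso
        obtain ⟨g, hg⟩ := exists_of_cc (show cc G 8 ≠ 0 by rw [h10]; exact hn0)
        have h11 := hfrob 8 (hg ▸ orderOf_dvd_natCard g)
        have hd8 : Nat.divisors 8 = {1, 2, 4, 8} := by decide
        rw [hd8, Finset.sum_insert (by decide), Finset.sum_insert (by decide), Finset.sum_insert (by decide), Finset.sum_singleton,
          cc_one, hc2, h7, h10] at h11
        omega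
      rcases Cfsg.Agent.Lib.PGrpD.cyclic_or_quaternion hG2 huniq with hcyc | ⟨m, a, b, hm, ha, hb, hba, hbn, hc⟩
      · right; right; left
        refine ⟨hcyc, ?_⟩
        obtain ⟨g, hg⟩ := hcyc.exists_generator
        have hog : orderOf g = Nat.card G := orderOf_eq_card_of_forall_mem_zpowers hg
        have hk3 : k < 3 := by
          by_contra hcon
          push Not at hcon
          obtain ⟨j, rfl⟩ := Nat.exists_eq_add_of_le hcon
          have h10 : orderOf (g ^ (2 ^ j)) = 8 := by
            rw [orderOf_pow' g (pow_ne_zero _ (by norm_num)), hog, hk, Nat.gcd_eq_right (pow_dvd_pow 2 (by omega : j ≤ 3 + j)), pow_add,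
              Nat.mul_div_cancel _ (pow_pos (by norm_num) _)]
            norm_num
          have h11 := cc_pos G (g ^ (2 ^ j))
          rw [h10] at h11
          exact h11 hc8
        have : k = 2 := by omega
        rw [hk, this]
        norm_num
      · right; left
        have hm1 : m = 1 := by
          by_contra hcon
          obtain ⟨j, rfl⟩ := Nat.exists_eq_add_of_le (show 2 ≤ m by omega)
          have h10 : orderOf (a ^ (2 ^ j)) = 8 := by
            rw [orderOf_pow' a (pow_ne_zero _ (by norm_num)), ha, Nat.gcd_eq_right (pow_dvd_pow 2 (by omega : j ≤ 2 + j + 1)),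
              show 2 + j + 1 = 3 + j by ring, pow_add, Nat.mul_div_cancel _ (pow_pos (by norm_num) _)]
            norm_num
          have h11 := cc_pos G (a ^ (2 ^ j))
          rw [h10] at h11
          exact h11 hc8
        subst hm1
        exact Cfsg.Agent.Lib.PGrpD.quaternion_iso ha hb hba hbn hc

end Cfsg.Agent.S3995
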