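import Cfsg.Statements.S3997
import Cfsg.Agent.Lib.Cores

set_option autoImplicit false
open Cfsg

namespace Cfsg.Agent.S3997

open Subgroup

theorem nilp_iff {G : Type*} [Group G] [Finite G] : Group.IsNilpotent G ↔
    ∀ p : ℕ, p.Prime → Nat.card {g : G // ∃ k, orderOf g = p ^ k} = p ^ (Nat.card G).factorization p := by
  have hmem : ∀ (p : ℕ) [Fact p.Prime] (P : Sylow p G), ∀ g ∈ (P : Subgroup G), ∃ k, orderOf g = p ^ k := by
    intro p _ P g hg
    obtain ⟨k, hk⟩ := (IsPGroup.iff_orderOf.mp P.isPGroup') ⟨g, hg⟩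
    rw [← orderOf_coe] at hk
    exact ⟨k, hk⟩
  constructor
  · intro hn p hp
    have : Fact p.Prime := ⟨hp⟩
    obtain ⟨P⟩ := (inferInstance : Nonempty (Sylow p G))
    have hPn : (P : Subgroup G).Normal := inferInstance
    have h1 : Nat.card (P : Subgroup G) = p ^ (Nat.card G).factorization p := P.card_eq_multiplicity
    rw [← h1]
    refine Nat.card_congr (Equiv.subtypeEquivRight fun g => ⟨?_, hmem p P g⟩)
    rintro ⟨k, hk⟩
    have h2 : IsPGroup p (zpowers g) := by
      rw [IsPGroup.iff_card]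
      exact ⟨k, by rw [Nat.card_zpowers, hk]⟩
    obtain ⟨Q, hQ⟩ := h2.exists_le_sylow
    obtain ⟨c, hc⟩ := MulAction.exists_smul_eq G P Q
    rw [Sylow.smul_eq_of_normal] at hc
    rw [hc]
    exact hQ (mem_zpowers g)
  · intro h
    refine ((Group.isNilpotent_of_finite_tfae (G := G)).out 0 3).mpr ?_
    intro p hp P
    have h1 : Nat.card (P : Subgroup G) = p ^ (Nat.card G).factorization p := P.card_eq_multiplicity
    have h2 : ∀ Q : Sylow p G, (Q : Set G) = {g : G | ∃ k, orderOf g = p ^ k} := by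
      intro Q
      have h3 : Nat.card (Q : Subgroup G) = p ^ (Nat.card G).factorization p := Q.card_eq_multiplicity
      refine Set.eq_of_subset_of_ncard_le (fun g hg => hmem p Q g hg) ?_ (Set.toFinite _)
      have h4 : ({g : G | ∃ k, orderOf g = p ^ k} : Set G).ncard =
        Nat.card {g : G // ∃ k, orderOf g = p ^ k} := rfl
      have h5 : ((Q : Subgroup G) : Set G).ncard = Nat.card (Q : Subgroup G) := rfl
      rw [h4, h p hp.out]
      exact (h3.symm.trans h5.symm).le
    have h3 : Subsingleton (Sylow p G) := ⟨fun Q R => by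
      apply Sylow.ext
      apply SetLike.coe_injective
      exact (h2 Q).trans (h2 R).symm⟩
    exact P.normal_of_subsingleton

theorem card_congr_order {G H : Type*} [Group G] [Finite G] [Group H] [Finite H]
    (hT : (∀ m : ℕ, Nat.card {g : G // orderOf g = m} = Nat.card {h : H // orderOf h = m}))
    (S : Set ℕ) : Nat.card {g : G // orderOf g ∈ S} = Nat.card {h : H // orderOf h ∈ S} := by
  let E : ∀ m : ℕ, {g : G // orderOf g = m} ≃ {h : H // orderOf h = m} :=
    fun m => Classical.choice ((Finite.card_eq).mp (hT m))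
  refine Nat.card_congr ⟨fun g => ⟨(E _ ⟨g.1, rfl⟩).1, by rw [(E _ ⟨g.1, rfl⟩).2]; exact g.2⟩,
    fun h => ⟨((E _).symm ⟨h.1, rfl⟩).1, by rw [((E _).symm ⟨h.1, rfl⟩).2]; exact h.2⟩, ?_, ?_⟩
  · rintro ⟨g, hg⟩
    apply Subtype.ext
    have key : ∀ (m : ℕ) (x : {h : H // orderOf h = m}), ((E (orderOf x.1)).symm ⟨x.1, rfl⟩).1 =
        ((E m).symm x).1 := by
      rintro m ⟨x, rfl⟩
      rfl
    change ((E _).symm ⟨(E _ ⟨g, rfl⟩).1, rfl⟩).1 = g
    rw [key _ (E _ ⟨g, rfl⟩), Equiv.symm_apply_apply]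
  · rintro ⟨h, hh⟩
    apply Subtype.ext
    have key : ∀ (m : ℕ) (x : {g : G // orderOf g = m}), (E (orderOf x.1) ⟨x.1, rfl⟩).1 =
        (E m x).1 := by
      rintro m ⟨x, rfl⟩
      rfl
    change (E _ ⟨((E _).symm ⟨h, rfl⟩).1, rfl⟩).1 = h
    rw [key _ ((E _).symm ⟨h, rfl⟩), Equiv.apply_symm_apply]

/-- Let G and H be finite groups with the same order type: for every m they have the same number of elements of order m. If G is nilpotent then so is H. -/
theorem result {G H : Type*} [Group G] [Finite G] [Group H] [Finite H] (hT : (∀ m : ℕ, Nat.card {g : G // orderOf g = m} = Nat.card {h : H // orderOf h = m})) (hG : Group.IsNilpotent G) :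
    Group.IsNilpotent H := by
  have h0 : Nat.card G = Nat.card H := by
    have h1 := card_congr_order hT Set.univ
    have e1 : Nat.card {g : G // orderOf g ∈ (Set.univ : Set ℕ)} = Nat.card G :=
      Nat.card_congr (Equiv.subtypeUnivEquiv fun _ => trivial)
    have e2 : Nat.card {g : H // orderOf g ∈ (Set.univ : Set ℕ)} = Nat.card H :=
      Nat.card_congr (Equiv.subtypeUnivEquiv fun _ => trivial)
    rw [← e1, ← e2, h1]
  rw [nilp_iff] at hG ⊢
  intro p hp
  have h1 := card_congr_order hT {m | ∃ k, m = p ^ k}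
  rw [← h0, ← hG p hp]
  exact h1.symm

end Cfsg.Agent.S3997
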