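import Cfsg.Statements.S3998
import Mathlib
import Cfsg.Agent.H2.SuperS

set_option autoImplicit false
open Cfsg

namespace Cfsg.Agent.S3998

open Cfsg.Agent.H2.SuperS

/-- Let G and H be finite groups with the same order type (for every m the same number of elements of order m). If G is supersolvable then H is solvable. -/
theorem result {G H : Type*} [Group G] [Finite G] [Group H] [Finite H] (hT : (∀ m : ℕ, Nat.card {g : G // orderOf g = m} = Nat.card {h : H // orderOf h = m})) (hG : Cfsg.IsSupersolvable G) :
    Group.IsSolvable H := by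
  obtain ⟨e, he⟩ := exists_equiv hT
  apply solvable_of_U (Nat.card H) H le_rfl
  intro p
  obtain ⟨a, b, h1, h2, h3, h4⟩ := U_of_supersolvable hG p
  refine ⟨a, b, by rw [h1]; exact Nat.card_congr e, h2, h3, ?_⟩
  rw [← h4]
  refine Nat.card_congr (e.symm.subtypeEquiv fun x => ?_)
  have h5 : orderOf (e.symm x) = orderOf x := by
    have := he (e.symm x)
    rwa [Equiv.apply_symm_apply, eq_comm] at this
  show (∀ q : ℕ, q.Prime → q ∣ orderOf x → p ≤ q) ↔ (∀ q : ℕ, q.Prime → q ∣ orderOf (e.symm x) → p ≤ q)
  rw [h5]

end Cfsg.Agent.S3998
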