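import Cfsg.Statements.S4001
import Cfsg.Agent.H2.TwoFrob
import Cfsg.Agent.S0042
import Cfsg.Agent.H2.CND
import Cfsg.Agent.Lib.FrobC

set_option autoImplicit false
open Cfsg

namespace Cfsg.Agent.S4001

open Subgroup Cfsg.Agent.Lib Cfsg.Agent.Lib.Cores Cfsg.Agent.Lib.FrobGrp Cfsg.Agent.H2.TwoFrob

/-- Let G be a 2-Frobenius group: it has normal subgroups H < K with K a Frobenius group with kernel H and G/H a Frobenius group with kernel K/H. Then G is solvable; K/H has odd order coprime to the order of H and to the order of G/K (it is the image of an odd-order Hall subgroup); G/K is cyclic; and the prime graph of G has exactly two connected components, both complete: for distinct primes p, q dividing the order of G, G has an element of order pq exactly when p and q either both divide the order of K/H or both do not. -/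
theorem result {G : Type*} [Group G] [Finite G] (H K : Subgroup G) [H.Normal] [K.Normal] (hlt : H < K)
    (hK : ∃ C : Subgroup ↥K, Cfsg.IsFrobeniusComplement C ∧ Cfsg.frobeniusKernel C = (H.subgroupOf K : Set ↥K))
    (hGH : ∃ C : Subgroup (G ⧸ H), Cfsg.IsFrobeniusComplement C ∧ Cfsg.frobeniusKernel C = (K.map (QuotientGroup.mk' H) : Set (G ⧸ H))) :
    Group.IsSolvable G ∧ Odd (Nat.card (↥K ⧸ H.subgroupOf K)) ∧
      Nat.Coprime (Nat.card (↥K ⧸ H.subgroupOf K)) (Nat.card ↥H * Nat.card (G ⧸ K)) ∧ IsCyclic (G ⧸ K) ∧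
      ∀ p q : ℕ, p.Prime → q.Prime → p ≠ q → p ∣ Nat.card G → q ∣ Nat.card G →
        ((∃ g : G, orderOf g = p * q) ↔ (p ∣ Nat.card (↥K ⧸ H.subgroupOf K) ↔ q ∣ Nat.card (↥K ⧸ H.subgroupOf K))) := by
  classical
  obtain ⟨C, hCf, hCk⟩ := hK
  obtain ⟨C₂, hC₂f, hC₂k⟩ := hGH
  have hc := kernel_isComplement' hCf hCk
  have hc2 := kernel_isComplement' hC₂f hC₂k
  have hcop1 := kernel_coprime hCf hCk
  have hcop2 := kernel_coprime hC₂f hC₂k
  have hne2 := kernel_ne_bot hC₂f hC₂k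
  have hne1 := kernel_ne_bot hCf hCk
  haveI := kernel_normal hCk
  haveI := kernel_normal hC₂k
  have hf := QuotientGroup.mk'_surjective H
  have hHKcard : Nat.card (H.subgroupOf K) = Nat.card H := Nat.card_congr (subgroupOfEquivOfLe hlt.le).toEquiv
  have hHnil : Group.IsNilpotent H := by
    obtain ⟨N, hN, -, hNn⟩ := Cfsg.Agent.S0042.result C hCf
    have h1 : N = H.subgroupOf K := SetLike.coe_injective (hN.trans hCk)
    rw [h1] at hNn
    exact Group.nilpotent_of_mulEquiv (subgroupOfEquivOfLe hlt.le)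
  have hBnil : Group.IsNilpotent (K.map (QuotientGroup.mk' H)) := by
    obtain ⟨N, hN, -, hNn⟩ := Cfsg.Agent.S0042.result C₂ hC₂f
    have h1 : N = K.map (QuotientGroup.mk' H) := SetLike.coe_injective (hN.trans hC₂k)
    rwa [h1] at hNn
  -- the isomorphism
  obtain ⟨φ, hφ⟩ : ∃ φ : C →* (K.map (QuotientGroup.mk' H) : Subgroup (G ⧸ H)), ∀ a, ((φ a : (K.map (QuotientGroup.mk' H) : Subgroup (G ⧸ H))) : G ⧸ H) = QuotientGroup.mk' H ((a : K) : G) :=
    ⟨(((QuotientGroup.mk' H).comp K.subtype).comp C.subtype).codRestrict _ (fun a => ⟨_, (a : K).2, rfl⟩), fun a => rfl⟩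
  have hφi : Function.Injective φ := by
    rw [injective_iff_map_eq_one]
    intro a ha
    have h1 : QuotientGroup.mk' H ((a : K) : G) = 1 := by rw [← hφ, ha]; rfl
    have h2 : (a : K) ∈ H.subgroupOf K ⊓ C := mem_inf.mpr ⟨mem_subgroupOf.mpr ((QuotientGroup.eq_one_iff _).mp h1), a.2⟩
    rw [hc.disjoint.eq_bot] at h2
    exact Subtype.ext (mem_bot.mp h2)
  have hφs : Function.Surjective φ := by
    rintro ⟨x, k, hk, rfl⟩
    have h1 : (⟨k, hk⟩ : K) ∈ H.subgroupOf K ⊔ C := by rw [hc.sup_eq_top]; exact mem_top _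
    obtain ⟨h, hh, a, ha, h2⟩ := mem_sup_of_normal_left.mp h1
    refine ⟨⟨a, ha⟩, Subtype.ext ?_⟩
    rw [hφ]
    have h3 : k = (h : G) * (a : G) := (congrArg Subtype.val h2).symm
    change QuotientGroup.mk' H (a : G) = QuotientGroup.mk' H k
    rw [h3, map_mul, show QuotientGroup.mk' H (h : G) = 1 from (QuotientGroup.eq_one_iff _).mpr (mem_subgroupOf.mp hh), one_mul]
  let e : C ≃* (K.map (QuotientGroup.mk' H) : Subgroup (G ⧸ H)) := MulEquiv.ofBijective φ ⟨hφi, hφs⟩
  have hBcard : Nat.card C = Nat.card (K.map (QuotientGroup.mk' H)) := Nat.card_congr e.toEquiv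
  obtain ⟨c₂, hc₂⟩ := ne_bot_iff_exists_ne_one.mp hC₂f.1
  have hfp1 : ∀ h ∈ C, h ≠ 1 → H.subgroupOf K ⊓ centralizer {h} = ⊥ := by
    intro h hh h1
    rw [eq_bot_iff]
    intro x hx
    obtain ⟨hx1, hx2⟩ := mem_inf.mp hx
    exact mem_bot.mpr (kernel_not_commute hCf hCk hh h1 hx1 (mem_centralizer_singleton_iff.mp hx2))
  -- odd order
  have hodd : ¬ 2 ∣ Nat.card C := by
    intro h2
    obtain ⟨⟨s, hsC, hso, hsu, -⟩, -⟩ := Cfsg.Agent.S0068.result _ C hc hne1 hfp1 h2
    have h3 : QuotientGroup.mk' H (s : G) ∈ K.map (QuotientGroup.mk' H) := ⟨_, s.2, rfl⟩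
    have h4 : (c₂ : G ⧸ H) * QuotientGroup.mk' H (s : G) * (c₂ : G ⧸ H)⁻¹ ∈ K.map (QuotientGroup.mk' H) := (inferInstance : (K.map (QuotientGroup.mk' H)).Normal).conj_mem _ h3 _
    obtain ⟨t, ht⟩ := hφs ⟨_, h4⟩
    have hto : orderOf (t : K) = 2 := by
      have e1 : orderOf (t : K) = orderOf t := Subgroup.orderOf_coe t
      have e2 : orderOf t = orderOf (φ t) := (orderOf_injective φ hφi t).symm
      have e3 : orderOf (φ t) = orderOf ((c₂ : G ⧸ H) * QuotientGroup.mk' H (s : G) * (c₂ : G ⧸ H)⁻¹) := by rw [ht, ← Subgroup.orderOf_coe]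
      have e4 : orderOf ((c₂ : G ⧸ H) * QuotientGroup.mk' H (s : G) * (c₂ : G ⧸ H)⁻¹) = orderOf (QuotientGroup.mk' H (s : G)) := by
        rw [show (c₂ : G ⧸ H) * QuotientGroup.mk' H (s : G) * (c₂ : G ⧸ H)⁻¹ = MulAut.conj (c₂ : G ⧸ H) (QuotientGroup.mk' H (s : G)) from rfl, MulEquiv.orderOf_eq]
      have e5 : orderOf (QuotientGroup.mk' H (s : G)) = orderOf (⟨s, hsC⟩ : C) := by
        rw [← hφ ⟨s, hsC⟩, Subgroup.orderOf_coe, orderOf_injective φ hφi]
      have e6 : orderOf (⟨s, hsC⟩ : C) = 2 := by rw [← Subgroup.orderOf_coe]; exact hso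
      rw [e1, e2, e3, e4, e5, e6]
    have h5 := hsu t t.2 hto
    have h7 := congrArg Subtype.val ht
    rw [hφ, h5] at h7
    have h8 := kernel_not_commute hC₂f hC₂k c₂.2 (fun h => hc₂ (Subtype.ext h)) h3 (mul_inv_eq_iff_eq_mul.mp h7.symm).symm
    have h9 : (⟨s, hsC⟩ : C) = 1 := hφi (by rw [map_one]; exact Subtype.ext ((hφ _).trans h8))
    have h10 : s = 1 := congrArg Subtype.val h9
    rw [h10, orderOf_one] at hso
    omega
  -- cyclic
  have hCnil : Group.IsNilpotent C := Group.nilpotent_of_mulEquiv e.symm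
  have hCcyc : IsCyclic C := by
    rcases Cfsg.Agent.H2.CND.struct hCnil (fun p hp P => Cfsg.Agent.S0040.result _ C hc hne1 hfp1 p P) with h | ⟨D, Q, -, -, -, -, n, ⟨f⟩⟩
    · exact h
    · exfalso
      apply hodd
      haveI : NeZero (2 ^ n) := ⟨by positivity⟩
      have h1 : Nat.card Q = 4 * 2 ^ n := by rw [Nat.card_congr f.toEquiv, Nat.card_eq_fintype_card, QuaternionGroup.card]
      have h2 : 2 ∣ Nat.card Q := by rw [h1]; exact ⟨2 * 2 ^ n, by ring⟩
      exact h2.trans (card_subgroup_dvd_card Q)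
  have hBcyc : IsCyclic (K.map (QuotientGroup.mk' H)) := e.isCyclic.mp hCcyc
  obtain ⟨b₀, hb₀⟩ := ne_bot_iff_exists_ne_one.mp hne2
  have hC₂ab : IsMulCommutative C₂ := by
    rw [Cfsg.Agent.H2.PUtil.isMulCommutative_iff]
    intro x hx y hy
    have h1 := Cfsg.Agent.H2.CND.comm_mem_centralizer hBcyc x y
    have h2 : x * y * x⁻¹ * y⁻¹ ∈ C₂ := mul_mem (mul_mem (mul_mem hx hy) (inv_mem hx)) (inv_mem hy)
    by_contra hne
    have h3 : x * y * x⁻¹ * y⁻¹ ≠ 1 := fun h => hne (by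
      have := mul_inv_eq_one.mp h
      exact mul_inv_eq_iff_eq_mul.mp this)
    exact hb₀ (Subtype.ext (kernel_not_commute hC₂f hC₂k h2 h3 b₀.2 (mem_centralizer_iff.mp h1 _ b₀.2)))
  have hC₂cyc : IsCyclic C₂ := FrobC.isCyclic_of_comm (K := K.map (QuotientGroup.mk' H)) (by rw [normalizer_eq_top]; exact le_top) hne2 hcop2.symm (by
    intro h hh h1
    rw [eq_bot_iff]
    intro x hx
    obtain ⟨hx1, hx2⟩ := mem_inf.mp hx
    exact mem_bot.mpr (kernel_not_commute hC₂f hC₂k hh h1 hx1 (mem_centralizer_singleton_iff.mp hx2))) hC₂ab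
  have hKHcard : Nat.card (K ⧸ H.subgroupOf K) = Nat.card C := hc.symm.index_eq_card
  -- the quotient
  obtain ⟨π, hπ⟩ : ∃ π : G ⧸ H →* G ⧸ K, ∀ g : G, π (QuotientGroup.mk' H g) = QuotientGroup.mk' K g :=
    ⟨QuotientGroup.map H K (MonoidHom.id G) (by rw [comap_id]; exact hlt.le), fun g => rfl⟩
  have hπs : Function.Surjective π := by
    intro x
    obtain ⟨g, rfl⟩ := QuotientGroup.mk'_surjective K x
    exact ⟨_, hπ g⟩
  have hπC : Function.Surjective (π.comp C₂.subtype) := by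
    intro x
    obtain ⟨y, rfl⟩ := hπs x
    have h1 : y ∈ (K.map (QuotientGroup.mk' H)) ⊔ C₂ := by rw [hc2.sup_eq_top]; exact mem_top _
    obtain ⟨b, hb, c, hcc, rfl⟩ := mem_sup_of_normal_left.mp h1
    refine ⟨⟨c, hcc⟩, ?_⟩
    obtain ⟨k, hk, rfl⟩ := hb
    change π c = π (QuotientGroup.mk' H k * c)
    rw [map_mul, hπ, show QuotientGroup.mk' K k = 1 from (QuotientGroup.eq_one_iff k).mpr hk, one_mul]
  have hGKcyc : IsCyclic (G ⧸ K) := isCyclic_of_surjective _ hπC
  have hGKcard : Nat.card (G ⧸ K) ∣ Nat.card C₂ := Subgroup.card_dvd_of_surjective _ hπC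
  have hcardG : Nat.card G = Nat.card C * Nat.card C₂ * Nat.card H := by
    rw [Subgroup.card_eq_card_quotient_mul_card_subgroup H, ← hc2.card_mul_card, hBcard]
  refine ⟨?_, ?_, ?_, hGKcyc, ?_⟩
  · haveI h1 : Group.IsSolvable H := by haveI := hHnil; infer_instance
    haveI h2 : Group.IsSolvable (K.map (QuotientGroup.mk' H)) := by haveI := hBnil; infer_instance
    haveI h3 : Group.IsSolvable C₂ := CoprimeB.isSolvable_of_comm hC₂ab
    haveI h4 : Group.IsSolvable ((G ⧸ H) ⧸ (K.map (QuotientGroup.mk' H))) := by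
      have h5 : Function.Surjective ((QuotientGroup.mk' (K.map (QuotientGroup.mk' H))).comp C₂.subtype) := by
        intro x
        obtain ⟨y, rfl⟩ := QuotientGroup.mk'_surjective _ x
        have h1 : y ∈ (K.map (QuotientGroup.mk' H)) ⊔ C₂ := by rw [hc2.sup_eq_top]; exact mem_top _
        obtain ⟨b, hb, c, hcc, rfl⟩ := mem_sup_of_normal_left.mp h1
        refine ⟨⟨c, hcc⟩, ?_⟩
        change QuotientGroup.mk' _ c = QuotientGroup.mk' _ (b * c)
        rw [map_mul, show QuotientGroup.mk' (K.map (QuotientGroup.mk' H)) b = 1 from (QuotientGroup.eq_one_iff b).mpr hb, one_mul]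
      exact Group.isSolvable_of_surjective h5
    haveI h6 : Group.IsSolvable (G ⧸ H) :=
      Group.isSolvable_of_ker_le_range (K.map (QuotientGroup.mk' H)).subtype (QuotientGroup.mk' (K.map (QuotientGroup.mk' H))) (by rw [QuotientGroup.ker_mk', range_subtype])
    exact Group.isSolvable_of_ker_le_range H.subtype (QuotientGroup.mk' H) (by rw [QuotientGroup.ker_mk', range_subtype])
  · rw [hKHcard, Nat.odd_iff]; omega
  · rw [hKHcard]
    apply Nat.Coprime.mul_right
    · rw [← hHKcard]; exact hcop1.symm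
    · exact Nat.Coprime.coprime_dvd_right hGKcard (hBcard ▸ hcop2)
  · intro p q hp hq hpq hpd hqd
    rw [hKHcard]
    haveI : Fact p.Prime := ⟨hp⟩
    haveI : Fact q.Prime := ⟨hq⟩
    have hsplit : ∀ r : ℕ, r.Prime → r ∣ Nat.card G → ¬ r ∣ Nat.card C → r ∣ Nat.card C₂ ∨ r ∣ Nat.card H := by
      intro r hr hd hn
      rw [hcardG] at hd
      rcases hr.dvd_mul.mp hd with h | h
      · rcases hr.dvd_mul.mp h with h | h
        · exact absurd h hn
        · exact Or.inl h
      · exact Or.inr h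
    constructor
    · rintro ⟨g, hg⟩
      constructor
      · intro h
        by_contra hn
        exact no_mixed H K hlt hCf hCk hC₂f hC₂k hBcard hp hq h hn hg
      · intro h
        by_contra hn
        exact no_mixed H K hlt hCf hCk hC₂f hC₂k hBcard hq hp h hn (mul_comm p q ▸ hg)
    · intro hiff
      by_cases hpC : p ∣ Nat.card C
      · have hqC := hiff.mp hpC
        obtain ⟨c, hcc⟩ := orderOf_dvd_of_cyclic hCcyc (((Nat.coprime_primes hp hq).mpr hpq).mul_dvd_of_dvd_of_dvd hpC hqC)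
        exact ⟨((c : K) : G), by rw [Subgroup.orderOf_coe, Subgroup.orderOf_coe]; exact hcc⟩
      · have hqC : ¬ q ∣ Nat.card C := fun h => hpC (hiff.mpr h)
        rcases hsplit p hp hpd hpC with h1 | h1 <;> rcases hsplit q hq hqd hqC with h2 | h2
        · obtain ⟨c, hcc⟩ := orderOf_dvd_of_cyclic hC₂cyc (((Nat.coprime_primes hp hq).mpr hpq).mul_dvd_of_dvd_of_dvd h1 h2)
          exact exists_lift_order hf (mul_ne_zero hp.ne_zero hq.ne_zero) ⟨(c : G ⧸ H), by rw [Subgroup.orderOf_coe]; exact hcc⟩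
        · obtain ⟨g, hg⟩ := exists_pq H K hlt hCf hCk hC₂f hC₂k hHnil hBcard hq hp (Ne.symm hpq) h2 h1 hqC
          exact ⟨g, by rw [hg, mul_comm]⟩
        · exact exists_pq H K hlt hCf hCk hC₂f hC₂k hHnil hBcard hp hq hpq h1 h2 hpC
        · obtain ⟨x, hx⟩ := exists_prime_orderOf_dvd_card' (G := H) p h1
          obtain ⟨y, hy⟩ := exists_prime_orderOf_dvd_card' (G := H) q h2
          refine order_mul hp hq hpq (x := (x : G)) (y := (y : G)) (by rw [Subgroup.orderOf_coe]; exact hx) (by rw [Subgroup.orderOf_coe]; exact hy) ?_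
          refine Cfsg.Agent.H2.CN.comm_of_mem hHnil x.2 y.2 (m := p) (n := q) ?_ ?_ ((Nat.coprime_primes hp hq).mpr hpq)
          · rw [← hx, ← Subgroup.orderOf_coe]; exact pow_orderOf_eq_one _
          · rw [← hy, ← Subgroup.orderOf_coe]; exact pow_orderOf_eq_one _

end Cfsg.Agent.S4001
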