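import Cfsg.Statements.S4002
import Mathlib
import Cfsg.Agent.H2.ThreePr

set_option autoImplicit false
open Cfsg

namespace Cfsg.Agent.S4002

/-- If the set of element orders of a finite group G is {1, 2, …, n} with n ≥ 7, then G is not solvable. -/
theorem result {G : Type*} [Group G] [Finite G] (n : ℕ) (hn : 7 ≤ n) (h : Set.range (orderOf : G → ℕ) = {k : ℕ | 1 ≤ k ∧ k ≤ n}) : ¬ Group.IsSolvable G := by
  intro hs
  have hdiv : ∀ p : ℕ, p.Prime → p ≤ n → p ∣ Nat.card G := by
    intro p hp hpn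
    have : p ∈ Set.range (orderOf : G → ℕ) := by rw [h]; exact ⟨hp.one_lt.le, hpn⟩
    obtain ⟨g, hg⟩ := this
    exact hg ▸ orderOf_dvd_natCard g
  have hno : ∀ m : ℕ, n < m → ∀ g : G, orderOf g ≠ m := by
    intro m hm g hg
    have : m ∈ Set.range (orderOf : G → ℕ) := ⟨g, hg⟩
    rw [h] at this
    exact absurd this.2 (not_le.mpr hm)
  have key : ∀ p q r : ℕ, p.Prime → q.Prime → r.Prime → p < q → q < r → r ≤ n → n < p * q → False := by
    intro p q r hp hq hr hpq hqr hrn hn'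
    have h1 : p * q ≤ p * r := Nat.mul_le_mul_left _ hqr.le
    have h2 : p * r ≤ q * r := Nat.mul_le_mul_right _ hpq.le
    exact Cfsg.Agent.H2.ThreePr.main hs hp hq hr hpq.ne (hpq.trans hqr).ne hqr.ne (hdiv p hp (by omega))
      (hdiv q hq (by omega)) (hdiv r hr hrn) (hno _ hn') (hno _ (by omega)) (hno _ (by omega))
  rcases le_or_gt n 14 with h14 | h14
  · exact key 3 5 7 (by norm_num) (by norm_num) (by norm_num) (by norm_num) (by norm_num) hn (by omega)
  rcases le_or_gt n 34 with h34 | h34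
  · exact key 5 7 11 (by norm_num) (by norm_num) (by norm_num) (by norm_num) (by norm_num) (by omega) (by omega)
  have hm : n / 8 ≠ 0 := by omega
  obtain ⟨m, hmdef⟩ : ∃ m, m = n / 8 := ⟨_, rfl⟩
  have hm4 : 4 ≤ m := by omega
  obtain ⟨p, hp, hp1, hp2⟩ := Nat.exists_prime_lt_and_le_two_mul m (by omega)
  obtain ⟨q, hq, hq1, hq2⟩ := Nat.exists_prime_lt_and_le_two_mul (2 * m) (by omega)
  obtain ⟨r, hr, hr1, hr2⟩ := Nat.exists_prime_lt_and_le_two_mul (4 * m) (by omega)
  refine key p q r hp hq hr (by omega) (by omega) (by omega) ?_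
  have h1 : (m + 1) * (2 * m + 1) ≤ p * q := Nat.mul_le_mul hp1 hq1
  have h2 : n ≤ 8 * m + 7 := by omega
  nlinarith

end Cfsg.Agent.S4002
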