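import Cfsg.Statements.S4005
import Mathlib
import Cfsg.Agent.H2.FrobType
import Cfsg.Agent.Lib.FrobC
import Cfsg.Agent.H2.PUtil
import Cfsg.Agent.Lib.CharBurnside

set_option autoImplicit false
open Cfsg

namespace Cfsg.Agent.S4005

open Subgroup Cfsg.Agent.Lib.Basic Cfsg.Agent.Lib.Cores
open scoped Pointwise commutatorElement

/-- every subgroup of prime power order `2` has exponent 2 -/
theorem pow_two {G : Type*} [Group G] (h : ∀ g : G, orderOf g ≤ 3) {g : G} (hg : ∃ k, orderOf g = 2 ^ k) : g * g = 1 := by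
  obtain ⟨k, hk⟩ := hg
  have h1 := h g
  have hk1 : k ≤ 1 := by
    by_contra hlt
    have : 2 ^ 2 ≤ 2 ^ k := Nat.pow_le_pow_right (by norm_num) (by omega)
    omega
  have h2 : orderOf g ∣ 2 := by
    rw [hk]
    exact (pow_dvd_pow 2 hk1).trans (by norm_num)
  rw [← _root_.pow_two]
  exact orderOf_dvd_iff_pow_eq_one.1 h2

theorem pow_three {G : Type*} [Group G] (h : ∀ g : G, orderOf g ≤ 3) {g : G} (hg : ∃ k, orderOf g = 3 ^ k) : g ^ 3 = 1 := by
  obtain ⟨k, hk⟩ := hg
  have h1 := h g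
  have hk1 : k ≤ 1 := by
    by_contra hlt
    have : 3 ^ 2 ≤ 3 ^ k := Nat.pow_le_pow_right (by norm_num) (by omega)
    omega
  have h2 : orderOf g ∣ 3 := by
    rw [hk]
    exact (pow_dvd_pow 3 hk1).trans (by norm_num)
  exact orderOf_dvd_iff_pow_eq_one.1 h2

/-- no commuting elements of order 2 and 3 -/
theorem no_comm {G : Type*} [Group G] (h : ∀ g : G, orderOf g ≤ 3) {s t : G} (hs : orderOf s = 2) (ht : orderOf t = 3)
    (hst : s * t = t * s) : False := by
  have h1 : Commute s t := hst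
  have h2 := h1.orderOf_mul_eq_mul_orderOf_of_coprime (by rw [hs, ht]; norm_num)
  have h3 := h (s * t)
  rw [h2, hs, ht] at h3
  omega

/-- inversion -/
theorem inverts {G : Type*} [Group G] [Finite G] (h : ∀ g : G, orderOf g ≤ 3) {N : Subgroup G} [N.Normal]
    (hN : IsPGroup 3 N) {t : G} (ht : orderOf t = 2) {n : G} (hn : n ∈ N) : t * n * t⁻¹ = n⁻¹ := by
  have htt : t * t = 1 := by rw [← _root_.pow_two, ← ht, pow_orderOf_eq_one]
  have hti : t⁻¹ = t := inv_eq_of_mul_eq_one_left htt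
  -- `t ∉ N`
  have htN : t ∉ N := by
    intro htN
    obtain ⟨k, hk⟩ := IsPGroup.iff_orderOf.1 hN ⟨t, htN⟩
    rw [Subgroup.orderOf_mk, ht] at hk
    have h2 : 2 ∣ 3 ^ k := by rw [← hk]
    have := (Nat.prime_dvd_prime_iff_eq Nat.prime_two Nat.prime_three).1 (Nat.prime_two.dvd_of_dvd_pow h2)
    omega
  have h1 : orderOf ((QuotientGroup.mk' N) (t * n)) = 2 := by
    have h2 : (QuotientGroup.mk' N) (t * n) = (QuotientGroup.mk' N) t := by
      rw [map_mul, (show (QuotientGroup.mk' N) n = 1 from (QuotientGroup.eq_one_iff n).2 hn), mul_one]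
    rw [h2]
    apply orderOf_eq_prime
    · rw [← map_pow, _root_.pow_two, htt, map_one]
    · intro h3
      exact htN ((QuotientGroup.eq_one_iff t).1 h3)
  have h2 : 2 ∣ orderOf (t * n) := by
    rw [← h1]
    exact orderOf_map_dvd _ _
  have h3 : orderOf (t * n) = 2 := by
    have h4 := h (t * n)
    have h5 : 0 < orderOf (t * n) := orderOf_pos _
    omega
  have h4 : t * n * (t * n) = 1 := by rw [← _root_.pow_two, ← h3, pow_orderOf_eq_one]
  rw [hti]
  exact eq_inv_of_mul_eq_one_left (by rw [mul_assoc (t * n) t n]; exact h4)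

theorem card_sylow {G : Type*} [Group G] [Finite G] {a b : ℕ} (hc : Nat.card G = 2 ^ a * 3 ^ b) :
    (∀ [Fact (Nat.Prime 2)] (T : Sylow 2 G), Nat.card T = 2 ^ a) ∧ (∀ [Fact (Nat.Prime 3)] (Q : Sylow 3 G), Nat.card Q = 3 ^ b) := by
  constructor
  · intro _ T
    rw [T.card_eq_multiplicity, hc, Nat.factorization_mul (by positivity) (by positivity), Nat.Prime.factorization_pow Nat.prime_two,
      Nat.Prime.factorization_pow Nat.prime_three]
    simp
  · intro _ Q
    rw [Q.card_eq_multiplicity, hc, Nat.factorization_mul (by positivity) (by positivity), Nat.Prime.factorization_pow Nat.prime_two,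
      Nat.Prime.factorization_pow Nat.prime_three]
    simp

theorem caseA {G : Type*} [Group G] [Finite G] (h : ∀ g : G, orderOf g ≤ 3) (h2 : ∃ g : G, orderOf g = 2)
    {a b : ℕ} (hc : Nat.card G = 2 ^ a * 3 ^ b) {N : Subgroup G} [hNn : N.Normal] (hN : IsPGroup 3 N) (hN1 : N ≠ ⊥) :
    ∃ N : Subgroup G, N.Normal ∧ Cfsg.IsElementaryAbelian 3 N ∧ N.index = 2 := by
  haveI : Fact (Nat.Prime 2) := ⟨Nat.prime_two⟩
  haveI : Fact (Nat.Prime 3) := ⟨Nat.prime_three⟩
  obtain ⟨n, hn, hno⟩ := Cfsg.Agent.H2.PUtil.exists_orderOf_prime Nat.prime_three hN1 hN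
  obtain ⟨T⟩ : Nonempty (Sylow 2 G) := inferInstance
  have hTo : ∀ s ∈ (T : Subgroup G), s ≠ 1 → orderOf s = 2 := by
    intro s hs hs1
    apply orderOf_eq_prime _ hs1
    obtain ⟨k, hk⟩ := IsPGroup.iff_orderOf.1 T.isPGroup' ⟨s, hs⟩
    rw [Subgroup.orderOf_mk] at hk
    rw [_root_.pow_two]
    exact pow_two h ⟨k, hk⟩
  -- involutions of T
  have huniq : ∀ s ∈ (T : Subgroup G), ∀ t ∈ (T : Subgroup G), s ≠ 1 → t ≠ 1 → s = t := by
    intro s hs t ht hs1 ht1
    by_contra hst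
    have ho := hTo s hs hs1
    have hot := hTo t ht ht1
    have hss : s * s = 1 := by rw [← _root_.pow_two, ← ho, pow_orderOf_eq_one]
    have hu1 : s * t ≠ 1 := by
      intro h3
      apply hst
      have h4 : s * t = s * s := by rw [h3, hss]
      exact (mul_left_cancel h4).symm
    have hu := hTo (s * t) (mul_mem hs ht) hu1
    apply no_comm h hu hno
    have h5 := inverts h hN hot hn
    have h6 := inverts h hN ho ((N).inv_mem hn)
    have h7 : s * t * n * (s * t)⁻¹ = n := by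
      calc s * t * n * (s * t)⁻¹ = s * (t * n * t⁻¹) * s⁻¹ := by group
        _ = n := by rw [h5, h6, inv_inv]
    rw [mul_inv_eq_iff_eq_mul] at h7
    exact h7
  obtain ⟨g, hg⟩ := h2
  have hgT : ∃ t ∈ (T : Subgroup G), orderOf t = 2 := by
    have h3 : IsPGroup 2 (zpowers g) := IsPGroup.of_card (n := 1) (by rw [Nat.card_zpowers, hg, pow_one])
    obtain ⟨T', hT'⟩ := h3.exists_le_sylow
    obtain ⟨c, hc⟩ := MulAction.exists_smul_eq G T' T
    have h4 : MulAut.conj c g ∈ (c • T' : Sylow 2 G) := by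
      show MulAut.conj c g ∈ MulAut.conj c • (T' : Subgroup G)
      exact smul_mem_pointwise_smul _ _ _ (hT' (mem_zpowers g))
    rw [hc] at h4
    exact ⟨_, h4, by rw [← hg]; exact orderOf_injective (MulAut.conj c).toMonoidHom (MulAut.conj c).injective g⟩
  obtain ⟨t, htT, hto⟩ := hgT
  have ht1 : t ≠ 1 := by
    rintro rfl
    rw [orderOf_one] at hto
    omega
  have hT : Nat.card T = 2 := by
    have h3 : (T : Subgroup G) = zpowers t := by
      apply le_antisymm
      · intro s hs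
        by_cases hs1 : s = 1
        · rw [hs1]; exact one_mem _
        · rw [huniq s hs t htT hs1 ht1]; exact mem_zpowers t
      · exact zpowers_le.2 htT
    rw [h3, Nat.card_zpowers, hto]
  have ha : a = 1 := by
    have h3 := (card_sylow hc).1 T
    rw [hT] at h3
    have : 2 ^ 1 = 2 ^ a := by rw [← h3]; norm_num
    exact (Nat.pow_right_injective le_rfl this).symm
  obtain ⟨M⟩ : Nonempty (Sylow 3 G) := inferInstance
  have hM := (card_sylow hc).2 M
  have hidx : (M : Subgroup G).index = 2 := by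
    have h3 := (M : Subgroup G).card_mul_index
    rw [hM, hc, ha, pow_one, mul_comm 2] at h3
    exact Nat.eq_of_mul_eq_mul_left (by positivity) h3
  haveI : (M : Subgroup G).Normal := normal_of_index_eq_two hidx
  refine ⟨M, inferInstance, ⟨⟨⟨?_⟩⟩, ?_⟩, hidx⟩
  · rintro ⟨x, hx⟩ ⟨y, hy⟩
    apply Subtype.ext
    show x * y = y * x
    have h3 := inverts h M.isPGroup' hto hx
    have h4 := inverts h M.isPGroup' hto hy
    have h5 := inverts h M.isPGroup' hto (mul_mem hx hy)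
    have h6 : t * (x * y) * t⁻¹ = (t * x * t⁻¹) * (t * y * t⁻¹) := by group
    rw [h5, h3, h4] at h6
    have h7 := congrArg (·⁻¹) h6
    simp only [inv_inv, mul_inv_rev] at h7
    exact h7
  · intro x hx
    obtain ⟨k, hk⟩ := IsPGroup.iff_orderOf.1 M.isPGroup' ⟨x, hx⟩
    rw [Subgroup.orderOf_mk] at hk
    exact pow_three h ⟨k, hk⟩

theorem caseB {G : Type*} [Group G] [Finite G] (h : ∀ g : G, orderOf g ≤ 3) (h3 : ∃ g : G, orderOf g = 3)
    {a b : ℕ} (hc : Nat.card G = 2 ^ a * 3 ^ b) {N : Subgroup G} [hNn : N.Normal] (hN : IsPGroup 2 N) (hN1 : N ≠ ⊥) :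
    ∃ N : Subgroup G, N.Normal ∧ Cfsg.IsElementaryAbelian 2 N ∧ N.index = 3 := by
  haveI : Fact (Nat.Prime 2) := ⟨Nat.prime_two⟩
  haveI : Fact (Nat.Prime 3) := ⟨Nat.prime_three⟩
  set R := Cfsg.pCore 2 G with hR
  haveI hRn : R.Normal := Cfsg.Agent.Lib.Cores.pCore_normal 2
  have hRp : IsPGroup 2 R := pCore_isPGroup 2
  have hR1 : R ≠ ⊥ := fun h4 => hN1 (eq_bot_iff.2 (h4 ▸ le_pCore hNn hN))
  obtain ⟨s, hs, hso⟩ := Cfsg.Agent.H2.PUtil.exists_orderOf_prime Nat.prime_two hR1 hRp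
  have hRo : ∀ x ∈ R, x * x = 1 := by
    intro x hx
    obtain ⟨k, hk⟩ := IsPGroup.iff_orderOf.1 hRp ⟨x, hx⟩
    rw [Subgroup.orderOf_mk] at hk
    exact pow_two h ⟨k, hk⟩
  -- 2-elements centralize `R`
  have hcen : ∀ t : G, (∃ k, orderOf t = 2 ^ k) → ∀ n ∈ R, t * n = n * t := by
    rintro t ⟨k, hk⟩ n hn
    have h4 : IsPGroup 2 ↥(zpowers t ⊔ R) :=
      (IsPGroup.of_card (n := k) (by rw [Nat.card_zpowers, hk])).to_sup_of_normal_right' hRp
        (by rw [normalizer_eq_top]; exact le_top)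
    have h5 : t * n ∈ zpowers t ⊔ R := mul_mem (mem_sup_left (mem_zpowers t)) (mem_sup_right hn)
    obtain ⟨l, hl⟩ := IsPGroup.iff_orderOf.1 h4 ⟨t * n, h5⟩
    rw [Subgroup.orderOf_mk] at hl
    have h6 := pow_two h ⟨l, hl⟩
    have h7 := pow_two h ⟨k, hk⟩
    have h8 := hRo n hn
    calc t * n = (t * n)⁻¹ := (inv_eq_of_mul_eq_one_left h6).symm
      _ = n⁻¹ * t⁻¹ := mul_inv_rev _ _
      _ = n * t := by rw [inv_eq_of_mul_eq_one_left h7, inv_eq_of_mul_eq_one_left h8]
  have hCR : centralizer (R : Set G) ≤ R := by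
    apply le_pCore inferInstance
    rw [IsPGroup.iff_orderOf]
    rintro ⟨g, hg⟩
    rw [Subgroup.orderOf_mk]
    have h4 := h g
    have h5 : 0 < orderOf g := orderOf_pos g
    have h6 : orderOf g ≠ 3 := fun h7 => no_comm h hso h7 (mem_centralizer_iff.1 hg s hs)
    have h8 : orderOf g = 1 ∨ orderOf g = 2 := by omega
    rcases h8 with h8 | h8
    · exact ⟨0, by rw [h8, pow_zero]⟩
    · exact ⟨1, by rw [h8, pow_one]⟩
  obtain ⟨T⟩ : Nonempty (Sylow 2 G) := inferInstance
  have hTR : (T : Subgroup G) = R := by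
    apply le_antisymm
    · intro t ht
      apply hCR
      rw [mem_centralizer_iff]
      intro n hn
      obtain ⟨k, hk⟩ := IsPGroup.iff_orderOf.1 T.isPGroup' ⟨t, ht⟩
      rw [Subgroup.orderOf_mk] at hk
      exact (hcen t ⟨k, hk⟩ n hn).symm
    · exact pCore_le_sylow T
  obtain ⟨Q⟩ : Nonempty (Sylow 3 G) := inferInstance
  have hQo : ∀ s ∈ (Q : Subgroup G), s ≠ 1 → orderOf s = 3 := by
    intro s hs hs1
    apply orderOf_eq_prime _ hs1
    obtain ⟨k, hk⟩ := IsPGroup.iff_orderOf.1 Q.isPGroup' ⟨s, hs⟩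
    rw [Subgroup.orderOf_mk] at hk
    exact pow_three h ⟨k, hk⟩
  have hcop : (Nat.card Q).Coprime (Nat.card R) := by
    obtain ⟨k, hk⟩ := Q.isPGroup'.exists_card_eq
    obtain ⟨l, hl⟩ := hRp.exists_card_eq
    rw [hk, hl]
    exact Nat.Coprime.pow _ _ (by norm_num)
  have hfpf : ∀ x ∈ (Q : Subgroup G), x ≠ 1 → R ⊓ centralizer {x} = ⊥ := by
    intro x hx hx1
    rw [eq_bot_iff]
    rintro n ⟨hn, hnx⟩
    by_contra hn1
    have hn1' : n ≠ 1 := fun h4 => hn1 (by rw [h4]; exact one_mem _)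
    have hno : orderOf n = 2 := orderOf_eq_prime (by rw [_root_.pow_two]; exact hRo n hn) hn1'
    exact no_comm h hno (hQo x hx hx1) (mem_centralizer_singleton_iff.1 hnx)
  obtain ⟨g, hg⟩ := h3
  have hgT : ∃ t ∈ (Q : Subgroup G), orderOf t = 3 := by
    have h3 : IsPGroup 3 (zpowers g) := IsPGroup.of_card (n := 1) (by rw [Nat.card_zpowers, hg, pow_one])
    obtain ⟨T', hT'⟩ := h3.exists_le_sylow
    obtain ⟨c, hc⟩ := MulAction.exists_smul_eq G T' Q
    have h4 : MulAut.conj c g ∈ (c • T' : Sylow 3 G) := by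
      show MulAut.conj c g ∈ MulAut.conj c • (T' : Subgroup G)
      exact smul_mem_pointwise_smul _ _ _ (hT' (mem_zpowers g))
    rw [hc] at h4
    exact ⟨_, h4, by rw [← hg]; exact orderOf_injective (MulAut.conj c).toMonoidHom (MulAut.conj c).injective g⟩
  obtain ⟨t, htQ, hto⟩ := hgT
  have hQ : Nat.card Q = 3 := by
    have h3 : (Q : Subgroup G) = zpowers t := by
      apply le_antisymm
      · intro s hs
        by_cases hs1 : s = 1
        · rw [hs1]; exact one_mem _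
        · exact Cfsg.Agent.Lib.FrobC.unique_of_fpf (by rw [normalizer_eq_top]; exact le_top) hR1 hcop hfpf Q.isPGroup' hs htQ
            (hQo s hs hs1) hto
      · exact zpowers_le.2 htQ
    rw [h3, Nat.card_zpowers, hto]
  have hb : b = 1 := by
    have h3 := (card_sylow hc).2 Q
    rw [hQ] at h3
    have : 3 ^ 1 = 3 ^ b := by rw [← h3]; norm_num
    exact (Nat.pow_right_injective (by norm_num) this).symm
  have hRc : Nat.card R = 2 ^ a := by
    rw [← hTR]
    exact (card_sylow hc).1 T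
  have hidx : R.index = 3 := by
    have h3 := R.card_mul_index
    rw [hRc, hc, hb, pow_one] at h3
    exact Nat.eq_of_mul_eq_mul_left (by positivity) h3
  refine ⟨R, hRn, ⟨⟨⟨?_⟩⟩, ?_⟩, hidx⟩
  · rintro ⟨x, hx⟩ ⟨y, hy⟩
    apply Subtype.ext
    show x * y = y * x
    obtain ⟨k, hk⟩ := IsPGroup.iff_orderOf.1 hRp ⟨x, hx⟩
    rw [Subgroup.orderOf_mk] at hk
    exact hcen x ⟨k, hk⟩ y hy
  · intro x hx
    rw [_root_.pow_two]
    exact hRo x hx

/-- A finite group whose set of element orders is exactly {1, 2, 3} has either a normal elementary abelian 3-subgroup of index 2 or a normal elementary abelian 2-subgroup of index 3. -/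
theorem result {G : Type*} [Group G] [Finite G] (h : Set.range (orderOf : G → ℕ) = {k : ℕ | 1 ≤ k ∧ k ≤ 3}) :
    (∃ N : Subgroup G, N.Normal ∧ Cfsg.IsElementaryAbelian 3 N ∧ N.index = 2) ∨
      (∃ N : Subgroup G, N.Normal ∧ Cfsg.IsElementaryAbelian 2 N ∧ N.index = 3) := by
  open Subgroup in
  haveI : Fact (Nat.Prime 2) := ⟨Nat.prime_two⟩
  haveI : Fact (Nat.Prime 3) := ⟨Nat.prime_three⟩
  have h3 : ∀ g : G, orderOf g ≤ 3 := fun g => (h ▸ Set.mem_range_self g : orderOf g ∈ {k : ℕ | 1 ≤ k ∧ k ≤ 3}).2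
  have h2 : ∃ g : G, orderOf g = 2 := by
    have : (2 : ℕ) ∈ Set.range (orderOf : G → ℕ) := by rw [h]; exact ⟨by norm_num, by norm_num⟩
    exact this
  have h2' : ∃ g : G, orderOf g = 3 := by
    have : (3 : ℕ) ∈ Set.range (orderOf : G → ℕ) := by rw [h]; exact ⟨by norm_num, by norm_num⟩
    exact this
  obtain ⟨a, b, hc⟩ := Cfsg.Agent.H2.FrobType.eq_two_pow_three_pow (n := Nat.card G) Nat.card_pos.ne' (by
    intro q hq hqd
    haveI : Fact q.Prime := ⟨hq⟩
    obtain ⟨x, hx⟩ := exists_prime_orderOf_dvd_card' q hqd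
    have := h3 x
    omega)
  have hsolv : Group.IsSolvable G :=
    Cfsg.Agent.Lib.CharBurnside.burnside_paqb _ G 2 3 a b Nat.prime_two Nat.prime_three hc rfl
  haveI : Nontrivial G := by
    obtain ⟨g, hg⟩ := h2
    refine ⟨⟨g, 1, ?_⟩⟩
    rintro rfl
    rw [orderOf_one] at hg
    omega
  obtain ⟨p, hp, N, hNn, hNp, hN1⟩ := Cfsg.Agent.Lib.SchurZas.exists_normal_pgroup_of_solvable hsolv
  obtain ⟨x, hx, hxo⟩ := Cfsg.Agent.H2.PUtil.exists_orderOf_prime hp hN1 hNp
  have hp3 : p ≤ 3 := by rw [← hxo]; exact h3 x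
  have hp2 := hp.two_le
  interval_cases p
  · exact Or.inr (caseB h3 h2' hc hNp hN1)
  · exact Or.inl (caseA h3 h2 hc hNp hN1)

end Cfsg.Agent.S4005
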