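import Cfsg.Statements.S4200
import Mathlib
import Cfsg.Agent.H3.Count

set_option autoImplicit false
open Cfsg

namespace Cfsg.Agent.S4200

open Subgroup Cfsg.Agent.H3.Count Cfsg.Agent.Lib.ClassSizes Cfsg.Agent.Lib.Basic

theorem card_cent_le {X : Type*} [Group X] [Finite X] (Y : Subgroup X) (x : X) :
    Nat.card {z : X // Commute x z} ≤ Y.index * Nat.card {y : Y // Commute x (y : X)} := by
  classical
  have h := card_le_mul_of_fiber_le (A := {z : X // Commute x z}) (B := X ⧸ Y)
    (fun z => (z.1 : X ⧸ Y)) (Nat.card {y : Y // Commute x (y : X)}) (fun g => by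
      refine le_trans ?_ (card_coset_commute_le Y x g)
      refine Nat.card_le_card_of_injective (fun b => ⟨b.1.1, b.2, b.1.2⟩) ?_
      intro b c hbc
      apply Subtype.ext; apply Subtype.ext
      exact congrArg (fun z : {b : X // (b : X ⧸ Y) = g ∧ Commute x b} => z.1) hbc)
  rwa [← Subgroup.index_eq_card] at h

theorem comm_pairs_eq {X : Type*} [Group X] [Fintype X] :
    ∑ x : X, Nat.card {z : X // Commute x z} = Nat.card (ConjClasses X) * Nat.card X := by
  classical
  rw [← card_comm_eq_card_conjClasses_mul_card, ← Nat.card_sigma]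
  exact Nat.card_congr
    { toFun := fun z => ⟨(z.1, z.2.1), z.2.2⟩
      invFun := fun z => ⟨z.1.1, ⟨z.1.2, z.2⟩⟩
      left_inv := fun z => rfl
      right_inv := fun z => rfl }

theorem comm_pairs_eq' {X : Type*} [Group X] (Y : Subgroup X) [Fintype Y] :
    ∑ x : Y, Nat.card {z : Y // Commute (x : X) (z : X)} = Nat.card (ConjClasses Y) * Nat.card Y := by
  rw [← comm_pairs_eq]
  refine Finset.sum_congr rfl fun x _ => Nat.card_congr (Equiv.subtypeEquivRight fun z => ?_)
  rw [commute_iff_eq, commute_iff_eq, Subtype.ext_iff]; rfl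

theorem swap_sum {X : Type*} [Group X] [Fintype X] (Y : Subgroup X) [Fintype Y] :
    ∑ x : X, Nat.card {y : Y // Commute x (y : X)} = ∑ y : Y, Nat.card {x : X // Commute (y : X) x} := by
  classical
  rw [← Nat.card_sigma, ← Nat.card_sigma]
  exact Nat.card_congr
    { toFun := fun z => ⟨z.2.1, ⟨z.1, z.2.2.symm⟩⟩
      invFun := fun z => ⟨z.2.1, ⟨z.1, z.2.2.symm⟩⟩
      left_inv := fun z => rfl
      right_inv := fun z => rfl }

/-- Let Y be a subgroup of the finite group X, of index m. Then the numbers of conjugacy classes satisfy k(Y) ≤ m·k(X) and k(X) ≤ m·k(Y), and the second inequality is strict unless Y is normal in X. -/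
theorem result {X : Type*} [Group X] [Finite X] (Y : Subgroup X) : Nat.card (ConjClasses Y) ≤ Y.index * Nat.card (ConjClasses X) ∧ Nat.card (ConjClasses X) ≤ Y.index * Nat.card (ConjClasses Y) ∧ (¬ Y.Normal → Nat.card (ConjClasses X) < Y.index * Nat.card (ConjClasses Y)) := by
  classical
  haveI := Fintype.ofFinite X
  have hXY : Nat.card X = Y.index * Nat.card Y := by rw [← Y.card_mul_index, mul_comm]
  have hpos : 0 < Nat.card Y := Nat.card_pos
  have hi : 0 < Y.index := Nat.pos_of_ne_zero index_ne_zero_of_finite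
  refine ⟨?_, ?_, ?_⟩
  · have h1 : Nat.card (ConjClasses Y) * Nat.card Y ≤ Nat.card (ConjClasses X) * Nat.card X := by
      rw [← card_comm_eq_card_conjClasses_mul_card, ← card_comm_eq_card_conjClasses_mul_card]
      refine Nat.card_le_card_of_injective (fun z => ⟨((z.1.1 : X), (z.1.2 : X)), ?_⟩) ?_
      · exact congrArg Subtype.val z.2.eq
      · intro a b hab
        have h2 := congrArg (fun z : {p : X × X // Commute p.1 p.2} => z.1.1) hab
        have h3 := congrArg (fun z : {p : X × X // Commute p.1 p.2} => z.1.2) hab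
        exact Subtype.ext (Prod.ext (Subtype.ext h2) (Subtype.ext h3))
    rw [hXY] at h1
    have h2 : Nat.card (ConjClasses Y) * Nat.card Y ≤ (Y.index * Nat.card (ConjClasses X)) * Nat.card Y := by
      calc _ ≤ _ := h1
        _ = _ := by ring
    exact Nat.le_of_mul_le_mul_right h2 hpos
  · have h1 : Nat.card (ConjClasses X) * Nat.card X ≤ Y.index * (Y.index * (Nat.card (ConjClasses Y) * Nat.card Y)) := by
      rw [← comm_pairs_eq, ← comm_pairs_eq']
      calc ∑ x : X, Nat.card {z : X // Commute x z} ≤ ∑ x : X, Y.index * Nat.card {y : Y // Commute x (y : X)} :=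
            Finset.sum_le_sum fun x _ => card_cent_le Y x
        _ = Y.index * ∑ y : Y, Nat.card {x : X // Commute (y : X) x} := by rw [← Finset.mul_sum, swap_sum]
        _ ≤ Y.index * ∑ y : Y, Y.index * Nat.card {z : Y // Commute (y : X) (z : X)} :=
            Nat.mul_le_mul le_rfl (Finset.sum_le_sum fun y _ => card_cent_le Y y)
        _ = _ := by rw [← Finset.mul_sum]
    rw [hXY] at h1
    have h2 : Nat.card (ConjClasses X) * (Y.index * Nat.card Y) ≤ (Y.index * Nat.card (ConjClasses Y)) * (Y.index * Nat.card Y) := by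
      calc _ ≤ _ := h1
        _ = _ := by ring
    exact Nat.le_of_mul_le_mul_right h2 (Nat.mul_pos hi hpos)
  · intro hn
    -- some `y ∈ Y` is moved outside `Y`
    obtain ⟨y, hy, g, hg⟩ : ∃ y ∈ Y, ∃ g : X, g * y * g⁻¹ ∉ Y := by
      by_contra hcon
      push Not at hcon
      exact hn ⟨fun y hy g => hcon y hy g⟩
    have hstrict : Nat.card {z : X // Commute y z} < Y.index * Nat.card {z : Y // Commute y (z : X)} := by
      refine lt_of_le_of_ne (card_cent_le Y y) fun heq => ?_
      -- then every coset contains an element commuting with `y`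
      have hcos : ∀ c : X ⧸ Y, Nonempty {b : X // (b : X ⧸ Y) = c ∧ Commute y b} := by
        intro c
        by_contra hc
        rw [not_nonempty_iff] at hc
        haveI := Fintype.ofFinite (X ⧸ Y)
        have h1 := card_eq_sum_fiber (A := {z : X // Commute y z}) (B := X ⧸ Y) (fun z => (z.1 : X ⧸ Y))
        have h2 : ∑ d : X ⧸ Y, Nat.card {a : {z : X // Commute y z} // (a.1 : X ⧸ Y) = d} <
            ∑ _d : X ⧸ Y, Nat.card {z : Y // Commute y (z : X)} := by
          refine Finset.sum_lt_sum (fun d _ => ?_) ⟨c, Finset.mem_univ _, ?_⟩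
          · refine le_trans ?_ (card_coset_commute_le Y y d)
            refine Nat.card_le_card_of_injective (fun b => ⟨b.1.1, b.2, b.1.2⟩) ?_
            intro b c hbc
            apply Subtype.ext; apply Subtype.ext
            exact congrArg (fun z : {b : X // (b : X ⧸ Y) = d ∧ Commute y b} => z.1) hbc
          · haveI : IsEmpty {a : {z : X // Commute y z} // (a.1 : X ⧸ Y) = c} :=
              ⟨fun a => hc.false ⟨a.1.1, a.2, a.1.2⟩⟩
            rw [Nat.card_of_isEmpty]
            haveI : Nonempty {z : Y // Commute y (z : X)} := ⟨⟨1, Commute.one_right _⟩⟩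
            exact Nat.card_pos
        rw [← h1, Finset.sum_const, Finset.card_univ, ← Nat.card_eq_fintype_card, ← Subgroup.index_eq_card,
          smul_eq_mul] at h2
        exact h2.ne heq
      obtain ⟨b, hb1, hb2⟩ := hcos ((g⁻¹ : X) : X ⧸ Y)
      apply hg
      have h3 : b⁻¹ * g⁻¹ ∈ Y := (mk_eq_mk_iff).1 hb1
      -- g = (b * z)⁻¹, g y g⁻¹ = z⁻¹ b⁻¹ y b z
      have h4 : g * y * g⁻¹ = (b⁻¹ * g⁻¹)⁻¹ * y * (b⁻¹ * g⁻¹) := by
        have e : b⁻¹ * y * b = y := by rw [mul_assoc, hb2.eq]; group
        calc g * y * g⁻¹ = g * b * (b⁻¹ * y * b) * b⁻¹ * g⁻¹ := by group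
          _ = _ := by rw [e]; group
      rw [h4]
      exact Y.mul_mem (Y.mul_mem (Y.inv_mem h3) hy) h3
    have h1 : Nat.card (ConjClasses X) * Nat.card X < Y.index * (Y.index * (Nat.card (ConjClasses Y) * Nat.card Y)) := by
      rw [← comm_pairs_eq, ← comm_pairs_eq']
      calc ∑ x : X, Nat.card {z : X // Commute x z} ≤ ∑ x : X, Y.index * Nat.card {y : Y // Commute x (y : X)} :=
            Finset.sum_le_sum fun x _ => card_cent_le Y x
        _ = Y.index * ∑ y : Y, Nat.card {x : X // Commute (y : X) x} := by rw [← Finset.mul_sum, swap_sum]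
        _ < Y.index * ∑ y : Y, Y.index * Nat.card {z : Y // Commute (y : X) (z : X)} := by
            refine (Nat.mul_lt_mul_left hi).2 ?_
            exact Finset.sum_lt_sum (fun y _ => card_cent_le Y y) ⟨⟨y, hy⟩, Finset.mem_univ _, hstrict⟩
        _ = _ := by rw [← Finset.mul_sum]
    rw [hXY] at h1
    have h2 : Nat.card (ConjClasses X) * (Y.index * Nat.card Y) < (Y.index * Nat.card (ConjClasses Y)) * (Y.index * Nat.card Y) := by
      calc _ < _ := h1
        _ = _ := by ring
    exact lt_of_mul_lt_mul_right h2 (Nat.zero_le _)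

end Cfsg.Agent.S4200
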