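import Cfsg.Statements.S4201
import Mathlib
import Cfsg.Agent.H3.Count

set_option autoImplicit false
open Cfsg

namespace Cfsg.Agent.S4201

open Subgroup Cfsg.Agent.H3.Count Cfsg.Agent.Lib.ClassSizes Cfsg.Agent.Lib.Basic

/-- If N is a normal subgroup of the finite group X then k(X) ≤ k(N)·k(X ⧸ N), where k denotes the number of conjugacy classes. -/
theorem result {X : Type*} [Group X] [Finite X] (N : Subgroup X) [N.Normal] : Nat.card (ConjClasses X) ≤ Nat.card (ConjClasses N) * Nat.card (ConjClasses (X ⧸ N)) := by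
  classical
  haveI := Fintype.ofFinite X
  have h1 : Nat.card (ConjClasses X) * Nat.card X ≤
      (Nat.card (ConjClasses (X ⧸ N)) * Nat.card (X ⧸ N)) * (Nat.card (ConjClasses N) * Nat.card N) := by
    rw [← card_comm_eq_card_conjClasses_mul_card, ← card_comm_eq_card_conjClasses_mul_card (X ⧸ N)]
    let F : {p : X × X // Commute p.1 p.2} → {p : (X ⧸ N) × (X ⧸ N) // Commute p.1 p.2} :=
      fun z => ⟨((z.1.1 : X ⧸ N), (z.1.2 : X ⧸ N)), congrArg (fun g : X => (g : X ⧸ N)) z.2.eq⟩
    refine card_le_mul_of_fiber_le F _ ?_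
    · rintro ⟨⟨a, b⟩, hab⟩
      have h2 : Nat.card {z : {p : X × X // Commute p.1 p.2} // F z = ⟨(a, b), hab⟩} ≤
          ∑ x : {x : X | (x : X ⧸ N) = a}, Nat.card {y : X // (y : X ⧸ N) = b ∧ Commute (x : X) y} := by
        rw [← Nat.card_sigma]
        refine Nat.card_le_card_of_injective (fun z => ⟨⟨z.1.1.1, congrArg (fun p : {p : (X ⧸ N) × (X ⧸ N) // Commute p.1 p.2} => p.1.1) z.2⟩,
          ⟨z.1.1.2, congrArg (fun p : {p : (X ⧸ N) × (X ⧸ N) // Commute p.1 p.2} => p.1.2) z.2, z.1.2⟩⟩) ?_
        intro z w hzw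
        have e1 := congrArg (fun s : (Σ x : {x : X | (x : X ⧸ N) = a}, {y : X // (y : X ⧸ N) = b ∧ Commute (x : X) y}) => (s.1 : X)) hzw
        have e2 := congrArg (fun s : (Σ x : {x : X | (x : X ⧸ N) = a}, {y : X // (y : X ⧸ N) = b ∧ Commute (x : X) y}) => (s.2.1 : X)) hzw
        exact Subtype.ext (Subtype.ext (Prod.ext e1 e2))
      refine h2.trans ?_
      calc ∑ x : {x : X | (x : X ⧸ N) = a}, Nat.card {y : X // (y : X ⧸ N) = b ∧ Commute (x : X) y}
          ≤ ∑ x : {x : X | (x : X ⧸ N) = a}, Nat.card {n : N // Commute (x : X) (n : X)} :=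
            Finset.sum_le_sum fun x _ => card_coset_commute_le N x b
        _ = ∑ n : N, Nat.card {x : {x : X | (x : X ⧸ N) = a} // Commute (n : X) x} :=
            card_commute_pairs_eq_sum N _
        _ ≤ ∑ n : N, Nat.card {m : N // Commute (n : X) (m : X)} := by
            refine Finset.sum_le_sum fun n _ => ?_
            refine le_trans ?_ (card_coset_commute_le N n a)
            refine Nat.card_le_card_of_injective (fun b => ⟨b.1.1, b.1.2, b.2⟩) ?_
            intro b c hbc
            apply Subtype.ext; apply Subtype.ext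
            exact congrArg (fun z : {b : X // (b : X ⧸ N) = a ∧ Commute (n : X) b} => z.1) hbc
        _ = Nat.card (ConjClasses N) * Nat.card N := by
            rw [← card_comm_eq_card_conjClasses_mul_card, ← Nat.card_sigma]
            refine Nat.card_congr
              { toFun := fun z => ⟨(z.1, z.2.1), Subtype.ext z.2.2.eq⟩
                invFun := fun z => ⟨z.1.1, ⟨z.1.2, congrArg Subtype.val z.2.eq⟩⟩
                left_inv := fun z => rfl
                right_inv := fun z => rfl }
  have h3 : Nat.card X = Nat.card (X ⧸ N) * Nat.card N := Subgroup.card_eq_card_quotient_mul_card_subgroup N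
  have hpos : 0 < Nat.card X := Nat.card_pos
  have h4 : Nat.card (ConjClasses X) * Nat.card X ≤ (Nat.card (ConjClasses N) * Nat.card (ConjClasses (X ⧸ N))) * Nat.card X := by
    calc _ ≤ _ := h1
      _ = (Nat.card (ConjClasses N) * Nat.card (ConjClasses (X ⧸ N))) * (Nat.card (X ⧸ N) * Nat.card N) := by ring
      _ = _ := by rw [h3]
  exact Nat.le_of_mul_le_mul_right h4 hpos

end Cfsg.Agent.S4201
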