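import Cfsg.Statements.S4203
import Mathlib
import Cfsg.Agent.Lib.CharBurnside
import Cfsg.Agent.Lib.Basic

set_option autoImplicit false
open Cfsg

namespace Cfsg.Agent.S4203

open Subgroup

theorem aux.{v} (n : ℕ) : ∀ (G : Type v) [Group G] [Finite G], Nat.card G = n →
    (∀ M : Subgroup G, IsCoatom M → ∃ p : ℕ, p.Prime ∧ (M.index = p ∨ M.index = p ^ 2)) →
    Group.IsSolvable G := by
  induction n using Nat.strong_induction_on with
  | _ n ih =>
  intro G _ _ hn h
  by_cases htriv : Nat.card G = 1
  · haveI := (Nat.card_eq_one_iff_unique.1 htriv).1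
    infer_instance
  have hne : (Nat.card G).primeFactors.Nonempty := by
    rw [Nat.nonempty_primeFactors]
    have : 0 < Nat.card G := Nat.card_pos
    omega
  obtain ⟨p, hpm, hmax⟩ := (Nat.card G).primeFactors.exists_max_image id hne
  have hp : p.Prime := Nat.prime_of_mem_primeFactors hpm
  have hpd : p ∣ Nat.card G := Nat.dvd_of_mem_primeFactors hpm
  have hmax' : ∀ q : ℕ, q.Prime → q ∣ Nat.card G → q ≤ p := fun q hq hqd =>
    hmax q (Nat.mem_primeFactors.2 ⟨hq, hqd, Nat.card_pos.ne'⟩)
  haveI : Fact p.Prime := ⟨hp⟩
  obtain ⟨P⟩ := (inferInstance : Nonempty (Sylow p G))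
  by_cases hPn : normalizer ((P : Subgroup G) : Set G) = ⊤
  · haveI hPn' : (P : Subgroup G).Normal := normalizer_eq_top_iff.1 hPn
    have hPb : (P : Subgroup G) ≠ ⊥ := by
      intro hb
      have h1 := P.dvd_card_of_dvd_card hpd
      rw [hb, Subgroup.card_bot] at h1
      exact hp.one_lt.ne' (Nat.dvd_one.1 h1)
    have h1 : Group.IsSolvable (G ⧸ (P : Subgroup G)) := by
      refine ih (Nat.card (G ⧸ (P : Subgroup G))) ?_ _ rfl ?_
      · rw [← hn]; exact Cfsg.Agent.Lib.Basic.card_quotient_lt hPb
      · intro M hM
        have h2 := isCoatom_comap_of_surjective (QuotientGroup.mk'_surjective (P : Subgroup G)) hM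
        obtain ⟨q, hq, hq'⟩ := h _ h2
        rw [Subgroup.index_comap_of_surjective _ (QuotientGroup.mk'_surjective (P : Subgroup G))] at hq'
        exact ⟨q, hq, hq'⟩
    have h2 : Group.IsSolvable (P : Subgroup G) := by
      haveI := P.2.isNilpotent
      infer_instance
    exact (Group.isSolvable_iff_subgroup_quotient (P : Subgroup G)).2 ⟨h2, h1⟩
  · obtain ⟨M, hM, hPM⟩ := Cfsg.Agent.Lib.Basic.exists_le_coatom hPn
    have hPM' : (P : Subgroup G) ≤ M := le_normalizer.trans hPM
    have hmod : M.index ≡ 1 [MOD p] := by
      have h1 : Nat.card (Sylow p G) ≡ 1 [MOD p] := card_sylow_modEq_one p G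
      have h2 : Nat.card (Sylow p M) ≡ 1 [MOD p] := card_sylow_modEq_one p M
      have h3 : Nat.card (Sylow p G) = Nat.card (Sylow p M) * M.index := by
        rw [P.card_eq_index_normalizer, (P.subtype hPM').card_eq_index_normalizer]
        change (normalizer ((P : Subgroup G) : Set G)).index =
          (normalizer (((P : Subgroup G).subgroupOf M : Subgroup M) : Set M)).index * M.index
        rw [← subgroupOf_normalizer_eq hPM']
        exact (relIndex_mul_index hPM).symm
      rw [h3] at h1
      have h4 : Nat.card (Sylow p M) * M.index ≡ 1 * M.index [MOD p] := h2.mul_right _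
      rw [one_mul] at h4
      exact h4.symm.trans h1
    obtain ⟨q, hq, hqi⟩ := h M hM
    have hqd : q ∣ Nat.card G := by
      have h1 : M.index ∣ Nat.card G := M.index_dvd_card
      rcases hqi with h2 | h2
      · rw [← h2]; exact h1
      · exact (dvd_pow_self q two_ne_zero).trans (h2 ▸ h1)
    have hqp := hmax' q hq hqd
    have hq2 := hq.two_le
    rcases hqi with h2 | h2
    · exfalso
      rw [h2] at hmod
      have h3 : p ∣ q - 1 := (Nat.modEq_iff_dvd' (by omega)).1 hmod.symm
      have h4 := Nat.le_of_dvd (by omega) h3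
      have h5 : q - 1 < p := by omega
      omega
    · rw [h2] at hmod
      have h3 : p ∣ q ^ 2 - 1 := (Nat.modEq_iff_dvd' (by nlinarith)).1 hmod.symm
      have h4 : q ^ 2 - 1 = (q + 1) * (q - 1) := by
        have := Nat.sq_sub_sq q 1
        simpa using this
      rw [h4] at h3
      rcases (hp.dvd_mul).1 h3 with h5 | h5
      · have h6 : q + 1 = p := by
          obtain ⟨k, hk⟩ := h5
          have : k ≠ 0 := by rintro rfl; omega
          have : k < 2 := by
            by_contra hk2
            have : p * 2 ≤ p * k := Nat.mul_le_mul_left p (by omega)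
            omega
          have hk1 : k = 1 := by omega
          subst hk1; omega
        -- q = 2, p = 3
        have h7 : q = 2 := by
          rcases hq.eq_two_or_odd with h7 | h7
          · exact h7
          · exfalso
            rcases hp.eq_two_or_odd with h8 | h8 <;> omega
        subst h7
        have hp3 : p = 3 := by omega
        subst hp3
        have hcard0 : Nat.card G ≠ 0 := Nat.card_pos.ne'
        obtain ⟨a, m, hm, ham⟩ := Nat.exists_eq_pow_mul_and_not_dvd hcard0 2 (by norm_num)
        have hm0 : m ≠ 0 := by rintro rfl; exact hm (dvd_zero _)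
        obtain ⟨b, m', hm', hbm⟩ := Nat.exists_eq_pow_mul_and_not_dvd hm0 3 (by norm_num)
        have hm1 : m' = 1 := by
          by_contra hne1
          obtain ⟨r, hr, hrm⟩ := Nat.exists_prime_and_dvd hne1
          have hrG : r ∣ Nat.card G := by
            rw [ham, hbm]
            exact Dvd.dvd.mul_left (Dvd.dvd.mul_left hrm _) _
          have hr3 := hmax' r hr hrG
          have hr2 := hr.two_le
          interval_cases r
          · exact hm (by rw [hbm]; exact Dvd.dvd.mul_left hrm _)
          · exact hm' hrm
        rw [hm1, mul_one] at hbm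
        rw [hbm] at ham
        exact Cfsg.Agent.Lib.CharBurnside.burnside_paqb (Nat.card G) G 2 3 a b Nat.prime_two Nat.prime_three ham rfl
      · exfalso
        have h6 := Nat.le_of_dvd (by omega) h5
        omega

/-- A finite group in which every maximal subgroup has index a prime or the square of a prime is solvable. -/
theorem result {G : Type*} [Group G] [Finite G] (h : ∀ M : Subgroup G, IsCoatom M → ∃ p : ℕ, p.Prime ∧ (M.index = p ∨ M.index = p ^ 2)) : Group.IsSolvable G := by
  exact aux (Nat.card G) G rfl h

end Cfsg.Agent.S4203
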