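import Cfsg.Statements.S4204
import Mathlib
import Cfsg.Agent.H3.Comm

set_option autoImplicit false
open Cfsg

namespace Cfsg.Agent.S4204

open Cfsg.Agent.H3.Comm

/-- shifted lower central series, starting at `⊤`. -/
def ser {G : Type*} [Group G] (H : Subgroup G) : ℕ → Subgroup G
  | 0 => ⊤
  | n + 1 => H.lowerCentralSeries n

theorem ser_normal {G : Type*} [Group G] (H : Subgroup G) [hH : H.Normal] (n : ℕ) :
    (ser H n).Normal := by
  cases n with
  | zero => exact (inferInstance : (⊤ : Subgroup G).Normal)
  | succ n =>
    change (H.lowerCentralSeries n).Normal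
    induction n with
    | zero => exact hH
    | succ n ih =>
      rw [Subgroup.lowerCentralSeries_succ]
      haveI := ih
      exact Subgroup.commutator_normal _ _

theorem ser_comm {G : Type*} [Group G] (H : Subgroup G) [hH : H.Normal] (n : ℕ) :
    ⁅ser H n, H⁆ ≤ ser H (n + 1) := by
  cases n with
  | zero => exact Subgroup.commutator_le_right _ _
  | succ n => exact le_rfl

/-- If `H` and `K` are normal subgroups of a finite group with `H` nilpotent of class at most `c` and `K` nilpotent of class at most `d` (the terms with index `c`, respectively `d`, of their lower central series are trivial, indices starting at `0`), then `HK` is nilpotent of class at most `c + d`. -/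
theorem result {G : Type*} [Group G] [Finite G] (H K : Subgroup G) [H.Normal] [K.Normal] (c d : ℕ) (hH : H.lowerCentralSeries c = ⊥) (hK : K.lowerCentralSeries d = ⊥) : (H ⊔ K).lowerCentralSeries (c + d) = ⊥ := by
  have hHn := ser_normal H
  have hKn := ser_normal K
  -- T n = ⨆ i j with i + j = n
  let T : ℕ → Subgroup G := fun n => ⨆ q : {q : ℕ × ℕ // q.1 + q.2 = n}, ser H q.1.1 ⊓ ser K q.1.2
  have hTn : ∀ n, (T n).Normal := by
    intro n
    haveI : ∀ q : {q : ℕ × ℕ // q.1 + q.2 = n}, (ser H q.1.1 ⊓ ser K q.1.2).Normal := fun q => by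
      haveI := hHn q.1.1
      haveI := hKn q.1.2
      infer_instance
    exact Subgroup.iSup_normal _
  have hle : ∀ n i j, i + j = n → ser H i ⊓ ser K j ≤ T n := fun n i j h =>
    le_iSup (fun q : {q : ℕ × ℕ // q.1 + q.2 = n} => ser H q.1.1 ⊓ ser K q.1.2) ⟨(i, j), h⟩
  have key : ∀ n, (H ⊔ K).lowerCentralSeries n ≤ T (n + 1) := by
    intro n
    induction n with
    | zero =>
      refine sup_le ?_ ?_
      · refine le_trans ?_ (hle 1 1 0 rfl)
        exact le_inf le_rfl le_top
      · refine le_trans ?_ (hle 1 0 1 rfl)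
        exact le_inf le_top le_rfl
    | succ n ih =>
      rw [Subgroup.lowerCentralSeries_succ]
      refine (Subgroup.commutator_mono ih le_rfl).trans ?_
      haveI := hTn (n + 1 + 1)
      refine iSup_commutator_le fun q => ?_
      obtain ⟨⟨i, j⟩, hij⟩ := q
      change ⁅ser H i ⊓ ser K j, H ⊔ K⁆ ≤ _
      haveI := hHn i
      haveI := hKn j
      refine commutator_sup_le ?_ ?_
      · refine le_trans (le_inf ?_ ?_) (hle _ (i + 1) j (by simp only at hij; omega))
        · exact (Subgroup.commutator_mono inf_le_left le_rfl).trans (ser_comm H i)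
        · exact (Subgroup.commutator_mono inf_le_right le_rfl).trans (Subgroup.commutator_le_left _ _)
      · refine le_trans (le_inf ?_ ?_) (hle _ i (j + 1) (by simp only at hij; omega))
        · exact (Subgroup.commutator_mono inf_le_left le_rfl).trans (Subgroup.commutator_le_left _ _)
        · exact (Subgroup.commutator_mono inf_le_right le_rfl).trans (ser_comm K j)
  rw [eq_bot_iff]
  refine (key (c + d)).trans (iSup_le fun q => ?_)
  obtain ⟨⟨i, j⟩, hij⟩ := q
  change ser H i ⊓ ser K j ≤ ⊥
  simp only at hij
  rcases Nat.lt_or_ge c i with h | h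
  · obtain ⟨k, rfl⟩ : ∃ k, i = k + 1 := ⟨i - 1, by omega⟩
    refine inf_le_left.trans ?_
    change H.lowerCentralSeries k ≤ ⊥
    rw [← hH]
    exact H.lowerCentralSeries_antitone (by omega)
  · obtain ⟨k, rfl⟩ : ∃ k, j = k + 1 := ⟨j - 1, by omega⟩
    refine inf_le_right.trans ?_
    change K.lowerCentralSeries k ≤ ⊥
    rw [← hK]
    exact K.lowerCentralSeries_antitone (by omega)

end Cfsg.Agent.S4204
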