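import Cfsg.Statements.S4205
import Mathlib

set_option autoImplicit false
open Cfsg

namespace Cfsg.Agent.S4205

open scoped commutatorElement

/-- In a finite group whose upper central series reaches the whole group at step `c` (nilpotent of class at most `c`), starting from any subgroup and taking normalizers `c` times reaches the whole group. -/
theorem result {G : Type*} [Group G] [Finite G] (c : ℕ) (hG : Subgroup.upperCentralSeries G c = ⊤) (H : Subgroup G) : (fun K : Subgroup G => Subgroup.normalizer (K : Set G))^[c] H = ⊤ := by
  have key : ∀ i, Subgroup.upperCentralSeries G i ≤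
      (fun K : Subgroup G => Subgroup.normalizer (K : Set G))^[i] H := by
    intro i
    induction i with
    | zero =>
      rw [Subgroup.upperCentralSeries_zero]
      exact bot_le
    | succ i ih =>
      rw [Function.iterate_succ_apply']
      set M := (fun K : Subgroup G => Subgroup.normalizer (K : Set G))^[i] H with hM
      intro x hx
      rw [Subgroup.mem_upperCentralSeries_succ_iff] at hx
      have h1 : ∀ y : G, x * y * x⁻¹ * y⁻¹ ∈ M := fun y => ih (hx y)
      change x ∈ Subgroup.normalizer (M : Set G)
      rw [Subgroup.mem_normalizer_iff]
      intro k
      constructor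
      · intro hk
        have := M.mul_mem (h1 k) hk
        have e : x * k * x⁻¹ * k⁻¹ * k = x * k * x⁻¹ := by group
        rwa [e] at this
      · intro hk
        have h2 := M.mul_mem (M.inv_mem (h1 k)) hk
        have e : (x * k * x⁻¹ * k⁻¹)⁻¹ * (x * k * x⁻¹) = k := by group
        rwa [e] at h2
  rw [eq_top_iff, ← hG]
  exact key c

end Cfsg.Agent.S4205
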