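import Cfsg.Statements.S4207
import Mathlib
import Cfsg.Agent.H3.Burn

set_option autoImplicit false
open Cfsg

namespace Cfsg.Agent.S4207

open Cfsg.Agent.H3.Burn

/-- Let `P` be a group of order `p^n` whose Frattini subgroup has index `p^r`. Then any group of automorphisms of `P` each of which induces the identity on the Frattini quotient has order dividing `p^(r(n-r))`; in particular it is a `p`-group. -/
theorem result {P : Type*} [Group P] [Finite P] {p n r : ℕ} [Fact p.Prime] (hP : Nat.card P = p ^ n) (hr : (frattini P).index = p ^ r) (A : Subgroup (MulAut P)) (hA : ∀ α ∈ A, ∀ x : P, α x * x⁻¹ ∈ frattini P) : Nat.card A ∣ p ^ (r * (n - r)) := by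
  have hPp : IsPGroup p P := IsPGroup.of_card hP
  have hfin := finrank_V hPp hr
  let b := Module.finBasisOfFinrankEq (ZMod p) (V hPp) hfin
  let T : Set (Fin r → P) := {t | img hPp t = b}
  have h1 : Nat.card A ∣ Nat.card T := by
    refine card_dvd_of_tuples A T ?_ ?_
    · intro t ht
      apply closure_eq_top_of_span hPp
      have ht' : img hPp t = b := ht
      rw [ht']
      exact b.span_eq
    · intro a ha t ht
      have ht' : img hPp t = b := ht
      change img hPp _ = b
      rw [← ht']
      funext i
      change q hPp (a (t i)) = q hPp (t i)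
      symm
      rw [q_eq_iff]
      have h2 := hA a ha (t i)
      have hn : (frattini P).Normal := inferInstance
      have h3 := hn.conj_mem _ h2 (t i)⁻¹
      have e : (t i)⁻¹ * (a (t i) * (t i)⁻¹) * (t i)⁻¹⁻¹ = (t i)⁻¹ * a (t i) := by group
      rwa [e] at h3
  have h2 : Nat.card T = p ^ (r * (n - r)) := by
    have h3 := card_lifts hPp (b : Fin r → V hPp)
    change Nat.card T = _ at h3
    rw [h3]
    have h4 := (frattini P).card_mul_index
    rw [hr, hP] at h4
    have hpos : 0 < p := (Fact.out : p.Prime).pos
    have hrn : r ≤ n := by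
      have : p ^ r ∣ p ^ n := Dvd.intro_left _ h4
      exact (Nat.pow_dvd_pow_iff_le_right (Fact.out : p.Prime).one_lt).1 this
    have h5 : Nat.card (frattini P) = p ^ (n - r) := by
      apply Nat.eq_of_mul_eq_mul_right (pow_pos hpos r)
      rw [h4, ← pow_add]
      congr 1; omega
    rw [h5, ← pow_mul, mul_comm]
  rwa [h2] at h1

end Cfsg.Agent.S4207
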