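import Cfsg.Statements.S4208
import Mathlib
import Cfsg.Agent.H3.Burn

set_option autoImplicit false
open Cfsg

namespace Cfsg.Agent.S4208

open Cfsg.Agent.H3.Burn Cfsg.Agent.H3.Count

/-- Let `P` be a group of order `p^n` whose Frattini subgroup has index `p^r`. Then the order of the automorphism group of `P` divides `p^(r(n-r)) · (p^r - 1)(p^r - p) ⋯ (p^r - p^(r-1))`. -/
theorem result {P : Type*} [Group P] [Finite P] {p n r : ℕ} [Fact p.Prime] (hP : Nat.card P = p ^ n) (hr : (frattini P).index = p ^ r) : Nat.card (MulAut P) ∣ p ^ (r * (n - r)) * ∏ i ∈ Finset.range r, (p ^ r - p ^ i) := by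
  have hPp : IsPGroup p P := IsPGroup.of_card hP
  have hfin := finrank_V hPp hr
  have hpos : 0 < p := (Fact.out : p.Prime).pos
  let T : Set (Fin r → P) := {t | LinearIndependent (ZMod p) (img hPp t)}
  have hspan : ∀ t : Fin r → P, LinearIndependent (ZMod p) (img hPp t) ↔
      Submodule.span (ZMod p) (Set.range (img hPp t)) = ⊤ := by
    intro t
    constructor
    · intro h
      exact h.span_eq_top_of_card_eq_finrank' (by rw [hfin, Fintype.card_fin])
    · intro h
      exact linearIndependent_of_top_le_span_of_card_eq_finrank h.ge (by rw [hfin, Fintype.card_fin])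
  have h1 : Nat.card (⊤ : Subgroup (MulAut P)) ∣ Nat.card T := by
    refine card_dvd_of_tuples ⊤ T ?_ ?_
    · intro t ht
      exact closure_eq_top_of_span hPp t ((hspan t).1 ht)
    · intro a _ t ht
      have h2 := closure_eq_top_of_span hPp t ((hspan t).1 ht)
      refine (hspan _).2 (span_of_closure_eq_top hPp _ ?_)
      have h3 : Set.range (fun i => a (t i)) = a.toMonoidHom '' Set.range t := by
        rw [← Set.range_comp]; rfl
      rw [h3, ← MonoidHom.map_closure, h2]
      exact Subgroup.map_top_of_surjective _ a.surjective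
  rw [Subgroup.card_top] at h1
  have hrn : r ≤ n := by
    have h4 := (frattini P).card_mul_index
    rw [hr, hP] at h4
    have : p ^ r ∣ p ^ n := Dvd.intro_left _ h4
    exact (Nat.pow_dvd_pow_iff_le_right (Fact.out : p.Prime).one_lt).1 this
  have h2 : Nat.card T = p ^ (r * (n - r)) * ∏ i ∈ Finset.range r, (p ^ r - p ^ i) := by
    let f : T → {s : Fin r → V hPp // LinearIndependent (ZMod p) s} := fun t => ⟨img hPp t.1, t.2⟩
    have h3 : ∀ s, Nat.card {t : T // f t = s} = p ^ (r * (n - r)) := by
      intro s
      have e : {t : T // f t = s} ≃ {t : Fin r → P // img hPp t = s.1} :=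
        { toFun := fun t => ⟨t.1.1, congrArg (fun z => z.1) t.2⟩
          invFun := fun t => ⟨⟨t.1, by
            change LinearIndependent (ZMod p) (img hPp t.1)
            rw [t.2]; exact s.2⟩, Subtype.ext t.2⟩
          left_inv := fun t => rfl
          right_inv := fun t => rfl }
      rw [Nat.card_congr e, card_lifts]
      have h4 := (frattini P).card_mul_index
      rw [hr, hP] at h4
      have h5 : Nat.card (frattini P) = p ^ (n - r) := by
        apply Nat.eq_of_mul_eq_mul_right (pow_pos hpos r)
        rw [h4, ← pow_add]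
        congr 1; omega
      rw [h5, ← pow_mul, mul_comm]
    rw [card_eq_mul_of_fiber_eq f _ h3, mul_comm]
    congr 1
    haveI := Fintype.ofFinite (V hPp)
    have h6 := card_linearIndependent (K := ZMod p) (V := V hPp) (k := r) (by rw [hfin])
    rw [h6, hfin, ZMod.card]
    exact (Finset.prod_range (fun i => p ^ r - p ^ i)).symm
  rwa [h2] at h1

end Cfsg.Agent.S4208
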