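import Cfsg.Statements.S4216
import Mathlib
import Cfsg.Agent.Lib.H3Grun

set_option autoImplicit false
open Cfsg

namespace Cfsg.Agent.S4216

open scoped commutatorElement

/-- Grün's first Theorem: if `P` is a Sylow `p`-subgroup of the finite group `G`, then `P ∩ G'` is the subgroup generated by `P ∩ N_G(P)'` together with the subgroups `P ∩ z P' z⁻¹` for all `z ∈ G`, where `'` denotes the derived subgroup and `N_G(P)` the normalizer of `P`. -/
theorem result {G : Type*} [Group G] [Finite G] {p : ℕ} [Fact p.Prime] (P : Sylow p G) : (P : Subgroup G) ⊓ commutator G = ((P : Subgroup G) ⊓ ⁅Subgroup.normalizer ((P : Subgroup G) : Set G), Subgroup.normalizer ((P : Subgroup G) : Set G)⁆) ⊔ ⨆ z : G, (P : Subgroup G) ⊓ (⁅(P : Subgroup G), (P : Subgroup G)⁆).map (MulAut.conj z).toMonoidHom := by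
  set T : Subgroup G := ((P : Subgroup G) ⊓ ⁅Subgroup.normalizer ((P : Subgroup G) : Set G), Subgroup.normalizer ((P : Subgroup G) : Set G)⁆) ⊔ ⨆ z : G, (P : Subgroup G) ⊓ (⁅(P : Subgroup G), (P : Subgroup G)⁆).map (MulAut.conj z).toMonoidHom with hT
  apply le_antisymm
  · rintro u ⟨hu, huG⟩
    refine Cfsg.Agent.Lib.H3Grun.grun P T ?_ ?_ _ u hu huG le_rfl
    · intro z v hv hm
      rw [hT]
      refine Subgroup.mem_sup_right (Subgroup.mem_iSup_of_mem z⁻¹ ⟨hm, v, hv, ?_⟩)
      simp
    · intro x hx w hw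
      rw [hT]
      have hm : x⁻¹ * w * x ∈ (P : Subgroup G) := (Subgroup.mem_normalizer_iff''.mp hx w).mp hw
      refine Subgroup.mem_sup_left ⟨Subgroup.mul_mem (P : Subgroup G) (Subgroup.inv_mem (P : Subgroup G) hw) hm, ?_⟩
      have h1 : w⁻¹ * (x⁻¹ * w * x) = ⁅w⁻¹, x⁻¹⁆ := by simp only [commutatorElement_def]; group
      rw [h1]
      exact Subgroup.commutator_mem_commutator (inv_mem (Subgroup.le_normalizer hw)) (inv_mem hx)
  · rw [hT]
    refine sup_le (inf_le_inf_left _ ?_) (iSup_le fun z => inf_le_inf_left _ ?_)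
    · exact Subgroup.commutator_mono le_top le_top
    · rintro _ ⟨v, hv, rfl⟩
      have h1 : v ∈ commutator G := Subgroup.commutator_mono le_top le_top hv
      exact (inferInstance : (commutator G).Normal).conj_mem v h1 z

end Cfsg.Agent.S4216
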