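import Cfsg.Statements.S4219
import Mathlib
import Cfsg.Agent.Lib.Coprime

set_option autoImplicit false
open Cfsg

namespace Cfsg.Agent.S4219

open Subgroup Cfsg.Agent.Lib.Coprime
open scoped Pointwise

/-- Let a finite group `G` act `t`-fold transitively on a finite set, let `H` be the stabilizer of `t` distinct points and `P` a Sylow `p`-subgroup of `H`. Then the normalizer of `P` in `G` is `t`-fold transitive on the fixed points of `P`: any `t` distinct fixed points of `P` can be carried to any other `t` distinct fixed points of `P` by an element normalizing `P`. -/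
theorem result {G : Type*} [Group G] [Finite G] {α : Type*} [Fintype α] [MulAction G α] {t : ℕ} (hG : MulAction.IsMultiplyPretransitive G α t) (x : Fin t ↪ α) {p : ℕ} [Fact p.Prime] (P : Sylow p (MulAction.stabilizer G x)) (a b : Fin t ↪ α) (ha : ∀ i, a i ∈ MulAction.fixedPoints ((P : Subgroup (MulAction.stabilizer G x)).map (MulAction.stabilizer G x).subtype) α) (hb : ∀ i, b i ∈ MulAction.fixedPoints ((P : Subgroup (MulAction.stabilizer G x)).map (MulAction.stabilizer G x).subtype) α) : ∃ g ∈ Subgroup.normalizer ((((P : Subgroup (MulAction.stabilizer G x)).map (MulAction.stabilizer G x).subtype) : Subgroup G) : Set G), g • a = b := by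
  set Q : Subgroup G := (P : Subgroup (MulAction.stabilizer G x)).map (MulAction.stabilizer G x).subtype with hQ
  -- stabilizers of tuples have the same order
  have hcard : ∀ c : Fin t ↪ α, Nat.card (MulAction.stabilizer G c) = Nat.card (MulAction.stabilizer G x) := by
    intro c
    obtain ⟨k, rfl⟩ := hG.exists_smul_eq x c
    rw [MulAction.stabilizer_smul_eq_stabilizer_map_conj]
    exact Nat.card_congr ((MulAction.stabilizer G x).equivMapOfInjective _ (MulAut.conj k).injective).symm.toEquiv
  obtain ⟨g, hg⟩ := hG.exists_smul_eq a b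
  have hQcard : Nat.card Q = p ^ (Nat.card (MulAction.stabilizer G x)).factorization p := by
    rw [← P.card_eq_multiplicity]
    exact Nat.card_congr (Subgroup.equivMapOfInjective _ _ (Subgroup.subtype_injective _)).symm.toEquiv
  have hQfix : ∀ c : Fin t ↪ α, (∀ i, c i ∈ MulAction.fixedPoints Q α) → Q ≤ MulAction.stabilizer G c := by
    intro c hc y hy
    rw [MulAction.mem_stabilizer_iff]
    ext i
    exact hc i ⟨y, hy⟩
  have hQb := hQfix b hb
  have hQa := hQfix a ha
  have hQb' : MulAut.conj g • Q ≤ MulAction.stabilizer G b := by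
    rintro _ ⟨y, hy, rfl⟩
    have h1 := hQa hy
    rw [MulAction.mem_stabilizer_iff] at h1 ⊢
    change (g * y * g⁻¹) • b = b
    rw [← hg, mul_smul, mul_smul, inv_smul_smul, h1]
  have hc1 : Nat.card (Q.subgroupOf (MulAction.stabilizer G b)) =
      p ^ (Nat.card (MulAction.stabilizer G b)).factorization p := by
    rw [Nat.card_congr (Subgroup.subgroupOfEquivOfLe hQb).toEquiv, hQcard, hcard b]
  have hc2 : Nat.card ((MulAut.conj g • Q).subgroupOf (MulAction.stabilizer G b)) =
      p ^ (Nat.card (MulAction.stabilizer G b)).factorization p := by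
    rw [Nat.card_congr (Subgroup.subgroupOfEquivOfLe hQb').toEquiv, hcard b, ← hQcard]
    exact Cfsg.Agent.Lib.SchurZas.card_conj_smul g Q
  let S1 := Sylow.ofCard _ hc1
  let S2 := Sylow.ofCard _ hc2
  obtain ⟨h, hh⟩ := MulAction.exists_smul_eq (MulAction.stabilizer G b) S2 S1
  refine ⟨(h : G) * g, ?_, ?_⟩
  · apply mem_normalizer_of_conj_smul_eq
    -- compare elements
    have h1 : (MulAut.conj h • (S2 : Subgroup (MulAction.stabilizer G b))) = S1 := by
      have := congrArg (fun S : Sylow p (MulAction.stabilizer G b) => (S : Subgroup (MulAction.stabilizer G b))) hh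
      exact this
    have h2 : (MulAut.conj ((h : G) * g)) • Q = (MulAut.conj (h : G)) • (MulAut.conj g • Q) := by
      rw [map_mul, mul_smul]
    rw [h2]
    apply Subgroup.eq_of_le_of_card_ge
    · rintro _ ⟨y, hy, rfl⟩
      have h3 : (⟨y, hQb' hy⟩ : MulAction.stabilizer G b) ∈ (S2 : Subgroup (MulAction.stabilizer G b)) := hy
      have h4 : MulAut.conj h • (⟨y, hQb' hy⟩ : MulAction.stabilizer G b) ∈ (S1 : Subgroup (MulAction.stabilizer G b)) := by
        rw [← h1]
        exact Subgroup.smul_mem_pointwise_smul _ _ _ h3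
      exact h4
    · rw [Cfsg.Agent.Lib.SchurZas.card_conj_smul, Cfsg.Agent.Lib.SchurZas.card_conj_smul]
  · rw [mul_smul, hg]
    exact h.2

end Cfsg.Agent.S4219
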