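import Cfsg.Statements.S4222
import Mathlib
import Cfsg.Agent.Lib.SchurZas

set_option autoImplicit false
open Cfsg

namespace Cfsg.Agent.S4222

open Cfsg.Agent.Lib.SchurZas

/-- If a normal subgroup `N` of a finite group is complete (its centre is trivial and every automorphism of `N` is inner), then the group is the internal direct product of `N` and the centralizer of `N`: the centralizer is a complement to `N`. -/
theorem result {T : Type*} [Group T] [Finite T] (N : Subgroup T) [N.Normal] (hz : Subgroup.center ↥N = ⊥) (ha : Function.Surjective (MulAut.conj : ↥N →* MulAut ↥N)) : (Subgroup.centralizer (N : Set T)).IsComplement' N := by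
  apply Subgroup.IsComplement'.symm
  apply isComplement'_of_inf_sup
  · rw [eq_bot_iff]
    rintro x ⟨hx, hx'⟩
    have h1 : (⟨x, hx⟩ : N) ∈ Subgroup.center ↥N := by
      rw [Subgroup.mem_center_iff]
      intro g
      apply Subtype.ext
      exact (Subgroup.mem_centralizer_iff.1 hx') g g.2
    rw [hz, Subgroup.mem_bot] at h1
    have h2 : x = 1 := congrArg (fun z : N => z.1) h1
    rw [Subgroup.mem_bot]; exact h2
  · rw [eq_top_iff]
    intro t _
    obtain ⟨n, hn⟩ := ha (MulAut.conjNormal t)
    have h1 : ∀ m : N, (n : T) * m * (n : T)⁻¹ = t * m * t⁻¹ := by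
      intro m
      have := congrArg (fun f : MulAut N => ((f m : N) : T)) hn
      simpa using this
    have h2 : (n : T)⁻¹ * t ∈ Subgroup.centralizer (N : Set T) := by
      rw [Subgroup.mem_centralizer_iff]
      intro m hm
      have := h1 ⟨m, hm⟩
      simp only at this
      have e1 : m * ((n : T)⁻¹ * t) = (n : T)⁻¹ * ((n : T) * m * (n : T)⁻¹) * t := by group
      rw [e1, this]; group
    have h3 : t = (n : T) * ((n : T)⁻¹ * t) := by group
    rw [h3]
    exact Subgroup.mul_mem _ (Subgroup.mem_sup_left n.2) (Subgroup.mem_sup_right h2)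

end Cfsg.Agent.S4222
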