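import Cfsg.Statements.S4224
import Mathlib
import Cfsg.Agent.Lib.H3Reg

set_option autoImplicit false
open Cfsg

namespace Cfsg.Agent.S4224

/-- In a regular `p`-group, for all elements `a`, `b` and every power `q = p^k`: `a^q` commutes with `b` if and only if the commutator `a⁻¹b⁻¹ab` has `q`-th power equal to `1`. -/
theorem result {G : Type*} [Group G] [Finite G] {p : ℕ} [Fact p.Prime] (hG : Cfsg.IsRegularPGroup p G) (a b : G) (k : ℕ) : a ^ p ^ k * b = b * a ^ p ^ k ↔ (a⁻¹ * b⁻¹ * a * b) ^ p ^ k = 1 := by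
  have h1 := Cfsg.Agent.Lib.H3Reg.eq_pow_iff hG k (b⁻¹ * a * b) a
  have h4 : (b⁻¹ * a * b) ^ p ^ k = b⁻¹ * a ^ p ^ k * b := by
    have := conj_pow (i := p ^ k) (a := b⁻¹) (b := a)
    rw [inv_inv] at this
    exact this
  have h5 : (b⁻¹ * a * b) ^ p ^ k = a ^ p ^ k ↔ a ^ p ^ k * b = b * a ^ p ^ k := by
    rw [h4, mul_assoc, inv_mul_eq_iff_eq_mul]
  have h6 : (b⁻¹ * a * b * a⁻¹) ^ p ^ k = 1 ↔ (a⁻¹ * b⁻¹ * a * b) ^ p ^ k = 1 := by
    have h7 : b⁻¹ * a * b * a⁻¹ = a * (a⁻¹ * b⁻¹ * a * b) * a⁻¹ := by group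
    rw [h7, conj_pow]
    constructor
    · intro h
      rw [mul_inv_eq_one, mul_eq_left] at h
      exact h
    · intro h
      rw [h, mul_one, mul_inv_cancel]
  rw [← h5, h1, h6]

end Cfsg.Agent.S4224
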