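import Cfsg.Statements.S4275
import Mathlib

set_option autoImplicit false
open Cfsg

namespace Cfsg.Agent.S4275

/-- Let G be a transitive group of permutations of a finite set Ω, let o ∈ Ω, and let α be an automorphism of G. Then α is induced by conjugation by a permutation of Ω normalizing G if and only if the image under α of the stabilizer of o fixes some point of Ω. -/
theorem result {Ω : Type*} [Fintype Ω] (G : Subgroup (Equiv.Perm Ω)) (htr : MulAction.IsPretransitive G Ω) (o : Ω) (α : G ≃* G) : (∃ σ : Equiv.Perm Ω, σ ∈ Subgroup.normalizer (G : Set (Equiv.Perm Ω)) ∧ ∀ g : G, ((α g : G) : Equiv.Perm Ω) = σ * (g : Equiv.Perm Ω) * σ⁻¹) ↔ ∃ ω : Ω, ∀ g ∈ (MulAction.stabilizer G o).map α.toMonoidHom, g • ω = ω := by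
  constructor
  · rintro ⟨σ, _, hσ⟩
    refine ⟨σ o, ?_⟩
    rintro _ ⟨g, hg, rfl⟩
    have hg' : (g : Equiv.Perm Ω) o = o := hg
    change ((α g : G) : Equiv.Perm Ω) (σ o) = σ o
    rw [hσ g]
    simp [hg']
  · rintro ⟨ω, hω⟩
    have htr' : ∀ x : Ω, ∃ g : G, (g : Equiv.Perm Ω) o = x := fun x => MulAction.exists_smul_eq G o x
    choose g hg using htr'
    let f : Ω → Ω := fun x => ((α (g x) : G) : Equiv.Perm Ω) ω
    have hf : ∀ k : G, f ((k : Equiv.Perm Ω) o) = ((α k : G) : Equiv.Perm Ω) ω := by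
      intro k
      have h1 : (k⁻¹ * g ((k : Equiv.Perm Ω) o)) ∈ MulAction.stabilizer G o := by
        rw [MulAction.mem_stabilizer_iff, mul_smul, inv_smul_eq_iff]
        exact hg _
      have h2 := hω _ ⟨_, h1, rfl⟩
      change ((α (k⁻¹ * g ((k : Equiv.Perm Ω) o)) : G) : Equiv.Perm Ω) ω = ω at h2
      rw [map_mul, map_inv] at h2
      change ((α (g ((k : Equiv.Perm Ω) o)) : G) : Equiv.Perm Ω) ω = _
      have h3 : ((α k : G) : Equiv.Perm Ω)⁻¹ (((α (g ((k : Equiv.Perm Ω) o)) : G) : Equiv.Perm Ω) ω) = ω := h2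
      rw [Equiv.Perm.inv_eq_iff_eq] at h3
      exact h3
    have hsurj : Function.Surjective f := by
      intro y
      obtain ⟨k, hk⟩ := MulAction.exists_smul_eq G ω y
      refine ⟨((α.symm k : G) : Equiv.Perm Ω) o, ?_⟩
      rw [hf, MulEquiv.apply_symm_apply]
      exact hk
    have hbij : Function.Bijective f := Finite.injective_iff_bijective.1 (Finite.injective_iff_surjective.2 hsurj)
    let σ : Equiv.Perm Ω := Equiv.ofBijective f hbij
    have hσ : ∀ k : G, ((α k : G) : Equiv.Perm Ω) = σ * (k : Equiv.Perm Ω) * σ⁻¹ := by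
      intro k
      rw [eq_mul_inv_iff_mul_eq]
      ext x
      obtain ⟨h, rfl⟩ := MulAction.exists_smul_eq G o x
      change ((α k : G) : Equiv.Perm Ω) (f ((h : Equiv.Perm Ω) o)) = f ((k : Equiv.Perm Ω) ((h : Equiv.Perm Ω) o))
      rw [hf]
      have h4 : (k : Equiv.Perm Ω) ((h : Equiv.Perm Ω) o) = ((k * h : G) : Equiv.Perm Ω) o := rfl
      rw [h4, hf, map_mul]
      rfl
    refine ⟨σ, ?_, hσ⟩
    rw [Subgroup.mem_normalizer_iff]
    intro k
    constructor
    · intro hk
      rw [← hσ ⟨k, hk⟩]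
      exact (α ⟨k, hk⟩).2
    · intro hk
      have h5 := hσ (α.symm ⟨_, hk⟩)
      rw [MulEquiv.apply_symm_apply] at h5
      have h6 : k = ((α.symm ⟨_, hk⟩ : G) : Equiv.Perm Ω) := by
        have := mul_left_cancel (mul_right_cancel h5)
        exact this
      rw [h6]
      exact (α.symm ⟨_, hk⟩).2

end Cfsg.Agent.S4275
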