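import Cfsg.Statements.S4283
import Mathlib
import Cfsg.Agent.Lib.FrobGrp

set_option autoImplicit false
open Cfsg

namespace Cfsg.Agent.S4283

open Subgroup Cfsg.Agent.Lib.FrobGrp Cfsg.Agent.Lib.ClassSizes

/-- Let G be a finite group with centre Z and let K, H be abelian subgroups of G containing Z such that G/Z is a Frobenius group with complement H/Z and kernel K/Z. Then the conjugacy class sizes of G are exactly 1, [G : K] and [G : H], and these two indices are coprime. (This is the converse half of the characterization of finite groups whose conjugacy class sizes are exactly 1, m and n with m and n coprime.) -/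
theorem result {G : Type*} [Group G] [Finite G] (K H : Subgroup G) (hZK : Subgroup.center G ≤ K) (hZH : Subgroup.center G ≤ H) (hK : IsMulCommutative K) (hH : IsMulCommutative H) (hFrob : Cfsg.IsFrobeniusComplement (H.map (QuotientGroup.mk' (Subgroup.center G)))) (hker : Cfsg.frobeniusKernel (H.map (QuotientGroup.mk' (Subgroup.center G))) = (K.map (QuotientGroup.mk' (Subgroup.center G)) : Set (G ⧸ Subgroup.center G))) : Set.range (fun x : G => (Subgroup.centralizer ({x} : Set G)).index) = ({1, K.index, H.index} : Set ℕ) ∧ K.index.Coprime H.index := by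
  set Z := Subgroup.center G with hZ
  set π := QuotientGroup.mk' Z with hπ
  have hs : Function.Surjective π := QuotientGroup.mk'_surjective Z
  have hker' : ∀ x : G, π x = 1 ↔ x ∈ Z := fun x => QuotientGroup.eq_one_iff x
  have hmK : ∀ x : G, π x ∈ K.map π ↔ x ∈ K := by
    intro x
    rw [← Subgroup.mem_comap, Subgroup.comap_map_eq, hπ, QuotientGroup.ker_mk', sup_eq_left.2 hZK]
  have hmH : ∀ x : G, π x ∈ H.map π ↔ x ∈ H := by
    intro x
    rw [← Subgroup.mem_comap, Subgroup.comap_map_eq, hπ, QuotientGroup.ker_mk', sup_eq_left.2 hZH]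
  have hKn := kernel_normal hker
  have iK : (K.map π).index = K.index := Subgroup.index_map_eq _ hs (by rw [hπ, QuotientGroup.ker_mk']; exact hZK)
  have iH : (H.map π).index = H.index := Subgroup.index_map_eq _ hs (by rw [hπ, QuotientGroup.ker_mk']; exact hZH)
  have hcompl := kernel_isComplement' hFrob hker
  have c1 : Nat.card (K.map π) = H.index := by rw [kernel_card hFrob hker, iH]
  have c2 : Nat.card (H.map π) = K.index := by
    rw [← iK]; exact hcompl.symm.index_eq_card.symm
  have hcK : ∀ x : G, x ∈ K → x ∉ Z → Subgroup.centralizer ({x} : Set G) = K := by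
    intro x hx hxZ
    apply le_antisymm
    · intro g hg
      rw [mem_centralizer_singleton] at hg
      by_contra hgK
      have h1 : π g ∉ frobeniusKernel (H.map π) := by
        rw [hker]
        exact fun h => hgK ((hmK g).1 h)
      rw [mem_frobeniusKernel] at h1
      push Not at h1
      obtain ⟨h1, u, hu⟩ := h1
      apply hxZ
      rw [← hker' x]
      have h2 : u⁻¹ * π x * u = 1 := by
        refine kernel_not_commute hFrob hker hu ?_ ?_ ?_
        · intro h
          apply h1
          have : π g = u * (u⁻¹ * π g * u) * u⁻¹ := by group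
          rw [this, h]; group
        · have := hKn.conj_mem (π x) ((hmK x).2 hx) u⁻¹
          rwa [inv_inv] at this
        · have h3 : π g * π x = π x * π g := by rw [← map_mul, ← map_mul, hg]
          have e1 : u⁻¹ * π x * u * (u⁻¹ * π g * u) = u⁻¹ * (π x * π g) * u := by group
          have e2 : u⁻¹ * π g * u * (u⁻¹ * π x * u) = u⁻¹ * (π g * π x) * u := by group
          rw [e1, e2, h3]
      have : π x = u * (u⁻¹ * π x * u) * u⁻¹ := by group
      rw [this, h2]; group
    · intro g hg
      rw [mem_centralizer_singleton]
      exact congrArg (fun z : K => (z : G)) (mul_comm' (⟨g, hg⟩ : K) ⟨x, hx⟩)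
  have hcH : ∀ x : G, x ∈ H → x ∉ Z → Subgroup.centralizer ({x} : Set G) = H := by
    intro x hx hxZ
    apply le_antisymm
    · intro g hg
      rw [mem_centralizer_singleton] at hg
      rw [← hmH]
      refine mem_of_commute hFrob ((hmH x).2 hx) (fun h => hxZ ((hker' x).1 h)) ?_
      rw [← map_mul, ← map_mul, hg]
    · intro g hg
      rw [mem_centralizer_singleton]
      exact congrArg (fun z : H => (z : G)) (mul_comm' (⟨g, hg⟩ : H) ⟨x, hx⟩)
  refine ⟨?_, ?_⟩
  · ext n
    simp only [Set.mem_range, Set.mem_insert_iff, Set.mem_singleton_iff]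
    constructor
    · rintro ⟨x, rfl⟩
      by_cases hxZ : x ∈ Z
      · left
        rw [index_centralizer_eq_one_iff]; exact hxZ
      right
      by_cases hxK : x ∈ K
      · left; rw [hcK x hxK hxZ]
      · right
        have h1 : π x ∉ frobeniusKernel (H.map π) := by
          rw [hker]
          exact fun h => hxK ((hmK x).1 h)
        rw [mem_frobeniusKernel] at h1
        push Not at h1
        obtain ⟨h1, u, hu⟩ := h1
        obtain ⟨v, rfl⟩ := hs u
        have h2 : v⁻¹ * x * v ∈ H := by
          rw [← hmH, map_mul, map_mul, map_inv]; exact hu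
        have h3 : v⁻¹ * x * v ∉ Z := by
          intro h
          apply hxZ
          have := (Subgroup.center G).mul_mem h (one_mem _)
          have hn : (Subgroup.center G).Normal := inferInstance
          have h4 := hn.conj_mem _ h v
          have e : v * (v⁻¹ * x * v) * v⁻¹ = x := by group
          rwa [e] at h4
        rw [← hcH _ h2 h3]
        have h5 := index_centralizer_conj x v⁻¹
        rw [inv_inv] at h5
        exact h5.symm
    · rintro (rfl | rfl | rfl)
      · exact ⟨1, by rw [index_centralizer_eq_one_iff]; exact one_mem _⟩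
      · have h1 := kernel_ne_bot hFrob hker
        obtain ⟨⟨y, hy⟩, hy1⟩ := Subgroup.ne_bot_iff_exists_ne_one.1 h1
        obtain ⟨x, hx, rfl⟩ := hy
        refine ⟨x, ?_⟩
        rw [hcK x hx]
        intro hxZ
        exact hy1 (Subtype.ext ((hker' x).2 hxZ))
      · obtain ⟨⟨y, hy⟩, hy1⟩ := Subgroup.ne_bot_iff_exists_ne_one.1 hFrob.1
        obtain ⟨x, hx, rfl⟩ := hy
        refine ⟨x, ?_⟩
        rw [hcH x hx]
        intro hxZ
        exact hy1 (Subtype.ext ((hker' x).2 hxZ))
  · rw [← c1, ← c2]
    exact (kernel_coprime hFrob hker).symm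

end Cfsg.Agent.S4283
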