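import Cfsg.Statements.S4293
import Mathlib
import Cfsg.Agent.H3.FrobAct

set_option autoImplicit false
open Cfsg

namespace Cfsg.Agent.S4293

open Cfsg.Agent.H3.FrobAct Pointwise

/-- A nontrivial finite subgroup of the multiplicative group of a division ring occurs as a Frobenius complement of some finite Frobenius group. -/
theorem result {D : Type*} [DivisionRing D] (H : Subgroup Dˣ) [Finite H] (hH : H ≠ ⊥) :
    ∃ (L : Type) (_ : Group L) (_ : Finite L) (C : Subgroup L), Cfsg.IsFrobeniusComplement C ∧ Nonempty (H ≃* C) := by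
  classical
  -- choice of the prime
  obtain ⟨p, hp, hpH, hpD⟩ : ∃ p : ℕ, p.Prime ∧ ¬ p ∣ Nat.card H ∧
      ∀ n : ℤ, (p : ℤ) ∣ n - 1 → (n : D) ≠ 0 := by
    obtain ⟨q, hq⟩ := CharP.exists D
    rcases CharP.char_is_prime_or_zero D q with hqp | hq0
    · haveI : Fact q.Prime := ⟨hqp⟩
      refine ⟨q, hqp, ?_, ?_⟩
      · intro hd
        obtain ⟨h, hh⟩ := exists_prime_orderOf_dvd_card' (G := H) q hd
        have h1 : h ^ q = 1 := by rw [← hh]; exact pow_orderOf_eq_one h
        have h2 : ((h : Dˣ) : D) ^ q = 1 := by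
          have := congrArg (fun z : H => ((z : Dˣ) : D)) h1
          simpa using this
        have h3 : (((h : Dˣ) : D) - 1) ^ q = 0 := by
          rw [sub_pow_char_of_commute (p := q) (Commute.one_right _), h2, one_pow, sub_self]
        have h4 : ((h : Dˣ) : D) = 1 := sub_eq_zero.1 (pow_eq_zero_iff hqp.ne_zero |>.1 h3)
        have h5 : h = 1 := Subtype.ext (Units.ext h4)
        rw [h5, orderOf_one] at hh
        exact hqp.one_lt.ne hh
      · intro n hn h0
        rw [CharP.intCast_eq_zero_iff D q] at h0
        have h1 := dvd_sub h0 hn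
        have h2 : n - (n - 1) = 1 := by ring
        rw [h2] at h1
        have h3 : (q : ℤ) ∣ ((1 : ℕ) : ℤ) := by exact_mod_cast h1
        rw [Int.natCast_dvd_natCast] at h3
        exact hqp.one_lt.ne' (Nat.dvd_one.1 h3)
    · subst hq0
      haveI := CharP.charP_to_charZero D
      obtain ⟨p, hpge, hp⟩ := Nat.exists_infinite_primes (Nat.card H + 1)
      refine ⟨p, hp, ?_, ?_⟩
      · intro hd
        have := Nat.le_of_dvd Nat.card_pos hd
        omega
      · intro n hn h0
        have h1 : n = 0 := by exact_mod_cast h0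
        rw [h1] at hn
        have h3 : (p : ℤ) ∣ ((1 : ℕ) : ℤ) := by
          have := (dvd_neg (α := ℤ)).2 hn
          simpa using this
        rw [Int.natCast_dvd_natCast] at h3
        exact hp.one_lt.ne' (Nat.dvd_one.1 h3)
  let R : Submodule ℤ D := Submodule.span ℤ (Set.range (fun h : H => ((h : Dˣ) : D)))
  haveI hRfin : Module.Finite ℤ R := Module.Finite.span_of_finite ℤ (Set.finite_range _)
  have hmemR : ∀ h : H, ((h : Dˣ) : D) ∈ R := fun h => Submodule.subset_span ⟨h, rfl⟩
  have hstab : ∀ (h : H) (x : D), x ∈ R → ((h : Dˣ) : D) * x ∈ R := by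
    intro h x hx
    induction hx using Submodule.span_induction with
    | mem x hx =>
      obtain ⟨k, rfl⟩ := hx
      have := hmemR (h * k)
      simpa using this
    | zero => rw [mul_zero]; exact zero_mem _
    | add x y _ _ hx hy => rw [mul_add]; exact add_mem hx hy
    | smul a x _ hx => rw [mul_smul_comm]; exact Submodule.smul_mem _ _ hx
  let T : H → (R →ₗ[ℤ] R) := fun h => (LinearMap.mulLeft ℤ ((h : Dˣ) : D)).restrict (hstab h)
  let P : Submodule ℤ R := LinearMap.range ((p : ℤ) • (LinearMap.id : R →ₗ[ℤ] R))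
  have hPmem : ∀ x : R, x ∈ P ↔ ∃ y : R, (p : ℤ) • y = x := fun x => Iff.rfl
  have hTP : ∀ h : H, P ≤ P.comap (T h) := by
    intro h x hx
    obtain ⟨y, rfl⟩ := (hPmem x).1 hx
    rw [Submodule.mem_comap, map_zsmul]
    exact (hPmem _).2 ⟨_, rfl⟩
  let V := R ⧸ P
  let F : H → AddMonoid.End V := fun h => (P.mapQ P (T h) (hTP h)).toAddMonoidHom
  have hF : ∀ (h : H) (x : R), F h (Submodule.Quotient.mk x) = Submodule.Quotient.mk (T h x) := fun h x => rfl
  let f : H →* AddMonoid.End V :=
    { toFun := F
      map_one' := by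
        apply AddMonoidHom.ext
        intro v
        obtain ⟨x, rfl⟩ := Submodule.Quotient.mk_surjective P v
        change (Submodule.Quotient.mk (T 1 x) : V) = Submodule.Quotient.mk x
        congr 1
        apply Subtype.ext
        change (((1 : H) : Dˣ) : D) * (x : D) = x
        simp
      map_mul' := fun a b => by
        apply AddMonoidHom.ext
        intro v
        obtain ⟨x, rfl⟩ := Submodule.Quotient.mk_surjective P v
        change (Submodule.Quotient.mk (T (a * b) x) : V) = Submodule.Quotient.mk (T a (T b x))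
        congr 1
        apply Subtype.ext
        change (((a * b : H) : Dˣ) : D) * (x : D) = ((a : Dˣ) : D) * (((b : Dˣ) : D) * (x : D))
        rw [← mul_assoc]; rfl }
  have hpV : ∀ v : V, (p : ℤ) • v = 0 := by
    intro v
    obtain ⟨x, rfl⟩ := Submodule.Quotient.mk_surjective P v
    rw [← Submodule.Quotient.mk_smul, Submodule.Quotient.mk_eq_zero]
    exact (hPmem _).2 ⟨x, rfl⟩
  haveI : Finite V := by
    refine Module.finite_of_fg_torsion V ?_
    intro v
    refine ⟨⟨(p : ℤ), mem_nonZeroDivisors_of_ne_zero (by exact_mod_cast hp.ne_zero)⟩, ?_⟩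
    exact hpV v
  haveI : Nontrivial V := by
    rw [Submodule.Quotient.nontrivial_iff]
    intro htop
    have hle : R ≤ (Ideal.span {(p : ℤ)}) • R := by
      intro x hx
      have h1 : (⟨x, hx⟩ : R) ∈ P := by rw [htop]; trivial
      obtain ⟨y, hy⟩ := (hPmem _).1 h1
      have h2 : x = (p : ℤ) • (y : D) := (congrArg (fun z : R => (z : D)) hy).symm
      rw [h2]
      exact Submodule.smul_mem_smul (Ideal.mem_span_singleton_self _) y.2
    obtain ⟨r, hr, hr0⟩ := Submodule.exists_sub_one_mem_and_smul_eq_zero_of_fg_of_le_smul _ R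
      (Submodule.fg_span (Set.finite_range _)) hle
    have h3 : r • (1 : D) = 0 := hr0 1 (by simpa using hmemR 1)
    rw [zsmul_one] at h3
    exact hpD r (Ideal.mem_span_singleton.1 hr) h3
  haveI : Nontrivial H := (Subgroup.nontrivial_iff_ne_bot H).2 hH
  obtain ⟨L, iL, fL, K, hK, hKe, _⟩ := exists_frob_of_hom (V := V) f (by
    intro h hh v hv
    -- `m • v = 0` for `m = orderOf h`
    have hpow : ∀ k : ℕ, f (h ^ k) v = v := by
      intro k
      induction k with
      | zero => rw [pow_zero, map_one]; rfl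
      | succ k ih =>
        rw [pow_succ', map_mul]
        change f h (f (h ^ k) v) = v
        rw [ih, hv]
    have hsum : ∑ k ∈ Finset.range (orderOf h), (((h ^ k : H) : Dˣ) : D) = 0 := by
      have h1 : (∑ k ∈ Finset.range (orderOf h), ((h : Dˣ) : D) ^ k) * (((h : Dˣ) : D) - 1) = 0 := by
        rw [geom_sum_mul]
        have h2 : h ^ orderOf h = 1 := pow_orderOf_eq_one h
        have h3 : ((h : Dˣ) : D) ^ orderOf h = 1 := by
          calc ((h : Dˣ) : D) ^ orderOf h = (((h ^ orderOf h : H) : Dˣ) : D) := by push_cast; rfl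
            _ = 1 := by rw [h2]; rfl
        rw [h3, sub_self]
      rcases mul_eq_zero.1 h1 with h2 | h2
      · rw [← h2]
        apply Finset.sum_congr rfl
        intro k _
        simp
      · exfalso
        apply hh
        exact Subtype.ext (Units.ext (sub_eq_zero.1 h2))
    have hm : (orderOf h) • v = 0 := by
      have h1 : ∑ k ∈ Finset.range (orderOf h), f (h ^ k) v = 0 := by
        obtain ⟨x, rfl⟩ := Submodule.Quotient.mk_surjective P v
        have h2 : ∀ k : ℕ, f (h ^ k) (Submodule.Quotient.mk x) = Submodule.Quotient.mk (T (h ^ k) x) := fun k => rfl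
        rw [Finset.sum_congr rfl fun k _ => h2 k]
        have h3 : ∑ k ∈ Finset.range (orderOf h), T (h ^ k) x = 0 := by
          apply Subtype.ext
          rw [AddSubmonoidClass.coe_finset_sum]
          change ∑ k ∈ Finset.range (orderOf h), (((h ^ k : H) : Dˣ) : D) * (x : D) = 0
          rw [← Finset.sum_mul, hsum, zero_mul]
        have h4 := congrArg (Submodule.mkQ P) h3
        rw [map_sum, map_zero] at h4
        exact h4
      rw [Finset.sum_congr rfl fun k _ => hpow k, Finset.sum_const, Finset.card_range] at h1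
      exact h1
    have hpv : p • v = 0 := by
      have := hpV v
      rwa [natCast_zsmul] at this
    have hcop : Nat.Coprime (orderOf h) p := by
      rw [Nat.coprime_comm, hp.coprime_iff_not_dvd]
      intro hd
      exact hpH (hd.trans (orderOf_dvd_natCard h))
    have h5 : addOrderOf v ∣ Nat.gcd (orderOf h) p :=
      Nat.dvd_gcd (addOrderOf_dvd_of_nsmul_eq_zero hm) (addOrderOf_dvd_of_nsmul_eq_zero hpv)
    rw [hcop] at h5
    exact AddMonoid.addOrderOf_eq_one_iff.1 (Nat.dvd_one.1 h5))
  exact ⟨L, iL, fL, K, hK, hKe⟩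

end Cfsg.Agent.S4293
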