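import Cfsg.Statements.S4295
import Mathlib
import Cfsg.Agent.H3.FrobEven
import Cfsg.Agent.H3.Quat

set_option autoImplicit false
open Cfsg

namespace Cfsg.Agent.S4295

open Cfsg.Agent.H3.FrobAct Cfsg.Agent.H3.Quat Cfsg.Agent.H3.QMod Cfsg.Agent.H3.FrobEven

/-- For a natural number m the following are equivalent: (a) some finite group has a Frobenius complement isomorphic to the quaternion group of order 8 whose Frobenius kernel (the identity together with the elements lying in no conjugate of the complement) has exactly m elements; (b) m is an odd perfect square greater than 1. -/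
theorem result (m : ℕ) :
    (∃ (L : Type) (_ : Group L) (_ : Finite L) (H : Subgroup L), Cfsg.IsFrobeniusComplement H ∧
        Nonempty (H ≃* QuaternionGroup 2) ∧ Nat.card (Cfsg.frobeniusKernel H) = m) ↔
    (Odd m ∧ IsSquare m ∧ 1 < m) := by
  constructor
  · rintro ⟨L, _, _, H, hH, ⟨e⟩, hm⟩
    let i : H := e.symm (QuaternionGroup.a 1)
    let j : H := e.symm (QuaternionGroup.xa 0)
    have h1 : j * i * j⁻¹ = i⁻¹ := by
      apply e.injective
      simp only [map_mul, map_inv, i, j, MulEquiv.apply_symm_apply]
      decide
    have h2 : j * j = i * i := by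
      apply e.injective
      simp only [map_mul, i, j, MulEquiv.apply_symm_apply]
      decide
    have h3 : i * i ≠ 1 := by
      intro h
      have := congrArg e h
      simp only [map_mul, map_one, i, MulEquiv.apply_symm_apply] at this
      revert this
      decide
    have h4 := card_kernel_of_quaternion hH (i := (i : L)) (j := (j : L)) i.2 j.2
      (congrArg (fun z : H => (z : L)) h1) (congrArg (fun z : H => (z : L)) h2)
      (fun h => h3 (Subtype.ext h))
    rw [hm] at h4
    exact h4
  · rintro ⟨hodd, ⟨k, rfl⟩, hk1⟩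
    have hk : Odd k := (Nat.odd_mul.1 hodd).1
    obtain ⟨V, i1, i2, I, J, hc, hI, hJ, hIJ⟩ := exists_quaternion k hk
    haveI : Nontrivial V := by
      rw [← Finite.one_lt_card_iff_nontrivial, hc]; exact hk1
    have hoddV : Odd (Nat.card V) := by rw [hc]; exact hodd
    let I' : AddMonoid.End V := I
    let J' : AddMonoid.End V := J
    have hII : I' * I' = -1 := by ext v; exact hI v
    have hJJ : J' * J' = -1 := by ext v; exact hJ v
    have hIJ' : I' * J' = -(J' * I') := by ext v; exact hIJ v
    have a1 : I' * (-I') = 1 := by rw [mul_neg, hII, neg_neg]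
    have a2 : (-I') * I' = 1 := by rw [neg_mul, hII, neg_neg]
    have b1 : J' * (-J') = 1 := by rw [mul_neg, hJJ, neg_neg]
    have b2 : (-J') * J' = 1 := by rw [neg_mul, hJJ, neg_neg]
    let A : (AddMonoid.End V)ˣ := ⟨I', -I', a1, a2⟩
    let X : (AddMonoid.End V)ˣ := ⟨J', -J', b1, b2⟩
    have hA2 : ((A ^ 2 : (AddMonoid.End V)ˣ) : AddMonoid.End V) = -1 := by
      rw [pow_two]; exact hII
    have hA : A ^ (2 * 2) = 1 := by
      apply Units.ext
      rw [pow_mul, pow_two, Units.val_mul, hA2]; simp
    have hX : X * X = A ^ 2 := by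
      apply Units.ext
      rw [hA2]; exact hJJ
    have hXA : A * X = X * A⁻¹ := by
      apply Units.ext
      change I' * J' = J' * (-I')
      rw [hIJ', mul_neg]
    let f : QuaternionGroup 2 →* AddMonoid.End V := (Units.coeHom _).comp (lift hA hX hXA)
    have hf : f (QuaternionGroup.a 2) = -1 := by
      change ((A ^ (2 : ZMod (2 * 2)).val : (AddMonoid.End V)ˣ) : AddMonoid.End V) = -1
      exact hA2
    have hcase : ∀ h : QuaternionGroup 2, h ≠ 1 → h = QuaternionGroup.a 2 ∨ h * h = QuaternionGroup.a 2 := by
      decide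
    haveI : Nontrivial (QuaternionGroup 2) := by
      rw [← Fintype.one_lt_card_iff_nontrivial, QuaternionGroup.card]; norm_num
    obtain ⟨L, iL, fL, K, hK, ⟨hKe⟩, hcK⟩ := exists_frob_of_hom (V := V) f (by
      intro h hh v hv
      have h1 : (f (QuaternionGroup.a 2)) v = v := by
        rcases hcase h hh with h2 | h2
        · rw [← h2]; exact hv
        · rw [← h2, map_mul]
          change f h (f h v) = v
          rw [hv, hv]
      rw [hf] at h1
      have h3 : -v = v := h1
      apply two_smul_cancel hoddV
      nth_rewrite 1 [← h3]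
      simp)
    exact ⟨L, iL, fL, K, hK, ⟨hKe.symm⟩, by rw [hcK, hc]⟩

end Cfsg.Agent.S4295
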