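import Cfsg.Statements.S4297
import Mathlib
import Cfsg.Agent.H3.FrobAct
import Cfsg.Agent.H3.Quat

set_option autoImplicit false
open Cfsg

namespace Cfsg.Agent.S4297

open Cfsg.Agent.H3.FrobAct Cfsg.Agent.H3.Quat

/-- For every n ≥ 2 the dicyclic group of order 4n (generated by an element a of order 2n and an element x with x² = aⁿ and x a x⁻¹ = a⁻¹) occurs as a Frobenius complement of some finite Frobenius group. -/
theorem result (n : ℕ) (hn : 2 ≤ n) :
    ∃ (L : Type) (_ : Group L) (_ : Finite L) (H : Subgroup L), Cfsg.IsFrobeniusComplement H ∧ Nonempty (H ≃* QuaternionGroup n) := by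
  haveI : NeZero n := ⟨by omega⟩
  haveI : NeZero (2 * n) := ⟨by omega⟩
  have hn0 : 2 * n ≠ 0 := by omega
  obtain ⟨p, hp, hp2, hmod⟩ := Nat.exists_prime_gt_modEq_one (k := 2 * n) 2 hn0
  haveI : Fact p.Prime := ⟨hp⟩
  have hdvd : 2 * n ∣ p - 1 := (Nat.modEq_iff_dvd' hp.one_lt.le).1 hmod.symm
  have hcU : Nat.card (ZMod p)ˣ = p - 1 := by
    rw [Nat.card_eq_fintype_card, ZMod.card_units]
  obtain ⟨u', hu'⟩ := IsCyclic.exists_ofOrder_eq_natCard (α := (ZMod p)ˣ)
  rw [hcU] at hu'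
  obtain ⟨m, hm⟩ := hdvd
  have hm0 : m ≠ 0 := by
    rintro rfl
    have := hp.one_lt
    omega
  obtain ⟨u, hu⟩ : ∃ u : (ZMod p)ˣ, orderOf u = 2 * n := ⟨u' ^ m, by
    rw [orderOf_pow_of_dvd hm0 (by rw [hu', hm]; exact Dvd.intro_left _ rfl), hu', hm,
      Nat.mul_div_cancel _ (Nat.pos_of_ne_zero hm0)]⟩
  have hun : ((u ^ n : (ZMod p)ˣ) : ZMod p) = -1 := by
    have h1 : ((u ^ n : (ZMod p)ˣ) : ZMod p) * ((u ^ n : (ZMod p)ˣ) : ZMod p) = 1 := by
      rw [← Units.val_mul, ← pow_add, ← two_mul, ← hu, pow_orderOf_eq_one, Units.val_one]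
    rcases mul_self_eq_one_iff.1 h1 with h2 | h2
    · exfalso
      have h3 : u ^ n = 1 := Units.ext h2
      have h4 := orderOf_dvd_of_pow_eq_one h3
      rw [hu] at h4
      have := Nat.le_of_dvd (by omega) h4
      omega
    · exact h2
  let V := ZMod p × ZMod p
  let D : (ZMod p)ˣ → AddMonoid.End V := fun w =>
    { toFun := fun v => ((w : ZMod p) * v.1, ((w⁻¹ : (ZMod p)ˣ) : ZMod p) * v.2)
      map_zero' := Prod.ext (mul_zero _) (mul_zero _)
      map_add' := fun v w => by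
        refine Prod.ext ?_ ?_
        · exact mul_add _ _ _
        · exact mul_add _ _ _ }
  have hD : ∀ w v, D w v = ((w : ZMod p) * v.1, ((w⁻¹ : (ZMod p)ˣ) : ZMod p) * v.2) := fun w v => rfl
  have hDmul : ∀ w w', D (w * w') = D w * D w' := by
    intro w w'
    ext v
    · change ((w * w' : (ZMod p)ˣ) : ZMod p) * v.1 = (w : ZMod p) * ((w' : ZMod p) * v.1)
      rw [Units.val_mul, mul_assoc]
    · change (((w * w')⁻¹ : (ZMod p)ˣ) : ZMod p) * v.2 = ((w⁻¹ : (ZMod p)ˣ) : ZMod p) * (((w'⁻¹ : (ZMod p)ˣ) : ZMod p) * v.2)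
      rw [mul_inv, Units.val_mul, mul_assoc]
  have hD1 : D 1 = 1 := by
    ext v
    · change ((1 : (ZMod p)ˣ) : ZMod p) * v.1 = v.1
      simp
    · change (((1 : (ZMod p)ˣ)⁻¹ : (ZMod p)ˣ) : ZMod p) * v.2 = v.2
      simp
  let Dh : (ZMod p)ˣ →* AddMonoid.End V := { toFun := D, map_one' := hD1, map_mul' := hDmul }
  let Xe : AddMonoid.End V :=
    { toFun := fun v => (-v.2, v.1)
      map_zero' := Prod.ext neg_zero rfl
      map_add' := fun v w => by
        refine Prod.ext ?_ rfl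
        change -(v.2 + w.2) = -v.2 + -w.2
        ring }
  have hXX : Xe * Xe = -1 := by
    ext v <;> rfl
  let A : (AddMonoid.End V)ˣ := Dh.toHomUnits u
  let X : (AddMonoid.End V)ˣ := unitOfSq Xe hXX
  have hApow : ∀ k : ℕ, ((A ^ k : (AddMonoid.End V)ˣ) : AddMonoid.End V) = D (u ^ k) := by
    intro k
    change (((Dh.toHomUnits u) ^ k : (AddMonoid.End V)ˣ) : AddMonoid.End V) = Dh (u ^ k)
    rw [← map_pow]; rfl
  have hA : A ^ (2 * n) = 1 := by
    rw [← map_pow, ← hu, pow_orderOf_eq_one, map_one]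
  have hX : X * X = A ^ n := by
    apply Units.ext
    rw [hApow]
    change Xe * Xe = _
    rw [hXX]
    have huninv : (((u ^ n)⁻¹ : (ZMod p)ˣ) : ZMod p) = -1 := by
      have h1 : (u ^ n)⁻¹ = u ^ n := by
        rw [inv_eq_iff_mul_eq_one, ← pow_add, ← two_mul, ← hu, pow_orderOf_eq_one]
      rw [h1, hun]
    ext v
    · change -v.1 = ((u ^ n : (ZMod p)ˣ) : ZMod p) * v.1
      rw [hun]; ring
    · change -v.2 = (((u ^ n)⁻¹ : (ZMod p)ˣ) : ZMod p) * v.2
      rw [huninv]; ring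
  have hXA : A * X = X * A⁻¹ := by
    rw [eq_mul_inv_iff_mul_eq]
    apply Units.ext
    change D u * Xe * D u = Xe
    ext v
    · change (u : ZMod p) * (-(((u⁻¹ : (ZMod p)ˣ) : ZMod p) * v.2)) = -v.2
      have : (u : ZMod p) * ((u⁻¹ : (ZMod p)ˣ) : ZMod p) = 1 := Units.mul_inv u
      linear_combination (-v.2) * this
    · change ((u⁻¹ : (ZMod p)ˣ) : ZMod p) * ((u : ZMod p) * v.1) = v.1
      rw [← mul_assoc, Units.inv_mul, one_mul]
  let f : QuaternionGroup n →* AddMonoid.End V := (Units.coeHom _).comp (lift hA hX hXA)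
  have h2ne : (2 : ZMod p) ≠ 0 := by
    intro h
    have h3 : ((2 : ℕ) : ZMod p) = 0 := by exact_mod_cast h
    rw [ZMod.natCast_eq_zero_iff] at h3
    have := Nat.le_of_dvd (by norm_num) h3
    omega
  haveI : Nontrivial (QuaternionGroup n) := by
    rw [← Fintype.one_lt_card_iff_nontrivial, QuaternionGroup.card]; omega
  obtain ⟨L, iL, fL, K, hK, ⟨hKe⟩, _⟩ := exists_frob_of_hom (V := V) f (by
    intro h hh v hv
    cases h with
    | a i =>
      have h1 : D (u ^ i.val) v = v := by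
        rw [← hApow]; exact hv
      have hi : u ^ i.val ≠ 1 := by
        intro h2
        apply hh
        have h3 := orderOf_dvd_of_pow_eq_one h2
        rw [hu] at h3
        have h4 : i.val = 0 := Nat.eq_zero_of_dvd_of_lt h3 i.val_lt
        rw [(ZMod.val_eq_zero i).1 h4]; rfl
      have h5 : ∀ (w : (ZMod p)ˣ) (x : ZMod p), w ≠ 1 → (w : ZMod p) * x = x → x = 0 := by
        intro w x hw hx
        have h6 : ((w : ZMod p) - 1) * x = 0 := by rw [sub_mul, hx, one_mul, sub_self]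
        rcases mul_eq_zero.1 h6 with h7 | h7
        · exfalso
          apply hw
          apply Units.ext
          rw [sub_eq_zero] at h7
          exact h7
        · exact h7
      rw [hD] at h1
      refine Prod.ext (h5 _ _ hi (congrArg Prod.fst h1)) (h5 _ _ ?_ (congrArg Prod.snd h1))
      intro h8
      exact hi (inv_eq_one.1 h8)
    | xa i =>
      have h1 : Xe (D (u ^ i.val) v) = v := by
        rw [← hApow]; exact hv
      set w := u ^ i.val with hw
      have h2 : -((((w⁻¹ : (ZMod p)ˣ)) : ZMod p) * v.2) = v.1 := congrArg Prod.fst h1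
      have h3 : (w : ZMod p) * v.1 = v.2 := congrArg Prod.snd h1
      have h4 : (2 : ZMod p) * v.1 = 0 := by
        have h5 : (((w⁻¹ : (ZMod p)ˣ)) : ZMod p) * w = 1 := Units.inv_mul w
        rw [← h3] at h2
        linear_combination (-1 : ZMod p) * h2 - v.1 * h5
      have h6 : v.1 = 0 := (mul_eq_zero.1 h4).resolve_left h2ne
      refine Prod.ext h6 ?_
      rw [← h3, h6, mul_zero]; rfl)
  exact ⟨L, iL, fL, K, hK, ⟨hKe.symm⟩⟩

end Cfsg.Agent.S4297
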