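import Cfsg.Statements.S4298
import Mathlib
import Cfsg.Agent.H3.FrobAct

set_option autoImplicit false
open Cfsg

namespace Cfsg.Agent.S4298

open Cfsg.Agent.H3.FrobAct

/-- table of an embedding `SL(2,3) → SL(2,5)`, base 5 digits. -/
def tabN : ℕ := 42771795176499475642416001796499965704288756431626376599726858050808654621533168562510512941817248800069835674843348921482187259339660187818645644014161078478156133591665399822308597788111939053123933263123035430908203125000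

def ent (a b c d : ZMod 3) (k : ℕ) : ZMod 5 :=
  ((tabN / 5 ^ (4 * (a.val * 27 + b.val * 9 + c.val * 3 + d.val) + k) % 5 : ℕ) : ZMod 5)

set_option maxRecDepth 100000 in
theorem ent_mul : ∀ a b c d : ZMod 3, a * d - b * c = 1 → ∀ a' b' c' d' : ZMod 3, a' * d' - b' * c' = 1 →
    ent (a * a' + b * c') (a * b' + b * d') (c * a' + d * c') (c * b' + d * d') 0 =
      ent a b c d 0 * ent a' b' c' d' 0 + ent a b c d 1 * ent a' b' c' d' 2 ∧
    ent (a * a' + b * c') (a * b' + b * d') (c * a' + d * c') (c * b' + d * d') 1 =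
      ent a b c d 0 * ent a' b' c' d' 1 + ent a b c d 1 * ent a' b' c' d' 3 ∧
    ent (a * a' + b * c') (a * b' + b * d') (c * a' + d * c') (c * b' + d * d') 2 =
      ent a b c d 2 * ent a' b' c' d' 0 + ent a b c d 3 * ent a' b' c' d' 2 ∧
    ent (a * a' + b * c') (a * b' + b * d') (c * a' + d * c') (c * b' + d * d') 3 =
      ent a b c d 2 * ent a' b' c' d' 1 + ent a b c d 3 * ent a' b' c' d' 3 := by
  decide +kernel

theorem ent_one : ent 1 0 0 1 0 = 1 ∧ ent 1 0 0 1 1 = 0 ∧ ent 1 0 0 1 2 = 0 ∧ ent 1 0 0 1 3 = 1 := by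
  decide +kernel

set_option maxRecDepth 100000 in
theorem ent_free : ∀ a b c d : ZMod 3, a * d - b * c = 1 → ¬ (a = 1 ∧ b = 0 ∧ c = 0 ∧ d = 1) →
    ∀ x y : ZMod 5, ent a b c d 0 * x + ent a b c d 1 * y = x →
    ent a b c d 2 * x + ent a b c d 3 * y = y → x = 0 ∧ y = 0 := by
  decide +kernel

/-- The group SL(2,3) of order 24 (the binary tetrahedral group) occurs as a Frobenius complement of some finite Frobenius group. -/
theorem result :
    ∃ (L : Type) (_ : Group L) (_ : Finite L) (H : Subgroup L), Cfsg.IsFrobeniusComplement H ∧ Nonempty (H ≃* Matrix.SpecialLinearGroup (Fin 2) (ZMod 3)) := by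
  have hdet : ∀ M : Matrix.SpecialLinearGroup (Fin 2) (ZMod 3), M.1 0 0 * M.1 1 1 - M.1 0 1 * M.1 1 0 = 1 := by
    intro M
    rw [← Matrix.det_fin_two]; exact M.2
  let V := ZMod 5 × ZMod 5
  let F : Matrix.SpecialLinearGroup (Fin 2) (ZMod 3) → AddMonoid.End V := fun M =>
    { toFun := fun v => (ent (M.1 0 0) (M.1 0 1) (M.1 1 0) (M.1 1 1) 0 * v.1 + ent (M.1 0 0) (M.1 0 1) (M.1 1 0) (M.1 1 1) 1 * v.2,
        ent (M.1 0 0) (M.1 0 1) (M.1 1 0) (M.1 1 1) 2 * v.1 + ent (M.1 0 0) (M.1 0 1) (M.1 1 0) (M.1 1 1) 3 * v.2)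
      map_zero' := by
        refine Prod.ext ?_ ?_
        · change _ * (0 : ZMod 5) + _ * (0 : ZMod 5) = 0
          simp
        · change _ * (0 : ZMod 5) + _ * (0 : ZMod 5) = 0
          simp
      map_add' := fun v w => by
        refine Prod.ext ?_ ?_
        · change _ * (v.1 + w.1) + _ * (v.2 + w.2) = (_ * v.1 + _ * v.2) + (_ * w.1 + _ * w.2)
          ring
        · change _ * (v.1 + w.1) + _ * (v.2 + w.2) = (_ * v.1 + _ * v.2) + (_ * w.1 + _ * w.2)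
          ring }
  let f : Matrix.SpecialLinearGroup (Fin 2) (ZMod 3) →* AddMonoid.End V :=
    { toFun := F
      map_one' := by
        ext v
        · change ent 1 0 0 1 0 * v.1 + ent 1 0 0 1 1 * v.2 = v.1
          rw [ent_one.1, ent_one.2.1]; ring
        · change ent 1 0 0 1 2 * v.1 + ent 1 0 0 1 3 * v.2 = v.2
          rw [ent_one.2.2.1, ent_one.2.2.2]; ring
      map_mul' := fun M N => by
        obtain ⟨h0, h1, h2, h3⟩ := ent_mul _ _ _ _ (hdet M) _ _ _ _ (hdet N)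
        have e00 : (M * N).1 0 0 = M.1 0 0 * N.1 0 0 + M.1 0 1 * N.1 1 0 := by
          change (M.1 * N.1) 0 0 = _
          rw [Matrix.mul_apply, Fin.sum_univ_two]
        have e01 : (M * N).1 0 1 = M.1 0 0 * N.1 0 1 + M.1 0 1 * N.1 1 1 := by
          change (M.1 * N.1) 0 1 = _
          rw [Matrix.mul_apply, Fin.sum_univ_two]
        have e10 : (M * N).1 1 0 = M.1 1 0 * N.1 0 0 + M.1 1 1 * N.1 1 0 := by
          change (M.1 * N.1) 1 0 = _
          rw [Matrix.mul_apply, Fin.sum_univ_two]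
        have e11 : (M * N).1 1 1 = M.1 1 0 * N.1 0 1 + M.1 1 1 * N.1 1 1 := by
          change (M.1 * N.1) 1 1 = _
          rw [Matrix.mul_apply, Fin.sum_univ_two]
        ext v
        · change ent ((M * N).1 0 0) ((M * N).1 0 1) ((M * N).1 1 0) ((M * N).1 1 1) 0 * v.1 +
            ent ((M * N).1 0 0) ((M * N).1 0 1) ((M * N).1 1 0) ((M * N).1 1 1) 1 * v.2 =
            ent (M.1 0 0) (M.1 0 1) (M.1 1 0) (M.1 1 1) 0 * (ent (N.1 0 0) (N.1 0 1) (N.1 1 0) (N.1 1 1) 0 * v.1 + ent (N.1 0 0) (N.1 0 1) (N.1 1 0) (N.1 1 1) 1 * v.2) +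
            ent (M.1 0 0) (M.1 0 1) (M.1 1 0) (M.1 1 1) 1 * (ent (N.1 0 0) (N.1 0 1) (N.1 1 0) (N.1 1 1) 2 * v.1 + ent (N.1 0 0) (N.1 0 1) (N.1 1 0) (N.1 1 1) 3 * v.2)
          rw [e00, e01, e10, e11, h0, h1]; ring
        · change ent ((M * N).1 0 0) ((M * N).1 0 1) ((M * N).1 1 0) ((M * N).1 1 1) 2 * v.1 +
            ent ((M * N).1 0 0) ((M * N).1 0 1) ((M * N).1 1 0) ((M * N).1 1 1) 3 * v.2 =
            ent (M.1 0 0) (M.1 0 1) (M.1 1 0) (M.1 1 1) 2 * (ent (N.1 0 0) (N.1 0 1) (N.1 1 0) (N.1 1 1) 0 * v.1 + ent (N.1 0 0) (N.1 0 1) (N.1 1 0) (N.1 1 1) 1 * v.2) +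
            ent (M.1 0 0) (M.1 0 1) (M.1 1 0) (M.1 1 1) 3 * (ent (N.1 0 0) (N.1 0 1) (N.1 1 0) (N.1 1 1) 2 * v.1 + ent (N.1 0 0) (N.1 0 1) (N.1 1 0) (N.1 1 1) 3 * v.2)
          rw [e00, e01, e10, e11, h2, h3]; ring }
  haveI : Nontrivial (Matrix.SpecialLinearGroup (Fin 2) (ZMod 3)) := by
    refine ⟨⟨1, -1, ?_⟩⟩
    intro h
    have h1 : (1 : Matrix (Fin 2) (Fin 2) (ZMod 3)) 0 0 = (-1 : Matrix (Fin 2) (Fin 2) (ZMod 3)) 0 0 := by
      have := congrArg (fun M : Matrix.SpecialLinearGroup (Fin 2) (ZMod 3) => M.1 0 0) h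
      simpa using this
    revert h1
    decide
  haveI : Nontrivial V := ⟨⟨((1 : ZMod 5), (0 : ZMod 5)), ((0 : ZMod 5), (0 : ZMod 5)), by decide⟩⟩
  haveI : Finite V := inferInstanceAs (Finite (ZMod 5 × ZMod 5))
  obtain ⟨L, iL, fL, K, hK, ⟨hKe⟩, _⟩ := exists_frob_of_hom (V := V) f (by
    intro M hM v hv
    have h1 : ent (M.1 0 0) (M.1 0 1) (M.1 1 0) (M.1 1 1) 0 * v.1 + ent (M.1 0 0) (M.1 0 1) (M.1 1 0) (M.1 1 1) 1 * v.2 = v.1 :=
      congrArg Prod.fst hv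
    have h2 : ent (M.1 0 0) (M.1 0 1) (M.1 1 0) (M.1 1 1) 2 * v.1 + ent (M.1 0 0) (M.1 0 1) (M.1 1 0) (M.1 1 1) 3 * v.2 = v.2 :=
      congrArg Prod.snd hv
    obtain ⟨h3, h4⟩ := ent_free _ _ _ _ (hdet M) (by
      rintro ⟨a1, a2, a3, a4⟩
      apply hM
      apply Matrix.SpecialLinearGroup.ext
      intro i j
      fin_cases i <;> fin_cases j
      · exact a1
      · exact a2
      · exact a3
      · exact a4) _ _ h1 h2
    exact Prod.ext h3 h4)
  exact ⟨L, iL, fL, K, hK, ⟨hKe.symm⟩⟩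

end Cfsg.Agent.S4298
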