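import Cfsg.Statements.S4299
import Mathlib
import Cfsg.Agent.H3.FrobAct

set_option autoImplicit false
open Cfsg

namespace Cfsg.Agent.S4299

open Cfsg.Agent.H3.FrobAct

/-- Every nontrivial finite cyclic group occurs as a Frobenius complement of some finite Frobenius group. -/
theorem result {C : Type*} [Group C] [Finite C] [IsCyclic C] [Nontrivial C] :
    ∃ (L : Type) (_ : Group L) (_ : Finite L) (H : Subgroup L), Cfsg.IsFrobeniusComplement H ∧ Nonempty (C ≃* H) := by
  set n := Nat.card C with hn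
  have hn0 : n ≠ 0 := Nat.card_pos.ne'
  obtain ⟨p, hp, _, hmod⟩ := Nat.exists_prime_gt_modEq_one (k := n) 1 hn0
  haveI : Fact p.Prime := ⟨hp⟩
  have hdvd : n ∣ p - 1 := (Nat.modEq_iff_dvd' hp.one_lt.le).1 hmod.symm
  have hcU : Nat.card (ZMod p)ˣ = p - 1 := by
    rw [Nat.card_eq_fintype_card, ZMod.card_units]
  obtain ⟨u, hu⟩ := IsCyclic.exists_ofOrder_eq_natCard (α := (ZMod p)ˣ)
  rw [hcU] at hu
  obtain ⟨m, hm⟩ := hdvd
  have hm0 : m ≠ 0 := by
    rintro rfl
    have := hp.one_lt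
    omega
  have hum : orderOf (u ^ m) = n := by
    rw [orderOf_pow_of_dvd hm0 (by rw [hu, hm]; exact Dvd.intro_left _ rfl), hu, hm,
      Nat.mul_div_cancel _ (Nat.pos_of_ne_zero hm0)]
  have e : C ≃* Subgroup.zpowers (u ^ m) := mulEquivOfCyclicCardEq (by rw [Nat.card_zpowers, hum])
  let f : C →* AddMonoid.End (ZMod p) :=
    ((DistribMulAction.toAddMonoidEnd (ZMod p)ˣ (ZMod p)).comp (Subgroup.zpowers (u ^ m)).subtype).comp e.toMonoidHom
  obtain ⟨L, iL, fL, K, hK, hKe, _⟩ := exists_frob_of_hom f (by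
    intro h hh v hv
    have h1 : (((e h : Subgroup.zpowers (u ^ m)) : (ZMod p)ˣ) : ZMod p) * v = v := hv
    have h2 : ((((e h : Subgroup.zpowers (u ^ m)) : (ZMod p)ˣ) : ZMod p) - 1) * v = 0 := by
      rw [sub_mul, h1, one_mul, sub_self]
    rcases mul_eq_zero.1 h2 with h3 | h3
    · exfalso
      apply hh
      apply e.injective
      rw [map_one]
      apply Subtype.ext
      apply Units.ext
      rw [sub_eq_zero] at h3
      exact h3
    · exact h3)
  exact ⟨L, iL, fL, K, hK, hKe⟩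

end Cfsg.Agent.S4299
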