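import Cfsg.Statements.S4300
import Mathlib

set_option autoImplicit false
open Cfsg

namespace Cfsg.Agent.S4300

/-- Let G act faithfully and primitively on a set X, and suppose the stabilizer of some point is a simple group. Then either G is simple, or G has a normal subgroup, neither trivial nor the whole group, that acts regularly on X (transitively with trivial point stabilizers). -/
theorem result {G : Type*} [Group G] {X : Type*} [MulAction G X] [FaithfulSMul G X]
    (hprim : MulAction.IsPreprimitive G X) (x : X) (hsimple : IsSimpleGroup (MulAction.stabilizer G x)) :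
    IsSimpleGroup G ∨ ∃ N : Subgroup G, N.Normal ∧ N ≠ ⊥ ∧ N ≠ ⊤ ∧
      MulAction.IsPretransitive N X ∧ ∀ y : X, MulAction.stabilizer N y = ⊥ := by
  by_cases hs : IsSimpleGroup G
  · exact Or.inl hs
  right
  have hstab : Nontrivial (MulAction.stabilizer G x) := hsimple.toNontrivial
  obtain ⟨s, hs1⟩ := exists_ne (1 : MulAction.stabilizer G x)
  have hG : Nontrivial G := ⟨s, 1, fun h => hs1 (Subtype.ext h)⟩
  have : ∃ N : Subgroup G, N.Normal ∧ N ≠ ⊥ ∧ N ≠ ⊤ := by
    by_contra hcon
    push Not at hcon
    apply hs
    refine ⟨fun N hN => ?_⟩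
    by_cases h : N = ⊥
    · exact Or.inl h
    · exact Or.inr (hcon N hN h)
  obtain ⟨N, hN, hNb, hNt⟩ := this
  have hfix : MulAction.fixedPoints N X ≠ Set.univ := by
    intro h
    apply hNb
    rw [eq_bot_iff]
    intro n hn
    rw [Subgroup.mem_bot]
    apply FaithfulSMul.eq_of_smul_eq_smul (α := X)
    intro y
    have : y ∈ MulAction.fixedPoints N X := by rw [h]; trivial
    rw [one_smul]
    exact this ⟨n, hn⟩
  have htr : MulAction.IsPretransitive N X :=
    MulAction.IsQuasiPreprimitive.isPretransitive_of_normal (G := G) hfix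
  have hinter : (N.subgroupOf (MulAction.stabilizer G x)) = ⊥ ∨ (N.subgroupOf (MulAction.stabilizer G x)) = ⊤ :=
    hsimple.eq_bot_or_eq_top_of_normal _ inferInstance
  rcases hinter with hi | hi
  · refine ⟨N, hN, hNb, hNt, htr, ?_⟩
    have hx : MulAction.stabilizer N x = ⊥ := by
      rw [eq_bot_iff]
      rintro ⟨n, hn⟩ hnx
      have hnx' : n • x = x := hnx
      have : (⟨n, hnx'⟩ : MulAction.stabilizer G x) ∈ N.subgroupOf (MulAction.stabilizer G x) := hn
      rw [hi, Subgroup.mem_bot] at this
      have h3 : n = 1 := congrArg Subtype.val this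
      exact Subgroup.mem_bot.2 (Subtype.ext h3)
    intro y
    obtain ⟨n, hn⟩ := htr.exists_smul_eq x y
    rw [← hn, MulAction.stabilizer_smul_eq_stabilizer_map_conj, hx, Subgroup.map_bot]
  · exfalso
    apply hNt
    rw [Subgroup.subgroupOf_eq_top] at hi
    rw [eq_top_iff]
    intro g _
    obtain ⟨n, hn⟩ := htr.exists_smul_eq x (g • x)
    have hn' : (n : G) • x = g • x := hn
    have : (n : G)⁻¹ * g ∈ MulAction.stabilizer G x := by
      rw [MulAction.mem_stabilizer_iff, mul_smul, ← hn', inv_smul_smul]
    have h2 := N.mul_mem n.2 (hi this)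
    simpa using h2

end Cfsg.Agent.S4300
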