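import Cfsg.Statements.S4304
import Mathlib
import Cfsg.Agent.H3.SylDouble

set_option autoImplicit false
open Cfsg

namespace Cfsg.Agent.S4304

open Cfsg.Agent.H3.SylDouble

/-- No finite group has exactly 15 Sylow 7-subgroups. -/
theorem result {G : Type*} [Group G] [Finite G] : Nat.card (Sylow 7 G) ≠ 15 := by
  haveI : Fact (Nat.Prime 7) := ⟨by norm_num⟩
  haveI : Fact (Nat.Prime 5) := ⟨by norm_num⟩
  refine reduce (p := 7) (by norm_num) ?_ (Nat.card G) G rfl
  intro H _ _ hnorm _ hd
  obtain ⟨d, hd6, hodd, hc⟩ := hd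
  have hd' : d = 1 ∨ d = 3 := by
    have h1 : d ≤ 6 := Nat.le_of_dvd (by norm_num) hd6
    interval_cases d <;> simp_all (config := { decide := true })
  refine burnside_final (q := 5) (m := 2 * 7 + 1) hnorm (by norm_num) (by norm_num) ?_ ?_ ?_
  · rw [hc]; rcases hd' with rfl | rfl <;> norm_num
  · rw [hc]; rcases hd' with rfl | rfl <;> norm_num
  · intro Q
    have h1 := Subgroup.card_subgroup_dvd_card (Subgroup.normalizer ((Q : Subgroup H) : Set H))
    rw [hc] at h1
    refine Nat.Coprime.coprime_dvd_left h1 ?_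
    rcases hd' with rfl | rfl <;> norm_num

end Cfsg.Agent.S4304
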