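import Cfsg.Statements.S4422
import Mathlib

set_option autoImplicit false
open Cfsg

namespace Cfsg.Agent.S4422

/-- Primitive divisors of `q^e - 1` are congruent to 1 modulo `e`. Let `q ≥ 2` and `e ≥ 1` be natural numbers and let `m` be a divisor of `q^e - 1` that is coprime to `q^i - 1` for every `1 ≤ i < e` (so `m` divides the primitive part of `q^e - 1`, the largest such divisor). Then `m ≡ 1 (mod e)`. -/
theorem result (q e m : ℕ) (hq : 2 ≤ q) (he : 1 ≤ e)
    (hm : m ∣ q ^ e - 1) (hcop : ∀ i : ℕ, 1 ≤ i → i < e → Nat.Coprime m (q ^ i - 1)) :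
    m % e = 1 % e := by
  have key : ∀ n : ℕ, n ≠ 0 → (∀ r : ℕ, r.Prime → r ∣ n → r ≡ 1 [MOD e]) → n ≡ 1 [MOD e] := by
    intro n
    induction n using Nat.recOnMul with
    | zero => intro h; exact absurd rfl h
    | one => intros; rfl
    | prime p hp => intro _ h; exact h p hp dvd_rfl
    | mul a b iha ihb =>
      intro hab h
      have ha := iha (left_ne_zero_of_mul hab) (fun r hr hra => h r hr (hra.mul_right b))
      have hb := ihb (right_ne_zero_of_mul hab) (fun r hr hrb => h r hr (hrb.mul_left a))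
      simpa using Nat.ModEq.mul ha hb
  have hqe : 0 < q ^ e - 1 := by
    have : 1 < q ^ e := Nat.one_lt_pow (by omega) (by omega)
    omega
  have hm0 : m ≠ 0 := by
    rintro rfl
    rw [zero_dvd_iff] at hm; omega
  refine key m hm0 ?_
  intro r hr hrm
  haveI : Fact r.Prime := ⟨hr⟩
  have hcast : ∀ i : ℕ, r ∣ q ^ i - 1 ↔ ((q : ZMod r)) ^ i = 1 := by
    intro i
    have h1 : 1 ≤ q ^ i := Nat.one_le_pow _ _ (by omega)
    rw [← ZMod.natCast_eq_zero_iff, Nat.cast_sub h1, Nat.cast_pow, Nat.cast_one, sub_eq_zero]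
  have he1 : (q : ZMod r) ^ e = 1 := (hcast e).1 (hrm.trans hm)
  have hdvd : orderOf (q : ZMod r) ∣ e := orderOf_dvd_of_pow_eq_one he1
  have hpos : 0 < orderOf (q : ZMod r) := Nat.pos_of_dvd_of_pos hdvd (by omega)
  have heq : orderOf (q : ZMod r) = e := by
    by_contra hne
    have hlt : orderOf (q : ZMod r) < e := lt_of_le_of_ne (Nat.le_of_dvd (by omega) hdvd) hne
    have h1 := hcop _ hpos hlt
    have h2 : r ∣ q ^ orderOf (q : ZMod r) - 1 := (hcast _).2 (pow_orderOf_eq_one _)
    have h3 : r ∣ 1 := by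
      rw [← h1]; exact Nat.dvd_gcd hrm h2
    exact hr.one_lt.ne' (Nat.dvd_one.1 h3)
  have hq0 : (q : ZMod r) ≠ 0 := by
    intro h0
    rw [h0, zero_pow (by omega)] at he1
    exact zero_ne_one he1
  have h4 := ZMod.orderOf_dvd_card_sub_one hq0
  rw [heq] at h4
  exact ((Nat.modEq_iff_dvd' hr.one_lt.le).2 h4).symm

end Cfsg.Agent.S4422
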