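import Cfsg.Statements.S4425
import Cfsg.Agent.Lib.BlockInt

set_option autoImplicit false
set_option linter.style.haveILetI false
set_option linter.unusedVariables false
open Cfsg

namespace Cfsg.Agent.S4425
open Cfsg.Agent.Lib.BlockInt Cfsg.Agent.Lib.BlockIndIn Cfsg.Agent.Lib.BlockMaxB Cfsg.Agent.Lib.BlockMax Cfsg.Agent.Lib.BlockNilC Cfsg.Agent.Lib.BlockNilB Cfsg.Agent.Lib.BlockNil Cfsg.Agent.Lib.BlockFusB Cfsg.Agent.Lib.BlockFus Cfsg.Agent.Lib.BlockPairF Cfsg.Agent.Lib.BlockPairE Cfsg.Agent.Lib.BlockPairD Cfsg.Agent.Lib.BlockPairC Cfsg.Agent.Lib.BlockPairB Cfsg.Agent.Lib.BlockPair Cfsg.Agent.Lib.BlockBP Cfsg.Agent.Lib.BlockCovB Cfsg.Agent.Lib.BlockTr Cfsg.Agent.Lib.BlockMoreB Cfsg.Agent.Lib.BlockMore Cfsg.Agent.Lib.BlockQuotB Cfsg.Agent.Lib.BlockQuot Cfsg.Agent.Lib.BlockCov Cfsg.Agent.Lib.BlockM Cfsg.Agent.Lib.BlockHt Cfsg.Agent.Lib.BlockFirst Cfsg.Agent.Lib.BlockSecond Cfsg.Agent.Lib.BlockInd Cfsg.Agent.Lib.BlockNP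 Cfsg.Agent.Lib.BlockDeg Cfsg.Agent.Lib.BlockDef Cfsg.Agent.Lib.BlockRed Cfsg.Agent.Lib.BlockOrth Cfsg.Agent.Lib.BlockIdem Cfsg.Agent.Lib.BlockGA Cfsg.Agent.Lib.BlockLoc Cfsg.Agent.Lib.CharBasic Cfsg.Agent.Lib.BlockPP Cfsg.Agent.Lib.CharNormal Cfsg.Agent.Lib.CharPerm Cfsg.Agent.Lib.CharPermB
open scoped ComplexConjugate



/-- Let χ be an irreducible character of the finite group G, p a prime, p^a the p-part of the order of G and p^b the p-part of the degree χ(1). Let χ̃ be the class function equal to p^a · χ on p-regular elements and zero on p-singular elements. Then p^(−b) · χ̃ is a generalized character of G, while p^(−(b+1)) · χ̃ is not. -/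
theorem result {G : Type*} [Group G] [Finite G] (p : ℕ) [Fact p.Prime] (χ : Cfsg.IrrCharacter G) : Cfsg.IsGeneralizedCharacter G (fun x : G => if p ∣ orderOf x then (0 : ℂ) else ((p ^ ((Nat.card G).factorization p - (Cfsg.charDegree (χ : G → ℂ)).factorization p) : ℕ) : ℂ) * (χ : G → ℂ) x) ∧ ¬ Cfsg.IsGeneralizedCharacter G (fun x : G => if p ∣ orderOf x then (0 : ℂ) else ((p ^ (Nat.card G).factorization p : ℕ) : ℂ) / ((p ^ ((Cfsg.charDegree (χ : G → ℂ)).factorization p + 1) : ℕ) : ℂ) * (χ : G → ℂ) x) := by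
  cases nonempty_fintype G
  have hp : p.Prime := Fact.out
  refine ⟨gen_reg_exact hp χ, ?_⟩
  intro h
  obtain ⟨k, hk⟩ := gen_one_dvd hp h (fun g hg => by simp only [if_pos hg])
  have h1 : ¬ p ∣ orderOf (1 : G) := by rw [orderOf_one]; exact hp.one_lt.ne' ∘ Nat.dvd_one.1
  simp only [if_neg h1] at hk
  have hp0 : (p : ℂ) ≠ 0 := Nat.cast_ne_zero.2 hp.ne_zero
  have hpa0 : ((p ^ (Nat.card G).factorization p : ℕ) : ℂ) ≠ 0 := by
    push_cast; exact pow_ne_zero _ hp0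
  have hpb0 : ((p ^ ((charDegree χ.1).factorization p + 1) : ℕ) : ℂ) ≠ 0 := by
    push_cast; exact pow_ne_zero _ hp0
  rw [div_mul_eq_mul_div, mul_div_assoc] at hk
  have h2 := mul_left_cancel₀ hpa0 hk
  rw [div_eq_iff hpb0, ← charDegree_cast (isChar_of_irr χ.2)] at h2
  have h3 : ((charDegree χ.1 : ℕ) : ℤ) = k * ((p ^ ((charDegree χ.1).factorization p + 1) : ℕ) : ℤ) := by
    exact_mod_cast h2
  have h4 : p ^ ((charDegree χ.1).factorization p + 1) ∣ charDegree χ.1 := by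
    rw [← Int.natCast_dvd_natCast, h3]
    exact Dvd.intro_left _ rfl
  have h5 := (hp.pow_dvd_iff_le_factorization (charDegree_ne_zero χ.2)).1 h4
  omega

end Cfsg.Agent.S4425
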