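import Cfsg.Statements.S4426
import Cfsg.Agent.Lib.BlockInt

set_option autoImplicit false
set_option linter.style.haveILetI false
set_option linter.unusedVariables false
open Cfsg

namespace Cfsg.Agent.S4426
open Cfsg.Agent.Lib.BlockInt Cfsg.Agent.Lib.BlockIndIn Cfsg.Agent.Lib.BlockMaxB Cfsg.Agent.Lib.BlockMax Cfsg.Agent.Lib.BlockNilC Cfsg.Agent.Lib.BlockNilB Cfsg.Agent.Lib.BlockNil Cfsg.Agent.Lib.BlockFusB Cfsg.Agent.Lib.BlockFus Cfsg.Agent.Lib.BlockPairF Cfsg.Agent.Lib.BlockPairE Cfsg.Agent.Lib.BlockPairD Cfsg.Agent.Lib.BlockPairC Cfsg.Agent.Lib.BlockPairB Cfsg.Agent.Lib.BlockPair Cfsg.Agent.Lib.BlockBP Cfsg.Agent.Lib.BlockCovB Cfsg.Agent.Lib.BlockTr Cfsg.Agent.Lib.BlockMoreB Cfsg.Agent.Lib.BlockMore Cfsg.Agent.Lib.BlockQuotB Cfsg.Agent.Lib.BlockQuot Cfsg.Agent.Lib.BlockCov Cfsg.Agent.Lib.BlockM Cfsg.Agent.Lib.BlockHt Cfsg.Agent.Lib.BlockFirst Cfsg.Agent.Lib.BlockSecond Cfsg.Agent.Lib.BlockInd Cfsg.Agent.Lib.BlockNP Cfsg.Agent.Lib.BlockDeg Cfsg.Agent.Lib.BlockDef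 Cfsg.Agent.Lib.BlockRed Cfsg.Agent.Lib.BlockOrth Cfsg.Agent.Lib.BlockIdem Cfsg.Agent.Lib.BlockGA Cfsg.Agent.Lib.BlockLoc Cfsg.Agent.Lib.CharBasic Cfsg.Agent.Lib.BlockPP Cfsg.Agent.Lib.CharNormal Cfsg.Agent.Lib.CharPerm Cfsg.Agent.Lib.CharPermB
open scoped ComplexConjugate



/-- Let χ be an irreducible character in the p-block B of the finite group G (relative to a maximal ideal M of the algebraic integers containing p), let p^a be the p-part of the order of G, and let χ̃ be the class function equal to p^a · χ on p-regular elements and zero elsewhere. For ξ ∈ B the inner product [χ̃, ξ] is an integer. The following are equivalent: (a) χ has height zero in B; (b) for some ξ ∈ B the integer [χ̃, ξ] is nonzero and the exact power of p dividing it equals the exact power of p dividing ξ(1); (c) the same holds for every ξ ∈ B. -/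
theorem result {G : Type*} [Group G] [Fintype G] (p : ℕ) [Fact p.Prime] (M : Ideal Cfsg.AlgInt) (hM : Cfsg.IsPModular p M) (B : Set (Cfsg.IrrCharacter G)) (hB : Cfsg.IsPBlock M B) (χ : Cfsg.IrrCharacter G) (hχ : χ ∈ B) : (Cfsg.blockHeight p B (χ : G → ℂ) = 0 ↔ ∃ ξ ∈ B, ∃ n : ℤ, Cfsg.classInner (fun x : G => if p ∣ orderOf x then (0 : ℂ) else ((p ^ (Nat.card G).factorization p : ℕ) : ℂ) * (χ : G → ℂ) x) (ξ : G → ℂ) = (n : ℂ) ∧ n ≠ 0 ∧ padicValInt p n = (Cfsg.charDegree (ξ : G → ℂ)).factorization p) ∧ (Cfsg.blockHeight p B (χ : G → ℂ) = 0 ↔ ∀ ξ ∈ B, ∃ n : ℤ, Cfsg.classInner (fun x : G => if p ∣ orderOf x then (0 : ℂ) else ((p ^ (Nat.card G).factorization p : ℕ) : ℂ) * (χ : G → ℂ) x) (ξ : G → ℂ) = (n : ℂ) ∧ n ≠ 0 ∧ padicValInt p n = (Cfsg.charDegree (ξ : G → ℂ)).factorization p) := by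
  classical
  have hp := hM.1
  have hp0 : (p : ℂ) ≠ 0 := Nat.cast_ne_zero.2 hp.ne_zero
  have hpa0 : ((p ^ (Nat.card G).factorization p : ℕ) : ℂ) ≠ 0 := by
    push_cast; exact pow_ne_zero _ hp0
  obtain ⟨m, hm⟩ := Nat.ordProj_dvd (Nat.card G) p
  have hmp : ¬ p ∣ m := by
    intro h
    have h1 : p ^ ((Nat.card G).factorization p + 1) ∣ Nat.card G := by
      rw [pow_succ]; conv_rhs => rw [hm]
      exact Nat.mul_dvd_mul_left _ h
    have := (hp.pow_dvd_iff_le_factorization Nat.card_pos.ne').1 h1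
    omega
  -- the key computation
  have key : ∀ ξ : IrrCharacter G, ξ ∈ B → ∃ n : ℤ, classInner (fun x : G => if p ∣ orderOf x then (0 : ℂ) else ((p ^ (Nat.card G).factorization p : ℕ) : ℂ) * (χ : G → ℂ) x) (ξ : G → ℂ) = (n : ℂ) ∧
      (blockHeight p B χ.1 = 0 ↔ n ≠ 0 ∧ padicValInt p n = (charDegree ξ.1).factorization p) := by
    intro ξ hξ
    obtain ⟨n, hn⟩ := gen_int_inner (gen_reg hp (isChar_of_irr χ.2)) ξ
    refine ⟨n, hn, ?_⟩
    -- `m n = ξ(1) w`
    have e1 := inner_reg_eq (p := p) χ ξ ((p ^ (Nat.card G).factorization p : ℕ) : ℂ)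
    rw [hn, om_zr_symm (char_one_ne χ.2) (char_one_ne ξ.2)] at e1
    have e2 : (m : ℂ) * n = (charDegree ξ.1 : ℂ) * om ξ.1 (zr p χ.1) := by
      apply mul_left_cancel₀ hpa0
      rw [← mul_assoc, ← Nat.cast_mul, ← hm, e1, charDegree_cast (isChar_of_irr ξ.2)]
    obtain ⟨u, hu⟩ := Nat.ordProj_dvd (charDegree ξ.1) p
    have hup : ¬ p ∣ u := by
      intro h
      have h1 : p ^ ((charDegree ξ.1).factorization p + 1) ∣ charDegree ξ.1 := by
        rw [pow_succ]; conv_rhs => rw [hu]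
        exact Nat.mul_dvd_mul_left _ h
      have := (hp.pow_dvd_iff_le_factorization (charDegree_ne_zero ξ.2)).1 h1
      omega
    have hpb0 : ((p ^ (charDegree ξ.1).factorization p : ℕ) : ℂ) ≠ 0 := by
      push_cast; exact pow_ne_zero _ hp0
    have hw : MemLocalRing M (om ξ.1 (zr p χ.1)) := loc_om_zr hM ξ χ
    have hlz : lz hM ξ χ ≠ 0 ↔ ¬ MemLocalIdeal M (om ξ.1 (zr p χ.1)) := by
      rw [lz_eq, Ne, red_eq_zero_iff hM hw]
    rw [← lz_ne_zero_iff hM hB hχ hξ, hlz]
    have huc : (charDegree ξ.1 : ℂ) = ((p ^ (charDegree ξ.1).factorization p : ℕ) : ℂ) * u := by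
      rw [← Nat.cast_mul, ← hu]
    have hmM : ¬ MemLocalIdeal M (m : ℂ) := fun h => hmp ((max_natCast_iff hM m).1 h)
    have huM : ¬ MemLocalIdeal M (u : ℂ) := fun h => hup ((max_natCast_iff hM u).1 h)
    have hfac : (charDegree ξ.1).factorization p = (charDegree ξ.1).factorization p := rfl
    -- `p ^ b ∣ n`
    have hdvd : ((p ^ (charDegree ξ.1).factorization p : ℕ) : ℤ) ∣ n := by
      obtain ⟨k, hk⟩ := gen_int_inner (gen_reg_exact hp ξ) χ
      -- use the exact version for the other argument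
      have e3 := inner_reg_eq (p := p) ξ χ
        ((p ^ ((Nat.card G).factorization p - (charDegree ξ.1).factorization p) : ℕ) : ℂ)
      rw [hk] at e3
      have hba : (charDegree ξ.1).factorization p ≤ (Nat.card G).factorization p :=
        fac_degree_le_card ξ
      have hpow : ((p ^ (Nat.card G).factorization p : ℕ) : ℂ) =
          ((p ^ (charDegree ξ.1).factorization p : ℕ) : ℂ) *
          ((p ^ ((Nat.card G).factorization p - (charDegree ξ.1).factorization p) : ℕ) : ℂ) := by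
        rw [← Nat.cast_mul, ← pow_add, Nat.add_sub_cancel' hba]
      refine ⟨k, ?_⟩
      have hG0 : (Nat.card G : ℂ) ≠ 0 := Nat.cast_ne_zero.2 Nat.card_pos.ne'
      have : (n : ℂ) = ((p ^ (charDegree ξ.1).factorization p : ℕ) : ℂ) * k := by
        apply mul_left_cancel₀ hG0
        rw [e1, hpow, mul_left_comm (Nat.card G : ℂ), e3]
        ring
      exact_mod_cast this
    obtain ⟨n', hn'⟩ := hdvd
    have e4 : (m : ℂ) * (n' : ℂ) = (u : ℂ) * om ξ.1 (zr p χ.1) := by
      apply mul_left_cancel₀ hpb0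
      have : (n : ℂ) = ((p ^ (charDegree ξ.1).factorization p : ℕ) : ℂ) * n' := by
        rw [hn']; push_cast; rfl
      rw [huc, this] at e2
      linear_combination e2
    have h5 : ¬ MemLocalIdeal M (om ξ.1 (zr p χ.1)) ↔ ¬ (p : ℤ) ∣ n' := by
      rw [← max_intCast_iff hM n']
      constructor
      · intro h h6
        have h7 : MemLocalIdeal M ((u : ℂ) * om ξ.1 (zr p χ.1)) := by
          rw [← e4]; exact max_mul_left hM (loc_natCast hM m) h6
        rcases max_or_max_of_mul hM (loc_natCast hM u) hw h7 with h8 | h8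
        · exact huM h8
        · exact h h8
      · intro h h6
        have h7 : MemLocalIdeal M ((m : ℂ) * (n' : ℂ)) := by
          rw [e4]; exact max_mul_left hM (loc_natCast hM u) h6
        rcases max_or_max_of_mul hM (loc_natCast hM m) (loc_intCast hM n') h7 with h8 | h8
        · exact hmM h8
        · exact h h8
    rw [h5]
    have hn0 : n ≠ 0 ↔ n' ≠ 0 := by
      rw [hn', mul_ne_zero_iff]
      have : ((p ^ (charDegree ξ.1).factorization p : ℕ) : ℤ) ≠ 0 := by
        exact_mod_cast (pow_pos hp.pos _).ne'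
      exact ⟨fun h => h.2, fun h => ⟨this, h⟩⟩
    rw [hn0]
    have hval : n' ≠ 0 → padicValInt p n = (charDegree ξ.1).factorization p + padicValInt p n' := by
      intro h0
      rw [hn', padicValInt.mul (by exact_mod_cast (pow_pos hp.pos _).ne') h0]
      congr 1
      rw [padicValInt.of_nat, padicValNat.prime_pow]
    constructor
    · intro h
      have h0 : n' ≠ 0 := by rintro rfl; exact h (dvd_zero _)
      refine ⟨h0, ?_⟩
      rw [hval h0, padicValInt.eq_zero_of_not_dvd h, add_zero]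
    · rintro ⟨h0, h1⟩ h2
      rw [hval h0] at h1
      have h3 : padicValInt p n' = 0 := by omega
      rw [padicValInt, padicValNat.eq_zero_iff] at h3
      rcases h3 with h3 | h3 | h3
      · exact hp.ne_one h3
      · exact h0 (Int.natAbs_eq_zero.1 h3)
      · exact h3 (Int.natCast_dvd.1 h2)
  constructor
  · constructor
    · intro h
      obtain ⟨n, hn, hi⟩ := key χ hχ
      exact ⟨χ, hχ, n, hn, hi.1 h⟩
    · rintro ⟨ξ, hξ, n, hn, h1⟩
      obtain ⟨n', hn', hi⟩ := key ξ hξ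
      have : n = n' := by
        have := hn.symm.trans hn'
        exact_mod_cast this
      subst this
      exact hi.2 h1
  · constructor
    · intro h ξ hξ
      obtain ⟨n, hn, hi⟩ := key ξ hξ
      exact ⟨n, hn, hi.1 h⟩
    · intro h
      obtain ⟨n, hn, h1⟩ := h χ hχ
      obtain ⟨n', hn', hi⟩ := key χ hχ
      have : n = n' := by
        have := hn.symm.trans hn'
        exact_mod_cast this
      subst this
      exact hi.2 h1

end Cfsg.Agent.S4426
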