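import Cfsg.Statements.S4430
import Cfsg.Agent.Lib.BlockMore

set_option autoImplicit false
open Cfsg

namespace Cfsg.Agent.S4430
open Cfsg.Agent.Lib.BlockMore Cfsg.Agent.Lib.BlockQuotB Cfsg.Agent.Lib.BlockQuot Cfsg.Agent.Lib.BlockCov Cfsg.Agent.Lib.BlockM Cfsg.Agent.Lib.BlockHt Cfsg.Agent.Lib.BlockFirst Cfsg.Agent.Lib.BlockSecond Cfsg.Agent.Lib.BlockInd Cfsg.Agent.Lib.BlockNP Cfsg.Agent.Lib.BlockDeg Cfsg.Agent.Lib.BlockDef Cfsg.Agent.Lib.BlockRed Cfsg.Agent.Lib.BlockOrth Cfsg.Agent.Lib.BlockIdem Cfsg.Agent.Lib.BlockGA Cfsg.Agent.Lib.BlockLoc Cfsg.Agent.Lib.CharBasic Cfsg.Agent.Lib.BlockPP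
open scoped ComplexConjugate



/-- Let H be a subgroup of the finite group G, b a block of H whose induced block B₀ in G is defined (relative to a maximal ideal M of the algebraic integers containing p), and ξ ∈ b. For a block B of G let n_B be the value at 1 of the B-part of the induced character ξ^G (a natural number: the sum over χ ∈ B of the multiplicity of χ in ξ^G times χ(1)). Then for B = B₀ the exact power of p dividing n_B equals the exact power of p dividing ξ^G(1), while for every other block B either n_B = 0 or n_B is divisible by a strictly higher power of p than ξ^G(1). -/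
theorem result {G : Type*} [Group G] [Fintype G] (p : ℕ) [Fact p.Prime] (M : Ideal Cfsg.AlgInt) (hM : Cfsg.IsPModular p M) (H : Subgroup G) [Fintype H] (b : Set (Cfsg.IrrCharacter H)) (B₀ : Set (Cfsg.IrrCharacter G)) (hind : Cfsg.IsInducedBlock M H b B₀) (ξ : Cfsg.IrrCharacter H) (hξ : ξ ∈ b) : (∃ n : ℕ, Cfsg.blockPart B₀ (Cfsg.indFun H (ξ : H → ℂ)) 1 = (n : ℂ) ∧ n ≠ 0 ∧ n.factorization p = (Cfsg.charDegree (Cfsg.indFun H (ξ : H → ℂ))).factorization p) ∧ ∀ B : Set (Cfsg.IrrCharacter G), Cfsg.IsPBlock M B → B ≠ B₀ → ∃ n : ℕ, Cfsg.blockPart B (Cfsg.indFun H (ξ : H → ℂ)) 1 = (n : ℂ) ∧ (n = 0 ∨ (Cfsg.charDegree (Cfsg.indFun H (ξ : H → ℂ))).factorization p < n.factorization p) := by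
  classical
  have hchar : IsCharacter G (indFun H ξ.1) :=
    Cfsg.Agent.Lib.CharInd.isChar_ind H (isChar_of_irr ξ.2)
  have hdeg : (charDegree (indFun H ξ.1) : ℂ) = (H.index : ℂ) * ξ.1 1 := by
    rw [charDegree_cast hchar, Cfsg.Agent.Lib.CharInd.indFun_one]
  have hdeg0 : charDegree (indFun H ξ.1) ≠ 0 := by
    intro h
    rw [h] at hdeg
    have h8 : (H.index : ℂ) ≠ 0 := by exact_mod_cast Subgroup.index_ne_zero_of_finite
    exact (mul_ne_zero h8 (char_one_ne ξ.2)) (by simpa using hdeg.symm)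
  obtain ⟨χ₀, hχ₀⟩ := block_nonempty hM hind.2.1
  have key : ∀ B : Set (IrrCharacter G), IsPBlock M B → red hM (om ξ.1 (resGA H (eB B))) =
      lam hM χ₀.1 (eF hM B) := by
    intro B hB
    have hl := isLoc_eB hM hB
    have h1 := lam_of_induced hM hind hξ hχ₀ (eF_isCl hM B)
    rwa [eF, ← rd_resGA, lam_rd hM ξ.2 (resGA_isCl H (eB_isCl B)) (resGA_loc hl)] at h1
  have hloc : ∀ B : Set (IrrCharacter G), IsPBlock M B →
      MemLocalRing M (om ξ.1 (resGA H (eB B))) := fun B hB =>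
    loc_om hM ξ.2 (resGA_isCl H (eB_isCl B)) (resGA_loc (isLoc_eB hM hB))
  constructor
  · obtain ⟨n, hn⟩ := exists_nat_blockPart hchar B₀
    have h1 := blockPart_ind_one ξ B₀
    rw [hn, ← hdeg] at h1
    have h2 := key B₀ hind.2.1
    rw [lam_eF_mem hM (isLoc_eB hM hind.2.1) hχ₀] at h2
    have h3 : ¬ MemLocalIdeal M (om ξ.1 (resGA H (eB B₀))) := by
      rw [← red_eq_zero_iff hM (hloc B₀ hind.2.1), h2]
      exact one_ne_zero
    have hn0 : n ≠ 0 := by
      rintro rfl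
      rw [Nat.cast_zero, eq_comm, mul_eq_zero] at h1
      rcases h1 with h4 | h4
      · exact hdeg0 (by exact_mod_cast h4)
      · exact ne_zero_of_not_max hM h3 h4
    refine ⟨n, hn, hn0, ?_⟩
    apply le_antisymm
    · exact fac_le_of_mul hM hn0 hdeg0 (loc_one hM) (hloc B₀ hind.2.1) h3 (by rw [mul_one, h1])
    · exact fac_le_of_mul hM hdeg0 hn0 (hloc B₀ hind.2.1) (loc_one hM) (not_max_one hM)
        (by rw [mul_one, h1])
  · intro B hB hne
    obtain ⟨n, hn⟩ := exists_nat_blockPart hchar B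
    have h1 := blockPart_ind_one ξ B
    rw [hn, ← hdeg] at h1
    have h2 := key B hB
    have h4 : χ₀ ∉ B := fun h => hne (block_eq_of_mem_of_mem hM hB hind.2.1 h hχ₀)
    rw [lam_eF_not_mem hM (isLoc_eB hM hB) h4, red_eq_zero_iff hM (hloc B hB)] at h2
    refine ⟨n, hn, ?_⟩
    by_cases hn0 : n = 0
    · exact Or.inl hn0
    · right
      exact fac_lt_of_mul_max hM hdeg0 hn0 h2 (loc_one hM) (not_max_one hM) (by rw [mul_one, h1])

end Cfsg.Agent.S4430
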