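import Cfsg.Statements.S4431
import Cfsg.Agent.Lib.BlockMore

set_option autoImplicit false
open Cfsg

namespace Cfsg.Agent.S4431
open Cfsg.Agent.Lib.BlockMore Cfsg.Agent.Lib.BlockQuotB Cfsg.Agent.Lib.BlockQuot Cfsg.Agent.Lib.BlockCov Cfsg.Agent.Lib.BlockM Cfsg.Agent.Lib.BlockHt Cfsg.Agent.Lib.BlockFirst Cfsg.Agent.Lib.BlockSecond Cfsg.Agent.Lib.BlockInd Cfsg.Agent.Lib.BlockNP Cfsg.Agent.Lib.BlockDeg Cfsg.Agent.Lib.BlockDef Cfsg.Agent.Lib.BlockRed Cfsg.Agent.Lib.BlockOrth Cfsg.Agent.Lib.BlockIdem Cfsg.Agent.Lib.BlockGA Cfsg.Agent.Lib.BlockLoc Cfsg.Agent.Lib.CharBasic Cfsg.Agent.Lib.BlockPP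
open scoped ComplexConjugate



/-- Let H be a subgroup of the finite group G and b a block of H whose induced block B₀ in G is defined (relative to a maximal ideal M of the algebraic integers containing p). Let χ be an irreducible character of G, ψ ∈ b, and let η be the class function on H equal to p^a · χ on the p-regular elements of H and zero elsewhere, p^a being the p-part of the order of H. Then (a) if χ ∉ B₀, the number [η, ψ]/ψ(1) lies in the local ideal at M; (b) if χ ∈ B₀ has height zero, it does not. -/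
theorem result {G : Type*} [Group G] [Fintype G] (p : ℕ) [Fact p.Prime] (M : Ideal Cfsg.AlgInt) (hM : Cfsg.IsPModular p M) (H : Subgroup G) [Fintype H] (b : Set (Cfsg.IrrCharacter H)) (B₀ : Set (Cfsg.IrrCharacter G)) (hind : Cfsg.IsInducedBlock M H b B₀) (χ : Cfsg.IrrCharacter G) (ψ : Cfsg.IrrCharacter H) (hψ : ψ ∈ b) : (χ ∉ B₀ → Cfsg.MemLocalIdeal M (Cfsg.classInner (fun h : H => if p ∣ orderOf h then (0 : ℂ) else ((p ^ (Nat.card H).factorization p : ℕ) : ℂ) * (χ : G → ℂ) h) (ψ : H → ℂ) / (ψ : H → ℂ) 1)) ∧ (χ ∈ B₀ → Cfsg.blockHeight p B₀ (χ : G → ℂ) = 0 → ¬ Cfsg.MemLocalIdeal M (Cfsg.classInner (fun h : H => if p ∣ orderOf h then (0 : ℂ) else ((p ^ (Nat.card H).factorization p : ℕ) : ℂ) * (χ : G → ℂ) h) (ψ : H → ℂ) / (ψ : H → ℂ) 1)) := by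
  classical
  have hcH : (Nat.card H : ℂ) ≠ 0 := by exact_mod_cast Nat.card_pos.ne'
  have hψ1 := char_one_ne ψ.2
  have heq : classInner (fun h : H => if p ∣ orderOf h then (0 : ℂ) else
      ((p ^ (Nat.card H).factorization p : ℕ) : ℂ) * χ.1 h) ψ.1 / ψ.1 1 =
      (((Nat.card H) / p ^ (Nat.card H).factorization p : ℕ) : ℂ)⁻¹ *
        om ψ.1 (zr p (fun h : H => χ.1 h)) := by
    rw [om_zr, classInner, Finset.sum_filter]
    have h1 : ∑ h : H, (if ¬ p ∣ orderOf h then ψ.1 h * χ.1 ((h⁻¹ : H) : G) else 0) =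
        ∑ h : H, (if p ∣ orderOf h then 0 else χ.1 (h : G) * conj (ψ.1 h)) := by
      refine Fintype.sum_equiv (Equiv.inv H) _ _ fun h => ?_
      simp only [Equiv.inv_apply, orderOf_inv]
      by_cases hh : p ∣ orderOf h
      · rw [if_pos hh, if_neg (not_not.2 hh)]
      · rw [if_neg hh, if_pos hh, conj_irr, inv_inv, mul_comm]
    have h2 : (∑ h : H, (if p ∣ orderOf h then (0 : ℂ) else
        ((p ^ (Nat.card H).factorization p : ℕ) : ℂ) * χ.1 h) * conj (ψ.1 h)) =
        ((p ^ (Nat.card H).factorization p : ℕ) : ℂ) *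
        ∑ h : H, (if p ∣ orderOf h then 0 else χ.1 (h : G) * conj (ψ.1 h)) := by
      rw [Finset.mul_sum]
      refine Finset.sum_congr rfl fun h _ => ?_
      split_ifs
      · rw [zero_mul, mul_zero]
      · ring
    have h3 : ((p ^ (Nat.card H).factorization p : ℕ) : ℂ) *
        (((Nat.card H) / p ^ (Nat.card H).factorization p : ℕ) : ℂ) = (Nat.card H : ℂ) := by
      rw [← Nat.cast_mul, Nat.ordProj_mul_ordCompl_eq_self]
    have h4 : (((Nat.card H) / p ^ (Nat.card H).factorization p : ℕ) : ℂ) ≠ 0 := by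
      intro h; rw [h, mul_zero] at h3; exact hcH h3.symm
    have h5 : ((p ^ (Nat.card H).factorization p : ℕ) : ℂ) ≠ 0 := by
      intro h; rw [h, zero_mul] at h3; exact hcH h3.symm
    rw [h2]
    have h6 : (∑ h : H, (if ¬ p ∣ orderOf h then ψ.1 h * (fun h : H => χ.1 (h : G)) h⁻¹ else 0)) =
        ∑ h : H, (if ¬ p ∣ orderOf h then ψ.1 h * χ.1 ((h⁻¹ : H) : G) else 0) := rfl
    rw [h6, h1, ← h3]
    field_simp
  have hu : ¬ MemLocalIdeal M (((Nat.card H) / p ^ (Nat.card H).factorization p : ℕ) : ℂ) := by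
    rw [max_natCast_iff hM]
    exact Nat.not_dvd_ordCompl hM.1 Nat.card_pos.ne'
  have hul := loc_natCast hM ((Nat.card H) / p ^ (Nat.card H).factorization p)
  have hres : IsCharacter H (fun h : H => χ.1 h) := isChar_comp H.subtype (isChar_of_irr χ.2)
  have hloc : MemLocalRing M (om ψ.1 (zr p (fun h : H => χ.1 h))) :=
    loc_om hM ψ.2 (zr_isCl (isChar_classFn hres)) (zr_loc hM hres)
  obtain ⟨θ, hθ⟩ := block_nonempty hM hind.2.1
  have h1 := lam_of_induced hM hind hψ hθ (rd_isCl hM (zr_isCl (p := p) (irr_cl χ)))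
  rw [← rd_resGA, resGA_zr, lam_rd hM ψ.2 (zr_isCl (isChar_classFn hres)) (zr_loc hM hres)] at h1
  change _ = lz hM θ χ at h1
  constructor
  · intro hχ
    rw [heq]
    have h2 : lz hM θ χ = 0 := by
      apply lz_eq_zero hM (isPBlock_blockOf M χ) (self_mem_blockOf hM χ)
      intro h'
      apply hχ
      rw [block_eq_of_mem_of_mem hM hind.2.1 (isPBlock_blockOf M χ) hθ h']
      exact self_mem_blockOf hM χ
    rw [h2, red_eq_zero_iff hM hloc] at h1
    exact max_mul_left hM (loc_inv hM hul hu) h1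
  · intro hχ h0
    rw [heq]
    apply not_max_mul hM (loc_inv hM hul hu) hloc (not_max_inv hM hul hu)
    rw [← red_eq_zero_iff hM hloc, h1]
    exact (lz_ne_zero_iff hM hind.2.1 hχ hθ).2 h0

end Cfsg.Agent.S4431
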