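import Cfsg.Statements.S4437
import Cfsg.Agent.Lib.BlockMax

set_option autoImplicit false
set_option linter.style.haveILetI false
set_option linter.unusedVariables false
open Cfsg

namespace Cfsg.Agent.S4437
open Cfsg.Agent.Lib.BlockMax Cfsg.Agent.Lib.BlockNilC Cfsg.Agent.Lib.BlockNilB Cfsg.Agent.Lib.BlockNil Cfsg.Agent.Lib.BlockFusB Cfsg.Agent.Lib.BlockFus Cfsg.Agent.Lib.BlockPairF Cfsg.Agent.Lib.BlockPairE Cfsg.Agent.Lib.BlockPairD Cfsg.Agent.Lib.BlockPairC Cfsg.Agent.Lib.BlockPairB Cfsg.Agent.Lib.BlockPair Cfsg.Agent.Lib.BlockBP Cfsg.Agent.Lib.BlockCovB Cfsg.Agent.Lib.BlockTr Cfsg.Agent.Lib.BlockMoreB Cfsg.Agent.Lib.BlockMore Cfsg.Agent.Lib.BlockQuotB Cfsg.Agent.Lib.BlockQuot Cfsg.Agent.Lib.BlockCov Cfsg.Agent.Lib.BlockM Cfsg.Agent.Lib.BlockHt Cfsg.Agent.Lib.BlockFirst Cfsg.Agent.Lib.BlockSecond Cfsg.Agent.Lib.BlockInd Cfsg.Agent.Lib.BlockNP Cfsg.Agent.Lib.BlockDeg Cfsg.Agent.Lib.BlockDef Cfsg.Agent.Lib.BlockRed Cfsg.Agent.Lib.BlockOrth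 Cfsg.Agent.Lib.BlockIdem Cfsg.Agent.Lib.BlockGA Cfsg.Agent.Lib.BlockLoc Cfsg.Agent.Lib.CharBasic Cfsg.Agent.Lib.BlockPP Cfsg.Agent.Lib.CharNormal Cfsg.Agent.Lib.CharPerm Cfsg.Agent.Lib.CharPermB
open scoped ComplexConjugate



/-- Let P be a p-subgroup of the finite group G, H = P·C_G(P), and b a block of H (relative to a maximal ideal M of the algebraic integers containing p) having P as a defect group; let B be the block of G induced by b. Let T be the stabilizer of b in N_G(P): the elements g of N_G(P) such that the g-conjugate of every member of b is again a member of b. Then B has defect group P if and only if p does not divide the index of H in T. -/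
theorem result {G : Type*} [Group G] [Fintype G] (p : ℕ) [Fact p.Prime] (M : Ideal Cfsg.AlgInt) (hM : Cfsg.IsPModular p M) (P : Subgroup G) (hP : IsPGroup p P) (H : Subgroup G) [Fintype H] (hH : H = P ⊔ Subgroup.centralizer (P : Set G)) (b : Set (Cfsg.IrrCharacter H)) (hb : Cfsg.IsPBlock M b) (hbP : Cfsg.IsDefectGroup p M b (P.subgroupOf H)) (B : Set (Cfsg.IrrCharacter G)) (hind : Cfsg.IsInducedBlock M H b B) (T : Subgroup G) (hT : ∀ g : G, g ∈ T ↔ (g ∈ Subgroup.normalizer (P : Set G) ∧ ∀ θ ∈ b, ∀ θ' : Cfsg.IrrCharacter H, (∀ h h' : H, (h' : G) = g * h * g⁻¹ → (θ' : H → ℂ) h' = (θ : H → ℂ) h) → θ' ∈ b)) : Cfsg.IsDefectGroup p M B P ↔ ¬ p ∣ H.relIndex T := by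
  have hPH : P ≤ H := hH.symm ▸ le_sup_left
  have hCH : Subgroup.centralizer (P : Set G) ≤ H := hH.symm ▸ le_sup_right
  obtain ⟨e, he, hext, hindC⟩ := pair_of_PC hM hP hPH hCH hH.le hb
  have he' : IsBP p M (⟨P, e⟩ : BrauerPairIdx G) := ⟨hP, he⟩
  have hBP : IsBPO p M B ⟨P, e⟩ := (isBrauerPairOf_iff hM).2 ⟨hP, hindC B hind⟩
  have hHN : H ≤ Subgroup.normalizer (P : Set G) :=
    hH.le.trans (sup_le Subgroup.le_normalizer (cent_le_norm P))
  have hNH : ∀ y ∈ Subgroup.normalizer (P : Set G), y ∈ Subgroup.normalizer (H : Set G) := by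
    intro y hy
    have key : ∀ z ∈ Subgroup.normalizer (P : Set G), ∀ g ∈ H, z * g * z⁻¹ ∈ H := by
      intro z hz g hg
      obtain ⟨u, hu, c, hc, rfl⟩ := mem_sup_cent_iff.1 (hH.le hg)
      have h1 : z * u * z⁻¹ ∈ H := hPH ((norm_iff.1 hz u).1 hu)
      have h2 : z * c * z⁻¹ ∈ H := hCH ((norm_iff.1 (norm_cent hz) c).1 hc)
      have : z * (u * c) * z⁻¹ = (z * u * z⁻¹) * (z * c * z⁻¹) := by group
      rw [this]
      exact H.mul_mem h1 h2
    refine norm_iff.2 fun g => ⟨key y hy g, fun hg => ?_⟩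
    have := key y⁻¹ (inv_mem hy) _ hg
    have h3 : y⁻¹ * (y * g * y⁻¹) * y⁻¹⁻¹ = g := by group
    rwa [h3] at this
  have hT' : IsStab T (⟨P, e⟩ : BrauerPairIdx G) := by
    intro y
    rw [hT y]
    refine and_congr_right fun hy => ?_
    rw [cjP_eq_iff_inv hM he hy]
    have hX : eX hM (Subgroup.centralizer (P : Set G)) e = eX hM H b := by
      rw [eX_eq, eX_eq, hext]; rfl
    rw [hX, ← stabilizes_iff hM (isLoc_eB hM hb) (hNH y hy)]
    constructor
    · intro h
      refine ⟨hNH y hy, fun χ hχ => ?_⟩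
      have hh : ∀ k k' : H, (k' : G) = y * k * y⁻¹ →
          (trI (Cfsg.Agent.Lib.BlockPair.cjE y (norm_iff.1 (hNH y hy))).symm χ).1 k' = χ.1 k := by
        intro k k' hk
        rw [trI_apply]
        refine congrArg χ.1 (Subtype.ext ?_)
        change y⁻¹ * (k' : G) * y = k
        rw [hk]; group
      exact ⟨_, h χ hχ _ hh, hh⟩
    · intro h θ hθ θ' hθ'
      obtain ⟨χ', hχ', hc⟩ := h.2 θ hθ
      have : θ' = χ' := by
        apply Subtype.ext
        funext k
        have h3 : y * (y⁻¹ * (k : G) * y) * y⁻¹ = (k : G) := by group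
        have hmem : y⁻¹ * (k : G) * y ∈ H := by
          rw [norm_iff.1 (hNH y hy), h3]; exact k.2
        exact (hθ' ⟨y⁻¹ * k * y, hmem⟩ k h3.symm).trans (hc ⟨y⁻¹ * k * y, hmem⟩ k h3.symm).symm
      rw [this]; exact hχ'
  have hTN := IsStab.le_norm hT'
  have hQT := IsStab.self_le hM he hT'
  have hCT := IsStab.cent_le hM he hT'
  have hsup : H.subgroupOf T = P.subgroupOf T ⊔ (Subgroup.centralizer (P : Set G)).subgroupOf T := by
    rw [hH]; exact Subgroup.subgroupOf_sup hQT hCT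
  constructor
  · intro hd
    have hidx := index_stab_max hM (maximal_of_defect hM hBP hd) hT'
    change ¬ p ∣ (H.subgroupOf T).index
    rwa [hsup]
  · intro hidx
    change ¬ p ∣ (H.subgroupOf T).index at hidx
    have hd0 := center_defect_of_PC hM hPH hCH hb he' hext hbP
    haveI : (H.subgroupOf T).Normal := by rw [hsup]; exact sup_subgroupOf_normal hTN
    obtain ⟨B', hB'⟩ := (maximal_iff hM he').2 ⟨hd0, fun x hxN hx hxp => by
      have hxT : x ∈ T := (hT' x).2 ⟨hxN, hx⟩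
      have h1 : (⟨x, hxT⟩ : T) ∈ H.subgroupOf T := by
        refine mem_of_not_dvd_index hidx ?_
        obtain ⟨k, hk⟩ := hxp
        exact ⟨k, by rw [← hk, ← Subgroup.orderOf_coe]⟩
      exact hH.le (Subgroup.mem_subgroupOf.1 h1)⟩
    have h3 : B' = B := induced_unique hM ((isBrauerPairOf_iff hM).1 hB'.1).2 (hindC B hind)
    subst h3
    exact maximal_defect hM hB'

end Cfsg.Agent.S4437
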