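import Cfsg.Statements.S4439
import Cfsg.Agent.Lib.BlkH6J
import Cfsg.Agent.S4435
import Cfsg.Agent.S4436
import Cfsg.Agent.Lib.PSol

set_option autoImplicit false
set_option linter.style.haveILetI false
set_option linter.unusedVariables false
open Cfsg

namespace Cfsg.Agent.S4439
open Cfsg.Agent.Lib.BlkH6J Cfsg.Agent.Lib.BlockRey Cfsg.Agent.Lib.BlockPC Cfsg.Agent.Lib.BlockRk Cfsg.Agent.Lib.BlockInt Cfsg.Agent.Lib.BlockIndIn Cfsg.Agent.Lib.BlockMaxB Cfsg.Agent.Lib.BlockMax Cfsg.Agent.Lib.BlockNilC Cfsg.Agent.Lib.BlockNilB Cfsg.Agent.Lib.BlockNil Cfsg.Agent.Lib.BlockFusB Cfsg.Agent.Lib.BlockFus Cfsg.Agent.Lib.BlockPairF Cfsg.Agent.Lib.BlockPairE Cfsg.Agent.Lib.BlockPairD Cfsg.Agent.Lib.BlockPairC Cfsg.Agent.Lib.BlockPairB Cfsg.Agent.Lib.BlockPair Cfsg.Agent.Lib.BlockBP Cfsg.Agent.Lib.BlockCovB Cfsg.Agent.Lib.BlockTr Cfsg.Agent.Lib.BlockMoreB Cfsg.Agent.Lib.BlockMore Cfsg.Agent.Lib.BlockQuotB Cfsg.Agent.Lib.BlockQuot Cfsg.Agent.Lib.BlockCov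 Cfsg.Agent.Lib.BlockM Cfsg.Agent.Lib.BlockHt Cfsg.Agent.Lib.BlockFirst Cfsg.Agent.Lib.BlockSecond Cfsg.Agent.Lib.BlockInd Cfsg.Agent.Lib.BlockNP Cfsg.Agent.Lib.BlockDeg Cfsg.Agent.Lib.BlockDef Cfsg.Agent.Lib.BlockRed Cfsg.Agent.Lib.BlockOrth Cfsg.Agent.Lib.BlockIdem Cfsg.Agent.Lib.BlockGA Cfsg.Agent.Lib.BlockLoc Cfsg.Agent.Lib.CharBasic Cfsg.Agent.Lib.BlockPP Cfsg.Agent.Lib.CharNormal Cfsg.Agent.Lib.CharPerm Cfsg.Agent.Lib.CharPermB Cfsg.Agent.Lib.BlockSum Cfsg.Agent.Lib.BlockKB Cfsg.Agent.Lib.BlockLar Cfsg.Agent.Lib.BlockBFM Cfsg.Agent.Lib.BlkH6I Cfsg.Agent.Lib.BlkH6H Cfsg.Agent.Lib.BlkH6G Cfsg.Agent.Lib.BlkH5T Cfsg.Agent.Lib.BlkH5Q Cfsg.Agent.Lib.BlkH5P Cfsg.Agent.Lib.BlkH5O Cfsg.Agent.Lib.BlkH5N Cfsg.Agent.Lib.BlkH5A Cfsg.Agent.Lib.BlkH5G Cfsg.Agent.Lib.BlkH5B Cfsg.Agent.Lib.BlkH5C Cfsg.Agent.Lib.BlkH5D Cfsg.Agent.Lib.BlkH5E Cfsg.Agent.Lib.BlkH5F Cfsg.Agent.Lib.BlkH5L Cfsg.Agent.Lib.BlkH5M Cfsg.Agent.Lib.BlkH5R Cfsg.Agent.Lib.BlkH5S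 Cfsg.Agent.Lib.BlkH5U Cfsg.Agent.Lib.BlkH5V Cfsg.Agent.Lib.BlkH5W Cfsg.Agent.Lib.BlkH5X Cfsg.Agent.Lib.BlkH6F
open scoped ComplexConjugate

open Cfsg.Agent.Lib.CharNormal Cfsg.Agent.Lib.CharClifford

universe u

theorem height_ind {p : ℕ} [Fact p.Prime] {M : Ideal AlgInt} (hM : IsPModular p M) (n : ℕ) :
    ∀ (G : Type u) [Group G] [Fintype G], Nat.card G ≤ n → IsPSolvable p G →
      ∀ (B : Set (IrrCharacter G)), IsPBlock M B → ∀ P : Subgroup G, IsDefectGroup p M B P →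
        ∀ χ ∈ B, blockHeight p B (χ : G → ℂ) ≤ ((Subgroup.center P).index).factorization p := by
  induction n with
  | zero =>
    intro G _ _ h
    exact absurd h (by have := Nat.card_pos (α := G); omega)
  | succ n ih =>
    intro G _ _ hn hsolv B hB P hP χ hχ
    haveI := Cfsg.Agent.Lib.Cores.pPrimeCore_normal (G := G) p
    obtain ⟨N, hNe⟩ : ∃ N : Subgroup G, N = pPrimeCore p G := ⟨_, rfl⟩
    haveI hN : N.Normal := by rw [hNe]; infer_instance
    haveI : Fintype N := Fintype.ofFinite _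
    have hNp : ¬ p ∣ Nat.card N := by
      rw [hNe]; exact Cfsg.Agent.Lib.Cores.pPrimeCore_not_dvd p
    obtain ⟨θ, hθ⟩ := exists_over_below (N := N) χ
    have hcov : Cov B ({θ} : Set (IrrCharacter N)) := ⟨χ, hχ, θ, rfl, hθ⟩
    by_cases hst : GStab (G := G) ({θ} : Set (IrrCharacter N))
    · exact height_inv hM hsolv hNe hst hB hcov hP hχ
    · have hNT : N ≤ inertia θ.1 := le_inertia (isChar_classFn (isChar_of_irr θ.2))
      obtain ⟨T, hTe⟩ : ∃ T : Subgroup G, T = inertia θ.1 := ⟨_, rfl⟩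
      rw [← hTe] at hNT
      haveI : Fintype T := Fintype.ofFinite _
      have hTne : T ≠ ⊤ := by
        intro hT
        apply hst
        intro ψ hψ g
        rw [Set.mem_singleton_iff] at hψ ⊢
        rw [hψ]
        have hg : g ∈ T := by rw [hT]; exact Subgroup.mem_top g
        rw [hTe] at hg
        exact Subtype.ext (mem_inertia.1 hg)
      have hb := single_block hM hNp θ
      have hT : ∀ g : G, g ∈ T ↔ ∀ ψ ∈ ({θ} : Set (IrrCharacter N)), ∀ θ' : IrrCharacter N,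
          (∀ n : N, (θ' : N → ℂ) n = (ψ : N → ℂ) ⟨g * n * g⁻¹, hN.conj_mem n n.2 g⟩) →
            θ' ∈ ({θ} : Set (IrrCharacter N)) := by
        intro g
        rw [hTe, mem_inertia]
        constructor
        · intro h ψ hψ θ' hθ'
          rw [Set.mem_singleton_iff] at hψ ⊢
          subst hψ
          apply Subtype.ext
          funext n
          rw [hθ' n]
          exact congrFun h n
        · intro h
          have := h θ rfl (cjI g θ) (fun n => rfl)
          rw [Set.mem_singleton_iff] at this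
          exact congrArg Subtype.val this
      obtain ⟨r1, -, r3⟩ := Cfsg.Agent.S4435.result p M hM N ({θ} : Set (IrrCharacter N)) hb T hT hNT
      obtain ⟨B', hB', hcov', hind⟩ := r3 B hB hcov
      obtain ⟨B₁, hind₁, -, -, hB₁⟩ := r1 B' hB' hcov'
      have hBB : B = B₁ := induced_unique hM hind hind₁
      subst hBB
      obtain ⟨s1, s2⟩ := Cfsg.Agent.S4436.result p M hM N ({θ} : Set (IrrCharacter N)) hb T hT hNT
        B' hB' hcov' B hind
      obtain ⟨ψ, hψ, hχψ⟩ := (hB₁ χ).1 hχ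
      obtain ⟨χ', hχ', h1, h2⟩ := s2 ψ hψ
      have h3 : (χ : G → ℂ) = χ' := by rw [hχψ, h1]
      rw [h3, h2]
      obtain ⟨D, hD⟩ := exists_defectGroup hM hB'
      have h4 : Nat.card T ≤ n := by
        have h5 : Nat.card T < Nat.card G := by
          have h7 := Subgroup.card_mul_index T
          have h8 : T.index ≠ 1 := fun h => hTne (Subgroup.index_eq_one.1 h)
          have h9 : T.index ≠ 0 := Subgroup.index_ne_zero_of_finite
          have h10 : 0 < Nat.card T := Nat.card_pos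
          have h11 : 2 ≤ T.index := by omega
          nlinarith
        omega
      have h6 := ih T h4 (Cfsg.Agent.Lib.PSol.subgroup hsolv T) B' hB' D hD ψ hψ
      refine h6.trans (le_of_eq ?_)
      obtain ⟨x, hx⟩ := defectGroup_conj hM hB (s1 D hD) hP
      have e1 : D ≃* D.map T.subtype := D.equivMapOfInjective _ (Subgroup.subtype_injective _)
      have e2 : (D.map T.subtype : Subgroup G) ≃* ((D.map T.subtype).map (MulAut.conj x).toMonoidHom : Subgroup G) :=
        (D.map T.subtype).equivMapOfInjective _ (MulAut.conj x).injective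
      rw [center_index_equiv (e1.trans e2), ← hx]


/-- Let G be a finite p-solvable group and B a p-block of G with defect group P (relative to a maximal ideal M of the algebraic integers containing p). Then the height of every irreducible character in B is at most the exponent of p in the index of the centre of P in P. -/
theorem result {G : Type*} [Group G] [Finite G] (p : ℕ) [Fact p.Prime] (M : Ideal Cfsg.AlgInt) (hM : Cfsg.IsPModular p M) (hsolv : Cfsg.IsPSolvable p G) (B : Set (Cfsg.IrrCharacter G)) (hB : Cfsg.IsPBlock M B) (P : Subgroup G) (hP : Cfsg.IsDefectGroup p M B P) (χ : Cfsg.IrrCharacter G) (hχ : χ ∈ B) : Cfsg.blockHeight p B (χ : G → ℂ) ≤ ((Subgroup.center P).index).factorization p := by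
  cases nonempty_fintype G
  exact height_ind hM _ G le_rfl hsolv B hB P hP χ hχ

end Cfsg.Agent.S4439
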