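import Cfsg.Statements.S4442
import Cfsg.Agent.Lib.BlkH7Q

set_option autoImplicit false
set_option linter.style.haveILetI false
set_option linter.unusedVariables false
open Cfsg

namespace Cfsg.Agent.S4442
open Cfsg.Agent.Lib.BlkH7Q Cfsg.Agent.Lib.BlockRey Cfsg.Agent.Lib.BlockPC Cfsg.Agent.Lib.BlockRk Cfsg.Agent.Lib.BlockInt Cfsg.Agent.Lib.BlockIndIn Cfsg.Agent.Lib.BlockMaxB Cfsg.Agent.Lib.BlockMax Cfsg.Agent.Lib.BlockNilC Cfsg.Agent.Lib.BlockNilB Cfsg.Agent.Lib.BlockNil Cfsg.Agent.Lib.BlockFusB Cfsg.Agent.Lib.BlockFus Cfsg.Agent.Lib.BlockPairF Cfsg.Agent.Lib.BlockPairE Cfsg.Agent.Lib.BlockPairD Cfsg.Agent.Lib.BlockPairC Cfsg.Agent.Lib.BlockPairB Cfsg.Agent.Lib.BlockPair Cfsg.Agent.Lib.BlockBP Cfsg.Agent.Lib.BlockCovB Cfsg.Agent.Lib.BlockTr Cfsg.Agent.Lib.BlockMoreB Cfsg.Agent.Lib.BlockMore Cfsg.Agent.Lib.BlockQuotB Cfsg.Agent.Lib.BlockQuot Cfsg.Agent.Lib.BlockCov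 Cfsg.Agent.Lib.BlockM Cfsg.Agent.Lib.BlockHt Cfsg.Agent.Lib.BlockFirst Cfsg.Agent.Lib.BlockSecond Cfsg.Agent.Lib.BlockInd Cfsg.Agent.Lib.BlockNP Cfsg.Agent.Lib.BlockDeg Cfsg.Agent.Lib.BlockDef Cfsg.Agent.Lib.BlockRed Cfsg.Agent.Lib.BlockOrth Cfsg.Agent.Lib.BlockIdem Cfsg.Agent.Lib.BlockGA Cfsg.Agent.Lib.BlockLoc Cfsg.Agent.Lib.CharBasic Cfsg.Agent.Lib.BlockPP Cfsg.Agent.Lib.CharNormal Cfsg.Agent.Lib.CharPerm Cfsg.Agent.Lib.CharPermB Cfsg.Agent.Lib.BlockSum Cfsg.Agent.Lib.BlockKB Cfsg.Agent.Lib.BlockLar Cfsg.Agent.Lib.BlockBFM Cfsg.Agent.Lib.BlkH6L Cfsg.Agent.Lib.BlkH6K Cfsg.Agent.Lib.BlkH6J Cfsg.Agent.Lib.BlkH6I Cfsg.Agent.Lib.BlkH6H Cfsg.Agent.Lib.BlkH6G Cfsg.Agent.Lib.BlkH5T Cfsg.Agent.Lib.BlkH5Q Cfsg.Agent.Lib.BlkH5P Cfsg.Agent.Lib.BlkH5O Cfsg.Agent.Lib.BlkH5N Cfsg.Agent.Lib.BlkH5A Cfsg.Agent.Lib.BlkH5G Cfsg.Agent.Lib.BlkH5B Cfsg.Agent.Lib.BlkH5C Cfsg.Agent.Lib.BlkH5D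 Cfsg.Agent.Lib.BlkH5E Cfsg.Agent.Lib.BlkH5F Cfsg.Agent.Lib.BlkH5L Cfsg.Agent.Lib.BlkH5M Cfsg.Agent.Lib.BlkH5R Cfsg.Agent.Lib.BlkH5S Cfsg.Agent.Lib.BlkH5U Cfsg.Agent.Lib.BlkH5V Cfsg.Agent.Lib.BlkH5W Cfsg.Agent.Lib.BlkH5X Cfsg.Agent.Lib.BlkH6F Cfsg.Agent.Lib.BlkH6N Cfsg.Agent.Lib.BlkH6M Cfsg.Agent.Lib.BlkH6D Cfsg.Agent.Lib.BlkH6C Cfsg.Agent.Lib.BlkH6B Cfsg.Agent.Lib.BlkH6A Cfsg.Agent.Lib.BlkH5Y Cfsg.Agent.Lib.BlkH7C Cfsg.Agent.Lib.BlkH7A Cfsg.Agent.Lib.BlkH7B Cfsg.Agent.Lib.BlkH7E Cfsg.Agent.Lib.BlkH7D Cfsg.Agent.Lib.BlkH7F Cfsg.Agent.Lib.BlkH7G Cfsg.Agent.Lib.BlkH6P Cfsg.Agent.Lib.BlkH6O Cfsg.Agent.Lib.BlkH7H Cfsg.Agent.Lib.BlkH7I Cfsg.Agent.Lib.BlkH7J Cfsg.Agent.Lib.BlkH7K Cfsg.Agent.Lib.BlkH7L Cfsg.Agent.Lib.BlkH7M Cfsg.Agent.Lib.BlkH7N Cfsg.Agent.Lib.BlkH7O Cfsg.Agent.Lib.BlkH7P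
open scoped ComplexConjugate



/-- Blocks of defect one. Let p be an odd prime and G a finite group whose Sylow p-subgroup P has order p; let C = C_G(P) and N = N_G(P), and fix a maximal ideal M of the algebraic integers containing p. Let B be a block of G with defect group P, b a block of C inducing B, and θ the member of b having P in its kernel (there is exactly one). Let T be the stabilizer of θ in N (the elements g ∈ N with θ(g c g⁻¹) = θ(c) for all c ∈ C) and e the index of C in T. Then e divides p − 1 and B contains exactly e + (p − 1)/e irreducible characters. Moreover B is the disjoint union of a set X of e characters and a set Y of (p − 1)/e characters such that, with f the index of C in N: every χ ∈ X has χ(1) ≡ ±(f/e)·θ(1) (mod p), there is one sign ε with ψ(1) ≡ ε f θ(1) (mod p) for all ψ ∈ Y, and all members of Y agree on the p-regular elements of G.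 -/
theorem result {G : Type*} [Group G] [Finite G] (p : ℕ) [Fact p.Prime] (M : Ideal Cfsg.AlgInt) (hM : Cfsg.IsPModular p M) (hodd : p ≠ 2) (P : Sylow p G) (hP : Nat.card P = p) (B : Set (Cfsg.IrrCharacter G)) (hB : Cfsg.IsPBlock M B) (hBP : Cfsg.IsDefectGroup p M B P) (b : Set (Cfsg.IrrCharacter (Subgroup.centralizer ((P : Subgroup G) : Set G)))) (hind : Cfsg.IsInducedBlock M (Subgroup.centralizer ((P : Subgroup G) : Set G)) b B) (θ : Cfsg.IrrCharacter (Subgroup.centralizer ((P : Subgroup G) : Set G))) (hθ : θ ∈ b) (hθP : ∀ x : Subgroup.centralizer ((P : Subgroup G) : Set G), (x : G) ∈ (P : Subgroup G) → (θ : Subgroup.centralizer ((P : Subgroup G) : Set G) → ℂ) x = (θ : Subgroup.centralizer ((P : Subgroup G) : Set G) → ℂ) 1) (T : Subgroup G) (hT : ∀ g : G, g ∈ T ↔ (g ∈ Subgroup.normalizer ((P : Subgroup G) : Set G) ∧ ∀ c c' : Subgroup.centralizer ((P : Subgroup G)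 : Set G), (c' : G) = g * c * g⁻¹ → (θ : Subgroup.centralizer ((P : Subgroup G) : Set G) → ℂ) c' = (θ : Subgroup.centralizer ((P : Subgroup G) : Set G) → ℂ) c)) (e f : ℕ) (he : (Subgroup.centralizer ((P : Subgroup G) : Set G)).relIndex T = e) (hf : (Subgroup.centralizer ((P : Subgroup G) : Set G)).relIndex (Subgroup.normalizer ((P : Subgroup G) : Set G)) = f) : e ∣ p - 1 ∧ Nat.card B = e + (p - 1) / e ∧ ∃ X Y : Set (Cfsg.IrrCharacter G), B = X ∪ Y ∧ Disjoint X Y ∧ Nat.card X = e ∧ Nat.card Y = (p - 1) / e ∧ (∀ χ ∈ X, (Cfsg.charDegree (χ : G → ℂ) : ℤ) ≡ ((f / e * Cfsg.charDegree (θ : Subgroup.centralizer ((P : Subgroup G) : Set G) → ℂ) : ℕ) : ℤ) [ZMOD p] ∨ (Cfsg.charDegree (χ : G → ℂ) : ℤ) ≡ -((f / e * Cfsg.charDegree (θ : Subgroup.centralizer ((P : Subgroup G) : Set G) → ℂ) : ℕ) : ℤ) [ZMOD p]) ∧ (∃ ε : ℤ, (ε = 1 ∨ ε = -1) ∧ ∀ ψ ∈ Y, (Cfsg.charDegree (ψ : G → ℂ) : ℤ)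 ≡ ε * ((f * Cfsg.charDegree (θ : Subgroup.centralizer ((P : Subgroup G) : Set G) → ℂ) : ℕ) : ℤ) [ZMOD p]) ∧ ∀ ψ ∈ Y, ∀ ψ' ∈ Y, ∀ g : G, ¬ p ∣ orderOf g → (ψ : G → ℂ) g = (ψ' : G → ℂ) g := by
  classical
  cases nonempty_fintype G
  have hp : p.Prime := hM.1
  obtain ⟨H, g, c⟩ := exists_cfg P hP
  have hS : ∃ S : Sylow p G, (S : Subgroup G) = (P : Subgroup G) := ⟨P, rfl⟩
  haveI : Fintype (P : Subgroup G) := Fintype.ofFinite _
  haveI : Fintype (phi c).ker := Fintype.ofFinite _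
  have hirr := res_irr c (θ := θ) hθP
  set θK : IrrCharacter (phi c).ker := ⟨fun k => θ.1 (jC c k), hirr⟩ with hθK
  have hov : Ovj (jC c) θ θK := by
    rw [ovj_def]
    have : classInner (fun k => θ.1 (jC c k)) θK.1 = 1 := irr_inner_self hirr
    rw [this]
    exact one_ne_zero
  have hIP : IP c θK = B := IP_eq hM c hS hind.1 hθ hov hind hB hBP
  have hCT : Subgroup.centralizer ((P : Subgroup G) : Set G) ≤ T := by
    intro x hx
    rw [hT]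
    refine ⟨(Subgroup.centralizer_le_normalizer _) hx, ?_⟩
    intro y y' hy
    have h1 : y' = ⟨x, hx⟩ * y * (⟨x, hx⟩ : Subgroup.centralizer ((P : Subgroup G) : Set G))⁻¹ :=
      Subtype.ext hy
    rw [h1]
    exact isChar_classFn (isChar_of_irr θ.2) y ⟨x, hx⟩
  have hcard : Nat.card ((Cfsg.Agent.Lib.CharClifford.inertia θK.1).map (phi c)) = e := by
    rw [← he]
    exact (relIndex_between c (T := T) hCT (fun x hx => ((hT x).1 hx).1)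
      (fun h => stab_iff c hθP hT h)).symm
  have he0 : 0 < e := by rw [← hcard]; exact Nat.card_pos
  have hf' : f = e * (Cfsg.Agent.Lib.CharClifford.inertia θK.1).index := by
    rw [← hf, f_eq c θK, hcard]
  have hfe : f / e = (Cfsg.Agent.Lib.CharClifford.inertia θK.1).index := by
    rw [hf', Nat.mul_div_cancel_left _ he0]
  have hdeg : charDegree θK.1 = charDegree θ.1 := rfl
  letI := cg (P : Subgroup G) (Cfg_comm c)
  haveI : Fintype ((Cfsg.Agent.Lib.CharClifford.inertia θK.1).map (phi c)) := Fintype.ofFinite _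
  obtain ⟨X, Y, a, δ, hStr, hXY⟩ := defect_one hM c hS θK
  rw [hIP] at hXY
  have hXI : ∀ χ ∈ X, χ ∈ IP c θK := fun χ hχ => by rw [hIP, hXY]; exact Or.inl hχ
  have hXdeg : ∀ χ ∈ X, (charDegree χ.1 : ℤ) ≡ a χ * ((f / e * charDegree θ.1 : ℕ) : ℤ) [ZMOD p] := by
    intro χ hχ
    have h1 := X_degree hM c hS (hXI χ hχ) (hStr.DX χ hχ)
    rwa [← hfe, hdeg] at h1
  have hcX : Nat.card X = e := hStr.cX.trans hcard
  have hcY0 : Nat.card Y * e = p - 1 := by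
    have h1 := hStr.cY
    rwa [hcard, hP] at h1
  have hcY : Nat.card Y = (p - 1) / e := cX_sub he0 hcY0
  refine ⟨⟨Nat.card Y, by rw [← hcY0, mul_comm]⟩, ?_, X, Y, hXY, hStr.disj, hcX, hcY, ?_, ⟨δ, hStr.hδ, ?_⟩, ?_⟩
  · have h1 : Set.ncard (X ∪ Y) = Set.ncard X + Set.ncard Y :=
      Set.ncard_union_eq hStr.disj (Set.toFinite _) (Set.toFinite _)
    rw [hXY]
    have h2 : Nat.card ↑(X ∪ Y) = Nat.card X + Nat.card Y := h1
    rw [h2, hcX, hcY]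
  · intro χ hχ
    have h1 := hXdeg χ hχ
    rcases hStr.ha χ hχ with h | h
    · rw [h, one_mul] at h1
      exact Or.inl h1
    · rw [h, neg_one_mul] at h1
      exact Or.inr h1
  · intro η hη
    have h1 := Y_degree c hS hStr.rel hStr.ha hStr.hδ hXdeg hη
    rw [hcX, hfe] at h1
    rw [hf']
    push_cast at h1 ⊢
    convert h1 using 2
    ring
  · intro η hη η' hη' g hg
    have h1 := hStr.rel (fun χ => χ.1 g) (fun u hu => rel_reg c hS θK hu hg)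
    have h2 := h1 η hη
    rw [← h1 η' hη'] at h2
    have h3 : (δ : ℂ) ≠ 0 := by
      rcases hStr.hδ with h | h <;> rw [h] <;> simp
    exact mul_left_cancel₀ h3 h2

end Cfsg.Agent.S4442
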