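import Cfsg.Statements.S4443
import Cfsg.Agent.Lib.BlkH5P

set_option autoImplicit false
set_option linter.style.haveILetI false
set_option linter.unusedVariables false
open Cfsg

namespace Cfsg.Agent.S4443
open Cfsg.Agent.Lib.BlkH5P Cfsg.Agent.Lib.BlockRey Cfsg.Agent.Lib.BlockPC Cfsg.Agent.Lib.BlockRk Cfsg.Agent.Lib.BlockInt Cfsg.Agent.Lib.BlockIndIn Cfsg.Agent.Lib.BlockMaxB Cfsg.Agent.Lib.BlockMax Cfsg.Agent.Lib.BlockNilC Cfsg.Agent.Lib.BlockNilB Cfsg.Agent.Lib.BlockNil Cfsg.Agent.Lib.BlockFusB Cfsg.Agent.Lib.BlockFus Cfsg.Agent.Lib.BlockPairF Cfsg.Agent.Lib.BlockPairE Cfsg.Agent.Lib.BlockPairD Cfsg.Agent.Lib.BlockPairC Cfsg.Agent.Lib.BlockPairB Cfsg.Agent.Lib.BlockPair Cfsg.Agent.Lib.BlockBP Cfsg.Agent.Lib.BlockCovB Cfsg.Agent.Lib.BlockTr Cfsg.Agent.Lib.BlockMoreB Cfsg.Agent.Lib.BlockMore Cfsg.Agent.Lib.BlockQuotB Cfsg.Agent.Lib.BlockQuot Cfsg.Agent.Lib.BlockCov Cfsg.Agent.Lib.BlockM Cfsg.Agent.Lib.BlockHt Cfsg.Agent.Lib.BlockFirst Cfsg.Agent.Lib.BlockSecond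 Cfsg.Agent.Lib.BlockInd Cfsg.Agent.Lib.BlockNP Cfsg.Agent.Lib.BlockDeg Cfsg.Agent.Lib.BlockDef Cfsg.Agent.Lib.BlockRed Cfsg.Agent.Lib.BlockOrth Cfsg.Agent.Lib.BlockIdem Cfsg.Agent.Lib.BlockGA Cfsg.Agent.Lib.BlockLoc Cfsg.Agent.Lib.CharBasic Cfsg.Agent.Lib.BlockPP Cfsg.Agent.Lib.CharNormal Cfsg.Agent.Lib.CharPerm Cfsg.Agent.Lib.CharPermB Cfsg.Agent.Lib.BlockSum Cfsg.Agent.Lib.BlockKB Cfsg.Agent.Lib.BlockLar Cfsg.Agent.Lib.BlockBFM Cfsg.Agent.Lib.BlkH5O Cfsg.Agent.Lib.BlkH5N Cfsg.Agent.Lib.BlkH5A Cfsg.Agent.Lib.BlkH5G Cfsg.Agent.Lib.BlkH5B Cfsg.Agent.Lib.BlkH5C Cfsg.Agent.Lib.BlkH5D Cfsg.Agent.Lib.BlkH5E Cfsg.Agent.Lib.BlkH5F Cfsg.Agent.Lib.BlkH5L Cfsg.Agent.Lib.BlkH5M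
open scoped ComplexConjugate



/-- Let D be a normal p-subgroup of the finite group G, of order p^d, let p^a be the p-part of the order of G, and fix a Sylow p-subgroup S and a maximal ideal M of the algebraic integers containing p. Index by a finite type ι (via an injective map K) exactly the conjugacy classes of p-regular elements x of G for which D is a Sylow p-subgroup of C_G(x). For classes K_i, K_j let ω(i, j) be the number of pairs (y, z) ∈ K_i × K_j with z y⁻¹ ∈ S; this number is divisible by p^(a−d). Then the number of p-blocks of G having D as a defect group equals the rank over ℤ/pℤ of the matrix with (i, j) entry ω(i, j)/p^(a−d) reduced modulo p. -/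
theorem result {G : Type*} [Group G] [Finite G] (p : ℕ) [Fact p.Prime] (M : Ideal Cfsg.AlgInt) (hM : Cfsg.IsPModular p M) (D : Subgroup G) [D.Normal] (hD : IsPGroup p D) (S : Sylow p G) {ι : Type*} [Fintype ι] [DecidableEq ι] (K : ι → ConjClasses G) (hKinj : Function.Injective K) (hK : ∀ C : ConjClasses G, (∃ i, K i = C) ↔ ∃ x ∈ C.carrier, ¬ p ∣ orderOf x ∧ ∃ Q : Sylow p (Subgroup.centralizer ({x} : Set G)), (Q : Subgroup (Subgroup.centralizer ({x} : Set G))).map (Subgroup.centralizer ({x} : Set G)).subtype = D) : Nat.card {B : Set (Cfsg.IrrCharacter G) // Cfsg.IsPBlock M B ∧ Cfsg.IsDefectGroup p M B D} = (Matrix.of fun i j : ι => ((Nat.card {yz : G × G // yz.1 ∈ (K i).carrier ∧ yz.2 ∈ (K j).carrier ∧ yz.2 * yz.1⁻¹ ∈ (S : Subgroup G)} / p ^ ((Nat.card G).factorization p - (Nat.card D).factorization p) : ℕ) : ZMod p)).rank := by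
  classical
  have hp := (Fact.out : p.Prime)
  cases nonempty_fintype G
  haveI : Fintype (ConjClasses G) := Fintype.ofFinite _
  haveI : Fintype {B : Set (IrrCharacter G) // IsPBlock M B} := Fintype.ofFinite _
  haveI : Fintype {B : Set (IrrCharacter G) // IsPBlock M B ∧ IsDefectGroup p M B D} :=
    Fintype.ofFinite _
  have hne : ∀ B : {B : Set (IrrCharacter G) // IsPBlock M B}, ∃ χ : IrrCharacter G, χ ∈ B.1 :=
    fun B => block_nonempty hM B.2
  choose ch hch using hne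
  set x : ι → G := fun i => rpt (K i) with hx
  have hmk : ∀ i, ConjClasses.mk (x i) = K i := fun i => mk_rpt _
  have hcar : ∀ i g, g ∈ (K i).carrier ↔ IsConj (x i) g := by
    intro i g
    rw [← hmk i, ConjClasses.mem_carrier_iff_mk_eq, ConjClasses.mk_eq_mk_iff_isConj]
    exact isConj_comm
  have hDn : ∀ g : G, D.map (MulAut.conj g).toMonoidHom = D := by
    intro g
    apply le_antisymm
    · intro z hz
      obtain ⟨d, hd, rfl⟩ := Subgroup.mem_map.1 hz
      exact (inferInstance : D.Normal).conj_mem d hd g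
    · intro z hz
      refine Subgroup.mem_map.2 ⟨g⁻¹ * z * g, ?_, ?_⟩
      · have := (inferInstance : D.Normal).conj_mem z hz g⁻¹
        rwa [inv_inv] at this
      · change g * (g⁻¹ * z * g) * g⁻¹ = z
        group
  have hsylc : ∀ g h : G, IsConj g h → IsSyl p g D → IsSyl p h D := by
    intro g h hgh hg
    obtain ⟨c, rfl⟩ := isConj_iff.1 hgh
    have := hg.conj c
    rwa [hDn] at this
  have hsyli : ∀ g : G, IsSyl p g D → IsSyl p g⁻¹ D := by
    intro g hg
    refine ⟨hg.1, fun d hd => (hg.2.1 d hd).inv_right, fun Q hQ hc => hg.2.2 Q hQ (fun q hq => ?_)⟩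
    have := (hc q hq).inv_right
    rwa [inv_inv] at this
  have hregc : ∀ g h : G, IsConj g h → ¬ p ∣ orderOf g → ¬ p ∣ orderOf h := by
    intro g h hgh hg
    obtain ⟨c, rfl⟩ := isConj_iff.1 hgh
    rwa [orderOf_conj]
  have hcls : ∀ g : G, (∃ i, K i = ConjClasses.mk g) ↔ (¬ p ∣ orderOf g ∧ IsSyl p g D) := by
    intro g
    rw [hK]
    constructor
    · rintro ⟨z, hz, hzp, Q, hQ⟩
      rw [ConjClasses.mem_carrier_iff_mk_eq, ConjClasses.mk_eq_mk_iff_isConj] at hz
      exact ⟨hregc _ _ hz hzp, hsylc _ _ hz (isSyl_iff.2 ⟨Q, hQ.symm⟩)⟩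
    · rintro ⟨h1, h2⟩
      obtain ⟨Q, hQ⟩ := isSyl_iff.1 h2
      exact ⟨g, ConjClasses.mem_carrier_mk, h1, Q, hQ.symm⟩
  have hxr : ∀ i, ¬ p ∣ orderOf (x i) ∧ IsSyl p (x i) D := fun i => (hcls _).1 ⟨i, (hmk i).symm⟩
  -- the factor matrices
  let ch' : {B : Set (IrrCharacter G) // IsPBlock M B ∧ IsDefectGroup p M B D} → IrrCharacter G :=
    fun B => ch ⟨B.1, B.2.1⟩
  have hch' : ∀ B, ch' B ∈ B.1 := fun B => hch ⟨B.1, B.2.1⟩
  let A : Matrix ι {B : Set (IrrCharacter G) // IsPBlock M B ∧ IsDefectGroup p M B D} (ResF hM) :=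
    Matrix.of fun i B => lam hM (ch' B).1 (cs (ResF hM) (x i)⁻¹)
  let E : Matrix {B : Set (IrrCharacter G) // IsPBlock M B ∧ IsDefectGroup p M B D} ι (ResF hM) :=
    Matrix.of fun B i => (eF hM B.1) (x i)⁻¹
  have hEA : E * A = 1 := by
    ext B B'
    rw [Matrix.mul_apply, Matrix.one_apply]
    have h1 := lam_expand hM (ch' B') (eF_isCl hM B.1)
    have h2 : ∑ i, E B i * A i B' = ∑ C : ConjClasses G, (eF hM B.1) (rpt C) *
        lam hM (ch' B').1 (cs (ResF hM) (rpt C)) := by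
      refine Fintype.sum_of_injective (fun i => ConjClasses.mk (x i)⁻¹) ?_ _ _ ?_ ?_
      · intro i j hij
        dsimp only at hij
        rw [ConjClasses.mk_eq_mk_iff_isConj] at hij
        obtain ⟨c, hc⟩ := isConj_iff.1 hij
        have h3 : IsConj (x i) (x j) := isConj_iff.2 ⟨c, by
          have h4 := congrArg (·⁻¹) hc
          simp only [inv_inv] at h4
          rw [← h4]; group⟩
        have h4 := ConjClasses.mk_eq_mk_iff_isConj.2 h3
        rw [hmk, hmk] at h4
        exact hKinj h4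
      · intro C hC
        by_contra hne
        apply hC
        set g := rpt C with hg
        have h3 : (eF hM B.1) g ≠ 0 := left_ne_zero_of_mul hne
        have h4 : lam hM (ch' B').1 (cs (ResF hM) g) ≠ 0 := right_ne_zero_of_mul hne
        have h5 := (defect_ge_of_eF hM B.2.1 h3).1
        obtain ⟨Q, hQ⟩ := exists_isSyl p g
        have h6 := defLe_of_eF_ne_zero hM B.2.1 B.2.2 h3 hQ.1 hQ.2.1
        have h7 := subConj_of_cs hM B'.2.1 (hch' B') h4 hQ.2.2 B'.2.2
        obtain ⟨c, hc⟩ := h7.antisymm h6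
        rw [hDn] at hc
        rw [hc] at hQ
        obtain ⟨i, hi⟩ := (hcls g⁻¹).2 ⟨by rwa [orderOf_inv], hsyli g hQ⟩
        refine ⟨i, ?_⟩
        dsimp only
        rw [← hmk i, ConjClasses.mk_eq_mk_iff_isConj] at hi
        obtain ⟨d, hd⟩ := isConj_iff.1 hi
        have h8 : ConjClasses.mk (x i)⁻¹ = ConjClasses.mk g := by
          rw [ConjClasses.mk_eq_mk_iff_isConj]
          refine isConj_iff.2 ⟨d, ?_⟩
          have h4 := congrArg (·⁻¹) hd
          simp only [inv_inv] at h4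
          rw [← h4]; group
        rw [h8, hg, mk_rpt]
      · intro i
        have h3 : IsConj (x i)⁻¹ (rpt (ConjClasses.mk (x i)⁻¹)) := by
          rw [← ConjClasses.mk_eq_mk_iff_isConj, mk_rpt]
        have h4 : cs (ResF hM) (x i)⁻¹ = cs (ResF hM) (rpt (ConjClasses.mk (x i)⁻¹)) := by
          apply GA.ext
          intro h
          rw [cs_apply, cs_apply]
          congr 1
          exact propext ⟨fun h5 => h3.symm.trans h5, fun h5 => h3.trans h5⟩
        change (eF hM B.1) (x i)⁻¹ * lam hM (ch' B').1 (cs (ResF hM) (x i)⁻¹) = _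
        rw [← h4, (eF_isCl hM B.1).eq_of_isConj h3]
    rw [h2, ← h1]
    by_cases hBB : B = B'
    · rw [if_pos hBB, hBB]
      exact lam_eF_mem hM (isLoc_eB hM B'.2.1) (hch' B')
    · rw [if_neg hBB]
      apply lam_eF_not_mem hM (isLoc_eB hM B.2.1)
      intro hmem
      apply hBB
      exact Subtype.ext (block_eq_of_mem_of_mem hM B.2.1 B'.2.1 hmem (hch' B'))
  -- the matrix
  have hexp : ∀ j, (Nat.card G).factorization p - (Nat.card D).factorization p =
      (Subgroup.centralizer ({x j} : Set G)).index.factorization p := by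
    intro j
    have h1 := card_isSyl (hxr j).2
    have h2 := fac_card_eq (p := p) (x j)
    have h3 : (Nat.card D).factorization p =
        (Nat.card (Subgroup.centralizer ({x j} : Set G))).factorization p := by
      rw [h1, hp.factorization_pow, Finsupp.single_eq_same]
    omega
  let k : ι → ℕ := fun j => (Subgroup.centralizer ({x j} : Set G)).index /
    p ^ ((Subgroup.centralizer ({x j} : Set G)).index.factorization p)
  have hk : ∀ j, Nat.card {z : G // IsConj (x j) z} = p ^ ((Subgroup.centralizer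
      ({x j} : Set G)).index.factorization p) * k j := by
    intro j
    rw [card_conj_class]
    exact (Nat.ordProj_mul_ordCompl_eq_self _ _).symm
  have hk0 : ∀ j, (k j : ResF hM) ≠ 0 := by
    intro j h
    have h1 := (CharP.cast_eq_zero_iff (ResF hM) p _).1 h
    exact Nat.not_dvd_ordCompl hp (index_centralizer_ne_zero (x j)) h1
  set W : Matrix ι ι (ZMod p) := Matrix.of fun i j : ι => ((Nat.card {yz : G × G // yz.1 ∈ (K i).carrier ∧ yz.2 ∈ (K j).carrier ∧ yz.2 * yz.1⁻¹ ∈ (S : Subgroup G)} / p ^ ((Nat.card G).factorization p - (Nat.card D).factorization p) : ℕ) : ZMod p) with hW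
  have hWm : W.map (ZMod.castHom (dvd_refl p) (ResF hM)) = A * E * Matrix.diagonal
      (fun j => (k j : ResF hM)) := by
    ext i j
    rw [Matrix.map_apply, hW, Matrix.of_apply, map_natCast, Matrix.mul_diagonal,
      Matrix.mul_apply]
    have h1 := (rob_pairs hM S (x i) (x j) hch (hxr j).1 (hk j)).2
    rw [← hexp j] at h1
    have h2 : Nat.card {yz : G × G // yz.1 ∈ (K i).carrier ∧ yz.2 ∈ (K j).carrier ∧
        yz.2 * yz.1⁻¹ ∈ (S : Subgroup G)} = Nat.card {q : G × G // IsConj (x i) q.1 ∧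
        IsConj (x j) q.2 ∧ q.2 * q.1⁻¹ ∈ (S : Subgroup G)} :=
      Nat.card_congr (Equiv.subtypeEquivRight (fun q => by rw [hcar, hcar]))
    rw [h2, h1, mul_comm]
    congr 1
    symm
    refine Fintype.sum_of_injective (fun B : {B : Set (IrrCharacter G) // IsPBlock M B ∧
      IsDefectGroup p M B D} => (⟨B.1, B.2.1⟩ : {B : Set (IrrCharacter G) // IsPBlock M B}))
      ?_ _ _ ?_ ?_
    · intro B B' h
      exact Subtype.ext (congrArg (fun z : {B : Set (IrrCharacter G) // IsPBlock M B} => z.1) h)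
    · intro B hB
      by_contra hne
      apply hB
      have h3 : lam hM (ch B).1 (cs (ResF hM) (x i)⁻¹) ≠ 0 := left_ne_zero_of_mul hne
      have h4 : (eF hM B.1) (x j)⁻¹ ≠ 0 := right_ne_zero_of_mul hne
      obtain ⟨D', hD'⟩ := exists_defectGroup hM B.2
      have h5 := subConj_of_cs hM B.2 (hch B) h3 (hsyli _ (hxr i).2).2.2 hD'
      have h6 := defLe_of_eF_ne_zero hM B.2 hD' h4 hD (hsyli _ (hxr j).2).2.1
      obtain ⟨c, hc⟩ := h5.antisymm h6
      have h7 := isDefectGroup_map_conj hM B.2 hD' c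
      rw [← hc] at h7
      exact ⟨⟨B.1, B.2, h7⟩, rfl⟩
    · intro B
      rfl
  have h1 := rank_map_field (ZMod.castHom (dvd_refl p) (ResF hM)) W
  rw [hWm, Matrix.rank_mul_eq_left_of_isUnit_det, rank_of_factor A E hEA] at h1
  · rw [← h1, Nat.card_eq_fintype_card]
  · rw [Matrix.det_diagonal, isUnit_iff_ne_zero]
    exact Finset.prod_ne_zero_iff.2 (fun j _ => hk0 j)

end Cfsg.Agent.S4443
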