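import Cfsg.Statements.S4445
import Cfsg.Agent.Lib.CharCoB

set_option autoImplicit false
open Cfsg

namespace Cfsg.Agent.S4445

open Cfsg.Agent.Lib.CharGC Cfsg.Agent.Lib.CharCo Cfsg.Agent.Lib.CharCoB

/-- Inside a finite group Γ let the solvable subgroup S normalise G with the orders of G and S coprime. Then the number of S-invariant irreducible characters of G (χ(s g s⁻¹) = χ(g) for all s ∈ S, g ∈ G) equals the number of conjugacy classes of G mapped to themselves by conjugation by every element of S. -/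
theorem result {Γ : Type*} [Group Γ] [Fintype Γ] (G S : Subgroup Γ) [Fintype G] (hnorm : ∀ s ∈ S, ∀ g ∈ G, s * g * s⁻¹ ∈ G) (hcop : (Nat.card G).Coprime (Nat.card S)) (hsolv : Group.IsSolvable S) : Nat.card {χ : Cfsg.IrrCharacter G // (∀ s ∈ S, ∀ g g' : G, (g' : Γ) = s * g * s⁻¹ → (χ : G → ℂ) g' = (χ : G → ℂ) g)} = Nat.card {K : ConjClasses G // ∀ s ∈ S, ∀ g g' : G, (g' : Γ) = s * g * s⁻¹ → ConjClasses.mk g = K → ConjClasses.mk g' = K} := by
  classical
  set C : Subgroup Γ := G ⊓ Subgroup.centralizer (S : Set Γ) with hC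
  have : Fintype C := Fintype.ofFinite _
  have hok : Ok S G C := by
    refine ⟨le_normalizer_of hnorm, hcop, fun x => ?_⟩
    rw [hC, Subgroup.mem_inf, Subgroup.mem_centralizer_iff]
    exact and_congr_right fun _ => forall₂_congr fun s _ => eq_comm
  have h1 := card_inv_irr hok hsolv
  have h2 := card_inv_classes hok hsolv
  rw [Cfsg.Agent.Lib.CharBasic.card_irr, ← h2] at h1
  exact h1
end Cfsg.Agent.S4445
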