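import Cfsg.Statements.S4446
import Cfsg.Agent.Lib.CharGlaub

set_option autoImplicit false
open Cfsg

namespace Cfsg.Agent.S4446

open Cfsg.Agent.Lib.CharBasic Cfsg.Agent.Lib.CharNormal Cfsg.Agent.Lib.CharGlaub

/-- Let the finite group Γ be generated by a normal subgroup G and a cyclic subgroup S of coprime orders, C = G ⊓ C(S), and let χ be an S-invariant irreducible character of G with canonical extension χ̂ to Γ (the extension whose determinantal order is coprime to the order of S). Then there are exactly one irreducible character β of C and one sign ε such that χ̂(c s) = ε β(c) for every c ∈ C and every generator s of S; this β is a constituent of the restriction of χ to C; distinct S-invariant χ give distinct β; and every irreducible character of C arises in this way. -/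
theorem result {Γ : Type*} [Group Γ] [Fintype Γ] (G S : Subgroup Γ) [Fintype G] (hnorm : ∀ s ∈ S, ∀ g ∈ G, s * g * s⁻¹ ∈ G) (hcop : (Nat.card G).Coprime (Nat.card S)) (htop : G ⊔ S = ⊤) (hcyc : IsCyclic S) (C : Subgroup Γ) [Fintype C] (hC : C = G ⊓ Subgroup.centralizer (S : Set Γ)) (hCG : C ≤ G) : (∀ (χ : Cfsg.IrrCharacter G) (χh : Cfsg.IrrCharacter Γ), (∀ s ∈ S, ∀ g g' : G, (g' : Γ) = s * g * s⁻¹ → (χ : G → ℂ) g' = (χ : G → ℂ) g) → (∀ g : G, (χh : Γ → ℂ) g = (χ : G → ℂ) g) → (Cfsg.detOrder (χh : Γ → ℂ)).Coprime (Nat.card S) → (∃! βε : Cfsg.IrrCharacter C × ℤ, (βε.2 = 1 ∨ βε.2 = -1) ∧ ∀ c : C, ∀ s : Γ, Subgroup.zpowers s = S → (χh : Γ → ℂ) ((c : Γ) * s) = (βε.2 : ℂ) * (βε.1 : C → ℂ) c) ∧ ∀ β : Cfsg.IrrCharacter C, ∀ ε : ℤ, (ε = 1 ∨ ε = -1) → (∀ c : C, ∀ s : Γ, Subgroup.zpowers s = S → (χh : Γ → ℂ) ((c : Γ) * s) = (ε : ℂ) * (β : C → ℂ) c) → Cfsg.classInner (fun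 c : C => (χ : G → ℂ) ⟨c, hCG c.2⟩) (β : C → ℂ) ≠ 0) ∧ (∀ (χ χ' : Cfsg.IrrCharacter G) (χh χh' : Cfsg.IrrCharacter Γ), (∀ s ∈ S, ∀ g g' : G, (g' : Γ) = s * g * s⁻¹ → (χ : G → ℂ) g' = (χ : G → ℂ) g) → (∀ s ∈ S, ∀ g g' : G, (g' : Γ) = s * g * s⁻¹ → (χ' : G → ℂ) g' = (χ' : G → ℂ) g) → (∀ g : G, (χh : Γ → ℂ) g = (χ : G → ℂ) g) → (∀ g : G, (χh' : Γ → ℂ) g = (χ' : G → ℂ) g) → (Cfsg.detOrder (χh : Γ → ℂ)).Coprime (Nat.card S) → (Cfsg.detOrder (χh' : Γ → ℂ)).Coprime (Nat.card S) → ∀ β : Cfsg.IrrCharacter C, ∀ ε ε' : ℤ, (ε = 1 ∨ ε = -1) → (ε' = 1 ∨ ε' = -1) → (∀ c : C, ∀ s : Γ, Subgroup.zpowers s = S → (χh : Γ → ℂ) ((c : Γ) * s) = (ε : ℂ) * (β : C → ℂ) c) → (∀ c : C, ∀ s : Γ, Subgroup.zpowers s = S → (χh' : Γ → ℂ) ((c : Γ) * s) = (ε' : ℂ) * (β : C → ℂ) c) → χ = χ') ∧ (∀ β : Cfsg.IrrCharacter C, ∃ (χ : Cfsg.IrrCharacter G) (χh : Cfsg.IrrCharacter Γ) (ε : ℤ), (∀ s ∈ S, ∀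 g g' : G, (g' : Γ) = s * g * s⁻¹ → (χ : G → ℂ) g' = (χ : G → ℂ) g) ∧ (∀ g : G, (χh : Γ → ℂ) g = (χ : G → ℂ) g) ∧ (Cfsg.detOrder (χh : Γ → ℂ)).Coprime (Nat.card S) ∧ (ε = 1 ∨ ε = -1) ∧ ∀ c : C, ∀ s : Γ, Subgroup.zpowers s = S → (χh : Γ → ℂ) ((c : Γ) * s) = (ε : ℂ) * (β : C → ℂ) c) := by
  obtain ⟨⟨s₀, hs₀⟩, hgen⟩ := hcyc.exists_generator
  have hS : Subgroup.zpowers s₀ = S := by
    apply le_antisymm
    · rw [Subgroup.zpowers_le]; exact hs₀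
    · intro x hx
      obtain ⟨i, hi⟩ := hgen ⟨x, hx⟩
      exact ⟨i, congrArg Subtype.val hi⟩
  subst hS
  rw [Nat.card_zpowers] at *
  have hG : G.Normal := by
    rw [← Subgroup.normalizer_eq_top_iff, eq_top_iff, ← htop, sup_le_iff]
    refine ⟨Subgroup.le_normalizer, ?_⟩
    intro t ht
    rw [Subgroup.mem_normalizer_iff]
    intro g
    refine ⟨hnorm t ht g, fun h => ?_⟩
    have := hnorm t⁻¹ (inv_mem ht) _ h
    have e : t⁻¹ * (t * g * t⁻¹) * t⁻¹⁻¹ = g := by group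
    rwa [e] at this
  have hC' : ∀ x, x ∈ C ↔ x ∈ G ∧ x * s₀ = s₀ * x := by
    intro x
    rw [hC, Subgroup.mem_inf, Subgroup.mem_centralizer_iff]
    refine and_congr_right fun _ => ⟨fun h => (h s₀ hs₀).symm, fun h t ht => ?_⟩
    obtain ⟨i, rfl⟩ := ht
    have h1 : Commute x s₀ := h
    exact (h1.zpow_right i).symm
  have hinvc : ∀ χ : Γ → ℂ, IsIrrCharacter Γ χ → ∀ t ∈ Subgroup.zpowers s₀, ∀ g g' : G,
      (g' : Γ) = t * g * t⁻¹ → χ g' = χ g := by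
    intro χ hχ t _ g g' hg
    rw [hg]
    exact isChar_classFn (isChar_of_irr hχ) _ _
  have hcan : ∀ (χ : Cfsg.IrrCharacter G) (χh : Cfsg.IrrCharacter Γ),
      (∀ g : G, (χh : Γ → ℂ) g = (χ : G → ℂ) g) →
      (Cfsg.detOrder (χh : Γ → ℂ)).Coprime (orderOf s₀) → Canon G s₀ χh.1 := by
    intro χ χh h1 h2
    refine canon_of_det hcop htop χh.2 ?_ h2
    have : (fun x : G => χh.1 x) = χ.1 := funext h1
    rw [this]
    exact χ.2
  have hmain : ∀ (χh : Γ → ℂ), Canon G s₀ χh → ∀ (β : C → ℂ) (ε : ℤ),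
      (∀ c : C, χh (c * s₀) = ε * β c) →
      ∀ c : C, ∀ s : Γ, Subgroup.zpowers s = Subgroup.zpowers s₀ → χh (c * s) = ε * β c := by
    intro χh hχ β ε h c s hs
    obtain ⟨j, hj, rfl⟩ := zpowers_eq_pow hs
    rw [canon_pow hcop htop hC' hχ hj c.2]
    exact h c
  refine ⟨?_, ?_, ?_⟩
  · intro χ χh _ hres hdet
    have hχ := hcan χ χh hres hdet
    obtain ⟨β, ε, hε, hβ⟩ := exists_corr hcop htop hC' hχ
    refine ⟨⟨(β, ε), ⟨hε, hmain _ hχ β.1 ε hβ⟩, ?_⟩, ?_⟩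
    · rintro ⟨β', ε'⟩ ⟨hε', hβ'⟩
      obtain ⟨h1, h2⟩ := sgn_irr_unique (β := β') (β' := β) hε' hε (fun c => by
        rw [← hβ c, ← hβ' c s₀ rfl])
      exact Prod.ext h1 h2
    · intro β ε hε hβ
      have h1 := corr_constituent hC' χh.2 β.2 hε (fun c => hβ c s₀ rfl)
      have h2 : (fun c : C => (χ : G → ℂ) ⟨c, hCG c.2⟩) = fun c : C => χh.1 c := by
        funext c
        exact (hres ⟨c, hCG c.2⟩).symm
      rw [h2]
      exact h1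
  · intro χ χ' χh χh' _ _ hres hres' hdet hdet' β ε ε' hε hε' hβ hβ'
    have hχ := hcan χ χh hres hdet
    have hχ' := hcan χ' χh' hres' hdet'
    have h1 := corr_inj hcop hC' hχ.irr hχ'.irr hχ.res hχ'.res β.2 hε hε'
      (fun c => hβ c s₀ rfl) (fun c => hβ' c s₀ rfl)
    apply Subtype.ext
    funext g
    have := congrFun h1 g
    exact (hres g).symm.trans (this.trans (hres' g))
  · intro β
    obtain ⟨χh, hχ, hdet, ε, hε, hβ⟩ := corr_surj hcop htop hC' β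
    exact ⟨⟨_, hχ.res⟩, ⟨χh, hχ.irr⟩, ε, hinvc χh hχ.irr, fun _ => rfl, hdet, hε,
      hmain χh hχ β.1 ε hβ⟩
end Cfsg.Agent.S4446
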