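import Cfsg.Statements.S4447
import Cfsg.Agent.Lib.CharCoC

set_option autoImplicit false
open Cfsg

namespace Cfsg.Agent.S4447

open Cfsg.Agent.Lib.CharGC Cfsg.Agent.Lib.CharCo Cfsg.Agent.Lib.CharCoB Cfsg.Agent.Lib.CharCoC

/-- Inside a finite group Γ let S normalise G and also normalise a normal subgroup N of G, with the order of S coprime to the index of N in G and S or G/N solvable. Then for every S-invariant irreducible character χ of G, the restriction of χ to N has an S-invariant irreducible constituent. -/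
theorem result {Γ : Type*} [Group Γ] [Fintype Γ] (G S N : Subgroup Γ) [Fintype G] [Fintype N] (hnorm : ∀ s ∈ S, ∀ g ∈ G, s * g * s⁻¹ ∈ G) (hNG : N ≤ G) [hNn : (N.subgroupOf G).Normal] (hNS : ∀ s ∈ S, ∀ n ∈ N, s * n * s⁻¹ ∈ N) (hcop : (N.relIndex G).Coprime (Nat.card S)) (hsolv : Group.IsSolvable S ∨ Group.IsSolvable (G ⧸ N.subgroupOf G)) (χ : Cfsg.IrrCharacter G) (hinv : (∀ s ∈ S, ∀ g g' : G, (g' : Γ) = s * g * s⁻¹ → (χ : G → ℂ) g' = (χ : G → ℂ) g)) : ∃ θ : Cfsg.IrrCharacter N, Cfsg.classInner (fun n : N => (χ : G → ℂ) ⟨n, hNG n.2⟩) (θ : N → ℂ) ≠ 0 ∧ (∀ s ∈ S, ∀ g g' : N, (g' : Γ) = s * g * s⁻¹ → (θ : N → ℂ) g' = (θ : N → ℂ) g) := by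
  have hdvd : N.relIndex S ∣ Nat.card S := Subgroup.index_dvd_card _
  obtain ⟨θ, hθ, hne⟩ := exists_inv_below (le_normalizer_of hnorm) (le_normalizer_of hNS) hNG
    ((Subgroup.normal_subgroupOf_iff_le_normalizer hNG).mp hNn) (hcop.coprime_dvd_right hdvd)
    (hsolv.imp_right (by
      rintro ⟨n, hn⟩
      refine ⟨n, ?_⟩
      have h1 := map_derivedSeries_eq (f := QuotientGroup.mk' (N.subgroupOf G))
        (QuotientGroup.mk'_surjective _) n
      rw [hn, Subgroup.map_eq_bot_iff, QuotientGroup.ker_mk'] at h1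
      exact h1)) χ hinv
  rw [ci_eq] at hne
  exact ⟨θ, hne, hθ⟩
end Cfsg.Agent.S4447
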