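import Cfsg.Statements.S4451
import Cfsg.Agent.Lib.CharGlaub2

set_option autoImplicit false
open Cfsg

namespace Cfsg.Agent.S4451

open Cfsg.Agent.Lib.CharBasic Cfsg.Agent.Lib.CharNormal Cfsg.Agent.Lib.CharGlaub Cfsg.Agent.Lib.CharLin Cfsg.Agent.Lib.CharGlaub2

/-- Let the finite group Γ be generated by a normal subgroup G and a cyclic subgroup S of coprime orders such that every non-identity element of S has the same centraliser C = G ⊓ C(S) in G. Let χ be an S-invariant irreducible character of G, χ̂ its canonical extension to Γ (determinantal order coprime to the order of S), and β the irreducible character of C with χ̂(c s) = ε₀ β(c) for c ∈ C and generators s of S (ε₀ = ±1). Then there are a sign ε = ±1, which may differ from ε₀, and a linear character μ of S with μ² = 1, such that: (a) χ̂(c x) = ε β(c) μ(x) for all c ∈ C and all x ∈ S other than 1; (b) the restriction of χ to C equals |S|·ϑ + ε β for some character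 ϑ of C or ϑ = 0; (c) |S| divides χ(1) − ε β(1). -/
theorem result {Γ : Type*} [Group Γ] [Fintype Γ] (G S : Subgroup Γ) [Fintype G] (hnorm : ∀ s ∈ S, ∀ g ∈ G, s * g * s⁻¹ ∈ G) (hcop : (Nat.card G).Coprime (Nat.card S)) (htop : G ⊔ S = ⊤) (hcyc : IsCyclic S) (C : Subgroup Γ) [Fintype C] (hC : C = G ⊓ Subgroup.centralizer (S : Set Γ)) (hCG : C ≤ G) (hfpf : ∀ x ∈ S, x ≠ 1 → G ⊓ Subgroup.centralizer ({x} : Set Γ) = C) (χ : Cfsg.IrrCharacter G) (hinv : (∀ s ∈ S, ∀ g g' : G, (g' : Γ) = s * g * s⁻¹ → (χ : G → ℂ) g' = (χ : G → ℂ) g)) (χh : Cfsg.IrrCharacter Γ) (hext : (∀ g : G, (χh : Γ → ℂ) g = (χ : G → ℂ) g)) (hdet : (Cfsg.detOrder (χh : Γ → ℂ)).Coprime (Nat.card S)) (β : Cfsg.IrrCharacter C) (ε₀ : ℤ) (hε₀ : ε₀ = 1 ∨ ε₀ = -1) (hβ : ∀ c : C, ∀ s : Γ, Subgroup.zpowers s = S → (χh : Γ → ℂ) ((c : Γ) * s) = (ε₀ : ℂ) * (β : C → ℂ) c) : ∃ ε : ℤ, (ε = 1 ∨ ε = -1) ∧ (∃ μ : S → ℂ, Cfsg.IsCharacter S μ ∧ μ 1 = 1 ∧ (∀ x : S, μ x * μ x =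 1) ∧ ∀ c : C, ∀ x : S, x ≠ 1 → (χh : Γ → ℂ) ((c : Γ) * x) = (ε : ℂ) * (β : C → ℂ) c * μ x) ∧ (∃ ϑ : C → ℂ, Cfsg.IsCharacter C ϑ ∧ (fun c : C => (χ : G → ℂ) ⟨c, hCG c.2⟩) = fun c => (Nat.card S : ℂ) * ϑ c + (ε : ℂ) * (β : C → ℂ) c) ∧ (Nat.card S : ℤ) ∣ (Cfsg.charDegree (χ : G → ℂ) : ℤ) - ε * (Cfsg.charDegree (β : C → ℂ) : ℤ) := by
  obtain ⟨⟨s₀, hs₀⟩, hgen⟩ := hcyc.exists_generator
  have hS : Subgroup.zpowers s₀ = S := by
    apply le_antisymm
    · rw [Subgroup.zpowers_le]; exact hs₀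
    · intro x hx
      obtain ⟨i, hi⟩ := hgen ⟨x, hx⟩
      exact ⟨i, congrArg Subtype.val hi⟩
  subst hS
  rw [Nat.card_zpowers] at *
  have hG : G.Normal := by
    rw [← Subgroup.normalizer_eq_top_iff, eq_top_iff, ← htop, sup_le_iff]
    refine ⟨Subgroup.le_normalizer, ?_⟩
    intro t ht
    rw [Subgroup.mem_normalizer_iff]
    intro g
    refine ⟨hnorm t ht g, fun h => ?_⟩
    have := hnorm t⁻¹ (inv_mem ht) _ h
    have e : t⁻¹ * (t * g * t⁻¹) * t⁻¹⁻¹ = g := by group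
    rwa [e] at this
  have hC' : ∀ x, x ∈ C ↔ x ∈ G ∧ x * s₀ = s₀ * x := by
    intro x
    rw [hC, Subgroup.mem_inf, Subgroup.mem_centralizer_iff]
    refine and_congr_right fun _ => ⟨fun h => (h s₀ hs₀).symm, fun h t ht => ?_⟩
    obtain ⟨i, rfl⟩ := ht
    have h1 : Commute x s₀ := h
    exact (h1.zpow_right i).symm
  have hcan : Canon G s₀ χh.1 := by
    refine canon_of_det hcop htop χh.2 ?_ hdet
    have : (fun x : G => χh.1 x) = χ.1 := funext hext
    rw [this]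
    exact χ.2
  have hβs := fun c => hβ c s₀ rfl
  have hresC : (fun c : C => (χ : G → ℂ) ⟨c, hCG c.2⟩) = fun c : C => χh.1 c := by
    funext c
    exact (hext ⟨c, hCG c.2⟩).symm
  by_cases hs1 : s₀ = 1
  · -- trivial action
    subst hs1
    have hCG' : ∀ x, x ∈ C ↔ x ∈ G := fun x => by rw [hC' x]; simp
    obtain ⟨n, hn0, hn⟩ := isIrr_one_eq β.2
    obtain ⟨m, hm0, hm⟩ := isIrr_one_eq χh.2
    have h1 : (m : ℂ) = ε₀ * n := by
      have := hβs 1
      simp only [Subgroup.coe_one, one_mul] at this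
      rw [← hm, ← hn]
      exact this
    have hε1 : ε₀ = 1 := by
      rcases hε₀ with h | h
      · exact h
      · exfalso
        rw [h] at h1
        have h2 : (m : ℤ) = -1 * n := by exact_mod_cast h1
        omega
    have h3 : (fun c : C => χh.1 c) = β.1 := by
      funext c
      have := hβs c
      rw [mul_one, hε1] at this
      simpa using this
    refine ⟨1, Or.inl rfl, ⟨fun _ => 1, ?_, rfl, fun _ => by simp, ?_⟩, ⟨0, isChar_zero, ?_⟩, ?_⟩
    · have := linFn_isChar (1 : Subgroup.zpowers (1 : Γ) →* ℂˣ)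
      rwa [linFn_one] at this
    · intro c x hx
      exfalso
      apply hx
      obtain ⟨i, hi⟩ := x.2
      apply Subtype.ext
      rw [← hi]
      simp
    · rw [hresC, h3]
      funext c
      simp
    · rw [orderOf_one]
      simp
  · have hCall : ∀ w ∈ Subgroup.zpowers s₀, w ≠ 1 → ∀ x, x ∈ C ↔ x ∈ G ∧ x * w = w * x := by
      intro w hw hw1 x
      rw [← hfpf w hw hw1, Subgroup.mem_inf, Subgroup.mem_centralizer_iff]
      simp only [Set.mem_singleton_iff, forall_eq]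
      exact and_congr_right fun _ => eq_comm
    obtain ⟨ε, hε, ⟨μ, hμ, hμ'⟩, ϑ, hϑ, hϑ'⟩ := fpf hcop hs1 hCall hcan hε₀ hβs
    refine ⟨ε, hε, ⟨linFn μ, linFn_isChar μ, linFn_apply_one μ, ?_, ?_⟩, ⟨ϑ, hϑ, ?_⟩, ?_⟩
    · intro x
      rw [linFn_apply]
      have := hμ x
      rw [← Units.val_mul, this, Units.val_one]
    · intro c x hx
      exact hμ' c x hx
    · rw [hresC]
      exact hϑ'
    · have h1 := congrFun hϑ' 1
      obtain ⟨k, hk⟩ := isChar_one_eq hϑ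
      have h2 : χh.1 1 = (Cfsg.charDegree (χ : G → ℂ) : ℂ) := by
        rw [charDegree_cast (isChar_of_irr χ.2)]
        exact hext 1
      have h3 : β.1 1 = (Cfsg.charDegree (β : C → ℂ) : ℂ) := by
        rw [charDegree_cast (isChar_of_irr β.2)]
      simp only [Subgroup.coe_one] at h1
      rw [h2, hk] at h1
      rw [h3] at h1
      refine ⟨k, ?_⟩
      have h4 : ((Cfsg.charDegree (χ : G → ℂ) : ℤ) : ℂ) - ε * (Cfsg.charDegree (β : C → ℂ) : ℤ) =
          ((orderOf s₀ : ℤ) : ℂ) * (k : ℤ) := by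
        push_cast
        rw [h1]; ring
      exact_mod_cast h4
end Cfsg.Agent.S4451
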