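import Cfsg.Statements.S4455
import Cfsg.Agent.Lib.CharThompson

set_option autoImplicit false
open Cfsg

namespace Cfsg.Agent.S4455

open Cfsg.Agent.Lib.CharBasic

/-- Fix a prime p and a finite group G. Let s be the sum of χ(1)² over the irreducible characters χ of G whose degree is not divisible by p and whose determinantal order o(χ) is not divisible by p. Then the order of O^p(G), the subgroup generated by the elements of order prime to p, is congruent to s modulo p. -/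
theorem result {G : Type*} [Group G] [Finite G] (p : ℕ) (hp : p.Prime) : (Nat.card (Cfsg.pResidual p G) : ℤ) ≡ (∑ᶠ χ ∈ {χ : Cfsg.IrrCharacter G | ¬ p ∣ Cfsg.charDegree (χ : G → ℂ) ∧ ¬ p ∣ Cfsg.detOrder (χ : G → ℂ)}, (Cfsg.charDegree (χ : G → ℂ) : ℤ) ^ 2) [ZMOD p] := by
  classical
  haveI := Fact.mk hp
  have hD : ∀ χ : IrrCharacter G, χ.1 1 = charDegree (χ : G → ℂ) := by
    intro χ
    obtain ⟨n, hn⟩ := isChar_one_eq (isChar_of_irr χ.2)
    rw [charDegree, hn]; simp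
  have h1 := Cfsg.Agent.Lib.CharThompson.card_residual_modEq (p := p)
    (fun χ : IrrCharacter G => charDegree (χ : G → ℂ)) hD
    (Finset.univ.filter (fun χ : IrrCharacter G => ¬ p ∣ charDegree (χ : G → ℂ) ∧
      ¬ p ∣ detOrder (χ : G → ℂ))) (by simp)
  have h2 := (Int.natCast_modEq_iff).mpr h1
  suffices h3 : ((∑ χ ∈ (Finset.univ.filter (fun χ : IrrCharacter G => ¬ p ∣ charDegree (χ : G → ℂ) ∧
      ¬ p ∣ detOrder (χ : G → ℂ))), charDegree (χ : G → ℂ) ^ 2 : ℕ) : ℤ) =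
    ∑ᶠ χ ∈ {χ : IrrCharacter G | ¬ p ∣ charDegree (χ : G → ℂ) ∧
      ¬ p ∣ detOrder (χ : G → ℂ)}, (charDegree (χ : G → ℂ) : ℤ) ^ 2 by
    rw [← h3]; exact h2
  push_cast
  rw [finsum_mem_eq_sum_of_inter_support_eq (t := Finset.univ.filter
    (fun χ : IrrCharacter G => ¬ p ∣ charDegree (χ : G → ℂ) ∧ ¬ p ∣ detOrder (χ : G → ℂ)))]
  ext χ
  simp
end Cfsg.Agent.S4455
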