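import Cfsg.Statements.S4480
import Cfsg.Agent.Lib.BlkH5I
import Cfsg.Agent.Lib.CharInt

set_option autoImplicit false
set_option linter.style.haveILetI false
set_option linter.unusedVariables false
open Cfsg

namespace Cfsg.Agent.S4480
open Cfsg.Agent.Lib.BlkH5I Cfsg.Agent.Lib.BlockRey Cfsg.Agent.Lib.BlockPC Cfsg.Agent.Lib.BlockRk Cfsg.Agent.Lib.BlockInt Cfsg.Agent.Lib.BlockIndIn Cfsg.Agent.Lib.BlockMaxB Cfsg.Agent.Lib.BlockMax Cfsg.Agent.Lib.BlockNilC Cfsg.Agent.Lib.BlockNilB Cfsg.Agent.Lib.BlockNil Cfsg.Agent.Lib.BlockFusB Cfsg.Agent.Lib.BlockFus Cfsg.Agent.Lib.BlockPairF Cfsg.Agent.Lib.BlockPairE Cfsg.Agent.Lib.BlockPairD Cfsg.Agent.Lib.BlockPairC Cfsg.Agent.Lib.BlockPairB Cfsg.Agent.Lib.BlockPair Cfsg.Agent.Lib.BlockBP Cfsg.Agent.Lib.BlockCovB Cfsg.Agent.Lib.BlockTr Cfsg.Agent.Lib.BlockMoreB Cfsg.Agent.Lib.BlockMore Cfsg.Agent.Lib.BlockQuotB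 Cfsg.Agent.Lib.BlockQuot Cfsg.Agent.Lib.BlockCov Cfsg.Agent.Lib.BlockM Cfsg.Agent.Lib.BlockHt Cfsg.Agent.Lib.BlockFirst Cfsg.Agent.Lib.BlockSecond Cfsg.Agent.Lib.BlockInd Cfsg.Agent.Lib.BlockNP Cfsg.Agent.Lib.BlockDeg Cfsg.Agent.Lib.BlockDef Cfsg.Agent.Lib.BlockRed Cfsg.Agent.Lib.BlockOrth Cfsg.Agent.Lib.BlockIdem Cfsg.Agent.Lib.BlockGA Cfsg.Agent.Lib.BlockLoc Cfsg.Agent.Lib.CharBasic Cfsg.Agent.Lib.BlockPP Cfsg.Agent.Lib.CharNormal Cfsg.Agent.Lib.CharPerm Cfsg.Agent.Lib.CharPermB Cfsg.Agent.Lib.BlockSum Cfsg.Agent.Lib.BlockKB Cfsg.Agent.Lib.BlockLar Cfsg.Agent.Lib.BlockBFM Cfsg.Agent.Lib.BlkH5A Cfsg.Agent.Lib.BlkH5B Cfsg.Agent.Lib.BlkH5C Cfsg.Agent.Lib.BlkH5D Cfsg.Agent.Lib.BlkH5E Cfsg.Agent.Lib.BlkH5F Cfsg.Agent.Lib.BlkH5G Cfsg.Agent.Lib.BlkH5H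
open scoped ComplexConjugate



/-- Same setting as the Klein-four order formula: G of order 4·g₀ (g₀ odd) with no normal 2-complement, P a Sylow 2-subgroup, J an involution of P, M over 2, principal 2-block {1, χ₁, χ₂, χ₃} with χ_i(J) = ε_i = ±1. Suppose ε₁ε₂ε₃ = −1 and ε₃ = −1, and put q = x₃ = χ₃(1). Then there is a natural number m with 4·c(J) = m·c(P)·(q + 1), and the order of G equals (m³·c(P)/4)·(q³ − q)/2, that is 8·#G = m³·c(P)·(q³ − q). -/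
theorem result {G : Type*} [Group G] [Finite G] (M : Ideal Cfsg.AlgInt) (hM : Cfsg.IsPModular 2 M) (g₀ : ℕ) (hg₀ : Odd g₀) (hG : Nat.card G = 4 * g₀) (hnc : ¬ ∃ N : Subgroup G, N.Normal ∧ Nat.card N = g₀) (P : Sylow 2 G) (J : G) (hJ : J ∈ (P : Subgroup G)) (hJ2 : orderOf J = 2) (χ₁ χ₂ χ₃ : Cfsg.IrrCharacter G) (ε₁ ε₂ ε₃ : ℤ) (hB : Cfsg.principalBlock M G = {χ : Cfsg.IrrCharacter G | (χ : G → ℂ) = (fun _ => 1) ∨ χ = χ₁ ∨ χ = χ₂ ∨ χ = χ₃}) (hdist : (χ₁ : G → ℂ) ≠ (fun _ => 1) ∧ (χ₂ : G → ℂ) ≠ (fun _ => 1) ∧ (χ₃ : G → ℂ) ≠ (fun _ => 1) ∧ χ₁ ≠ χ₂ ∧ χ₁ ≠ χ₃ ∧ χ₂ ≠ χ₃) (hε : (ε₁ = 1 ∨ ε₁ = -1) ∧ (ε₂ = 1 ∨ ε₂ = -1) ∧ (ε₃ = 1 ∨ ε₃ = -1)) (hval : (χ₁ : G → ℂ) J = ε₁ ∧ (χ₂ : G → ℂ) J = ε₂ ∧ (χ₃ : G → ℂ) J = ε₃) (hprod : ε₁ * ε₂ * ε₃ = -1) (hε₃ : ε₃ = -1) : ∃ m : ℕ, 4 * Nat.card (Subgroup.centralizer ({J} : Set G)) = m * Nat.card (Subgroup.centralizer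 ((P : Subgroup G) : Set G)) * (Cfsg.charDegree (χ₃ : G → ℂ) + 1) ∧ 8 * Nat.card G = m ^ 3 * Nat.card (Subgroup.centralizer ((P : Subgroup G) : Set G)) * (Cfsg.charDegree (χ₃ : G → ℂ) ^ 3 - Cfsg.charDegree (χ₃ : G → ℂ)) := by
  obtain ⟨he1, he2, h12, h3⟩ := psl_rel hM hg₀ hG hnc P hJ hJ2 χ₁ χ₂ χ₃ ε₁ ε₂ ε₃ hB hdist hε hval
    hprod hε₃
  have h := order_prod hM hg₀ hG hnc P hJ hJ2 χ₁ χ₂ χ₃ ε₁ ε₂ ε₃ hB hdist hε hval
  rw [he1, he2, hε₃, ← h12] at h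
  rw [← h12] at h3
  have hx1 := charDegree_pos χ₁.2
  have hx3 := charDegree_pos χ₃.2
  cases nonempty_fintype G
  have hle : Subgroup.centralizer ((P : Subgroup G) : Set G) ≤ Subgroup.centralizer ({J} : Set G) :=
    Subgroup.centralizer_le (Set.singleton_subset_iff.2 hJ)
  obtain ⟨n, hn⟩ := Subgroup.card_dvd_of_le hle
  set mP := Nat.card (Subgroup.centralizer ((P : Subgroup G) : Set G)) with hmP
  have hmP0 : 0 < mP := Nat.card_pos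
  have hidx := Subgroup.index_mul_card (Subgroup.centralizer ({J} : Set G))
  -- integrality
  have hd3 : charDegree χ₃.1 ∣ (Subgroup.centralizer ({J} : Set G)).index := by
    apply dvd_of_isIntegral_div hx3.ne'
    have h4 := Cfsg.Agent.Lib.CharInt.isIntegral_centralChar χ₃.2 J
    rw [hval.2.2, hε₃, ← charDegree_cast (isChar_of_irr χ₃.2)] at h4
    have h5 := h4.neg
    convert h5 using 1
    push_cast
    ring
  have hd1 : charDegree χ₁.1 ∣ (Subgroup.centralizer ({J} : Set G)).index := by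
    apply dvd_of_isIntegral_div hx1.ne'
    have h4 := Cfsg.Agent.Lib.CharInt.isIntegral_centralChar χ₁.2 J
    rw [hval.1, he1, ← charDegree_cast (isChar_of_irr χ₁.2)] at h4
    convert h4 using 1
    push_cast
    ring
  rw [hn] at h hidx ⊢
  obtain ⟨a, ha⟩ := hd3
  obtain ⟨b, hb⟩ := hd1
  generalize (Subgroup.centralizer ({J} : Set G)).index = K at *
  generalize charDegree χ₁.1 = x at *
  rw [h3] at h ha ⊢
  clear h3
  have hn0 : 0 < n := by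
    rcases Nat.eq_zero_or_pos n with h0 | h0
    · rw [h0, mul_zero] at hn
      exact absurd hn Nat.card_pos.ne'
    · exact h0
  rw [← hidx] at h ⊢
  push_cast at h
  have hZ : (K : ℤ) * (x + 1) ^ 2 = 4 * x * (1 + x + x) * n ^ 2 := by
    have e0 : (2 * x * n * mP ^ 3 : ℤ) ≠ 0 := by positivity
    apply mul_left_cancel₀ e0
    linear_combination h
  have ha' : (K : ℤ) = (1 + x + x) * a := by exact_mod_cast ha
  have hb' : (K : ℤ) = x * b := by exact_mod_cast hb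
  have hA : (a : ℤ) * (x + 1) ^ 2 = 4 * x * n ^ 2 := by
    have e0 : (1 + x + x : ℤ) ≠ 0 := by positivity
    apply mul_left_cancel₀ e0
    rw [ha'] at hZ
    linear_combination hZ
  have hBB : (b : ℤ) * (x + 1) ^ 2 = 4 * (1 + x + x) * n ^ 2 := by
    have e0 : (x : ℤ) ≠ 0 := by positivity
    apply mul_left_cancel₀ e0
    rw [hb'] at hZ
    linear_combination hZ
  have hsq : ((x : ℤ) + 1) ^ 2 ∣ ((2 : ℤ) * (n : ℤ)) ^ 2 := ⟨b - 2 * a, by linear_combination -hBB + 2 * hA⟩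
  have hdv : ((x : ℤ) + 1) ∣ (2 : ℤ) * (n : ℤ) := (Int.pow_dvd_pow_iff (n := 2) two_ne_zero).1 hsq
  have hdv' : (x + 1) ∣ 2 * n := by exact_mod_cast hdv
  obtain ⟨m, hm⟩ := hdv'
  refine ⟨m, ?_, ?_⟩
  · calc 4 * (mP * n) = 2 * mP * (2 * n) := by ring
      _ = _ := by rw [hm]; ring
  · have hmz : (2 * n : ℤ) = (x + 1) * m := by exact_mod_cast hm
    have hle3 : 1 + x + x ≤ (1 + x + x) ^ 3 := Nat.le_self_pow (by norm_num) _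
    have : (8 * ((K : ℤ) * (mP * n)) : ℤ) = (m : ℤ) ^ 3 * mP * ((1 + x + x) ^ 3 - (1 + x + x)) := by
      have e0 : ((x + 1) ^ 2 : ℤ) ≠ 0 := by positivity
      apply mul_left_cancel₀ e0
      have e1 : ((x + 1) ^ 3 * m ^ 3 : ℤ) = 8 * n ^ 3 := by
        have : ((x + 1) ^ 3 * m ^ 3 : ℤ) = ((x + 1) * m) ^ 3 := by ring
        rw [this, ← hmz]; ring
      linear_combination 8 * mP * n * hZ - 4 * x * (1 + x + x) * mP * e1
    zify [hle3]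
    exact this

end Cfsg.Agent.S4480
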