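import Cfsg.Statements.S4483
import Cfsg.Agent.Lib.BlockReal

set_option autoImplicit false
open Cfsg

namespace Cfsg.Agent.S4483

open Lib.CharBasic in

/-- Let G be a finite group of order 2^n·g₀ with g₀ odd, and M a maximal ideal of the algebraic integers containing 2. Every real-valued irreducible character of G of odd degree lies in the principal 2-block; consequently G has at most 2^(2n) real-valued irreducible characters of odd degree. -/
theorem result {G : Type*} [Group G] [Finite G] (M : Ideal Cfsg.AlgInt) (hM : Cfsg.IsPModular 2 M) : (∀ χ : Cfsg.IrrCharacter G, (∀ g : G, ((χ : G → ℂ) g).im = 0) → Odd (Cfsg.charDegree (χ : G → ℂ)) → χ ∈ Cfsg.principalBlock M G) ∧ Nat.card {χ : Cfsg.IrrCharacter G // (∀ g : G, ((χ : G → ℂ) g).im = 0) ∧ Odd (Cfsg.charDegree (χ : G → ℂ))} ≤ 2 ^ (2 * (Nat.card G).factorization 2) := by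
  classical
  have hG : 0 < Nat.card G := Nat.card_pos
  have hk : Nat.Coprime (Nat.card G - 1) (Nat.card G) := by
    obtain ⟨n, hn⟩ : ∃ n, Nat.card G = n + 1 := ⟨Nat.card G - 1, by omega⟩
    rw [hn, Nat.add_sub_cancel]
    exact (Nat.coprime_self_add_right).mpr (Nat.coprime_one_right n)
  have hpow : ∀ g : G, g ^ (Nat.card G - 1) = g⁻¹ := by
    intro g
    rw [eq_inv_iff_mul_eq_one, ← pow_succ, Nat.sub_add_cancel hG, pow_card_eq_one']
  have h1 : ∀ χ : Cfsg.IrrCharacter G, (∀ g : G, ((χ : G → ℂ) g).im = 0) →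
      Odd (Cfsg.charDegree (χ : G → ℂ)) → χ ∈ Cfsg.principalBlock M G := by
    intro χ hreal hodd
    have hB := Lib.BlockIdem.isPBlock_blockOf M χ
    have hχ := Lib.BlockIdem.self_mem_blockOf hM χ
    have hself : Lib.BlockFix.powI hk χ = χ := by
      apply Subtype.ext
      funext g
      change χ.1 (g ^ (Nat.card G - 1)) = _
      rw [hpow, Lib.CharBasic.char_inv (Lib.CharBasic.isChar_of_irr χ.2)]
      exact Complex.conj_eq_iff_im.mpr (hreal g)
    rw [← Lib.BlockReal.main hM hk (fun g _ => hpow g) hB ?_ ?_]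
    · exact hχ
    · have h2 := Lib.BlockDeg.fac_degree_add (p := 2) hχ
      have h3 := Lib.BlockDeg.blockDefect_le (p := 2) (blockOf M (χ : G → ℂ))
      have h4 : (charDegree χ.1).factorization 2 = 0 :=
        Nat.factorization_eq_zero_of_not_dvd (fun h =>
          (Nat.not_even_iff_odd.mpr hodd) (even_iff_two_dvd.mpr h))
      rw [h4] at h2
      omega
    · intro ψ hψ g
      have h2 := hψ (g ^ (Nat.card G - 1))
      rw [← Lib.BlockReal.centralChar_powI hk, ← Lib.BlockReal.centralChar_powI hk, hself] at h2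
      exact h2
  refine ⟨h1, ?_⟩
  have hB := Lib.BlockHt.principal_isPBlock M G
  have h2 := Lib.BlockBF.bound hM hB
  have h3 : Nat.card {χ : Cfsg.IrrCharacter G // (∀ g : G, ((χ : G → ℂ) g).im = 0) ∧
      Odd (Cfsg.charDegree (χ : G → ℂ))} ≤ Nat.card (principalBlock M G) := by
    apply Nat.card_le_card_of_injective (fun χ : {χ : Cfsg.IrrCharacter G //
      (∀ g : G, ((χ : G → ℂ) g).im = 0) ∧ Odd (Cfsg.charDegree (χ : G → ℂ))} =>
      (⟨χ.1, h1 χ.1 χ.2.1 χ.2.2⟩ : principalBlock M G))
    intro a b hab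
    have h4 : a.1 = b.1 := congrArg (fun x : principalBlock M G => x.1) hab
    exact Subtype.ext h4
  have h4 := Lib.BlockDeg.blockDefect_le (p := 2) (principalBlock M G)
  have h5 : 2 ^ (2 * blockDefect 2 (principalBlock M G)) ≤ 2 ^ (2 * (Nat.card G).factorization 2) :=
    Nat.pow_le_pow_right (by norm_num) (by omega)
  rcases Nat.eq_zero_or_pos ((Nat.card G).factorization 2) with h6 | h6
  · rw [h6] at h5 ⊢
    simp only [mul_zero, pow_zero] at h5 ⊢
    omega
  · have h7 : 4 ≤ 2 ^ (2 * (Nat.card G).factorization 2) := by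
      calc 4 = 2 ^ (2 * 1) := by norm_num
        _ ≤ _ := Nat.pow_le_pow_right (by norm_num) (by omega)
    omega
end Cfsg.Agent.S4483
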