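import Cfsg.Statements.S4490
import Cfsg.Agent.Lib.BlockReal

set_option autoImplicit false
open Cfsg

namespace Cfsg.Agent.S4490

open Lib.CharBasic in

/-- Let G be a finite group and M a maximal ideal of the algebraic integers containing 2. Every 2-block B of G whose defect groups are the Sylow 2-subgroups of G (a block of full defect) and which is not the principal block is different from its complex-conjugate block, the block formed by the complex conjugates of the members of B. -/
theorem result {G : Type*} [Group G] [Finite G] (M : Ideal Cfsg.AlgInt) (hM : Cfsg.IsPModular 2 M) (B : Set (Cfsg.IrrCharacter G)) (hB : Cfsg.IsPBlock M B) (P : Sylow 2 G) (hfull : Cfsg.IsDefectGroup 2 M B (P : Subgroup G)) (hnp : B ≠ Cfsg.principalBlock M G) : {ψ : Cfsg.IrrCharacter G | ∃ χ ∈ B, (ψ : G → ℂ) = fun g => (starRingEnd ℂ) ((χ : G → ℂ) g)} ≠ B := by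
  intro heq
  apply hnp
  have hG : 0 < Nat.card G := Nat.card_pos
  have hk : Nat.Coprime (Nat.card G - 1) (Nat.card G) := by
    obtain ⟨n, hn⟩ : ∃ n, Nat.card G = n + 1 := ⟨Nat.card G - 1, by omega⟩
    rw [hn, Nat.add_sub_cancel]
    exact (Nat.coprime_self_add_right).mpr (Nat.coprime_one_right n)
  have hpow : ∀ g : G, g ^ (Nat.card G - 1) = g⁻¹ := by
    intro g
    rw [eq_inv_iff_mul_eq_one, ← pow_succ, Nat.sub_add_cancel hG, pow_card_eq_one']
  have hdef : Cfsg.blockDefect 2 B = (Nat.card G).factorization 2 := by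
    have h1 := Lib.BlockDeg.card_defectGroup hM hB hfull
    have h2 : Nat.card (P : Subgroup G) = 2 ^ (Nat.card G).factorization 2 :=
      P.card_eq_multiplicity
    rw [h2] at h1
    exact (Nat.pow_right_injective (le_refl 2) h1).symm
  apply Lib.BlockReal.main hM hk (fun g _ => hpow g) hB hdef
  intro χ hχ
  rw [← heq]
  refine ⟨χ, hχ, ?_⟩
  funext g
  change χ.1 (g ^ (Nat.card G - 1)) = _
  rw [hpow, Lib.CharBasic.char_inv (Lib.CharBasic.isChar_of_irr χ.2)]
end Cfsg.Agent.S4490
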