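import Cfsg.Statements.S4493
import Cfsg.Agent.Lib.BlkH8N

set_option autoImplicit false
set_option linter.style.haveILetI false
set_option linter.unusedVariables false
open Cfsg

namespace Cfsg.Agent.S4493
open Cfsg.Agent.Lib.BlkH8N Cfsg.Agent.Lib.BlockRey Cfsg.Agent.Lib.BlockPC Cfsg.Agent.Lib.BlockRk Cfsg.Agent.Lib.BlockInt Cfsg.Agent.Lib.BlockIndIn Cfsg.Agent.Lib.BlockMaxB Cfsg.Agent.Lib.BlockMax Cfsg.Agent.Lib.BlockNilC Cfsg.Agent.Lib.BlockNilB Cfsg.Agent.Lib.BlockNil Cfsg.Agent.Lib.BlockFusB Cfsg.Agent.Lib.BlockFus Cfsg.Agent.Lib.BlockPairF Cfsg.Agent.Lib.BlockPairE Cfsg.Agent.Lib.BlockPairD Cfsg.Agent.Lib.BlockPairC Cfsg.Agent.Lib.BlockPairB Cfsg.Agent.Lib.BlockPair Cfsg.Agent.Lib.BlockBP Cfsg.Agent.Lib.BlockCovB Cfsg.Agent.Lib.BlockTr Cfsg.Agent.Lib.BlockMoreB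 Cfsg.Agent.Lib.BlockMore Cfsg.Agent.Lib.BlockQuotB Cfsg.Agent.Lib.BlockQuot Cfsg.Agent.Lib.BlockCov Cfsg.Agent.Lib.BlockM Cfsg.Agent.Lib.BlockHt Cfsg.Agent.Lib.BlockFirst Cfsg.Agent.Lib.BlockSecond Cfsg.Agent.Lib.BlockInd Cfsg.Agent.Lib.BlockNP Cfsg.Agent.Lib.BlockDeg Cfsg.Agent.Lib.BlockDef Cfsg.Agent.Lib.BlockRed Cfsg.Agent.Lib.BlockOrth Cfsg.Agent.Lib.BlockIdem Cfsg.Agent.Lib.BlockGA Cfsg.Agent.Lib.BlockLoc Cfsg.Agent.Lib.CharBasic Cfsg.Agent.Lib.BlockPP Cfsg.Agent.Lib.CharNormal Cfsg.Agent.Lib.CharPerm Cfsg.Agent.Lib.CharPermB Cfsg.Agent.Lib.BlockSum Cfsg.Agent.Lib.BlockKB Cfsg.Agent.Lib.BlockLar Cfsg.Agent.Lib.BlockBFM Cfsg.Agent.Lib.BlkH8A Cfsg.Agent.Lib.BlkH7R Cfsg.Agent.Lib.BlkH6L Cfsg.Agent.Lib.BlkH6K Cfsg.Agent.Lib.BlkH6J Cfsg.Agent.Lib.BlkH6I Cfsg.Agent.Lib.BlkH6H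 Cfsg.Agent.Lib.BlkH6G Cfsg.Agent.Lib.BlkH5T Cfsg.Agent.Lib.BlkH5Q Cfsg.Agent.Lib.BlkH5P Cfsg.Agent.Lib.BlkH5O Cfsg.Agent.Lib.BlkH5N Cfsg.Agent.Lib.BlkH5A Cfsg.Agent.Lib.BlkH5G Cfsg.Agent.Lib.BlkH5B Cfsg.Agent.Lib.BlkH5C Cfsg.Agent.Lib.BlkH5D Cfsg.Agent.Lib.BlkH5E Cfsg.Agent.Lib.BlkH5F Cfsg.Agent.Lib.BlkH5L Cfsg.Agent.Lib.BlkH5M Cfsg.Agent.Lib.BlkH5R Cfsg.Agent.Lib.BlkH5S Cfsg.Agent.Lib.BlkH5U Cfsg.Agent.Lib.BlkH5V Cfsg.Agent.Lib.BlkH5W Cfsg.Agent.Lib.BlkH5X Cfsg.Agent.Lib.BlkH6F Cfsg.Agent.Lib.BlkH6N Cfsg.Agent.Lib.BlkH6M Cfsg.Agent.Lib.BlkH6D Cfsg.Agent.Lib.BlkH6C Cfsg.Agent.Lib.BlkH6B Cfsg.Agent.Lib.BlkH6A Cfsg.Agent.Lib.BlkH5Y Cfsg.Agent.Lib.BlkH7C Cfsg.Agent.Lib.BlkH7A Cfsg.Agent.Lib.BlkH7B Cfsg.Agent.Lib.BlkH7E Cfsg.Agent.Lib.BlkH7D Cfsg.Agent.Lib.BlkH7F Cfsg.Agent.Lib.BlkH7G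 Cfsg.Agent.Lib.BlkH6P Cfsg.Agent.Lib.BlkH6O Cfsg.Agent.Lib.BlkH7H Cfsg.Agent.Lib.BlkH7I Cfsg.Agent.Lib.BlkH7J Cfsg.Agent.Lib.BlkH7K Cfsg.Agent.Lib.BlkH7L Cfsg.Agent.Lib.BlkH7M Cfsg.Agent.Lib.BlkH7N Cfsg.Agent.Lib.BlkH7O Cfsg.Agent.Lib.BlkH7P Cfsg.Agent.Lib.BlkH7Q Cfsg.Agent.Lib.BlkH8F Cfsg.Agent.Lib.BlkH8E Cfsg.Agent.Lib.BlkH8D Cfsg.Agent.Lib.BlkH8C Cfsg.Agent.Lib.BlkH8B Cfsg.Agent.Lib.BlockKul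
open scoped ComplexConjugate



/-- Let G be a finite solvable group and p a prime. Then G has a normal abelian Sylow p-subgroup if and only if no irreducible character degree of G is divisible by p. -/
theorem result {G : Type*} [Group G] [Finite G] (hsolv : Group.IsSolvable G) (p : ℕ) (hp : p.Prime) : (∃ P : Subgroup G, P.Normal ∧ (∀ x ∈ P, ∀ y ∈ P, x * y = y * x) ∧ IsPGroup p P ∧ ¬ p ∣ P.index) ↔ ∀ χ : Cfsg.IrrCharacter G, ¬ p ∣ Cfsg.charDegree (χ : G → ℂ) := by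
  classical
  haveI : Fact p.Prime := ⟨hp⟩
  constructor
  · rintro ⟨P, hPn, hPc, hPp, hPi⟩ χ hd
    have h1 := Cfsg.Agent.Lib.CharClifford.ito χ.2 P hPc (charDegree_cast (isChar_of_irr χ.2)).symm
    exact hPi (hd.trans h1)
  · intro h
    exact Cfsg.Agent.Lib.BlkH8N.ito_psolv p (Nat.card G) G le_rfl
      (Cfsg.Agent.Lib.PSolB.of_isSolvable (Nat.card G) G p le_rfl hsolv) h

end Cfsg.Agent.S4493
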