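import Cfsg.Statements.S4507
import Cfsg.Agent.Lib.BlkH7R

set_option autoImplicit false
set_option linter.style.haveILetI false
set_option linter.unusedVariables false
open Cfsg

namespace Cfsg.Agent.S4507
open Cfsg.Agent.Lib.BlkH7R Cfsg.Agent.Lib.BlockRey Cfsg.Agent.Lib.BlockPC Cfsg.Agent.Lib.BlockRk Cfsg.Agent.Lib.BlockInt Cfsg.Agent.Lib.BlockIndIn Cfsg.Agent.Lib.BlockMaxB Cfsg.Agent.Lib.BlockMax Cfsg.Agent.Lib.BlockNilC Cfsg.Agent.Lib.BlockNilB Cfsg.Agent.Lib.BlockNil Cfsg.Agent.Lib.BlockFusB Cfsg.Agent.Lib.BlockFus Cfsg.Agent.Lib.BlockPairF Cfsg.Agent.Lib.BlockPairE Cfsg.Agent.Lib.BlockPairD Cfsg.Agent.Lib.BlockPairC Cfsg.Agent.Lib.BlockPairB Cfsg.Agent.Lib.BlockPair Cfsg.Agent.Lib.BlockBP Cfsg.Agent.Lib.BlockCovB Cfsg.Agent.Lib.BlockTr Cfsg.Agent.Lib.BlockMoreB Cfsg.Agent.Lib.BlockMore Cfsg.Agent.Lib.BlockQuotB Cfsg.Agent.Lib.BlockQuot Cfsg.Agent.Lib.BlockCov Cfsg.Agent.Lib.BlockM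 Cfsg.Agent.Lib.BlockHt Cfsg.Agent.Lib.BlockFirst Cfsg.Agent.Lib.BlockSecond Cfsg.Agent.Lib.BlockInd Cfsg.Agent.Lib.BlockNP Cfsg.Agent.Lib.BlockDeg Cfsg.Agent.Lib.BlockDef Cfsg.Agent.Lib.BlockRed Cfsg.Agent.Lib.BlockOrth Cfsg.Agent.Lib.BlockIdem Cfsg.Agent.Lib.BlockGA Cfsg.Agent.Lib.BlockLoc Cfsg.Agent.Lib.CharBasic Cfsg.Agent.Lib.BlockPP Cfsg.Agent.Lib.CharNormal Cfsg.Agent.Lib.CharPerm Cfsg.Agent.Lib.CharPermB Cfsg.Agent.Lib.BlockSum Cfsg.Agent.Lib.BlockKB Cfsg.Agent.Lib.BlockLar Cfsg.Agent.Lib.BlockBFM Cfsg.Agent.Lib.BlkH6L Cfsg.Agent.Lib.BlkH6K Cfsg.Agent.Lib.BlkH6J Cfsg.Agent.Lib.BlkH6I Cfsg.Agent.Lib.BlkH6H Cfsg.Agent.Lib.BlkH6G Cfsg.Agent.Lib.BlkH5T Cfsg.Agent.Lib.BlkH5Q Cfsg.Agent.Lib.BlkH5P Cfsg.Agent.Lib.BlkH5O Cfsg.Agent.Lib.BlkH5N Cfsg.Agent.Lib.BlkH5A Cfsg.Agent.Lib.BlkH5G Cfsg.Agent.Lib.BlkH5B Cfsg.Agent.Lib.BlkH5C Cfsg.Agent.Lib.BlkH5D Cfsg.Agent.Lib.BlkH5E Cfsg.Agent.Lib.BlkH5F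 Cfsg.Agent.Lib.BlkH5L Cfsg.Agent.Lib.BlkH5M Cfsg.Agent.Lib.BlkH5R Cfsg.Agent.Lib.BlkH5S Cfsg.Agent.Lib.BlkH5U Cfsg.Agent.Lib.BlkH5V Cfsg.Agent.Lib.BlkH5W Cfsg.Agent.Lib.BlkH5X Cfsg.Agent.Lib.BlkH6F Cfsg.Agent.Lib.BlkH6N Cfsg.Agent.Lib.BlkH6M Cfsg.Agent.Lib.BlkH6D Cfsg.Agent.Lib.BlkH6C Cfsg.Agent.Lib.BlkH6B Cfsg.Agent.Lib.BlkH6A Cfsg.Agent.Lib.BlkH5Y Cfsg.Agent.Lib.BlkH7C Cfsg.Agent.Lib.BlkH7A Cfsg.Agent.Lib.BlkH7B Cfsg.Agent.Lib.BlkH7E Cfsg.Agent.Lib.BlkH7D Cfsg.Agent.Lib.BlkH7F Cfsg.Agent.Lib.BlkH7G Cfsg.Agent.Lib.BlkH6P Cfsg.Agent.Lib.BlkH6O Cfsg.Agent.Lib.BlkH7H Cfsg.Agent.Lib.BlkH7I Cfsg.Agent.Lib.BlkH7J Cfsg.Agent.Lib.BlkH7K Cfsg.Agent.Lib.BlkH7L Cfsg.Agent.Lib.BlkH7M Cfsg.Agent.Lib.BlkH7N Cfsg.Agent.Lib.BlkH7O Cfsg.Agent.Lib.BlkH7P Cfsg.Agent.Lib.BlkH7Q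
open scoped ComplexConjugate



/-- Let G be a finite group whose order g is divisible by the prime p exactly once, g′ = g/p, and fix a maximal ideal M of the algebraic integers containing p. Call two irreducible characters p-conjugate when a field automorphism of ℂ fixing the g′-th roots of unity carries one to the other. Let B be a p-block of positive defect (its defect group is a Sylow p-subgroup). Then B contains a subset Y (the exceptional family) such that: Y is a full p-conjugacy class (its members are pairwise p-conjugate and every p-conjugate of a member of Y lies in Y); every member of B outside Y is p-conjugate only to itself; the size t of Y divides p − 1 and B has exactly t + (p − 1)/t members; and there are signs δ_χ = ±1 (χ ∈ B) such that for every p-regular element x and every θ ∈ Y, Σ_{χ ∈ B ∖ Y} δ_χ χ(x) + δ_θ θ(x) = 0. -/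
theorem result {G : Type*} [Group G] [Finite G] (p : ℕ) [Fact p.Prime] (M : Ideal Cfsg.AlgInt) (hM : Cfsg.IsPModular p M) (hdiv : p ∣ Nat.card G) (hsq : ¬ p ^ 2 ∣ Nat.card G) (B : Set (Cfsg.IrrCharacter G)) (hB : Cfsg.IsPBlock M B) (hd : 0 < Cfsg.blockDefect p B) : ∃ Y : Set (Cfsg.IrrCharacter G), Y ⊆ B ∧ Y.Nonempty ∧ (∀ θ ∈ Y, ∀ ψ : Cfsg.IrrCharacter G, (∃ σ : ℂ ≃+* ℂ, σ (Complex.exp (2 * Real.pi * Complex.I / ((Nat.card G / p ^ (Nat.card G).factorization p) : ℕ))) = Complex.exp (2 * Real.pi * Complex.I / ((Nat.card G / p ^ (Nat.card G).factorization p) : ℕ)) ∧ (ψ : G → ℂ) = fun g => σ ((θ : G → ℂ) g)) ↔ ψ ∈ Y) ∧ (∀ χ ∈ B, χ ∉ Y → ∀ ψ : Cfsg.IrrCharacter G, (∃ σ : ℂ ≃+* ℂ, σ (Complex.exp (2 * Real.pi * Complex.I / ((Nat.card G / p ^ (Nat.card G).factorization p) : ℕ))) = Complex.exp (2 * Real.pi * Complex.I / ((Nat.card G / p ^ (Nat.card G).factorization p) : ℕ)) ∧ (ψ : G → ℂ) = fun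 g => σ ((χ : G → ℂ) g)) → ψ = χ) ∧ Nat.card Y ∣ p - 1 ∧ Nat.card B = Nat.card Y + (p - 1) / Nat.card Y ∧ ∃ δ : Cfsg.IrrCharacter G → ℤ, (∀ χ ∈ B, δ χ = 1 ∨ δ χ = -1) ∧ ∀ x : G, ¬ p ∣ orderOf x → ∀ θ ∈ Y, (∑ᶠ χ ∈ B \ Y, (δ χ : ℂ) * (χ : G → ℂ) x) + (δ θ : ℂ) * (θ : G → ℂ) x = 0 := by
  classical
  have hp : p.Prime := hM.1
  have hcG : Nat.card G ≠ 0 := Nat.card_pos.ne'
  have hfac : (Nat.card G).factorization p = 1 := by
    have h1 : 1 ≤ (Nat.card G).factorization p :=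
      (hp.pow_dvd_iff_le_factorization hcG).1 (by rwa [pow_one])
    have h2 : ¬ 2 ≤ (Nat.card G).factorization p := fun h =>
      hsq ((hp.pow_dvd_iff_le_factorization hcG).2 h)
    omega
  set m : ℕ := Nat.card G / p ^ (Nat.card G).factorization p with hm
  have hG : Nat.card G = m * p := by
    have h1 := Nat.ordProj_mul_ordCompl_eq_self (Nat.card G) p
    rw [← hm, hfac, pow_one, mul_comm] at h1
    exact h1.symm
  have hm0 : m ≠ 0 := by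
    intro h
    rw [h, zero_mul] at hG
    exact hcG hG
  have hpm : Nat.Coprime p m := Nat.coprime_ordCompl hp hcG
  -- the defect group
  obtain ⟨D, hD⟩ := exists_defectGroup hM hB
  have hDp := isPGroup_of_isDefectGroup hM hD
  have hcD := card_defectGroup hM hB hD
  obtain ⟨S, hDS⟩ := hDp.exists_le_sylow
  have hcS : Nat.card S = p := by
    have h1 := S.card_eq_multiplicity
    rwa [hfac, pow_one] at h1
  have hDeq : (S : Subgroup G) = D := by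
    symm
    apply Subgroup.eq_of_le_of_card_ge hDS
    have h1 : p ^ 1 ≤ p ^ Cfsg.blockDefect p B := Nat.pow_le_pow_right hp.pos hd
    rw [hcD]
    change Nat.card S ≤ _
    rw [hcS]
    rwa [pow_one] at h1
  subst hDeq
  obtain ⟨H, g, c⟩ := exists_cfg S hcS
  have hS : ∃ S' : Sylow p G, (S' : Subgroup G) = (S : Subgroup G) := ⟨S, rfl⟩
  haveI : Fintype (S : Subgroup G) := Fintype.ofFinite _
  haveI : Fintype (phi c).ker := Fintype.ofFinite _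
  obtain ⟨b, hb⟩ := exists_max_of_defect hM hB hD
  have hind := ((isBrauerPairOf_iff hM).1 hb.1).2
  obtain ⟨ξ₀, hξ₀⟩ := block_nonempty hM hind.1
  have hch : IsCharacter (phi c).ker (fun k => ξ₀.1 (jC c k)) :=
    isChar_comp (jC c) (isChar_of_irr ξ₀.2)
  obtain ⟨θ, hθ⟩ := char_ne_zero_exists_constituent hch (fun h => isIrr_one_ne_zero ξ₀.2 (by
    have := congrFun h 1
    simpa using this))
  have hov : Ovj (jC c) ξ₀ θ := (ovj_def ξ₀ θ).2 hθ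
  have hIP : IP c θ = B := IP_eq hM c hS hind.1 hξ₀ hov hind hB hD
  letI := cg (S : Subgroup G) (Cfg_comm c)
  haveI : Fintype ((Cfsg.Agent.Lib.CharClifford.inertia θ.1).map (phi c)) := Fintype.ofFinite _
  obtain ⟨X, Y, a, δ, hStr, hXY⟩ := defect_one hM c hS θ
  rw [hIP] at hXY
  set e := Nat.card ((Cfsg.Agent.Lib.CharClifford.inertia θ.1).map (phi c)) with he
  have he0 : 0 < e := Nat.card_pos
  have hcY0 : Nat.card Y * e = p - 1 := by
    have h1 := hStr.cY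
    rwa [hcS] at h1
  have hp1 : 0 < p - 1 := by have := hp.one_lt; omega
  have hY0 : 0 < Nat.card Y := by
    by_contra hn
    have h1 : Nat.card Y = 0 := by omega
    rw [h1, zero_mul] at hcY0
    omega
  have hker : Nat.card (phi c).ker ∣ m := ker_dvd c hG
  -- the action on the block
  have hstable : ∀ (σ : ℂ ≃+* ℂ), Fx m σ → ∀ χ ψ : IrrCharacter G, χ ∈ B →
      ψ.1 = (fun x => σ (χ.1 x)) → ψ ∈ B := by
    intro σ hσ χ ψ hχ hψ
    rw [← hIP] at hχ ⊢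
    obtain ⟨u, hu, hDu⟩ := hχ
    refine ⟨u, hu, ?_⟩
    rw [hψ, DP_gal c hker hσ]
    exact fun h => hDu ((map_eq_zero σ).1 h)
  have hXI : ∀ χ ∈ X, χ ∈ IP c θ := fun χ hχ => by rw [hIP, hXY]; exact Or.inl hχ
  have hXfix : ∀ (σ : ℂ ≃+* ℂ), Fx m σ → ∀ χ ψ : IrrCharacter G, χ ∈ X →
      ψ.1 = (fun x => σ (χ.1 x)) → ψ = χ := by
    intro σ hσ χ ψ hχ hψ
    apply Subtype.ext
    rw [hψ]
    funext x
    exact X_fixed hM c hS hG hσ (hXI χ hχ) (hStr.DX χ hχ) x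
  have hYst : ∀ (σ : ℂ ≃+* ℂ), Fx m σ → ∀ χ ψ : IrrCharacter G, χ ∈ Y →
      ψ.1 = (fun x => σ (χ.1 x)) → ψ ∈ Y := by
    intro σ hσ χ ψ hχ hψ
    have h1 := hstable σ hσ χ ψ (by rw [hXY]; exact Or.inr hχ) hψ
    rw [hXY] at h1
    rcases h1 with h1 | h1
    · have h2 : χ.1 = fun x => σ.symm (ψ.1 x) := by
        funext x
        rw [hψ, RingEquiv.symm_apply_apply]
      have h3 := hXfix σ.symm (fx_symm hσ) ψ χ h1 h2
      rw [h3] at hχ
      exact absurd hχ (Set.disjoint_left.1 hStr.disj h1)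
    · exact h1
  refine ⟨Y, by rw [hXY]; exact Set.subset_union_right, ?_, ?_, ?_, ⟨e, by rw [hcY0]⟩, ?_,
    fun χ => if χ ∈ X then a χ else -δ, ?_, ?_⟩
  · exact Set.nonempty_iff_ne_empty.2 (fun h => by rw [h] at hY0; simp at hY0)
  · intro η hη ψ
    constructor
    · rintro ⟨σ, hσ, hψ⟩
      exact hYst σ (fx_of_exp hm0 hσ) η ψ hη hψ
    · intro hψ
      obtain ⟨ψ₁, h1, h2⟩ := hStr.DY η hη
      obtain ⟨ψ₂, h3, h4⟩ := hStr.DY ψ hψ
      obtain ⟨n, hn, hn2⟩ := dual_pow (P := (S : Subgroup G)) (by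
        change (Nat.card S).Prime
        rw [hcS]; exact hp) h1 h3
      obtain ⟨σ, hσ, hσp⟩ := exists_sigma hp hm0 hpm (n := n) (by
        have : Nat.card (S : Subgroup G) = p := hcS
        rwa [this] at hn)
      refine ⟨σ, exp_of_fx hm0 hσ, ?_⟩
      let η' : IrrCharacter G := ⟨fun x => σ (η.1 x), Cfsg.Agent.Lib.CharGal.isIrr_galois σ η.2⟩
      have h5 : η' ∈ Y := hYst σ hσ η η' hη rfl
      have h6 : ψ = η' := by
        refine hStr.injY ψ hψ η' h5 (fun u hu => ?_)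
        have h7 : DP c θ η'.1 u = σ (DP c θ η.1 u) := DP_gal c hker hσ θ η.1 u
        have h8 : DP c θ ψ.1 u = _ := h4 u hu
        have h9 : DP c θ η.1 u = _ := h2 u hu
        rw [h7, h8, h9, map_mul, map_sum, map_intCast]
        congr 1
        refine Finset.sum_congr rfl (fun h _ => ?_)
        rw [hn2, hσp]
        · rw [MonoidHom.pow_apply]; push_cast; rfl
        · have h10 : ∀ w : (S : Subgroup G), w ^ p = 1 := by
            intro w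
            have h11 : Nat.card (S : Subgroup G) = p := hcS
            have h12 := orderOf_dvd_natCard w
            have h13 : orderOf w ∣ p := h12.trans (dvd_of_eq h11)
            exact orderOf_dvd_iff_pow_eq_one.1 h13
          rw [← Units.val_pow_eq_pow_val, ← map_pow, h10, map_one, Units.val_one]
      exact congrArg Subtype.val h6
  · rintro χ hχ hχY ψ ⟨σ, hσ, hψ⟩
    have h1 : χ ∈ X := by
      rw [hXY] at hχ
      exact hχ.resolve_right hχY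
    exact hXfix σ (fx_of_exp hm0 hσ) χ ψ h1 hψ
  · have h1 : Set.ncard (X ∪ Y) = Set.ncard X + Set.ncard Y :=
      Set.ncard_union_eq hStr.disj (Set.toFinite _) (Set.toFinite _)
    have h2 : Nat.card ↑(X ∪ Y) = Nat.card X + Nat.card Y := h1
    rw [hXY, h2, hStr.cX, add_comm]
    congr 1
    rw [← hcY0, mul_comm, Nat.mul_div_cancel _ hY0]
  · intro χ hχ
    change (if χ ∈ X then a χ else -δ) = 1 ∨ (if χ ∈ X then a χ else -δ) = -1
    by_cases h : χ ∈ X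
    · rw [if_pos h]
      exact hStr.ha χ h
    · rw [if_neg h]
      rcases hStr.hδ with h1 | h1
      · right; rw [h1]
      · left; rw [h1]; rfl
  · intro x hx η hη
    have h1 := hStr.rel (fun χ => χ.1 x) (fun u hu => rel_reg c hS θ hu hx) η hη
    have h2 : B \ Y = X := by
      rw [hXY]
      ext z
      constructor
      · rintro ⟨h3 | h3, h4⟩
        · exact h3
        · exact absurd h3 h4
      · intro h3
        exact ⟨Or.inl h3, fun h4 => Set.disjoint_left.1 hStr.disj h3 h4⟩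
    rw [h2]
    have h3 : ∑ᶠ χ ∈ X, (((if χ ∈ X then a χ else -δ : ℤ)) : ℂ) * χ.1 x =
        ∑ᶠ χ ∈ X, (a χ : ℂ) * χ.1 x := by
      refine finsum_mem_congr rfl (fun χ hχ => ?_)
      rw [if_pos hχ]
    have h4 : η ∉ X := fun h => Set.disjoint_left.1 hStr.disj h hη
    rw [h3, ← h1]
    change (δ : ℂ) * η.1 x + (((if η ∈ X then a η else -δ : ℤ)) : ℂ) * η.1 x = 0
    rw [if_neg h4]
    push_cast
    ring

end Cfsg.Agent.S4507
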