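import Cfsg.Statements.S4510
import Cfsg.Agent.Lib.BlkH5L

set_option autoImplicit false
set_option linter.style.haveILetI false
set_option linter.unusedVariables false
open Cfsg

namespace Cfsg.Agent.S4510
open Cfsg.Agent.Lib.BlkH5L Cfsg.Agent.Lib.BlockRey Cfsg.Agent.Lib.BlockPC Cfsg.Agent.Lib.BlockRk Cfsg.Agent.Lib.BlockInt Cfsg.Agent.Lib.BlockIndIn Cfsg.Agent.Lib.BlockMaxB Cfsg.Agent.Lib.BlockMax Cfsg.Agent.Lib.BlockNilC Cfsg.Agent.Lib.BlockNilB Cfsg.Agent.Lib.BlockNil Cfsg.Agent.Lib.BlockFusB Cfsg.Agent.Lib.BlockFus Cfsg.Agent.Lib.BlockPairF Cfsg.Agent.Lib.BlockPairE Cfsg.Agent.Lib.BlockPairD Cfsg.Agent.Lib.BlockPairC Cfsg.Agent.Lib.BlockPairB Cfsg.Agent.Lib.BlockPair Cfsg.Agent.Lib.BlockBP Cfsg.Agent.Lib.BlockCovB Cfsg.Agent.Lib.BlockTr Cfsg.Agent.Lib.BlockMoreB Cfsg.Agent.Lib.BlockMore Cfsg.Agent.Lib.BlockQuotB Cfsg.Agent.Lib.BlockQuot Cfsg.Agent.Lib.BlockCov Cfsg.Agent.Lib.BlockM Cfsg.Agent.Lib.BlockHt Cfsg.Agent.Lib.BlockFirst Cfsg.Agent.Lib.BlockSecond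 Cfsg.Agent.Lib.BlockInd Cfsg.Agent.Lib.BlockNP Cfsg.Agent.Lib.BlockDeg Cfsg.Agent.Lib.BlockDef Cfsg.Agent.Lib.BlockRed Cfsg.Agent.Lib.BlockOrth Cfsg.Agent.Lib.BlockIdem Cfsg.Agent.Lib.BlockGA Cfsg.Agent.Lib.BlockLoc Cfsg.Agent.Lib.CharBasic Cfsg.Agent.Lib.BlockPP Cfsg.Agent.Lib.CharNormal Cfsg.Agent.Lib.CharPerm Cfsg.Agent.Lib.CharPermB Cfsg.Agent.Lib.BlockSum Cfsg.Agent.Lib.BlockKB Cfsg.Agent.Lib.BlockLar Cfsg.Agent.Lib.BlockBFM Cfsg.Agent.Lib.BlkH5A
open scoped ComplexConjugate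



/-- Let G be a finite group, p a prime, M a maximal ideal of the algebraic integers containing p, and call the defect of a conjugacy class the exponent of p in the order of the centralizer of its elements. Two irreducible characters lying in p-blocks of defect exactly d lie in the same block if and only if their central characters (class size times χ(x)/χ(1)) agree modulo the local ideal at M at every p-regular element x whose class has defect exactly d. -/
theorem result {G : Type*} [Group G] [Finite G] (p : ℕ) [Fact p.Prime] (M : Ideal Cfsg.AlgInt) (hM : Cfsg.IsPModular p M) (d : ℕ) (χ ψ : Cfsg.IrrCharacter G) (hχ : Cfsg.blockDefect p (Cfsg.blockOf M (χ : G → ℂ)) = d) (hψ : Cfsg.blockDefect p (Cfsg.blockOf M (ψ : G → ℂ)) = d) : Cfsg.SameBlock M (χ : G → ℂ) (ψ : G → ℂ) ↔ ∀ x : G, ¬ p ∣ orderOf x → (Nat.card (Subgroup.centralizer ({x} : Set G))).factorization p = d → Cfsg.MemLocalIdeal M (Cfsg.centralChar (χ : G → ℂ) x - Cfsg.centralChar (ψ : G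 → ℂ) x) := by
  constructor
  · intro h x _ _
    exact h x
  · intro h
    haveI : Fintype (ConjClasses G) := Fintype.ofFinite _
    have hB := isPBlock_blockOf M χ
    have hB' := isPBlock_blockOf M ψ
    set B := blockOf M (χ : G → ℂ) with hBdef
    have h1 : lam hM χ.1 (eF hM B) = 1 := lam_eF_mem hM (isLoc_eB hM hB) (self_mem_blockOf hM χ)
    have h2 : lam hM ψ.1 (eF hM B) = lam hM χ.1 (eF hM B) := by
      rw [lam_expand hM ψ (eF_isCl hM B), lam_expand hM χ (eF_isCl hM B)]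
      refine Finset.sum_congr rfl (fun C _ => ?_)
      by_cases he : (eF hM B) (rpt C) = 0
      · rw [he, zero_mul, zero_mul]
      congr 1
      obtain ⟨h3, h4⟩ := defect_ge_of_eF hM hB he
      rw [hχ] at h4
      by_cases hd : (Nat.card (Subgroup.centralizer ({rpt C} : Set G))).factorization p = d
      · have h5 := h (rpt C) h3 hd
        rw [lam_cs hM χ.2, lam_cs hM ψ.2]
        exact ((red_eq_iff hM (loc_centralChar hM χ.2 _) (loc_centralChar hM ψ.2 _)).2 h5).symm
      · have h5 : lam hM χ.1 (cs (ResF hM) (rpt C)) = 0 := by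
          by_contra hne
          have := defect_le_of_cs hM hB (self_mem_blockOf hM χ) hne
          rw [hχ] at this
          omega
        have h6 : lam hM ψ.1 (cs (ResF hM) (rpt C)) = 0 := by
          by_contra hne
          have := defect_le_of_cs hM hB' (self_mem_blockOf hM ψ) hne
          rw [hψ] at this
          omega
        rw [h5, h6]
    rw [h1] at h2
    by_contra hcon
    have h3 := lam_eF_not_mem hM (isLoc_eB hM hB) (χ := ψ) (fun hmem => hcon hmem)
    rw [h3] at h2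
    exact zero_ne_one h2

end Cfsg.Agent.S4510
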