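import Cfsg.Statements.S4633
import Cfsg.Agent.Lib.BlockIndIn

set_option autoImplicit false
set_option linter.style.haveILetI false
set_option linter.unusedVariables false
open Cfsg

namespace Cfsg.Agent.S4633
open Cfsg.Agent.Lib.BlockIndIn Cfsg.Agent.Lib.BlockMaxB Cfsg.Agent.Lib.BlockMax Cfsg.Agent.Lib.BlockNilC Cfsg.Agent.Lib.BlockNilB Cfsg.Agent.Lib.BlockNil Cfsg.Agent.Lib.BlockFusB Cfsg.Agent.Lib.BlockFus Cfsg.Agent.Lib.BlockPairF Cfsg.Agent.Lib.BlockPairE Cfsg.Agent.Lib.BlockPairD Cfsg.Agent.Lib.BlockPairC Cfsg.Agent.Lib.BlockPairB Cfsg.Agent.Lib.BlockPair Cfsg.Agent.Lib.BlockBP Cfsg.Agent.Lib.BlockCovB Cfsg.Agent.Lib.BlockTr Cfsg.Agent.Lib.BlockMoreB Cfsg.Agent.Lib.BlockMore Cfsg.Agent.Lib.BlockQuotB Cfsg.Agent.Lib.BlockQuot Cfsg.Agent.Lib.BlockCov Cfsg.Agent.Lib.BlockM Cfsg.Agent.Lib.BlockHt Cfsg.Agent.Lib.BlockFirst Cfsg.Agent.Lib.BlockSecond Cfsg.Agent.Lib.BlockInd Cfsg.Agent.Lib.BlockNP Cfsg.Agent.Lib.BlockDeg Cfsg.Agent.Lib.BlockDef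 Cfsg.Agent.Lib.BlockRed Cfsg.Agent.Lib.BlockOrth Cfsg.Agent.Lib.BlockIdem Cfsg.Agent.Lib.BlockGA Cfsg.Agent.Lib.BlockLoc Cfsg.Agent.Lib.CharBasic Cfsg.Agent.Lib.BlockPP Cfsg.Agent.Lib.CharNormal Cfsg.Agent.Lib.CharPerm Cfsg.Agent.Lib.CharPermB
open scoped ComplexConjugate



/-- Let B be a block of the finite group G relative to a maximal ideal M of the algebraic integers containing the prime p, with a nontrivial cyclic defect group P. Let c be a block of C_G(P) inducing B and T the stabilizer of c in N_G(P) (the elements of N_G(P) conjugating c to itself); T contains C_G(P). Then T/C_G(P) is cyclic of order dividing p − 1, and it acts freely on the non-identity elements of P: an element of T fixing some non-identity element of P under conjugation lies in C_G(P). -/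
theorem result {G : Type*} [Group G] [Finite G] (p : ℕ) [Fact p.Prime] (M : Ideal Cfsg.AlgInt) (hM : Cfsg.IsPModular p M) (B : Set (Cfsg.IrrCharacter G)) (hB : Cfsg.IsPBlock M B) (P : Subgroup G) (hPD : Cfsg.IsDefectGroup p M B P) (hP1 : P ≠ ⊥) (hcyc : IsCyclic P) (c : Set (Cfsg.IrrCharacter (Subgroup.centralizer (P : Set G)))) (hc : Cfsg.IsInducedBlock M (Subgroup.centralizer (P : Set G)) c B) (T : Subgroup G) (hT : ∀ g : G, g ∈ T ↔ (g ∈ Subgroup.normalizer (P : Set G) ∧ Cfsg.StabilizesBlock (Subgroup.centralizer (P : Set G)) c g)) [hn : ((Subgroup.centralizer (P : Set G)).subgroupOf T).Normal] : IsCyclic (T ⧸ (Subgroup.centralizer (P : Set G)).subgroupOf T) ∧ (Subgroup.centralizer (P : Set G)).relIndex T ∣ p - 1 ∧ ∀ g ∈ T, ∀ x ∈ P, x ≠ 1 → g * x * g⁻¹ = x → g ∈ Subgroup.centralizer (P : Set G) := by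
  have hPp : IsPGroup p P := isPGroup_of_isDefectGroup hM hPD
  have hBP : IsBrauerPairOf p M B P c := (isBrauerPairOf_iff hM).2 ⟨hPp, hc⟩
  have hmax := maximal_of_defect hM hBP hPD
  have hcb : IsPBlock M c := hc.1
  have hstab : IsStab T (⟨P, c⟩ : BrauerPairIdx G) := isStab_of hM hcb hT
  have hTN := IsStab.le_norm hstab
  have hPT := IsStab.self_le hM hcb hstab
  have hCT := IsStab.cent_le hM hcb hstab
  have hPC : P ≤ Subgroup.centralizer (P : Set G) := by
    intro x hx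
    rw [Subgroup.mem_centralizer_iff]
    intro y hy
    letI := hcyc.commGroup
    have := mul_comm (⟨y, hy⟩ : P) ⟨x, hx⟩
    exact congrArg Subtype.val this
  have hidx := index_stab_max hM hmax hstab
  have hsup : P.subgroupOf T ⊔ (Subgroup.centralizer (P : Set G)).subgroupOf T =
      (Subgroup.centralizer (P : Set G)).subgroupOf T :=
    sup_eq_right.2 (Subgroup.comap_mono hPC)
  rw [hsup] at hidx
  obtain ⟨h1, h2⟩ := cyclic_quot hPp hcyc hP1 hCT hTN hidx
  exact ⟨h1, h2, fun g hg x hx hx1 hgx => cyclic_free hPp hcyc hCT hTN hidx hg hx hx1 hgx⟩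

end Cfsg.Agent.S4633
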