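import Cfsg.Statements.S4636

set_option autoImplicit false
open scoped Pointwise
open Cfsg

namespace Cfsg.Agent.S4636

/-- Let P be a nontrivial cyclic p-subgroup of the finite group G and Z its subgroup of order p. For every x outside N_G(Z), P meets its conjugate xPx⁻¹ trivially; consequently N_G(Q) ≤ N_G(Z) for every nontrivial subgroup Q of P. -/
theorem result {G : Type*} [Group G] [Finite G] (p : ℕ) [Fact p.Prime] (P : Subgroup G) (hP : IsPGroup p P) (hP1 : P ≠ ⊥) (hcyc : IsCyclic P) (Z : Subgroup G) (hZ : Z ≤ P) (hZcard : Nat.card Z = p) : (∀ x : G, x ∉ Subgroup.normalizer (Z : Set G) → P ⊓ MulAut.conj x • P = ⊥) ∧ ∀ Q : Subgroup G, Q ≤ P → Q ≠ ⊥ → Subgroup.normalizer (Q : Set G) ≤ Subgroup.normalizer (Z : Set G) := by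
  have hfact : Fact p.Prime := inferInstance
  have hpp : p.Prime := hfact.out
  -- every nontrivial subgroup of `P` contains `Z`
  have huniq : ∀ Q : Subgroup G, Q ≤ P → Q ≠ ⊥ → Z ≤ Q := by
    intro Q hQ hQ1
    have hQp : IsPGroup p Q := hP.to_le hQ
    have hQc : p ∣ Nat.card Q := by
      obtain ⟨k, hk⟩ := hQp.exists_card_eq
      rcases k with _ | k
      · rw [pow_zero, Subgroup.card_eq_one] at hk
        exact absurd hk hQ1
      · rw [hk]; exact dvd_pow_self p (Nat.succ_ne_zero k)
    obtain ⟨y, hy⟩ := exists_prime_orderOf_dvd_card' p hQc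
    -- `Z` and `zpowers y` are both the `p`-torsion of `P`
    intro z hz
    have : Fintype P := Fintype.ofFinite _
    classical
    have hcard := IsCyclic.card_pow_eq_one_le (α := P) hpp.pos
    let S : Finset P := Finset.univ.filter (fun a : P => a ^ p = 1)
    have hyP : (y : G) ∈ P := hQ y.2
    have hyo : orderOf (⟨(y : G), hyP⟩ : P) = p := by
      rw [← Subgroup.orderOf_coe]
      change orderOf (y : G) = p
      rw [Subgroup.orderOf_coe, hy]
    let T : Finset P := Finset.univ.filter (fun a : P => a ∈ Subgroup.zpowers (⟨(y : G), hyP⟩ : P))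
    have hTS : T ⊆ S := by
      intro a ha
      rw [Finset.mem_filter] at ha ⊢
      refine ⟨Finset.mem_univ _, ?_⟩
      obtain ⟨k, hk⟩ := Subgroup.mem_zpowers_iff.mp ha.2
      rw [← hk, ← zpow_natCast, ← zpow_mul, mul_comm, zpow_mul, zpow_natCast]
      have : (⟨(y : G), hyP⟩ : P) ^ p = 1 := by rw [← hyo]; exact pow_orderOf_eq_one _
      rw [this, one_zpow]
    have hTc : T.card = p := by
      have h1 : T.card = Nat.card (Subgroup.zpowers (⟨(y : G), hyP⟩ : P)) := by
        rw [Nat.card_eq_fintype_card, Fintype.card_subtype]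
      rw [h1, Nat.card_zpowers, hyo]
    have hST : T = S := Finset.eq_of_subset_of_card_le hTS (by rw [hTc]; exact hcard)
    have hzS : (⟨z, hZ hz⟩ : P) ∈ S := by
      rw [Finset.mem_filter]
      refine ⟨Finset.mem_univ _, ?_⟩
      apply Subtype.ext
      have h1 : (⟨z, hz⟩ : Z) ^ Nat.card Z = 1 := pow_card_eq_one'
      rw [hZcard] at h1
      have h2 : z ^ p = 1 := congrArg (fun w : Z => (w : G)) h1
      exact h2
    rw [← hST, Finset.mem_filter] at hzS
    obtain ⟨k, hk⟩ := Subgroup.mem_zpowers_iff.mp hzS.2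
    have h2 := congrArg Subtype.val hk
    have h3 : (y : G) ^ k = z := by simpa using h2
    rw [← h3]
    exact Q.zpow_mem y.2 k
  have hmain : ∀ x : G, x ∉ Subgroup.normalizer (Z : Set G) → P ⊓ MulAut.conj x • P = ⊥ := by
    intro x hx
    by_contra hne
    have h1 := huniq _ inf_le_left hne
    have h2 : Z ≤ MulAut.conj x • P := h1.trans inf_le_right
    -- `x⁻¹ Z x ≤ P` is nontrivial so contains `Z`
    have h3 : MulAut.conj x⁻¹ • Z ≤ P := by
      have := Subgroup.pointwise_smul_le_pointwise_smul_iff (a := MulAut.conj x⁻¹).mpr h2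
      rw [← mul_smul, ← map_mul, inv_mul_cancel, map_one, one_smul] at this
      exact this
    have h4 : MulAut.conj x⁻¹ • Z ≠ ⊥ := by
      intro h0
      have : Nat.card (MulAut.conj x⁻¹ • Z : Subgroup G) = Nat.card Z :=
        Nat.card_congr (Subgroup.equivSMul (MulAut.conj x⁻¹) Z).symm.toEquiv
      rw [h0, hZcard, Subgroup.card_bot] at this
      exact hpp.one_lt.ne this
    have h5 := huniq _ h3 h4
    have h6 : Z = MulAut.conj x⁻¹ • Z := by
      apply Subgroup.eq_of_le_of_card_ge h5
      exact (Nat.card_congr (Subgroup.equivSMul (MulAut.conj x⁻¹) Z).symm.toEquiv).le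
    apply hx
    rw [Subgroup.mem_normalizer_iff]
    intro y
    conv_lhs => rw [h6]
    rw [Subgroup.mem_pointwise_smul_iff_inv_smul_mem]
    simp [MulAut.smul_def]
  refine ⟨hmain, fun Q hQ hQ1 x hx => ?_⟩
  by_contra hn
  have h1 := hmain x hn
  have h2 : MulAut.conj x • Q = Q := by
    ext y
    rw [Subgroup.mem_pointwise_smul_iff_inv_smul_mem]
    have h2 := Subgroup.mem_normalizer_iff.mp (inv_mem hx) y
    simp only [inv_inv] at h2
    rw [h2]
    simp [MulAut.smul_def]
  have h3 : Q ≤ P ⊓ MulAut.conj x • P := by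
    refine le_inf hQ ?_
    rw [← h2]
    exact Subgroup.pointwise_smul_le_pointwise_smul_iff.mpr hQ
  rw [h1, le_bot_iff] at h3
  exact hQ1 h3
end Cfsg.Agent.S4636
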