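import Cfsg.Statements.S4691
import Cfsg.Agent.Lib.BlockNilC
import Cfsg.Agent.Lib.PNilp

set_option autoImplicit false
set_option linter.style.haveILetI false
set_option linter.unusedVariables false
open Cfsg

namespace Cfsg.Agent.S4691
open Cfsg.Agent.Lib.BlockNilC Cfsg.Agent.Lib.BlockNilB Cfsg.Agent.Lib.BlockNil Cfsg.Agent.Lib.BlockFusB Cfsg.Agent.Lib.BlockFus Cfsg.Agent.Lib.BlockPairF Cfsg.Agent.Lib.BlockPairE Cfsg.Agent.Lib.BlockPairD Cfsg.Agent.Lib.BlockPairC Cfsg.Agent.Lib.BlockPairB Cfsg.Agent.Lib.BlockPair Cfsg.Agent.Lib.BlockBP Cfsg.Agent.Lib.BlockCovB Cfsg.Agent.Lib.BlockTr Cfsg.Agent.Lib.BlockMoreB Cfsg.Agent.Lib.BlockMore Cfsg.Agent.Lib.BlockQuotB Cfsg.Agent.Lib.BlockQuot Cfsg.Agent.Lib.BlockCov Cfsg.Agent.Lib.BlockM Cfsg.Agent.Lib.BlockHt Cfsg.Agent.Lib.BlockFirst Cfsg.Agent.Lib.BlockSecond Cfsg.Agent.Lib.BlockInd Cfsg.Agent.Lib.BlockNP Cfsg.Agent.Lib.BlockDeg Cfsg.Agent.Lib.BlockDef Cfsg.Agent.Lib.BlockRed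 Cfsg.Agent.Lib.BlockOrth Cfsg.Agent.Lib.BlockIdem Cfsg.Agent.Lib.BlockGA Cfsg.Agent.Lib.BlockLoc Cfsg.Agent.Lib.CharBasic Cfsg.Agent.Lib.BlockPP Cfsg.Agent.Lib.CharNormal Cfsg.Agent.Lib.CharPerm Cfsg.Agent.Lib.CharPermB
open scoped ComplexConjugate



/-- Fix a prime p and a maximal ideal M of the algebraic integers containing p. A finite group G has a normal p-complement if and only if its principal p-block is nilpotent. -/
theorem result {G : Type*} [Group G] [Fintype G] (p : ℕ) [Fact p.Prime] (M : Ideal Cfsg.AlgInt) (hM : Cfsg.IsPModular p M) : Cfsg.HasNormalPComplement p G ↔ Cfsg.IsNilpotentBlock p M (Cfsg.principalBlock M G) := by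
  rw [Cfsg.Agent.Lib.PNilp.hasNormalPComplement_iff, Cfsg.Agent.Lib.PNilp.pNil_iff_frobCond,
    nil_iff hM]
  have key : ∀ Q : Subgroup G, IsPGroup p Q →
      IsBPO p M (principalBlock M G) ⟨Q, principalBlock M (Subgroup.centralizer (Q : Set G))⟩ := by
    intro Q hQ
    have he := principal_isPBlock M (Subgroup.centralizer (Q : Set G))
    obtain ⟨B, hB⟩ := exists_induced_cent hM hQ he
    rw [(third_main hM hB).2 rfl] at hB
    exact (isBrauerPairOf_iff hM).2 ⟨hQ, hB⟩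
  have keyu : ∀ (Q : Subgroup G) (f : Set (IrrCharacter (Subgroup.centralizer (Q : Set G)))),
      IsBPO p M (principalBlock M G) ⟨Q, f⟩ → f = principalBlock M _ := by
    intro Q f hf
    exact (third_main hM ((isBrauerPairOf_iff hM).1 hf).2).1 rfl
  have hcop : ∀ x : G, ((orderOf x).Coprime p ↔ ¬ p ∣ orderOf x) := by
    intro x
    rw [Nat.coprime_comm]
    exact Nat.Prime.coprime_iff_not_dvd Fact.out
  constructor
  · intro h
    refine ⟨principal_isPBlock M G, ?_⟩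
    rintro ⟨Q, f⟩ ha x hx - hxr
    exact h Q (bp_of hM ha).1 x hx ((hcop x).2 hxr)
  · rintro ⟨-, h⟩ Q hQ x hx hxr
    refine h ⟨Q, _⟩ (key Q hQ) x hx ?_ ((hcop x).1 hxr)
    have h2 := isBPO_cjP hM x (key Q hQ)
    obtain ⟨f', hf'⟩ := exists_snd (c := cjP x (⟨Q, principalBlock M _⟩ : BrauerPairIdx G))
      (map_conj_norm hx)
    rw [hf'] at h2 ⊢
    rw [keyu Q f' h2]

end Cfsg.Agent.S4691
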