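import Cfsg.Statements.S4646
import Cfsg.Agent.S4691
import Cfsg.Agent.Lib.BlockRk
import Cfsg.Agent.Lib.BlockNil

set_option autoImplicit false
set_option linter.style.haveILetI false
set_option linter.unusedVariables false
open Cfsg

namespace Cfsg.Agent.S4646
open Cfsg.Agent.Lib.BlockNilC Cfsg.Agent.Lib.BlockNilB Cfsg.Agent.Lib.BlockNil Cfsg.Agent.Lib.BlockFusB Cfsg.Agent.Lib.BlockFus Cfsg.Agent.Lib.BlockPairF Cfsg.Agent.Lib.BlockPairE Cfsg.Agent.Lib.BlockPairD Cfsg.Agent.Lib.BlockPairC Cfsg.Agent.Lib.BlockPairB Cfsg.Agent.Lib.BlockPair Cfsg.Agent.Lib.BlockBP Cfsg.Agent.Lib.BlockCovB Cfsg.Agent.Lib.BlockTr Cfsg.Agent.Lib.BlockMoreB Cfsg.Agent.Lib.BlockMore Cfsg.Agent.Lib.BlockQuotB Cfsg.Agent.Lib.BlockQuot Cfsg.Agent.Lib.BlockCov Cfsg.Agent.Lib.BlockM Cfsg.Agent.Lib.BlockHt Cfsg.Agent.Lib.BlockFirst Cfsg.Agent.Lib.BlockSecond Cfsg.Agent.Lib.BlockInd Cfsg.Agent.Lib.BlockNP Cfsg.Agent.Lib.BlockDeg Cfsg.Agent.Lib.BlockDef Cfsg.Agent.Lib.BlockRed Cfsg.Agent.Lib.BlockOrth Cfsg.Agent.Lib.BlockIdem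 Cfsg.Agent.Lib.BlockGA Cfsg.Agent.Lib.BlockLoc Cfsg.Agent.Lib.CharBasic Cfsg.Agent.Lib.BlockPP Cfsg.Agent.Lib.CharNormal Cfsg.Agent.Lib.CharPerm Cfsg.Agent.Lib.CharPermB Cfsg.Agent.Lib.BlockRk Cfsg.Agent.Lib.BlockInt Cfsg.Agent.Lib.BlockIndIn Cfsg.Agent.Lib.BlockMaxB Cfsg.Agent.Lib.BlockMax Cfsg.Agent.Lib.BlockSum
open scoped ComplexConjugate



/-- For a finite group G, a prime p and a maximal ideal M of the algebraic integers containing p: the principal block of G is nilpotent if and only if its p-regular rank is 1 (the trivial Brauer character is its only irreducible Brauer character). -/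
theorem result {G : Type*} [Group G] [Finite G] (p : ℕ) [Fact p.Prime] (M : Ideal Cfsg.AlgInt) (hM : Cfsg.IsPModular p M) : Cfsg.IsNilpotentBlock p M (Cfsg.principalBlock M G) ↔ Cfsg.blockRank p (Cfsg.principalBlock M G) = 1 := by
  classical
  cases nonempty_fintype G
  have hp := hM.1
  have hB : IsPBlock M (principalBlock M G) := principal_isPBlock M G
  have htriv : triv G ∈ principalBlock M G := triv_mem hM
  have hreg1 : ¬ p ∣ orderOf (1 : G) := by
    rw [orderOf_one]; exact hp.one_lt.ne' ∘ Nat.dvd_one.1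
  rw [← Cfsg.Agent.S4691.result p M hM]
  constructor
  · rintro ⟨P, N, hN, hc⟩
    have hcard : Nat.card N * Nat.card P = Nat.card G := Subgroup.IsComplement'.card_mul hc
    have hidx : N.index = Nat.card P := by
      have h1 := Subgroup.card_mul_index N
      rw [← hcard] at h1
      exact Nat.eq_of_mul_eq_mul_left Nat.card_pos h1
    have hNp : ¬ p ∣ Nat.card N := by
      have h1 := P.not_dvd_index
      have h2 := Subgroup.card_mul_index (P : Subgroup G)
      have h3 : (P : Subgroup G).index = Nat.card N := by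
        have h4 : Nat.card (P : Subgroup G) * (P : Subgroup G).index =
            Nat.card (P : Subgroup G) * Nat.card N := by
          rw [h2, ← hcard, mul_comm]
        exact Nat.eq_of_mul_eq_mul_left Nat.card_pos h4
      rwa [h3] at h1
    have hregN : ∀ x : G, ¬ p ∣ orderOf x → x ∈ N := by
      intro x hx
      obtain ⟨k, hk⟩ := IsPGroup.iff_card.1 P.isPGroup'
      have h1 : x ^ p ^ k ∈ N := by
        rw [← hk]
        have : x ^ N.index ∈ N := Subgroup.pow_index_mem N x
        rwa [hidx] at this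
      have h2 : Nat.Coprime (orderOf x) (p ^ k) :=
        (Nat.Coprime.pow_left k ((Nat.Prime.coprime_iff_not_dvd hp).2 hx)).symm
      obtain ⟨m, hm⟩ := exists_pow_eq_self_of_coprime (x := x) h2.symm
      rw [← hm]
      exact N.pow_mem h1 m
    have h1 : Submodule.span ℂ ((fun χ : IrrCharacter G => pRegularPart p (χ : G → ℂ)) ''
        (principalBlock M G)) = Submodule.span ℂ {pRegularPart p (triv G).1} := by
      apply le_antisymm
      · rw [Submodule.span_le]
        rintro _ ⟨ψ, hψ, rfl⟩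
        refine Submodule.mem_span_singleton.2 ⟨ψ.1 1, ?_⟩
        funext x
        change ψ.1 1 * pRegularPart p (triv G).1 x = pRegularPart p ψ.1 x
        by_cases hx : p ∣ orderOf x
        · rw [Cfsg.Agent.Lib.BlockSum.pReg_apply' hx, Cfsg.Agent.Lib.BlockSum.pReg_apply' hx, mul_zero]
        · rw [Cfsg.Agent.Lib.BlockSum.pReg_apply hx, Cfsg.Agent.Lib.BlockSum.pReg_apply hx]
          have h2 := triv_of_sameBlock hM N hNp (χ := triv G) (ψ := ψ)
            (sameBlock_of_mem hM hB htriv hψ) (fun n _ => rfl) x (hregN x hx)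
          rw [h2]
          change ψ.1 1 * 1 = ψ.1 1
          rw [mul_one]
      · apply Submodule.span_mono
        rintro _ rfl
        exact ⟨_, htriv, rfl⟩
    rw [blockRank, h1]
    apply finrank_span_singleton
    intro h
    have h2 := congrFun h 1
    rw [Cfsg.Agent.Lib.BlockSum.pReg_apply hreg1] at h2
    exact one_ne_zero (α := ℂ) h2
  · intro hl
    haveI hKn := kerB_normal (principalBlock M G)
    have hKp := kerB_not_dvd hM hB
    have hregK : ∀ x : G, ¬ p ∣ orderOf x → x ∈ kerB (principalBlock M G) := by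
      intro x hx ψ hψ
      have h1 := Cfsg.Agent.Lib.BlockRk.prop_of_rank_one hp hl hψ htriv hx
      change ψ.1 x * 1 = ψ.1 1 * 1 at h1
      rwa [mul_one, mul_one] at h1
    let P : Sylow p G := default
    refine ⟨P, kerB (principalBlock M G), hKn, ?_⟩
    have hidx : ∃ k, (kerB (principalBlock M G)).index = p ^ k := by
      have h3 : IsPGroup p (QuotientGroup.mk' (kerB (principalBlock M G))).range :=
        Cfsg.Agent.Lib.BlockNil.isPGroup_range _ (fun x hx => by
          rw [← MonoidHom.mem_ker, QuotientGroup.ker_mk']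
          exact hregK x hx)
      obtain ⟨k, hk⟩ := IsPGroup.iff_card.1 h3
      refine ⟨k, ?_⟩
      rw [← hk, MonoidHom.range_eq_top.2 (QuotientGroup.mk'_surjective _), Subgroup.card_top]
      rfl
    obtain ⟨k, hk⟩ := hidx
    have h5 := Subgroup.card_mul_index (kerB (principalBlock M G))
    have hcardP : Nat.card P = p ^ k := by
      rw [P.card_eq_multiplicity, ← h5, hk, mul_comm, Cfsg.Agent.Lib.BlockInt.fac_pow_mul hp hKp]
    have hcop : Nat.Coprime (Nat.card (kerB (principalBlock M G))) (p ^ k) :=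
      (Nat.Coprime.pow_left k ((Nat.Prime.coprime_iff_not_dvd hp).2 hKp)).symm
    refine Subgroup.isComplement'_of_coprime ?_ ?_
    · have : Nat.card (P : Subgroup G) = p ^ k := hcardP
      rw [this, ← hk, h5]
    · have : Nat.card (P : Subgroup G) = p ^ k := hcardP
      rw [this]; exact hcop

end Cfsg.Agent.S4646
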