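import Cfsg.Statements.S4650
import Cfsg.Agent.Lib.BlockIndIn

set_option autoImplicit false
set_option linter.style.haveILetI false
set_option linter.unusedVariables false
open Cfsg

namespace Cfsg.Agent.S4650
open Cfsg.Agent.Lib.BlockIndIn Cfsg.Agent.Lib.BlockMaxB Cfsg.Agent.Lib.BlockMax Cfsg.Agent.Lib.BlockNilC Cfsg.Agent.Lib.BlockNilB Cfsg.Agent.Lib.BlockNil Cfsg.Agent.Lib.BlockFusB Cfsg.Agent.Lib.BlockFus Cfsg.Agent.Lib.BlockPairF Cfsg.Agent.Lib.BlockPairE Cfsg.Agent.Lib.BlockPairD Cfsg.Agent.Lib.BlockPairC Cfsg.Agent.Lib.BlockPairB Cfsg.Agent.Lib.BlockPair Cfsg.Agent.Lib.BlockBP Cfsg.Agent.Lib.BlockCovB Cfsg.Agent.Lib.BlockTr Cfsg.Agent.Lib.BlockMoreB Cfsg.Agent.Lib.BlockMore Cfsg.Agent.Lib.BlockQuotB Cfsg.Agent.Lib.BlockQuot Cfsg.Agent.Lib.BlockCov Cfsg.Agent.Lib.BlockM Cfsg.Agent.Lib.BlockHt Cfsg.Agent.Lib.BlockFirst Cfsg.Agent.Lib.BlockSecond Cfsg.Agent.Lib.BlockInd Cfsg.Agent.Lib.BlockNP Cfsg.Agent.Lib.BlockDeg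 Cfsg.Agent.Lib.BlockDef Cfsg.Agent.Lib.BlockRed Cfsg.Agent.Lib.BlockOrth Cfsg.Agent.Lib.BlockIdem Cfsg.Agent.Lib.BlockGA Cfsg.Agent.Lib.BlockLoc Cfsg.Agent.Lib.CharBasic Cfsg.Agent.Lib.BlockPP Cfsg.Agent.Lib.CharNormal Cfsg.Agent.Lib.CharPerm Cfsg.Agent.Lib.CharPermB
open scoped ComplexConjugate



/-- Let B be a block of the finite group G relative to a maximal ideal M of the algebraic integers containing the prime p, with a nontrivial commutative defect group P; let c be a block of C_G(P) inducing B and T the stabilizer of c in N_G(P). Then T/C_G(P) acts freely on the non-identity elements of P (an element of T fixing a non-identity element of P under conjugation lies in C_G(P)) if and only if, for every nontrivial subgroup Q of P, the block of C_G(Q) induced by c inside C_G(Q) is a nilpotent block of C_G(Q). -/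
theorem result {G : Type*} [Group G] [Finite G] (p : ℕ) [Fact p.Prime] (M : Ideal Cfsg.AlgInt) (hM : Cfsg.IsPModular p M) (B : Set (Cfsg.IrrCharacter G)) (hB : Cfsg.IsPBlock M B) (P : Subgroup G) (hPD : Cfsg.IsDefectGroup p M B P) (hPab : ∀ x ∈ P, ∀ y ∈ P, x * y = y * x) (hP1 : P ≠ ⊥) (c : Set (Cfsg.IrrCharacter (Subgroup.centralizer (P : Set G)))) (hc : Cfsg.IsInducedBlock M (Subgroup.centralizer (P : Set G)) c B) (T : Subgroup G) (hT : ∀ g : G, g ∈ T ↔ (g ∈ Subgroup.normalizer (P : Set G) ∧ Cfsg.StabilizesBlock (Subgroup.centralizer (P : Set G)) c g)) : (∀ g ∈ T, ∀ x ∈ P, x ≠ 1 → g * x * g⁻¹ = x → g ∈ Subgroup.centralizer (P : Set G)) ↔ ∀ Q : Subgroup G, Q ≤ P → Q ≠ ⊥ → ∀ f : Set (Cfsg.IrrCharacter (Subgroup.centralizer (Q : Set G))), Cfsg.IsInducedBlockIn M (Subgroup.centralizer (Q : Set G)) (Subgroup.centralizer (P : Set G)) c f → Cfsg.IsNilpotentBlock p M f := by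
  have hPp : IsPGroup p P := isPGroup_of_isDefectGroup hM hPD
  have hBP : IsBrauerPairOf p M B P c := (isBrauerPairOf_iff hM).2 ⟨hPp, hc⟩
  have hmax := maximal_of_defect hM hBP hPD
  have hcb : IsPBlock M c := hc.1
  have hstab : IsStab T (⟨P, c⟩ : BrauerPairIdx G) := isStab_of hM hcb hT
  have hPC : ∀ Q : Subgroup G, Q ≤ P → P ≤ Subgroup.centralizer (Q : Set G) := fun Q hQ x hx =>
    Subgroup.mem_centralizer_iff.2 fun q hq => hPab q (hQ hq) x hx
  have hab : ∀ (Q : Subgroup G) (hQ : Q ≤ P),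
      (cPair hQ (hPC Q hQ) c).1 ≤ Subgroup.centralizer
        ((cPair hQ (hPC Q hQ) c).1 : Set (Subgroup.centralizer (Q : Set G))) := by
    intro Q hQ x hx
    refine Subgroup.mem_centralizer_iff.2 fun q hq => ?_
    exact Subtype.ext (hPab (q : G) hq (x : G) hx)
  constructor
  · intro hfree Q hQP hQ1 f hf
    refine (abelian_nil_iff hM (max_cPair hM hQP (hPC Q hQP) hmax hf) (hab Q hQP)).2 ?_
    intro x hx hxs
    have h1 := (stab_cPair_iff hQP (hPC Q hQP) x).1 ⟨hx, hxs⟩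
    have hxT : (x : G) ∈ T := (hstab x).2 h1
    obtain ⟨⟨q, hq⟩, hq0⟩ := (Subgroup.ne_bot_iff_exists_ne_one).1 hQ1
    have hq1 : q ≠ 1 := fun h' => hq0 (Subtype.ext h')
    have h2 : (x : G) * q * (x : G)⁻¹ = q := by
      rw [← Subgroup.mem_centralizer_iff.1 x.2 q hq, mul_inv_cancel_right]
    exact (mem_centN (hPC Q hQP)).2 (hfree x hxT q (hQP hq) hq1 h2)
  · intro h g hg x hx hx1 hgx
    have hQP : Subgroup.zpowers x ≤ P := Subgroup.zpowers_le.2 hx
    have hQ1 : Subgroup.zpowers x ≠ ⊥ := by rwa [Ne, Subgroup.zpowers_eq_bot]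
    obtain ⟨f, hf⟩ := exists_inducedIn hM hPp hQP (hPC _ hQP) hcb
    have hnil := h _ hQP hQ1 f hf
    have h1 := (abelian_nil_iff hM (max_cPair hM hQP (hPC _ hQP) hmax hf) (hab _ hQP)).1 hnil
    have hgC : g ∈ Subgroup.centralizer ((Subgroup.zpowers x : Subgroup G) : Set G) := by
      rw [Subgroup.mem_centralizer_iff]
      rintro _ ⟨k, rfl⟩
      have h2 : Commute x g := (mul_inv_eq_iff_eq_mul.1 hgx).symm
      exact (h2.zpow_left k)
    have h3 := (stab_cPair_iff (c := c) hQP (hPC _ hQP) ⟨g, hgC⟩).2 ((hstab g).1 hg)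
    exact (mem_centN (hPC _ hQP)).1 (h1 _ h3.1 h3.2)

end Cfsg.Agent.S4650
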