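import Cfsg.Statements.S4654
import Cfsg.Agent.Lib.BlockFusB

set_option autoImplicit false
set_option linter.style.haveILetI false
set_option linter.unusedVariables false
open Cfsg

namespace Cfsg.Agent.S4654
open Cfsg.Agent.Lib.BlockFusB Cfsg.Agent.Lib.BlockFus Cfsg.Agent.Lib.BlockPairF Cfsg.Agent.Lib.BlockPairE Cfsg.Agent.Lib.BlockPairD Cfsg.Agent.Lib.BlockPairC Cfsg.Agent.Lib.BlockPairB Cfsg.Agent.Lib.BlockPair Cfsg.Agent.Lib.BlockBP Cfsg.Agent.Lib.BlockCovB Cfsg.Agent.Lib.BlockTr Cfsg.Agent.Lib.BlockMoreB Cfsg.Agent.Lib.BlockMore Cfsg.Agent.Lib.BlockQuotB Cfsg.Agent.Lib.BlockQuot Cfsg.Agent.Lib.BlockCov Cfsg.Agent.Lib.BlockM Cfsg.Agent.Lib.BlockHt Cfsg.Agent.Lib.BlockFirst Cfsg.Agent.Lib.BlockSecond Cfsg.Agent.Lib.BlockInd Cfsg.Agent.Lib.BlockNP Cfsg.Agent.Lib.BlockDeg Cfsg.Agent.Lib.BlockDef Cfsg.Agent.Lib.BlockRed Cfsg.Agent.Lib.BlockOrth Cfsg.Agent.Lib.BlockIdem Cfsg.Agent.Lib.BlockGA Cfsg.Agent.Lib.BlockLoc Cfsg.Agent.Lib.CharBasic Cfsg.Agent.Lib.BlockPP Cfsg.Agent.Lib.CharNormal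 Cfsg.Agent.Lib.CharPerm Cfsg.Agent.Lib.CharPermB
open scoped ComplexConjugate



/-- Fix a prime p and a maximal ideal M of the algebraic integers containing p. Let P be a normal p-subgroup of the finite group G, B a p-block of G and e a p-block of C_G(P) such that (P, e) is a Brauer pair of B (as P is normal, this says that e occurs in the idempotent of B, which is supported on C_G(P)). Let T be the stabilizer of e in G under conjugation. Then the idempotent of e is a block idempotent of T: some block E of T has, at every element of T, the same idempotent coefficient as e (zero off C_G(P)); and the idempotent of B is the sum of the distinct G-conjugates of the idempotent of e: its coefficient at g is the sum over all x in G of the coefficient of e at x⁻¹ g x, divided by the order of T. -/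
theorem result {G : Type*} [Group G] [Fintype G] (p : ℕ) [Fact p.Prime] (M : Ideal Cfsg.AlgInt) (hM : Cfsg.IsPModular p M) (P : Subgroup G) [P.Normal] (hP : IsPGroup p P) (B : Set (Cfsg.IrrCharacter G)) (e : Set (Cfsg.IrrCharacter (Subgroup.centralizer (P : Set G)))) (hBe : Cfsg.IsBrauerPairOf p M B P e) (T : Subgroup G) (hT : ∀ x : G, x ∈ T ↔ Cfsg.StabilizesBlock (Subgroup.centralizer (P : Set G)) e x) : (∃ E : Set (Cfsg.IrrCharacter T), Cfsg.IsPBlock M E ∧ ∀ t : T, Cfsg.blockCoeff E t = Cfsg.subgroupBlockCoeff (Subgroup.centralizer (P : Set G)) e (t : G)) ∧ ∀ g : G, Cfsg.blockCoeff B g = (Nat.card T : ℂ)⁻¹ * ∑ x : G, Cfsg.subgroupBlockCoeff (Subgroup.centralizer (P : Set G)) e (x⁻¹ * g * x) := by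
  classical
  have hb := (isBrauerPairOf_iff_lam hM).1 hBe
  have he : IsPBlock M e := hb.2.1
  have hB : IsPBlock M B := hb.2.2.1
  have hn : ∀ x : G, x ∈ Subgroup.normalizer (P : Set G) := by
    intro x
    rw [Subgroup.normalizer_eq_top]
    trivial
  have hT' : IsStab T ⟨P, e⟩ := isStab_of hM he (fun y => by
    rw [hT]
    exact ⟨fun h => ⟨hn y, h⟩, fun h => h.2⟩)
  have hCT := IsStab.cent_le hM he hT'
  constructor
  · obtain ⟨F, hF, -, hext⟩ := exists_stab_block hM hP he (IsStab.self_le hM he hT') hCT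
      (fun y hy => (hT' y).1 hy)
    exact ⟨F, hF, blockCoeff_of_ext hext⟩
  · intro g
    haveI : Fintype (Subgroup.centralizer (P : Set G)) := Fintype.ofFinite _
    haveI hCn : (Subgroup.centralizer (P : Set G)).Normal := inferInstance
    have hh : ∀ x : G, ∀ g, g ∈ Subgroup.centralizer (P : Set G) ↔
        x * g * x⁻¹ ∈ Subgroup.centralizer (P : Set G) := fun x => norm_iff.1 (norm_cent (hn x))
    have hcj : ∀ (x : G) (θ : IrrCharacter (Subgroup.centralizer (P : Set G))),
        cjI x θ = trI (Cfsg.Agent.Lib.BlockPair.cjE x (hh x)) θ := by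
      intro x θ
      apply Subtype.ext
      funext n
      rw [cjI_coe, cj_eq_comp, trI_apply]
      refine congrArg θ.1 (Subtype.ext ?_)
      rw [cjAut_coe]
      rfl
    have hind := (isBrauerPairOf_iff hM).1 hBe
    obtain ⟨ξ, hξ⟩ := block_nonempty hM he
    obtain ⟨χ, hχ, hov⟩ := exists_over_of_induced hM hind.2 hξ
    have hcov : Cov B e := ⟨χ, hχ, ξ, hξ, hov⟩
    have hBB := eB_eq_ext_orb hM (Q := P) hP le_rfl he hB hcov
    have hmemT : ∀ (θ : IrrCharacter (Subgroup.centralizer (P : Set G))), θ ∈ e → ∀ t : G,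
        (cjI t θ ∈ e ↔ t ∈ T) := by
      intro θ hθ t
      rw [hT' t, hcj]
      constructor
      · intro h
        refine ⟨hn t, ?_⟩
        have h1 := eq_trB_of_mem hM he he hθ h
        rw [cjP_norm (hn t) (hh t), ← h1]
      · rintro ⟨-, h⟩
        rw [cjP_norm (hn t) (hh t)] at h
        have h2 : trB (Cfsg.Agent.Lib.BlockPair.cjE t (hh t)) e = e := eq_of_heq (Sigma.mk.inj h).2
        rw [← mem_trB, h2]
        exact hθ
    have hcount : ∀ θ : IrrCharacter (Subgroup.centralizer (P : Set G)), θ ∈ orb (G := G) e →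
        (Finset.univ.filter (fun x : G => cjI x θ ∈ e)).card = Nat.card T := by
      rintro θ ⟨x₀, hx₀⟩
      rw [Nat.card_eq_fintype_card, Fintype.card_subtype]
      refine Finset.card_bij (fun x _ => x₀⁻¹ * x) ?_ ?_ ?_
      · intro x hx
        rw [Finset.mem_filter] at hx ⊢
        refine ⟨Finset.mem_univ _, ?_⟩
        have h1 := hx.2
        have h2 : x = x₀ * (x₀⁻¹ * x) := by group
        rw [h2, cjI_mul] at h1
        exact (hmemT _ hx₀ _).1 h1
      · intro a _ b _ hab
        exact mul_left_cancel hab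
      · intro t ht
        rw [Finset.mem_filter] at ht
        refine ⟨x₀ * t, ?_, by group⟩
        rw [Finset.mem_filter]
        refine ⟨Finset.mem_univ _, ?_⟩
        rw [cjI_mul]
        exact (hmemT _ hx₀ _).2 ht.2
    have hcount' : ∀ θ : IrrCharacter (Subgroup.centralizer (P : Set G)), θ ∉ orb (G := G) e →
        (Finset.univ.filter (fun x : G => cjI x θ ∈ e)).card = 0 := by
      intro θ hθ
      rw [Finset.card_eq_zero, Finset.filter_eq_empty_iff]
      exact fun x _ hx => hθ ⟨x, hx⟩
    have hTne : (Nat.card T : ℂ) ≠ 0 := Nat.cast_ne_zero.2 Nat.card_pos.ne'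
    change (eB B) g = _
    rw [hBB]
    by_cases hg : g ∈ Subgroup.centralizer (P : Set G)
    · rw [extGA_pos hg, eB_eq_sum, ga_sum]
      have hterm : ∀ x : G, subgroupBlockCoeff (Subgroup.centralizer (P : Set G)) e (x⁻¹ * g * x) =
          ∑ θ : IrrCharacter (Subgroup.centralizer (P : Set G)),
            if cjI x θ ∈ e then (eChi θ.1) ⟨g, hg⟩ else 0 := by
        intro x
        have h1 : x⁻¹ * g * x ∈ Subgroup.centralizer (P : Set G) := by
          have := hCn.conj_mem g hg x⁻¹
          rwa [inv_inv] at this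
        rw [subgroupBlockCoeff, dif_pos h1]
        change (eB e) ⟨_, h1⟩ = _
        rw [eB_eq_sum, ga_sum, Finset.sum_filter]
        refine (Fintype.sum_equiv (Cfsg.Agent.Lib.BlockCov.cjE x) _ _ (fun θ => ?_)).symm
        change (if cjI x θ ∈ e then (eChi θ.1) ⟨g, hg⟩ else 0) =
          if cjI x θ ∈ e then (eChi (cjI x θ).1) ⟨x⁻¹ * g * x, h1⟩ else 0
        refine if_congr Iff.rfl ?_ rfl
        have h2 : ∀ m : Subgroup.centralizer (P : Set G), (cjI x θ).1 m = θ.1 (cjAut x m) := by
          intro m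
          rw [cjI_coe, cj_eq_comp]
        have h5 : (cjAut x (⟨x⁻¹ * g * x, h1⟩ : Subgroup.centralizer (P : Set G)) :
            Subgroup.centralizer (P : Set G)) = ⟨g, hg⟩ := by
          apply Subtype.ext
          rw [cjAut_coe]
          change x * (x⁻¹ * g * x) * x⁻¹ = g
          group
        rw [eChi_apply, eChi_apply, h2, h2, map_one, h5]
      simp_rw [hterm]
      rw [Finset.sum_comm, Finset.mul_sum]
      have h3 : ∀ θ : IrrCharacter (Subgroup.centralizer (P : Set G)),
          (Nat.card T : ℂ)⁻¹ * ∑ x : G, (if cjI x θ ∈ e then (eChi θ.1) ⟨g, hg⟩ else 0) =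
          if θ ∈ orb (G := G) e then (eChi θ.1) ⟨g, hg⟩ else 0 := by
        intro θ
        rw [← Finset.sum_filter, Finset.sum_const, nsmul_eq_mul]
        split_ifs with h4
        · rw [hcount θ h4, ← mul_assoc, inv_mul_cancel₀ hTne, one_mul]
        · rw [hcount' θ h4, Nat.cast_zero, zero_mul, mul_zero]
      simp_rw [h3]
      rw [Finset.sum_filter]
    · rw [extGA_neg hg]
      symm
      rw [Finset.sum_eq_zero, mul_zero]
      intro x _
      rw [subgroupBlockCoeff, dif_neg]
      intro h1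
      refine hg ?_
      have := hCn.conj_mem _ h1 x
      have h2 : x * (x⁻¹ * g * x) * x⁻¹ = g := by group
      rwa [h2] at this

end Cfsg.Agent.S4654
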