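import Cfsg.Statements.S4664
import Cfsg.Agent.Lib.BlkH8A

set_option autoImplicit false
set_option linter.style.haveILetI false
set_option linter.unusedVariables false
open Cfsg

namespace Cfsg.Agent.S4664
open Cfsg.Agent.Lib.BlkH8A Cfsg.Agent.Lib.BlockRey Cfsg.Agent.Lib.BlockPC Cfsg.Agent.Lib.BlockRk Cfsg.Agent.Lib.BlockInt Cfsg.Agent.Lib.BlockIndIn Cfsg.Agent.Lib.BlockMaxB Cfsg.Agent.Lib.BlockMax Cfsg.Agent.Lib.BlockNilC Cfsg.Agent.Lib.BlockNilB Cfsg.Agent.Lib.BlockNil Cfsg.Agent.Lib.BlockFusB Cfsg.Agent.Lib.BlockFus Cfsg.Agent.Lib.BlockPairF Cfsg.Agent.Lib.BlockPairE Cfsg.Agent.Lib.BlockPairD Cfsg.Agent.Lib.BlockPairC Cfsg.Agent.Lib.BlockPairB Cfsg.Agent.Lib.BlockPair Cfsg.Agent.Lib.BlockBP Cfsg.Agent.Lib.BlockCovB Cfsg.Agent.Lib.BlockTr Cfsg.Agent.Lib.BlockMoreB Cfsg.Agent.Lib.BlockMore Cfsg.Agent.Lib.BlockQuotB Cfsg.Agent.Lib.BlockQuot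 Cfsg.Agent.Lib.BlockCov Cfsg.Agent.Lib.BlockM Cfsg.Agent.Lib.BlockHt Cfsg.Agent.Lib.BlockFirst Cfsg.Agent.Lib.BlockSecond Cfsg.Agent.Lib.BlockInd Cfsg.Agent.Lib.BlockNP Cfsg.Agent.Lib.BlockDeg Cfsg.Agent.Lib.BlockDef Cfsg.Agent.Lib.BlockRed Cfsg.Agent.Lib.BlockOrth Cfsg.Agent.Lib.BlockIdem Cfsg.Agent.Lib.BlockGA Cfsg.Agent.Lib.BlockLoc Cfsg.Agent.Lib.CharBasic Cfsg.Agent.Lib.BlockPP Cfsg.Agent.Lib.CharNormal Cfsg.Agent.Lib.CharPerm Cfsg.Agent.Lib.CharPermB Cfsg.Agent.Lib.BlockSum Cfsg.Agent.Lib.BlockKB Cfsg.Agent.Lib.BlockLar Cfsg.Agent.Lib.BlockBFM Cfsg.Agent.Lib.BlkH7R Cfsg.Agent.Lib.BlkH6L Cfsg.Agent.Lib.BlkH6K Cfsg.Agent.Lib.BlkH6J Cfsg.Agent.Lib.BlkH6I Cfsg.Agent.Lib.BlkH6H Cfsg.Agent.Lib.BlkH6G Cfsg.Agent.Lib.BlkH5T Cfsg.Agent.Lib.BlkH5Q Cfsg.Agent.Lib.BlkH5P Cfsg.Agent.Lib.BlkH5O Cfsg.Agent.Lib.BlkH5N Cfsg.Agent.Lib.BlkH5A Cfsg.Agent.Lib.BlkH5G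 Cfsg.Agent.Lib.BlkH5B Cfsg.Agent.Lib.BlkH5C Cfsg.Agent.Lib.BlkH5D Cfsg.Agent.Lib.BlkH5E Cfsg.Agent.Lib.BlkH5F Cfsg.Agent.Lib.BlkH5L Cfsg.Agent.Lib.BlkH5M Cfsg.Agent.Lib.BlkH5R Cfsg.Agent.Lib.BlkH5S Cfsg.Agent.Lib.BlkH5U Cfsg.Agent.Lib.BlkH5V Cfsg.Agent.Lib.BlkH5W Cfsg.Agent.Lib.BlkH5X Cfsg.Agent.Lib.BlkH6F Cfsg.Agent.Lib.BlkH6N Cfsg.Agent.Lib.BlkH6M Cfsg.Agent.Lib.BlkH6D Cfsg.Agent.Lib.BlkH6C Cfsg.Agent.Lib.BlkH6B Cfsg.Agent.Lib.BlkH6A Cfsg.Agent.Lib.BlkH5Y Cfsg.Agent.Lib.BlkH7C Cfsg.Agent.Lib.BlkH7A Cfsg.Agent.Lib.BlkH7B Cfsg.Agent.Lib.BlkH7E Cfsg.Agent.Lib.BlkH7D Cfsg.Agent.Lib.BlkH7F Cfsg.Agent.Lib.BlkH7G Cfsg.Agent.Lib.BlkH6P Cfsg.Agent.Lib.BlkH6O Cfsg.Agent.Lib.BlkH7H Cfsg.Agent.Lib.BlkH7I Cfsg.Agent.Lib.BlkH7J Cfsg.Agent.Lib.BlkH7K Cfsg.Agent.Lib.BlkH7L Cfsg.Agent.Lib.BlkH7M Cfsg.Agent.Lib.BlkH7N Cfsg.Agent.Lib.BlkH7O Cfsg.Agent.Lib.BlkH7P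 Cfsg.Agent.Lib.BlkH7Q
open scoped ComplexConjugate



/-- Fix a prime p and a maximal ideal M of the algebraic integers containing p, and let B be a p-block of the finite group G. Let m be the p'-part of the order of G and η = exp(2πi/m). Then every coefficient of the idempotent of B lies in the cyclotomic field ℚ(η). -/
theorem result {G : Type*} [Group G] [Fintype G] (p : ℕ) [Fact p.Prime] (M : Ideal Cfsg.AlgInt) (hM : Cfsg.IsPModular p M) (B : Set (Cfsg.IrrCharacter G)) (hB : Cfsg.IsPBlock M B) (g : G) : Cfsg.blockCoeff B g ∈ IntermediateField.adjoin ℚ ({Complex.exp (2 * Real.pi * Complex.I / ((Nat.card G / p ^ (Nat.card G).factorization p : ℕ) : ℂ))} : Set ℂ) := by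
  classical
  cases nonempty_fintype G
  have hp : p.Prime := Fact.out
  set m := Nat.card G / p ^ (Nat.card G).factorization p with hm
  set K := IntermediateField.adjoin ℚ ({Complex.exp (2 * Real.pi * Complex.I / ((m : ℕ) : ℂ))} : Set ℂ) with hK
  have hm0 : m ≠ 0 := (Nat.ordCompl_pos p Nat.card_pos.ne').ne'
  have hmem : Complex.exp (2 * Real.pi * Complex.I / ((m : ℕ) : ℂ)) ∈ K :=
    IntermediateField.subset_adjoin ℚ _ (Set.mem_singleton _)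
  have hroot : ∀ z : ℂ, z ^ m = 1 → z ∈ K := by
    intro z hz
    haveI : NeZero m := ⟨hm0⟩
    obtain ⟨i, -, hi⟩ := (Complex.isPrimitiveRoot_exp m hm0).eq_pow_of_pow_eq_one hz
    rw [← hi]
    exact pow_mem hmem i
  by_cases hg : p ∣ orderOf g
  · rw [blockCoeff_eq_zero hM (isLoc_eB hM hB) hg]
    exact zero_mem _
  · rw [blockCoeff_eq]
    have hord : ∀ x : G, orderOf x = orderOf g → orderOf x ∣ m := by
      intro x hx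
      rw [hx, hm]
      have h1 : orderOf g ∣ Nat.card G := orderOf_dvd_natCard g
      have h2 : Nat.Coprime (orderOf g) (p ^ (Nat.card G).factorization p) :=
        ((hp.coprime_iff_not_dvd.2 hg).symm).pow_right _
      have h3 : p ^ (Nat.card G).factorization p * (Nat.card G / p ^ (Nat.card G).factorization p) = Nat.card G :=
        Nat.ordProj_mul_ordCompl_eq_self _ _
      exact h2.dvd_of_dvd_mul_left (by rw [h3]; exact h1)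
    refine mul_mem (inv_mem (natCast_mem K _)) (sum_mem fun χ _ => mul_mem ?_ ?_)
    · obtain ⟨n, hn⟩ := isChar_one_eq (isChar_of_irr χ.2)
      rw [hn]
      exact natCast_mem K n
    · obtain ⟨s, hs1, hs2, -⟩ := exists_eigenvalues (isChar_of_irr χ.2) g⁻¹
      have := hs2 1
      rw [zpow_one] at this
      rw [this]
      refine multiset_sum_mem _ fun z hz => ?_
      obtain ⟨w, hw, rfl⟩ := Multiset.mem_map.1 hz
      refine hroot _ ?_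
      rw [zpow_one]
      have h1 := hs1 w hw
      obtain ⟨c, hc⟩ := hord g⁻¹ (orderOf_inv g)
      rw [← Units.val_pow_eq_pow_val, hc, pow_mul, h1, one_pow, Units.val_one]

end Cfsg.Agent.S4664
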