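import Cfsg.Statements.S4666
import Cfsg.Agent.Lib.BlockInt

set_option autoImplicit false
set_option linter.style.haveILetI false
set_option linter.unusedVariables false
open Cfsg

namespace Cfsg.Agent.S4666
open Cfsg.Agent.Lib.BlockInt Cfsg.Agent.Lib.BlockIndIn Cfsg.Agent.Lib.BlockMaxB Cfsg.Agent.Lib.BlockMax Cfsg.Agent.Lib.BlockNilC Cfsg.Agent.Lib.BlockNilB Cfsg.Agent.Lib.BlockNil Cfsg.Agent.Lib.BlockFusB Cfsg.Agent.Lib.BlockFus Cfsg.Agent.Lib.BlockPairF Cfsg.Agent.Lib.BlockPairE Cfsg.Agent.Lib.BlockPairD Cfsg.Agent.Lib.BlockPairC Cfsg.Agent.Lib.BlockPairB Cfsg.Agent.Lib.BlockPair Cfsg.Agent.Lib.BlockBP Cfsg.Agent.Lib.BlockCovB Cfsg.Agent.Lib.BlockTr Cfsg.Agent.Lib.BlockMoreB Cfsg.Agent.Lib.BlockMore Cfsg.Agent.Lib.BlockQuotB Cfsg.Agent.Lib.BlockQuot Cfsg.Agent.Lib.BlockCov Cfsg.Agent.Lib.BlockM Cfsg.Agent.Lib.BlockHt Cfsg.Agent.Lib.BlockFirst Cfsg.Agent.Lib.BlockSecond Cfsg.Agent.Lib.BlockInd Cfsg.Agent.Lib.BlockNP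 Cfsg.Agent.Lib.BlockDeg Cfsg.Agent.Lib.BlockDef Cfsg.Agent.Lib.BlockRed Cfsg.Agent.Lib.BlockOrth Cfsg.Agent.Lib.BlockIdem Cfsg.Agent.Lib.BlockGA Cfsg.Agent.Lib.BlockLoc Cfsg.Agent.Lib.CharBasic Cfsg.Agent.Lib.BlockPP Cfsg.Agent.Lib.CharNormal Cfsg.Agent.Lib.CharPerm Cfsg.Agent.Lib.CharPermB
open scoped ComplexConjugate



/-- Fix a prime p and a maximal ideal M of the algebraic integers containing p, and a p-block B of the finite group G of defect d. For every integer combination χ of the irreducible characters in B, p^d times the function that agrees with χ on p-regular elements and vanishes elsewhere is again an integer combination of the irreducible characters in B. -/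
theorem result {G : Type*} [Group G] [Fintype G] (p : ℕ) [Fact p.Prime] (M : Ideal Cfsg.AlgInt) (hM : Cfsg.IsPModular p M) (B : Set (Cfsg.IrrCharacter G)) (hB : Cfsg.IsPBlock M B) (χ : G → ℂ) (hχ : (∃ n : Cfsg.IrrCharacter G → ℤ, ∀ g : G, χ g = ∑ᶠ ψ ∈ B, (n ψ : ℂ) * (ψ : G → ℂ) g)) : (∃ n : Cfsg.IrrCharacter G → ℤ, ∀ g : G, (p ^ Cfsg.blockDefect p B : ℂ) * Cfsg.pRegularPart p χ g = ∑ᶠ ψ ∈ B, (n ψ : ℂ) * (ψ : G → ℂ) g) := by
  classical
  obtain ⟨n, hn⟩ := hχ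
  choose! a ha using fun (ψ : IrrCharacter G) (hψ : ψ ∈ B) =>
    reg_expand hM hB hψ (gen_defect_reg hM hB hψ)
  refine ⟨fun ξ => ∑ ψ ∈ Finset.univ.filter (· ∈ B), n ψ * a ψ ξ, fun g => ?_⟩
  rw [finsum_block B]
  by_cases hg : p ∣ orderOf g
  · have h1 : pRegularPart p χ g = 0 := by
      unfold pRegularPart IsPRegular
      rw [if_neg (not_not.2 hg)]
    rw [h1, mul_zero]
    have h2 : ∀ ψ ∈ B, ∑ ξ ∈ Finset.univ.filter (· ∈ B), (a ψ ξ : ℂ) * ξ.1 g = 0 := by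
      intro ψ hψ
      have h3 := (ha ψ hψ).2 g
      rw [if_pos hg] at h3
      rw [Finset.sum_filter]
      refine Eq.trans ?_ h3.symm
      refine Finset.sum_congr rfl fun ξ _ => ?_
      by_cases hξ : ξ ∈ B
      · rw [if_pos hξ]
      · rw [if_neg hξ, (ha ψ hψ).1 ξ hξ]; simp
    push_cast
    simp_rw [Finset.sum_mul]
    rw [Finset.sum_comm]
    symm
    refine Finset.sum_eq_zero fun ψ hψ => ?_
    have := h2 ψ (Finset.mem_filter.1 hψ).2
    simp_rw [mul_assoc]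
    rw [← Finset.mul_sum, this, mul_zero]
  · have h1 : pRegularPart p χ g = χ g := by
      unfold pRegularPart IsPRegular
      rw [if_pos hg]
    rw [h1, hn g, finsum_block B]
    push_cast
    simp_rw [Finset.sum_mul]
    rw [Finset.sum_comm, Finset.mul_sum]
    refine Finset.sum_congr rfl fun ψ hψ => ?_
    have hψ' := (Finset.mem_filter.1 hψ).2
    have h3 := (ha ψ hψ').2 g
    rw [if_neg hg] at h3
    have h4 : ∑ ξ ∈ Finset.univ.filter (· ∈ B), (a ψ ξ : ℂ) * ξ.1 g =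
        ((p ^ blockDefect p B : ℕ) : ℂ) * ψ.1 g := by
      rw [Finset.sum_filter, h3]
      refine Finset.sum_congr rfl fun ξ _ => ?_
      by_cases hξ : ξ ∈ B
      · rw [if_pos hξ]
      · rw [if_neg hξ, (ha ψ hψ').1 ξ hξ]; simp
    simp_rw [mul_assoc]
    rw [← Finset.mul_sum, h4]
    push_cast
    ring

end Cfsg.Agent.S4666
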