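import Cfsg.Statements.S4668
import Cfsg.Agent.Lib.BlockMax

set_option autoImplicit false
set_option linter.style.haveILetI false
set_option linter.unusedVariables false
open Cfsg

namespace Cfsg.Agent.S4668
open Cfsg.Agent.Lib.BlockMax Cfsg.Agent.Lib.BlockNilC Cfsg.Agent.Lib.BlockNilB Cfsg.Agent.Lib.BlockNil Cfsg.Agent.Lib.BlockFusB Cfsg.Agent.Lib.BlockFus Cfsg.Agent.Lib.BlockPairF Cfsg.Agent.Lib.BlockPairE Cfsg.Agent.Lib.BlockPairD Cfsg.Agent.Lib.BlockPairC Cfsg.Agent.Lib.BlockPairB Cfsg.Agent.Lib.BlockPair Cfsg.Agent.Lib.BlockBP Cfsg.Agent.Lib.BlockCovB Cfsg.Agent.Lib.BlockTr Cfsg.Agent.Lib.BlockMoreB Cfsg.Agent.Lib.BlockMore Cfsg.Agent.Lib.BlockQuotB Cfsg.Agent.Lib.BlockQuot Cfsg.Agent.Lib.BlockCov Cfsg.Agent.Lib.BlockM Cfsg.Agent.Lib.BlockHt Cfsg.Agent.Lib.BlockFirst Cfsg.Agent.Lib.BlockSecond Cfsg.Agent.Lib.BlockInd Cfsg.Agent.Lib.BlockNP Cfsg.Agent.Lib.BlockDeg Cfsg.Agent.Lib.BlockDef Cfsg.Agent.Lib.BlockRed Cfsg.Agent.Lib.BlockOrth Cfsg.Agent.Lib.BlockIdem Cfsg.Agent.Lib.BlockGA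 Cfsg.Agent.Lib.BlockLoc Cfsg.Agent.Lib.CharBasic Cfsg.Agent.Lib.BlockPP Cfsg.Agent.Lib.CharNormal Cfsg.Agent.Lib.CharPerm Cfsg.Agent.Lib.CharPermB
open scoped ComplexConjugate



/-- Fix a prime p and a maximal ideal M of the algebraic integers containing p. Let Q₀ < Q₁ < ⋯ < Q_m be a strictly increasing chain of p-subgroups of the finite group G and N the intersection of their normalizers. Then every block idempotent of N is supported on C_G(Q_m): for every p-block E of N, the idempotent coefficient of E vanishes at every element of N outside C_G(Q_m). -/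
theorem result {G : Type*} [Group G] [Fintype G] (p : ℕ) [Fact p.Prime] (M : Ideal Cfsg.AlgInt) (hM : Cfsg.IsPModular p M) (m : ℕ) (Q : Fin (m + 1) → Subgroup G) (hQ : StrictMono Q) (hQp : ∀ i, IsPGroup p (Q i)) (N : Subgroup G) (hN : ∀ g : G, g ∈ N ↔ ∀ i, g ∈ Subgroup.normalizer (Q i : Set G)) (E : Set (Cfsg.IrrCharacter N)) (hE : Cfsg.IsPBlock M E) (n : N) (hn : (n : G) ∉ Subgroup.centralizer (Q (Fin.last m) : Set G)) : Cfsg.blockCoeff E n = 0 := by
  by_contra hne
  have hreg : ¬ p ∣ orderOf n := by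
    intro h
    exact hne (blockCoeff_eq_zero hM (isLoc_eB hM hE) h)
  have hregG : ¬ p ∣ orderOf (n : G) := by rwa [Subgroup.orderOf_coe]
  have hmono : Monotone Q := hQ.monotone
  have hnorm : N ≤ Subgroup.normalizer (Q (Fin.last m) : Set G) := fun g hg => (hN g).1 hg _
  haveI h1 : ((Q (Fin.last m)).subgroupOf N).Normal := by
    constructor
    intro a ha g
    refine Subgroup.mem_subgroupOf.2 ?_
    exact (norm_iff.1 (hnorm g.2) _).1 (Subgroup.mem_subgroupOf.1 ha)
  have hcent : n ∈ Subgroup.centralizer (((Q (Fin.last m)).subgroupOf N : Subgroup N) : Set N) := by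
    by_contra hnc
    exact hne (eB_supp_centralizer hM (Q := (Q (Fin.last m)).subgroupOf N) (IsPGroup.comap_of_injective (hQp (Fin.last m)) _
      (Subgroup.subtype_injective _)) hE hnc)
  have hcomm : ∀ c ∈ Q (Fin.last m), c ∈ N → Commute (n : G) c := by
    intro c hc hcN
    have h2 := Subgroup.mem_centralizer_iff.1 hcent ⟨c, hcN⟩ (Subgroup.mem_subgroupOf.2 hc)
    exact (congrArg Subtype.val h2).symm
  have key : ∀ i : Fin (m + 1), (n : G) ∈ Subgroup.centralizer (Q i : Set G) := by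
    intro i
    induction i using Fin.induction with
    | zero =>
      rw [Subgroup.mem_centralizer_iff]
      intro c hc
      refine (hcomm c (hmono (Fin.zero_le _) hc) ((hN c).2 fun j => ?_)).symm
      exact Subgroup.le_normalizer (hmono (Fin.zero_le j) hc)
    | succ i ih =>
      refine cent_of_cent_cent (B := Q i.castSucc) (hQp _) (hmono (Fin.castSucc_le_succ i)) hregG
        ((hN _).1 n.2 _) ih ?_
      intro c hc hcc
      refine hcomm c (hmono (Fin.le_last _) hc) ((hN c).2 fun j => ?_)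
      by_cases hj : j ≤ i.castSucc
      · have h3 : c ∈ Subgroup.centralizer (Q j : Set G) := by
          rw [Subgroup.mem_centralizer_iff] at hcc ⊢
          exact fun u hu => hcc u (hmono hj hu)
        exact cent_le_norm _ h3
      · have h4 : i.succ ≤ j := by
          rw [not_le] at hj
          exact Fin.castSucc_lt_iff_succ_le.1 hj
        exact Subgroup.le_normalizer (hmono h4 hc)
  exact hn (key (Fin.last m))

end Cfsg.Agent.S4668
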