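import Cfsg.Statements.S4669
import Cfsg.Agent.Lib.BlockPC

set_option autoImplicit false
set_option linter.style.haveILetI false
set_option linter.unusedVariables false
open Cfsg

namespace Cfsg.Agent.S4669
open Cfsg.Agent.Lib.BlockPC Cfsg.Agent.Lib.BlockRk Cfsg.Agent.Lib.BlockInt Cfsg.Agent.Lib.BlockIndIn Cfsg.Agent.Lib.BlockMaxB Cfsg.Agent.Lib.BlockMax Cfsg.Agent.Lib.BlockNilC Cfsg.Agent.Lib.BlockNilB Cfsg.Agent.Lib.BlockNil Cfsg.Agent.Lib.BlockFusB Cfsg.Agent.Lib.BlockFus Cfsg.Agent.Lib.BlockPairF Cfsg.Agent.Lib.BlockPairE Cfsg.Agent.Lib.BlockPairD Cfsg.Agent.Lib.BlockPairC Cfsg.Agent.Lib.BlockPairB Cfsg.Agent.Lib.BlockPair Cfsg.Agent.Lib.BlockBP Cfsg.Agent.Lib.BlockCovB Cfsg.Agent.Lib.BlockTr Cfsg.Agent.Lib.BlockMoreB Cfsg.Agent.Lib.BlockMore Cfsg.Agent.Lib.BlockQuotB Cfsg.Agent.Lib.BlockQuot Cfsg.Agent.Lib.BlockCov Cfsg.Agent.Lib.BlockM Cfsg.Agent.Lib.BlockHt Cfsg.Agent.Lib.BlockFirst Cfsg.Agent.Lib.BlockSecond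 Cfsg.Agent.Lib.BlockInd Cfsg.Agent.Lib.BlockNP Cfsg.Agent.Lib.BlockDeg Cfsg.Agent.Lib.BlockDef Cfsg.Agent.Lib.BlockRed Cfsg.Agent.Lib.BlockOrth Cfsg.Agent.Lib.BlockIdem Cfsg.Agent.Lib.BlockGA Cfsg.Agent.Lib.BlockLoc Cfsg.Agent.Lib.CharBasic Cfsg.Agent.Lib.BlockPP Cfsg.Agent.Lib.CharNormal Cfsg.Agent.Lib.CharPerm Cfsg.Agent.Lib.CharPermB Cfsg.Agent.Lib.BlockSum
open scoped ComplexConjugate



/-- Fix a prime p and a maximal ideal M of the algebraic integers containing p. If the p-block B of the finite group G has a defect group P contained in the centre of G, then B has p-regular rank one (a single irreducible Brauer character). -/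
theorem result {G : Type*} [Group G] [Fintype G] (p : ℕ) [Fact p.Prime] (M : Ideal Cfsg.AlgInt) (hM : Cfsg.IsPModular p M) (B : Set (Cfsg.IrrCharacter G)) (hB : Cfsg.IsPBlock M B) (P : Subgroup G) (hD : Cfsg.IsDefectGroup p M B P) (hPZ : P ≤ Subgroup.center G) : Cfsg.blockRank p B = 1 := by
  classical
  haveI := factP hM
  have hp := hM.1
  have hPp : IsPGroup p P := by
    have := card_defectGroup hM hB hD
    exact IsPGroup.of_card this
  have hC : Subgroup.centralizer (P : Set G) = ⊤ := by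
    rw [Subgroup.eq_top_iff']
    intro x
    rw [Subgroup.mem_centralizer_iff]
    intro z hz
    exact (Subgroup.mem_center_iff.1 (hPZ hz) x).symm
  have hG : P ⊔ Subgroup.centralizer (P : Set G) = ⊤ := by rw [hC]; simp
  obtain ⟨⟨χ, hχ, hχP⟩, -⟩ := Cfsg.Agent.Lib.BlockPC.pc_canonical hM hPp hG hB hD
  obtain ⟨hv, hirr, hall⟩ := Cfsg.Agent.Lib.BlockPC.pc_main hM hPp hG hB hD hχ hχP
  have h1 : Submodule.span ℂ ((fun χ : IrrCharacter G => pRegularPart p (χ : G → ℂ)) '' B) =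
      Submodule.span ℂ {pRegularPart p (χ : G → ℂ)} := by
    apply le_antisymm
    · rw [Submodule.span_le]
      rintro _ ⟨ψ, hψ, rfl⟩
      obtain ⟨ζ, hζ⟩ := (hall ψ).1 hψ
      refine Submodule.mem_span_singleton.2 ⟨ζ.1 1, ?_⟩
      funext x
      change ζ.1 1 * pRegularPart p χ.1 x = pRegularPart p ψ.1 x
      by_cases hx : p ∣ orderOf x
      · rw [Cfsg.Agent.Lib.BlockSum.pReg_apply' hx, Cfsg.Agent.Lib.BlockSum.pReg_apply' hx, mul_zero]
      · rw [Cfsg.Agent.Lib.BlockSum.pReg_apply hx, Cfsg.Agent.Lib.BlockSum.pReg_apply hx, hζ,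
          Cfsg.Agent.Lib.BlockPC.eta_reg hp hPp hx]
    · apply Submodule.span_mono
      rintro _ rfl
      exact ⟨χ, hχ, rfl⟩
  rw [blockRank, h1]
  apply finrank_span_singleton
  intro h
  have h2 := congrFun h 1
  have hreg1 : ¬ p ∣ orderOf (1 : G) := by
    rw [orderOf_one]; exact hp.one_lt.ne' ∘ Nat.dvd_one.1
  rw [Cfsg.Agent.Lib.BlockSum.pReg_apply hreg1] at h2
  exact isIrr_one_ne_zero χ.2 h2

end Cfsg.Agent.S4669
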