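import Cfsg.Statements.S4670
import Cfsg.Agent.Lib.BlockMaxB

set_option autoImplicit false
set_option linter.style.haveILetI false
set_option linter.unusedVariables false
open Cfsg

namespace Cfsg.Agent.S4670
open Cfsg.Agent.Lib.BlockMaxB Cfsg.Agent.Lib.BlockMax Cfsg.Agent.Lib.BlockNilC Cfsg.Agent.Lib.BlockNilB Cfsg.Agent.Lib.BlockNil Cfsg.Agent.Lib.BlockFusB Cfsg.Agent.Lib.BlockFus Cfsg.Agent.Lib.BlockPairF Cfsg.Agent.Lib.BlockPairE Cfsg.Agent.Lib.BlockPairD Cfsg.Agent.Lib.BlockPairC Cfsg.Agent.Lib.BlockPairB Cfsg.Agent.Lib.BlockPair Cfsg.Agent.Lib.BlockBP Cfsg.Agent.Lib.BlockCovB Cfsg.Agent.Lib.BlockTr Cfsg.Agent.Lib.BlockMoreB Cfsg.Agent.Lib.BlockMore Cfsg.Agent.Lib.BlockQuotB Cfsg.Agent.Lib.BlockQuot Cfsg.Agent.Lib.BlockCov Cfsg.Agent.Lib.BlockM Cfsg.Agent.Lib.BlockHt Cfsg.Agent.Lib.BlockFirst Cfsg.Agent.Lib.BlockSecond Cfsg.Agent.Lib.BlockInd Cfsg.Agent.Lib.BlockNP Cfsg.Agent.Lib.BlockDeg Cfsg.Agent.Lib.BlockDef Cfsg.Agent.Lib.BlockRed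 Cfsg.Agent.Lib.BlockOrth Cfsg.Agent.Lib.BlockIdem Cfsg.Agent.Lib.BlockGA Cfsg.Agent.Lib.BlockLoc Cfsg.Agent.Lib.CharBasic Cfsg.Agent.Lib.BlockPP Cfsg.Agent.Lib.CharNormal Cfsg.Agent.Lib.CharPerm Cfsg.Agent.Lib.CharPermB
open scoped ComplexConjugate



/-- Fix a prime p and a maximal ideal M of the algebraic integers containing p. Let P be a p-subgroup of the finite group G and H a subgroup containing N_G(P). For every p-block B of G with defect group P there is exactly one p-block c of H with defect group P whose idempotent agrees with that of B, modulo the local ideal at M, at every element of C_G(P) (their Brauer-map images at P coincide); and every p-block c of H with defect group P arises in this way from exactly one such B. This is the Brauer correspondence over H. -/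
theorem result {G : Type*} [Group G] [Fintype G] (p : ℕ) [Fact p.Prime] (M : Ideal Cfsg.AlgInt) (hM : Cfsg.IsPModular p M) (P H : Subgroup G) (hP : IsPGroup p P) (hH : Subgroup.normalizer (P : Set G) ≤ H) : (∀ B : Set (Cfsg.IrrCharacter G), Cfsg.IsPBlock M B → Cfsg.IsDefectGroup p M B P → ∃! c : Set (Cfsg.IrrCharacter H), Cfsg.IsPBlock M c ∧ Cfsg.IsDefectGroup p M c (P.subgroupOf H) ∧ ∀ x : G, x ∈ Subgroup.centralizer (P : Set G) → Cfsg.MemLocalIdeal M (Cfsg.blockCoeff B x - Cfsg.subgroupBlockCoeff H c x)) ∧ (∀ c : Set (Cfsg.IrrCharacter H), Cfsg.IsPBlock M c → Cfsg.IsDefectGroup p M c (P.subgroupOf H) → ∃! B : Set (Cfsg.IrrCharacter G), Cfsg.IsPBlock M B ∧ Cfsg.IsDefectGroup p M B P ∧ ∀ x : G, x ∈ Subgroup.centralizer (P : Set G) → Cfsg.MemLocalIdeal M (Cfsg.blockCoeff B x - Cfsg.subgroupBlockCoeff H c x)) := by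
  have hC : Subgroup.centralizer (P : Set G) ≤ H := (cent_le_norm _).trans hH
  have hPH : P ≤ H := Subgroup.le_normalizer.trans hH
  constructor
  · intro B hB hd
    obtain ⟨f, hf⟩ := exists_max_of_defect hM hB hd
    obtain ⟨a', ha'⟩ := rel_exists_down (⟨P, f⟩ : BrauerPairIdx G) hPH hC
    have hbp : IsBP p M a' := (rel_isBP hM ha' hC).2 (bp_of hM hf.1)
    obtain ⟨c, hc⟩ := exists_block_of_pair hM hbp
    have hcm : IsMaximalBrauerPair p M c a'.1 a'.2 :=
      maximal_of_no_NS hM hc (no_NS_down hM ha' hC (no_NS_of_maximal hM hf))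
    have hcb := block_of hM hc
    have ha1 : a'.1 = P.subgroupOf H := subgroupOf_eq_of_map ha'.1.symm
    refine ⟨c, ⟨hcb, ha1 ▸ maximal_defect hM hcm, ?_⟩, ?_⟩
    · exact (trunc_eq_iff_mli hM hB hcb P).2 (trunc_eq_of_match hM ha' hH hf hcm)
    · rintro c₂ ⟨hc2, hd2, h2⟩
      have h3 := (trunc_eq_iff_mli hM hB hc2 P).1 h2
      have h4 := (match_iff hM hB hc2 ha' hC h3).1 hf.1
      exact block_of_pair_unique hM h4 hc
  · intro c hcb hd
    obtain ⟨f', hf'⟩ := exists_max_of_defect hM hcb hd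
    have hmap : (P.subgroupOf H).map H.subtype = P := map_subgroupOf hPH
    obtain ⟨a, ha⟩ := rel_exists_up (⟨P.subgroupOf H, f'⟩ : BrauerPairIdx H)
      (by change Subgroup.centralizer (((P.subgroupOf H).map H.subtype : Subgroup G) : Set G) ≤ H
          rw [hmap]; exact hC)
    have ha1 : a.1 = P := ha.1.trans hmap
    obtain ⟨Q, f⟩ := a
    obtain rfl : Q = P := ha1
    have hbp : IsBP p M (⟨Q, f⟩ : BrauerPairIdx G) := (rel_isBP hM ha hC).1 (bp_of hM hf'.1)
    obtain ⟨B, hB⟩ := exists_block_of_pair hM hbp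
    have hBm : IsMaximalBrauerPair p M B Q f :=
      maximal_of_no_NS hM hB (no_NS_up hM ha hH (no_NS_of_maximal hM hf'))
    have hBb := block_of hM hB
    refine ⟨B, ⟨hBb, maximal_defect hM hBm, ?_⟩, ?_⟩
    · exact (trunc_eq_iff_mli hM hBb hcb Q).2 (trunc_eq_of_match hM ha hH hBm hf')
    · rintro B₂ ⟨hB2, hd2, h2⟩
      have h3 := (trunc_eq_iff_mli hM hB2 hcb Q).1 h2
      have h4 := (match_iff hM hB2 hcb ha hC h3).2 hf'.1
      exact block_of_pair_unique hM h4 hB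

end Cfsg.Agent.S4670
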