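import Cfsg.Statements.S4673
import Cfsg.Agent.Lib.BlkH5W

set_option autoImplicit false
set_option linter.style.haveILetI false
set_option linter.unusedVariables false
open Cfsg

namespace Cfsg.Agent.S4673
open Cfsg.Agent.Lib.BlkH5W Cfsg.Agent.Lib.BlockRey Cfsg.Agent.Lib.BlockPC Cfsg.Agent.Lib.BlockRk Cfsg.Agent.Lib.BlockInt Cfsg.Agent.Lib.BlockIndIn Cfsg.Agent.Lib.BlockMaxB Cfsg.Agent.Lib.BlockMax Cfsg.Agent.Lib.BlockNilC Cfsg.Agent.Lib.BlockNilB Cfsg.Agent.Lib.BlockNil Cfsg.Agent.Lib.BlockFusB Cfsg.Agent.Lib.BlockFus Cfsg.Agent.Lib.BlockPairF Cfsg.Agent.Lib.BlockPairE Cfsg.Agent.Lib.BlockPairD Cfsg.Agent.Lib.BlockPairC Cfsg.Agent.Lib.BlockPairB Cfsg.Agent.Lib.BlockPair Cfsg.Agent.Lib.BlockBP Cfsg.Agent.Lib.BlockCovB Cfsg.Agent.Lib.BlockTr Cfsg.Agent.Lib.BlockMoreB Cfsg.Agent.Lib.BlockMore Cfsg.Agent.Lib.BlockQuotB Cfsg.Agent.Lib.BlockQuot Cfsg.Agent.Lib.BlockCov Cfsg.Agent.Lib.BlockM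 Cfsg.Agent.Lib.BlockHt Cfsg.Agent.Lib.BlockFirst Cfsg.Agent.Lib.BlockSecond Cfsg.Agent.Lib.BlockInd Cfsg.Agent.Lib.BlockNP Cfsg.Agent.Lib.BlockDeg Cfsg.Agent.Lib.BlockDef Cfsg.Agent.Lib.BlockRed Cfsg.Agent.Lib.BlockOrth Cfsg.Agent.Lib.BlockIdem Cfsg.Agent.Lib.BlockGA Cfsg.Agent.Lib.BlockLoc Cfsg.Agent.Lib.CharBasic Cfsg.Agent.Lib.BlockPP Cfsg.Agent.Lib.CharNormal Cfsg.Agent.Lib.CharPerm Cfsg.Agent.Lib.CharPermB Cfsg.Agent.Lib.BlockSum Cfsg.Agent.Lib.BlockKB Cfsg.Agent.Lib.BlockLar Cfsg.Agent.Lib.BlockBFM Cfsg.Agent.Lib.BlkH5L Cfsg.Agent.Lib.BlkH5A Cfsg.Agent.Lib.BlkH5P Cfsg.Agent.Lib.BlkH5O Cfsg.Agent.Lib.BlkH5N Cfsg.Agent.Lib.BlkH5G Cfsg.Agent.Lib.BlkH5B Cfsg.Agent.Lib.BlkH5C Cfsg.Agent.Lib.BlkH5D Cfsg.Agent.Lib.BlkH5E Cfsg.Agent.Lib.BlkH5F Cfsg.Agent.Lib.BlkH5M Cfsg.Agent.Lib.BlkH5Q Cfsg.Agent.Lib.BlkH5R Cfsg.Agent.Lib.BlkH5S Cfsg.Agent.Lib.BlkH5T Cfsg.Agent.Lib.BlkH5U Cfsg.Agent.Lib.BlkH5V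
open scoped ComplexConjugate



/-- Fix a prime p and a maximal ideal M of the algebraic integers containing p. Let N ≤ L be normal subgroups of the finite group G with L/N a p-group, let B be a p-block of G covering the p-block c of N (some member of B has a constituent in c on restriction to N), and suppose that N contains a defect group of B. Then the stabilizer T of c in G satisfies T ∩ L = N. -/
theorem result {G : Type*} [Group G] [Fintype G] (p : ℕ) [Fact p.Prime] (M : Ideal Cfsg.AlgInt) (hM : Cfsg.IsPModular p M) (N L : Subgroup G) [N.Normal] [L.Normal] [Fintype N] (hNL : N ≤ L) (hLN : ∃ k : ℕ, (N.subgroupOf L).index = p ^ k) (B : Set (Cfsg.IrrCharacter G)) (hB : Cfsg.IsPBlock M B) (c : Set (Cfsg.IrrCharacter N)) (hc : Cfsg.IsPBlock M c) (hcov : (∃ χ ∈ B, ∃ θ ∈ c, Cfsg.classInner (fun n : N => (χ : G → ℂ) n) (θ : N → ℂ) ≠ 0)) (hD : ∃ D : Subgroup G, Cfsg.IsDefectGroup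 p M B D ∧ D ≤ N) (T : Subgroup G) (hT : ∀ x : G, x ∈ T ↔ Cfsg.StabilizesBlock N c x) : T ⊓ L = N := by
  classical
  have hp := (Fact.out : p.Prime)
  haveI : Fintype T := Fintype.ofFinite _
  have hT' : ∀ g : G, g ∈ T ↔ ∀ θ ∈ c, cjI g θ ∈ c := fun g => by
    rw [hT, stabilizes_normal_iff hM hc]
  have hNT : N ≤ T := by
    intro n hn
    rw [hT']
    intro θ hθ
    have h1 : cjI (n : G) θ = θ := Subtype.ext (cj_of_mem (isChar_classFn (isChar_of_irr θ.2)) hn)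
    rw [h1]; exact hθ
  apply le_antisymm
  · -- the block of `T`
    obtain ⟨χ, hχ, θ, hθ, hov⟩ := hcov
    obtain ⟨φ, hφ, h1, -⟩ := fr_clifford hM hNT hc hT' hθ hov
    have hB' := isPBlock_blockOf M φ
    have hind := induced_of_ind hM hB' (self_mem_blockOf hM φ) h1.symm hB hχ
    obtain ⟨D, hD, hDN⟩ := hD
    obtain ⟨D', hD'⟩ := exists_defectGroup hM hB'
    obtain ⟨g, hg⟩ := defect_le_of_induced hM hind hD' hD
    haveI : Fintype (N.subgroupOf T) := Fintype.ofFinite _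
    have hD'N : D' ≤ N.subgroupOf T := by
      intro x hx
      rw [Subgroup.mem_subgroupOf]
      have h6 := hDN (hg (x : G) (Subgroup.mem_map_of_mem _ hx))
      have h7 := (inferInstance : N.Normal).conj_mem _ h6 g⁻¹
      have h8 : g⁻¹ * (g * (x : G) * g⁻¹) * g⁻¹⁻¹ = x := by group
      rwa [h8] at h7
    have hcT : IsPBlock M (bT hNT c) := isPBlock_trB hM _ hc
    have hcov' : Cov (blockOf M φ.1) (bT hNT c) := by
      obtain ⟨θ', hθ', hov'⟩ := hφ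
      exact ⟨φ, self_mem_blockOf hM φ, _, (mem_bT hNT).2 hθ', (over_iff_OvT hNT).2 hov'⟩
    have hNLT : N.subgroupOf T ≤ (T ⊓ L).subgroupOf T := fun x hx =>
      Subgroup.mem_subgroupOf.2 (Subgroup.mem_inf.2 ⟨x.2, hNL (Subgroup.mem_subgroupOf.1 hx)⟩)
    haveI : ((T ⊓ L).subgroupOf T).Normal := by
      have : (T ⊓ L).subgroupOf T = L.subgroupOf T := Subgroup.inf_subgroupOf_left L T
      rw [this]; infer_instance
    have hidx : ∃ k : ℕ, ((N.subgroupOf T).subgroupOf ((T ⊓ L).subgroupOf T)).index = p ^ k := by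
      obtain ⟨k, hk⟩ := hLN
      have h2 : (N.subgroupOf T).relIndex ((T ⊓ L).subgroupOf T) = N.relIndex (T ⊓ L) :=
        Subgroup.relIndex_subgroupOf inf_le_left
      have h3 : N.relIndex (T ⊓ L) ∣ p ^ k := by
        have h4 := Subgroup.relIndex_mul_relIndex N (T ⊓ L) L (le_inf hNT hNL) inf_le_right
        rw [← hk]
        exact Dvd.intro _ h4
      obtain ⟨j, -, hj⟩ := (Nat.dvd_prime_pow hp).1 h3
      exact ⟨j, h2.trans hj⟩
    have h9 := eq_of_defect_le (G := T) hM hNLT hidx hcT (bT_gStab hNT hT') hB' hcov' hD' hD'N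
    intro x hx
    have h10 : (⟨x, (Subgroup.mem_inf.1 hx).1⟩ : T) ∈ (T ⊓ L).subgroupOf T :=
      Subgroup.mem_subgroupOf.2 hx
    exact Subgroup.mem_subgroupOf.1 (h9 h10)
  · exact le_inf hNT hNL

end Cfsg.Agent.S4673
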