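import Cfsg.Statements.S4681
import Cfsg.Agent.Lib.BlockFusB

set_option autoImplicit false
set_option linter.style.haveILetI false
set_option linter.unusedVariables false
open Cfsg

namespace Cfsg.Agent.S4681
open Cfsg.Agent.Lib.BlockFusB Cfsg.Agent.Lib.BlockFus Cfsg.Agent.Lib.BlockPairF Cfsg.Agent.Lib.BlockPairE Cfsg.Agent.Lib.BlockPairD Cfsg.Agent.Lib.BlockPairC Cfsg.Agent.Lib.BlockPairB Cfsg.Agent.Lib.BlockPair Cfsg.Agent.Lib.BlockBP Cfsg.Agent.Lib.BlockCovB Cfsg.Agent.Lib.BlockTr Cfsg.Agent.Lib.BlockMoreB Cfsg.Agent.Lib.BlockMore Cfsg.Agent.Lib.BlockQuotB Cfsg.Agent.Lib.BlockQuot Cfsg.Agent.Lib.BlockCov Cfsg.Agent.Lib.BlockM Cfsg.Agent.Lib.BlockHt Cfsg.Agent.Lib.BlockFirst Cfsg.Agent.Lib.BlockSecond Cfsg.Agent.Lib.BlockInd Cfsg.Agent.Lib.BlockNP Cfsg.Agent.Lib.BlockDeg Cfsg.Agent.Lib.BlockDef Cfsg.Agent.Lib.BlockRed Cfsg.Agent.Lib.BlockOrth Cfsg.Agent.Lib.BlockIdem Cfsg.Agent.Lib.BlockGA Cfsg.Agent.Lib.BlockLoc Cfsg.Agent.Lib.CharBasic Cfsg.Agent.Lib.BlockPP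 Cfsg.Agent.Lib.CharPerm Cfsg.Agent.Lib.CharPermB
open scoped ComplexConjugate



/-- Fix a prime p and a maximal ideal M of the algebraic integers containing p. Let B₀ be the principal p-block of the finite group G, P a Sylow p-subgroup and e₀ the principal p-block of C_G(P). Then (P, e₀) is a maximal Brauer pair of B₀, and the fusion system of B₀ on (P, e₀) is the fusion system of G on P: its maps from each subgroup of P are exactly the conjugation maps into P by elements of G. -/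
theorem result {G : Type*} [Group G] [Fintype G] (p : ℕ) [Fact p.Prime] (M : Ideal Cfsg.AlgInt) (hM : Cfsg.IsPModular p M) (S : Sylow p G) : Cfsg.IsMaximalBrauerPair p M (Cfsg.principalBlock M G) (S : Subgroup G) (Cfsg.principalBlock M (Subgroup.centralizer ((S : Subgroup G) : Set G))) ∧ ∀ F : Cfsg.FusionSystem (S : Subgroup G), Cfsg.IsBlockFusionSystemOn p M (Cfsg.principalBlock M G) (S : Subgroup G) (Cfsg.principalBlock M (Subgroup.centralizer ((S : Subgroup G) : Set G))) F → ∀ Q : Subgroup G, F.Hom Q = (Cfsg.groupFusionSystem (S : Subgroup G)).Hom Q := by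
  have hB := principal_isPBlock M G
  have key : ∀ Q : Subgroup G, IsPGroup p Q →
      IsBPO p M (principalBlock M G) ⟨Q, principalBlock M (Subgroup.centralizer (Q : Set G))⟩ := by
    intro Q hQ
    have he := principal_isPBlock M (Subgroup.centralizer (Q : Set G))
    obtain ⟨B, hB⟩ := exists_induced_cent hM hQ he
    rw [(third_main hM hB).2 rfl] at hB
    exact (isBrauerPairOf_iff hM).2 ⟨hQ, hB⟩
  have keyu : ∀ (Q : Subgroup G) (f : Set (IrrCharacter (Subgroup.centralizer (Q : Set G)))),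
      IsBPO p M (principalBlock M G) ⟨Q, f⟩ → f = principalBlock M _ := by
    intro Q f hf
    exact (third_main hM ((isBrauerPairOf_iff hM).1 hf).2).1 rfl
  have hd : IsDefectGroup p M (principalBlock M G) (S : Subgroup G) :=
    (isDefectGroup_iff_sylow hM hB (blockDefect_principal hM) _).2 ⟨S, rfl⟩
  have hmax := maximal_of_defect hM (key S S.2) hd
  refine ⟨hmax, fun F hF Q => ?_⟩
  have he := (isBrauerPairOf_iff_lam hM).1 hmax.1
  have hbp : IsBP p M (⟨(S : Subgroup G), principalBlock M _⟩ : BrauerPairIdx G) := ⟨he.1, he.2.1⟩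
  have hsub : ∀ Q : Subgroup G, Q ≤ S → LE' p M ⟨Q, principalBlock M _⟩
      ⟨(S : Subgroup G), principalBlock M _⟩ := by
    intro Q hQ
    obtain ⟨f, hf⟩ := exists_sub hM _ le_rfl hbp hQ
    have h1 := (isBPO_LE hM hB hf).2 hmax.1
    rwa [keyu Q f h1] at hf
  ext φ
  constructor
  · intro hφ
    have hQ := (F.le_of_mem hφ).1
    obtain ⟨g, hg, h⟩ := (hom_iff hM hF (hsub Q hQ) φ).1 hφ
    exact ⟨hQ, (F.le_of_mem hφ).2, g, hg⟩
  · rintro ⟨hQ, hS, g, hg⟩
    rw [hom_iff hM hF (hsub Q hQ)]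
    refine ⟨g, hg, ?_⟩
    have h1 : Q.map (MulAut.conj g).toMonoidHom ≤ S := by
      rintro _ ⟨x, hx, rfl⟩
      have := hS ⟨x, hx⟩
      rw [hg] at this
      exact this
    have h2 := isBPO_cjP hM g (key Q (S.2.to_le hQ))
    have h3 : cjP g ⟨Q, principalBlock M _⟩ =
        ⟨Q.map (MulAut.conj g).toMonoidHom, principalBlock M _⟩ := by
      have h4 := keyu _ _ h2
      exact congrArg (Sigma.mk _) h4
    rw [h3]
    exact hsub _ h1

end Cfsg.Agent.S4681
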