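import Cfsg.Statements.S4682
import Cfsg.Agent.Lib.BlockFusB

set_option autoImplicit false
set_option linter.style.haveILetI false
set_option linter.unusedVariables false
open Cfsg

namespace Cfsg.Agent.S4682
open Cfsg.Agent.Lib.BlockFusB Cfsg.Agent.Lib.BlockFus Cfsg.Agent.Lib.BlockPairF Cfsg.Agent.Lib.BlockPairE Cfsg.Agent.Lib.BlockPairD Cfsg.Agent.Lib.BlockPairC Cfsg.Agent.Lib.BlockPairB Cfsg.Agent.Lib.BlockPair Cfsg.Agent.Lib.BlockBP Cfsg.Agent.Lib.BlockCovB Cfsg.Agent.Lib.BlockTr Cfsg.Agent.Lib.BlockMoreB Cfsg.Agent.Lib.BlockMore Cfsg.Agent.Lib.BlockQuotB Cfsg.Agent.Lib.BlockQuot Cfsg.Agent.Lib.BlockCov Cfsg.Agent.Lib.BlockM Cfsg.Agent.Lib.BlockHt Cfsg.Agent.Lib.BlockFirst Cfsg.Agent.Lib.BlockSecond Cfsg.Agent.Lib.BlockInd Cfsg.Agent.Lib.BlockNP Cfsg.Agent.Lib.BlockDeg Cfsg.Agent.Lib.BlockDef Cfsg.Agent.Lib.BlockRed Cfsg.Agent.Lib.BlockOrth Cfsg.Agent.Lib.BlockIdem Cfsg.Agent.Lib.BlockGA Cfsg.Agent.Lib.BlockLoc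 Cfsg.Agent.Lib.CharBasic Cfsg.Agent.Lib.BlockPP Cfsg.Agent.Lib.CharPerm Cfsg.Agent.Lib.CharPermB
open scoped ComplexConjugate



/-- Fix a prime p and a maximal ideal M of the algebraic integers containing p, a p-block B of the finite group G with maximal Brauer pair (P, e), P abelian, and a Brauer pair (Q, f) ≤ (P, e). Let T_Q be the stabilizer of f in N_G(Q) and T_P the stabilizer of e in N_G(P). Then every element of T_Q is a product of an element of T_P and an element of C_G(Q); and the index of C_G(Q) in T_Q equals the index of T_P ∩ C_G(Q) in T_P ∩ N_G(Q). -/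
theorem result {G : Type*} [Group G] [Fintype G] (p : ℕ) [Fact p.Prime] (M : Ideal Cfsg.AlgInt) (hM : Cfsg.IsPModular p M) (B : Set (Cfsg.IrrCharacter G)) (P : Subgroup G) (e : Set (Cfsg.IrrCharacter (Subgroup.centralizer (P : Set G)))) (hmax : Cfsg.IsMaximalBrauerPair p M B P e) (hab : ∀ x ∈ P, ∀ y ∈ P, x * y = y * x) (Q : Subgroup G) (f : Set (Cfsg.IrrCharacter (Subgroup.centralizer (Q : Set G)))) (hQP : Q ≤ P) (hf : Cfsg.IsPBlock M f) (hle : Cfsg.SubpairLE p M Q f P e) (TQ : Subgroup G) (hTQ : ∀ y : G, y ∈ TQ ↔ y ∈ Subgroup.normalizer (Q : Set G) ∧ Cfsg.StabilizesBlock (Subgroup.centralizer (Q : Set G)) f y) (TP : Subgroup G) (hTP : ∀ y : G, y ∈ TP ↔ y ∈ Subgroup.normalizer (P : Set G) ∧ Cfsg.StabilizesBlock (Subgroup.centralizer (P : Set G)) e y) : (∀ x ∈ TQ, ∃ y ∈ TP, ∃ c ∈ Subgroup.centralizer (Q : Set G), x = y * c) ∧ ((Subgroup.centralizer (Q : Set G)).subgroupOf TQ).index = ((TP ⊓ Subgroup.centralizer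 (Q : Set G)).subgroupOf (TP ⊓ Subgroup.normalizer (Q : Set G))).index := by
  have hTQ' := isStab_of hM hf hTQ
  have he := (isBrauerPairOf_iff_lam hM).1 hmax.1
  have hTP' := isStab_of hM he.2.1 hTP
  have hbp : IsBP p M (⟨P, e⟩ : BrauerPairIdx G) := ⟨he.1, he.2.1⟩
  have hPC : P ≤ Subgroup.centralizer (Q : Set G) := by
    intro x hx
    rw [Subgroup.mem_centralizer_iff]
    exact fun y hy => hab y (hQP hy) x hx
  have h1 : ∀ x ∈ TQ, ∃ y ∈ TP, ∃ c ∈ Subgroup.centralizer (Q : Set G), x = y * c := by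
    intro x hx
    obtain ⟨c, hc, hcx⟩ := abelian_stab hM hmax hf hle hPC hTQ' hTP' hx
    refine ⟨c * x, hcx, x⁻¹ * c⁻¹ * x, ?_, by group⟩
    have h2 := ((norm_iff.1 (norm_cent (Subgroup.inv_mem _ (IsStab.le_norm hTQ' hx)))) c⁻¹).1
      (Subgroup.inv_mem _ hc)
    rwa [inv_inv] at h2
  refine ⟨h1, ?_⟩
  have h2 : TP ⊓ Subgroup.normalizer (Q : Set G) ≤ TQ := by
    rintro y ⟨hyP, hyN⟩
    refine (hTQ' y).2 ⟨hyN, ?_⟩
    have h3 := LE_cjP hM y (a := ⟨Q, f⟩) (b := ⟨P, e⟩) hle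
    rw [((hTP' y).1 hyP).2] at h3
    obtain ⟨f', hf'⟩ := exists_snd (c := cjP y ⟨Q, f⟩) (map_conj_norm hyN)
    rw [hf'] at h3 ⊢
    rw [sub_unique hM _ le_rfl h3 hle]
  have hAN : TP ⊓ Subgroup.normalizer (Q : Set G) ≤
      Subgroup.normalizer ((Subgroup.centralizer (Q : Set G) : Subgroup G) : Set G) :=
    fun y hy => norm_cent hy.2
  have hCT := IsStab.cent_le hM hf hTQ'
  have h4 : (TP ⊓ Subgroup.normalizer (Q : Set G)) ⊔ Subgroup.centralizer (Q : Set G) = TQ := by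
    refine le_antisymm (sup_le h2 hCT) ?_
    intro x hx
    obtain ⟨y, hy, c, hc, rfl⟩ := h1 x hx
    refine Subgroup.mul_mem _ (Subgroup.mem_sup_left ⟨hy, ?_⟩) (Subgroup.mem_sup_right hc)
    have h5 := Subgroup.mul_mem _ (IsStab.le_norm hTQ' hx) (Subgroup.inv_mem _ (cent_le_norm Q hc))
    rwa [mul_inv_cancel_right] at h5
  haveI := Subgroup.normal_subgroupOf_of_le_normalizer hAN
  haveI := Subgroup.normal_subgroupOf_sup_of_le_normalizer hAN
  have h6 := Nat.card_congr (QuotientGroup.quotientInfEquivProdNormalizerQuotient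
    (TP ⊓ Subgroup.normalizer (Q : Set G)) (Subgroup.centralizer (Q : Set G)) hAN).toEquiv
  change (Subgroup.centralizer (Q : Set G)).relIndex TQ =
    (TP ⊓ Subgroup.centralizer (Q : Set G)).relIndex (TP ⊓ Subgroup.normalizer (Q : Set G))
  change (Subgroup.centralizer (Q : Set G)).relIndex (TP ⊓ Subgroup.normalizer (Q : Set G)) =
    (Subgroup.centralizer (Q : Set G)).relIndex ((TP ⊓ Subgroup.normalizer (Q : Set G)) ⊔
      Subgroup.centralizer (Q : Set G)) at h6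
  rw [h4] at h6
  rw [← h6, ← Subgroup.inf_relIndex_right (TP ⊓ Subgroup.centralizer (Q : Set G)),
    ← Subgroup.inf_relIndex_right (Subgroup.centralizer (Q : Set G))]
  congr 1
  ext z
  simp only [Subgroup.mem_inf]
  tauto

end Cfsg.Agent.S4682
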