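import Cfsg.Statements.S4683
import Cfsg.Agent.Lib.BlockSum
import Cfsg.Agent.Lib.BlockPairB

set_option autoImplicit false
set_option linter.style.haveILetI false
set_option linter.unusedVariables false
open Cfsg

namespace Cfsg.Agent.S4683
open Cfsg.Agent.Lib.BlockSum Cfsg.Agent.Lib.BlockSecond Cfsg.Agent.Lib.BlockInd Cfsg.Agent.Lib.BlockNP Cfsg.Agent.Lib.BlockDeg Cfsg.Agent.Lib.BlockDef Cfsg.Agent.Lib.BlockRed Cfsg.Agent.Lib.BlockOrth Cfsg.Agent.Lib.BlockIdem Cfsg.Agent.Lib.BlockGA Cfsg.Agent.Lib.BlockLoc Cfsg.Agent.Lib.CharBasic Cfsg.Agent.Lib.BlockPP Cfsg.Agent.Lib.BlockPairB Cfsg.Agent.Lib.BlockPair Cfsg.Agent.Lib.BlockBP Cfsg.Agent.Lib.BlockCovB Cfsg.Agent.Lib.BlockTr Cfsg.Agent.Lib.BlockMoreB Cfsg.Agent.Lib.BlockMore Cfsg.Agent.Lib.BlockQuotB Cfsg.Agent.Lib.BlockQuot Cfsg.Agent.Lib.BlockCov Cfsg.Agent.Lib.BlockM Cfsg.Agent.Lib.BlockHt Cfsg.Agent.Lib.BlockFirst Cfsg.Agent.Lib.CharNormal Cfsg.Agent.Lib.CharPerm Cfsg.Agent.Lib.CharPermB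
open scoped ComplexConjugate



/-- Fix a prime p and a maximal ideal M of the algebraic integers containing p, a p-block B of the finite group G, a p-element u and a p-block e of C = C_G(u) such that (⟨u⟩, e) is a Brauer pair of B (a Brauer element of B). For χ ∈ B let χ_u be the e-part of the class function c ↦ χ(u c) on C and χ_u' the e-part of c ↦ χ(u⁻¹ c). Then the sum over χ ∈ B and over the p-regular elements s of C of χ_u(s)·χ_u'(s⁻¹) equals the order of C times the p-regular rank of e (the number of irreducible Brauer characters of e). -/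
theorem result {G : Type*} [Group G] [Fintype G] (p : ℕ) [Fact p.Prime] (M : Ideal Cfsg.AlgInt) (hM : Cfsg.IsPModular p M) (B : Set (Cfsg.IrrCharacter G)) (u : G) (hu : ∃ k : ℕ, orderOf u = p ^ k) (e : Set (Cfsg.IrrCharacter (Subgroup.centralizer (Subgroup.zpowers u : Set G)))) (hBe : Cfsg.IsBrauerPairOf p M B (Subgroup.zpowers u) e) : ∑ᶠ χ ∈ B, ∑ᶠ s : Subgroup.centralizer (Subgroup.zpowers u : Set G), Cfsg.pRegularPart p (Cfsg.blockPart e (fun c : Subgroup.centralizer (Subgroup.zpowers u : Set G) => (χ : G → ℂ) (u * c))) s * Cfsg.blockPart e (fun c : Subgroup.centralizer (Subgroup.zpowers u : Set G) => (χ : G → ℂ) (u⁻¹ * c)) s⁻¹ = (Nat.card (Subgroup.centralizer (Subgroup.zpowers u : Set G)) : ℂ) * (Cfsg.blockRank p e : ℂ) := by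
  classical
  cases nonempty_fintype G
  have hK : Subgroup.centralizer (Subgroup.zpowers u : Set G) = Subgroup.centralizer ({u} : Set G) := by
    ext g
    rw [Subgroup.mem_centralizer_iff, mem_cent_iff]
    constructor
    · intro h
      exact (h u (Subgroup.mem_zpowers u)).symm
    · rintro h _ ⟨k, rfl⟩
      exact (h.zpow_right k).eq.symm
  have hind := ((isBrauerPairOf_iff hM).1 hBe).2
  clear hBe
  generalize Subgroup.centralizer (Subgroup.zpowers u : Set G) = K at e hK hind ⊢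
  subst hK
  haveI : Fintype (Subgroup.centralizer ({u} : Set G)) := Fintype.ofFinite _
  have hconj : ∀ (χ : IrrCharacter G) (s : Subgroup.centralizer ({u} : Set G)),
      blockPart e (fun c : Subgroup.centralizer ({u} : Set G) => χ.1 (u⁻¹ * c)) s⁻¹ =
        conj (blockPart e (fun c : Subgroup.centralizer ({u} : Set G) => χ.1 (u * c)) s) := by
    intro χ s
    rw [blockPart_eq_sum, blockPart_eq_sum, map_mul, map_sum, map_inv₀, Complex.conj_natCast]
    congr 1
    refine Fintype.sum_equiv (Equiv.inv _) _ _ (fun g => ?_)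
    rw [map_mul, map_sum, conj_irr]
    have hg : Commute (g : G) u := mem_cent_iff.1 g.2
    have e1 : (u * ((Equiv.inv _ g : Subgroup.centralizer ({u} : Set G)) : G))⁻¹ = u⁻¹ * g := by
      change (u * (g : G)⁻¹)⁻¹ = u⁻¹ * g
      rw [mul_inv_rev, inv_inv]
      exact (hg.inv_right).eq
    rw [e1]
    congr 1
    refine Finset.sum_congr rfl (fun ξ _ => ?_)
    rw [map_mul, conj_irr, conj_irr]
    change _ = ξ.1 s⁻¹ * ξ.1 (g⁻¹)⁻¹⁻¹
    rw [inv_inv]
  simp_rw [hconj]
  rw [finsum_block]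
  simp_rw [finsum_eq_sum_of_fintype]
  rw [Finset.sum_comm, rank_formula hM (isLoc_eB hM hind.1)]
  refine Finset.sum_congr rfl (fun s _ => ?_)
  by_cases hs : ¬ p ∣ orderOf s
  · simp_rw [pReg_apply hs]
    rw [gram_block hM hu hind hs hs]
    exact Finset.sum_congr rfl (fun ξ _ => by rw [conj_irr])
  · rw [not_not] at hs
    simp_rw [pReg_apply' hs, zero_mul]
    simp

end Cfsg.Agent.S4683
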