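import Cfsg.Statements.S4693
import Cfsg.Agent.Lib.BlockNilC

set_option autoImplicit false
set_option linter.style.haveILetI false
set_option linter.unusedVariables false
open Cfsg

namespace Cfsg.Agent.S4693
open Cfsg.Agent.Lib.BlockNilC Cfsg.Agent.Lib.BlockNilB Cfsg.Agent.Lib.BlockNil Cfsg.Agent.Lib.BlockFusB Cfsg.Agent.Lib.BlockFus Cfsg.Agent.Lib.BlockPairF Cfsg.Agent.Lib.BlockPairE Cfsg.Agent.Lib.BlockPairD Cfsg.Agent.Lib.BlockPairC Cfsg.Agent.Lib.BlockPairB Cfsg.Agent.Lib.BlockPair Cfsg.Agent.Lib.BlockBP Cfsg.Agent.Lib.BlockCovB Cfsg.Agent.Lib.BlockTr Cfsg.Agent.Lib.BlockMoreB Cfsg.Agent.Lib.BlockMore Cfsg.Agent.Lib.BlockQuotB Cfsg.Agent.Lib.BlockQuot Cfsg.Agent.Lib.BlockCov Cfsg.Agent.Lib.BlockM Cfsg.Agent.Lib.BlockHt Cfsg.Agent.Lib.BlockFirst Cfsg.Agent.Lib.BlockSecond Cfsg.Agent.Lib.BlockInd Cfsg.Agent.Lib.BlockNP Cfsg.Agent.Lib.BlockDeg Cfsg.Agent.Lib.BlockDef Cfsg.Agent.Lib.BlockRed Cfsg.Agent.Lib.BlockOrth Cfsg.Agent.Lib.BlockIdem Cfsg.Agent.Lib.BlockGA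 Cfsg.Agent.Lib.BlockLoc Cfsg.Agent.Lib.CharBasic Cfsg.Agent.Lib.BlockPP Cfsg.Agent.Lib.CharNormal Cfsg.Agent.Lib.CharPerm Cfsg.Agent.Lib.CharPermB
open scoped ComplexConjugate



/-- Fix a prime p and a maximal ideal M of the algebraic integers containing p, a p-block B of the finite group G with maximal Brauer pair (P, e) and fusion system F on P, and a Brauer pair (Q, f) ≤ (P, e) with Q centric in F. Suppose every element of G normalizes Q and stabilizes f. Then the idempotent of B agrees with that of f modulo M at every element of G, and f is the idempotent of a nilpotent block of Q·C_G(Q): some p-block of Q·C_G(Q) has the idempotent coefficients of f and is nilpotent. -/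
theorem result {G : Type*} [Group G] [Fintype G] (p : ℕ) [Fact p.Prime] (M : Ideal Cfsg.AlgInt) (hM : Cfsg.IsPModular p M) (B : Set (Cfsg.IrrCharacter G)) (P : Subgroup G) (e : Set (Cfsg.IrrCharacter (Subgroup.centralizer (P : Set G)))) (hmax : Cfsg.IsMaximalBrauerPair p M B P e) (F : Cfsg.FusionSystem P) (hF : Cfsg.IsBlockFusionSystemOn p M B P e F) (Q : Subgroup G) (f : Set (Cfsg.IrrCharacter (Subgroup.centralizer (Q : Set G)))) (hQP : Q ≤ P) (hf : Cfsg.IsPBlock M f) (hle : Cfsg.SubpairLE p M Q f P e) (hcen : F.IsCentric Q) (hG : ∀ x : G, x ∈ Subgroup.normalizer (Q : Set G) ∧ Cfsg.StabilizesBlock (Subgroup.centralizer (Q : Set G)) f x) : (∀ g : G, Cfsg.MemLocalIdeal M (Cfsg.blockCoeff B g - Cfsg.subgroupBlockCoeff (Subgroup.centralizer (Q : Set G)) f g)) ∧ ∃ F' : Set (Cfsg.IrrCharacter ↥(Q ⊔ Subgroup.centralizer (Q : Set G))), Cfsg.IsPBlock M F' ∧ (∀ t : ↥(Q ⊔ Subgroup.centralizer (Q : Set G)), Cfsg.blockCoeff F' t = Cfsg.subgroupBlockCoeff (Subgroup.centralizer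 (Q : Set G)) f (t : G)) ∧ Cfsg.IsNilpotentBlock p M F' := by
  have hbp := bp_of hM hmax.1
  have hB := block_of hM hmax.1
  have hQf : IsBPO p M B (⟨Q, f⟩ : BrauerPairIdx G) := (isBPO_LE hM hB hle).2 hmax.1
  have hQbp := bp_of hM hQf
  haveI hQn : Q.Normal := by
    rw [← Subgroup.normalizer_eq_top_iff, eq_top_iff]
    exact fun x _ => (hG x).1
  have hstab : ∀ x : G, cjP x ⟨Q, f⟩ = ⟨Q, f⟩ := fun x =>
    (stabilizes_iff_cjP hM hf (hG x).1).1 (hG x).2
  constructor
  · intro g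
    haveI : Fintype (Subgroup.centralizer (Q : Set G)) := Fintype.ofFinite _
    haveI hCn : (Subgroup.centralizer (Q : Set G)).Normal := inferInstance
    have hind := (isBrauerPairOf_iff hM).1 hQf
    obtain ⟨ξ, hξ⟩ := block_nonempty hM hf
    obtain ⟨χ, hχ, hov⟩ := exists_over_of_induced hM hind.2 hξ
    have hcov : Cov B f := ⟨χ, hχ, ξ, hξ, hov⟩
    have hBB := eB_eq_ext_orb hM (Q := Q) hQbp.1 le_rfl hf hB hcov
    have horb : orb (G := G) f = f := by
      apply Set.Subset.antisymm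
      · rintro θ ⟨x, hx⟩
        have hh := norm_iff.1 (norm_cent (hG x).1)
        have h1 : cjI x θ = trI (Cfsg.Agent.Lib.BlockPair.cjE x hh) θ := by
          apply Subtype.ext
          funext n
          rw [cjI_coe, cj_eq_comp, trI_apply]
          refine congrArg θ.1 (Subtype.ext ?_)
          rw [cjAut_coe]
          rfl
        rw [h1, ← mem_trB] at hx
        have h2 := hstab x
        rw [cjP_norm (hG x).1 hh] at h2
        have h3 : trB (Cfsg.Agent.Lib.BlockPair.cjE x hh) f = f := eq_of_heq (Sigma.mk.inj h2).2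
        rwa [h3] at hx
      · exact subset_orb f
    rw [horb] at hBB
    have h4 : blockCoeff B g - subgroupBlockCoeff (Subgroup.centralizer (Q : Set G)) f g = 0 := by
      have h5 : (eB B) g = (⟨subgroupBlockCoeff (Subgroup.centralizer (Q : Set G)) f⟩ : GA ℂ G) g := by
        rw [hBB, mk_subgroupBlockCoeff]
      exact sub_eq_zero.2 h5
    rw [h4]
    exact max_zero hM
  · have hCT : Subgroup.centralizer (Q : Set G) ≤ Q ⊔ Subgroup.centralizer (Q : Set G) :=
      le_sup_right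
    obtain ⟨F₁, hF₁, -, hext⟩ := exists_stab_block hM (T := Q ⊔ Subgroup.centralizer (Q : Set G))
      hQbp.1 hf le_sup_left hCT (fun y _ => ⟨(hG y).1, hstab y⟩)
    refine ⟨F₁, hF₁, blockCoeff_of_ext hext, ?_⟩
    haveI := cent_normal_in (P := Q) (H := Q ⊔ Subgroup.centralizer (Q : Set G))
      (fun y _ => (hG y).1)
    have hidx : ∃ k : ℕ, ((Subgroup.centralizer (Q : Set G)).subgroupOf
        (Q ⊔ Subgroup.centralizer (Q : Set G))).index = p ^ k := by
      haveI hCn : (Subgroup.centralizer (Q : Set G)).Normal := inferInstance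
      have h1 : (Subgroup.centralizer (Q : Set G)).relIndex
          (Q ⊔ Subgroup.centralizer (Q : Set G)) = (Subgroup.centralizer (Q : Set G)).relIndex Q :=
        Subgroup.relIndex_sup_right _ _
      have h2 : (Subgroup.centralizer (Q : Set G)).relIndex Q ∣ Nat.card Q :=
        Subgroup.relIndex_dvd_card _ _
      obtain ⟨k, hk⟩ := IsPGroup.iff_card.1 hQbp.1
      rw [hk] at h2
      obtain ⟨m, -, hm⟩ := (Nat.dvd_prime_pow Fact.out).1 h2
      exact ⟨m, h1.trans hm⟩
    have hd := (centric_iff hM hF hf hle).1 hcen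
    have hd2 := isDefectGroup_trB hM (Subgroup.subgroupOfEquivOfLe hCT).symm hf hd
    refine nil_up hM hidx hF₁ (ext_dn hCT hext) (nil_of_central hM (isPBlock_trB hM _ hf) hd2 ?_)
    rintro _ ⟨z, hz, rfl⟩
    rw [Subgroup.mem_center_iff]
    intro y
    obtain ⟨w, rfl⟩ := (Subgroup.subgroupOfEquivOfLe hCT).symm.surjective y
    change (Subgroup.subgroupOfEquivOfLe hCT).symm w * (Subgroup.subgroupOfEquivOfLe hCT).symm z =
      (Subgroup.subgroupOfEquivOfLe hCT).symm z * (Subgroup.subgroupOfEquivOfLe hCT).symm w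
    rw [← map_mul, ← map_mul]
    congr 1
    apply Subtype.ext
    exact (Subgroup.mem_centralizer_iff.1 w.2 _ (Subgroup.mem_subgroupOf.1 hz).1).symm

end Cfsg.Agent.S4693
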