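import Cfsg.Statements.S4694
import Cfsg.Agent.Lib.BlockMax

set_option autoImplicit false
set_option linter.style.haveILetI false
set_option linter.unusedVariables false
open Cfsg

namespace Cfsg.Agent.S4694
open Cfsg.Agent.Lib.BlockMax Cfsg.Agent.Lib.BlockNilC Cfsg.Agent.Lib.BlockNilB Cfsg.Agent.Lib.BlockNil Cfsg.Agent.Lib.BlockFusB Cfsg.Agent.Lib.BlockFus Cfsg.Agent.Lib.BlockPairF Cfsg.Agent.Lib.BlockPairE Cfsg.Agent.Lib.BlockPairD Cfsg.Agent.Lib.BlockPairC Cfsg.Agent.Lib.BlockPairB Cfsg.Agent.Lib.BlockPair Cfsg.Agent.Lib.BlockBP Cfsg.Agent.Lib.BlockCovB Cfsg.Agent.Lib.BlockTr Cfsg.Agent.Lib.BlockMoreB Cfsg.Agent.Lib.BlockMore Cfsg.Agent.Lib.BlockQuotB Cfsg.Agent.Lib.BlockQuot Cfsg.Agent.Lib.BlockCov Cfsg.Agent.Lib.BlockM Cfsg.Agent.Lib.BlockHt Cfsg.Agent.Lib.BlockFirst Cfsg.Agent.Lib.BlockSecond Cfsg.Agent.Lib.BlockInd Cfsg.Agent.Lib.BlockNP Cfsg.Agent.Lib.BlockDeg Cfsg.Agent.Lib.BlockDef Cfsg.Agent.Lib.BlockRed Cfsg.Agent.Lib.BlockOrth Cfsg.Agent.Lib.BlockIdem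 Cfsg.Agent.Lib.BlockGA Cfsg.Agent.Lib.BlockLoc Cfsg.Agent.Lib.CharBasic Cfsg.Agent.Lib.BlockPP Cfsg.Agent.Lib.CharNormal Cfsg.Agent.Lib.CharPerm Cfsg.Agent.Lib.CharPermB
open scoped ComplexConjugate



/-- Fix a prime p and a maximal ideal M of the algebraic integers containing p, a p-block B of the finite group G and a Brauer pair (Q, e) of B. Let T be the stabilizer of e in N_G(Q) and suppose that (Q, e) carries a weight: the block of T whose idempotent is that of e contains an irreducible character χ that is constant on the cosets of Q and whose degree has p-part equal to the p-part of the index of Q in T. Then Z(Q) is a defect group of e as a block of C_G(Q), and Q is the largest normal p-subgroup of T: every p-subgroup of T normalized by T lies in Q. -/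
theorem result {G : Type*} [Group G] [Fintype G] (p : ℕ) [Fact p.Prime] (M : Ideal Cfsg.AlgInt) (hM : Cfsg.IsPModular p M) (B : Set (Cfsg.IrrCharacter G)) (Q : Subgroup G) (e : Set (Cfsg.IrrCharacter (Subgroup.centralizer (Q : Set G)))) (hQe : Cfsg.IsBrauerPairOf p M B Q e) (T : Subgroup G) (hT : ∀ y : G, y ∈ T ↔ y ∈ Subgroup.normalizer (Q : Set G) ∧ Cfsg.StabilizesBlock (Subgroup.centralizer (Q : Set G)) e y) (F' : Set (Cfsg.IrrCharacter T)) (hF' : Cfsg.IsPBlock M F') (hF'e : ∀ t : T, Cfsg.blockCoeff F' t = Cfsg.subgroupBlockCoeff (Subgroup.centralizer (Q : Set G)) e (t : G)) (χ : Cfsg.IrrCharacter T) (hχ : χ ∈ F') (hχQ : ∀ q : G, q ∈ Q → ∀ t : T, ∀ t' : T, (t' : G) = q * (t : G) → (χ : T → ℂ) t' = (χ : T → ℂ) t) (hdeg : (Cfsg.charDegree (χ : T → ℂ)).factorization p + (Nat.card Q).factorization p = (Nat.card T).factorization p) : Cfsg.IsDefectGroup p M e ((Q ⊓ Subgroup.centralizer (Q : Set G)).subgroupOf (Subgroup.centralizer (Q : Set G))) ∧ ∀ R : Subgroup G,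 R ≤ T → IsPGroup p R → (∀ t ∈ T, t ∈ Subgroup.normalizer (R : Set G)) → R ≤ Q := by
  cases nonempty_fintype G
  have he' : IsBP p M (⟨Q, e⟩ : BrauerPairIdx G) := bp_of hM hQe
  have hT' : IsStab T (⟨Q, e⟩ : BrauerPairIdx G) := isStab_of hM he'.2 hT
  have hTN := IsStab.le_norm hT'
  have hQT := IsStab.self_le hM he'.2 hT'
  have hCT := IsStab.cent_le hM he'.2 hT'
  have hext : extGA T (eB F') = pe ⟨Q, e⟩ := ext_of_blockCoeff hCT hF'e
  haveI h1 : (Q.subgroupOf T).Normal := normal_subgroupOf (nrm_of_le_normalizer hTN)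
  haveI h2 : ((Subgroup.centralizer (Q : Set G)).subgroupOf T).Normal := cent_normal_in hTN
  haveI : Fintype ((Subgroup.centralizer (Q : Set G)).subgroupOf T) := Fintype.ofFinite _
  have hker : ∀ q ∈ Q.subgroupOf T, χ.1 q = χ.1 1 := by
    intro q hq
    exact hχQ (q : G) hq 1 q (by simp)
  have hdeg' : (charDegree χ.1).factorization p + (Nat.card (Q.subgroupOf T)).factorization p =
      (Nat.card T).factorization p := by
    rw [card_subgroupOf_of_le hQT]; exact hdeg
  constructor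
  · obtain ⟨θ, hθ, hθQ, hθd⟩ := exists_over_weight (Q := Q.subgroupOf T)
      (C := (Subgroup.centralizer (Q : Set G)).subgroupOf T) hM.1 χ hker hdeg'
    have hst : eB F' = extGA ((Subgroup.centralizer (Q : Set G)).subgroupOf T) (eB (dn hCT e)) :=
      ext_dn hCT hext
    have hθe : θ ∈ dn hCT e := by
      by_contra hne
      have h3 : om χ.1 (eB F') = 1 := om_eB_mem hχ
      rw [hst, om_extGA hθ (eB_gInv (gStab_of_ext hst)), om_eB_not_mem hne] at h3
      exact zero_ne_one h3
    have hθe' : trI (Subgroup.subgroupOfEquivOfLe hCT).symm θ ∈ e := by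
      have := (trI_symm_mem_trB (e := Subgroup.subgroupOfEquivOfLe hCT) (b := dn hCT e)).2 hθe
      rwa [dn, trB_trB_symm] at this
    refine (central_defect_iff hM (zQ_pGroup he'.1) zQ_central he'.2).2 ⟨_, hθe', ?_, ?_⟩
    · intro z hz
      rw [trI_apply, trI_apply]
      rw [map_one]
      exact hθQ _ (Subgroup.mem_subgroupOf.1 hz).1
    · have h3 : charDegree (trI (Subgroup.subgroupOfEquivOfLe hCT).symm θ).1 = charDegree θ.1 := by
        change ⌊(θ.1 ((Subgroup.subgroupOfEquivOfLe hCT).symm 1)).re⌋₊ = ⌊(θ.1 1).re⌋₊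
        rw [map_one]
      have h4 : Nat.card ((Q ⊓ Subgroup.centralizer (Q : Set G)).subgroupOf
          (Subgroup.centralizer (Q : Set G))) =
          Nat.card (Q.subgroupOf T ⊓ (Subgroup.centralizer (Q : Set G)).subgroupOf T :
            Subgroup T) := by
        rw [card_subgroupOf_of_le inf_le_right]
        have h5 : (Q.subgroupOf T ⊓ (Subgroup.centralizer (Q : Set G)).subgroupOf T :
            Subgroup T) = (Q ⊓ Subgroup.centralizer (Q : Set G)).subgroupOf T := rfl
        rw [h5, card_subgroupOf_of_le (inf_le_left.trans hQT)]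
      rw [h3, h4, hθd, card_subgroupOf_of_le hCT]
  · intro R hRT hRp hRn
    haveI h3 : (R.subgroupOf T).Normal := normal_subgroupOf (nrm_of_le_normalizer hRn)
    have h4 := normal_le_of_weight (R := R.subgroupOf T) hM χ hker hdeg'
      (IsPGroup.comap_of_injective hRp _ (Subgroup.subtype_injective _))
    intro x hx
    exact Subgroup.mem_subgroupOf.1 (h4 (show (⟨x, hRT hx⟩ : T) ∈ R.subgroupOf T from hx))

end Cfsg.Agent.S4694
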