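import Cfsg.Statements.S4708
import Cfsg.Agent.Lib.BlkH8F

set_option autoImplicit false
set_option linter.style.haveILetI false
set_option linter.unusedVariables false
open Cfsg

namespace Cfsg.Agent.S4708
open Cfsg.Agent.Lib.BlkH8F Cfsg.Agent.Lib.BlockRey Cfsg.Agent.Lib.BlockPC Cfsg.Agent.Lib.BlockRk Cfsg.Agent.Lib.BlockInt Cfsg.Agent.Lib.BlockIndIn Cfsg.Agent.Lib.BlockMaxB Cfsg.Agent.Lib.BlockMax Cfsg.Agent.Lib.BlockNilC Cfsg.Agent.Lib.BlockNilB Cfsg.Agent.Lib.BlockNil Cfsg.Agent.Lib.BlockFusB Cfsg.Agent.Lib.BlockFus Cfsg.Agent.Lib.BlockPairF Cfsg.Agent.Lib.BlockPairE Cfsg.Agent.Lib.BlockPairD Cfsg.Agent.Lib.BlockPairC Cfsg.Agent.Lib.BlockPairB Cfsg.Agent.Lib.BlockPair Cfsg.Agent.Lib.BlockBP Cfsg.Agent.Lib.BlockCovB Cfsg.Agent.Lib.BlockTr Cfsg.Agent.Lib.BlockMoreB Cfsg.Agent.Lib.BlockMore Cfsg.Agent.Lib.BlockQuotB Cfsg.Agent.Lib.BlockQuot Cfsg.Agent.Lib.BlockCov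 Cfsg.Agent.Lib.BlockM Cfsg.Agent.Lib.BlockHt Cfsg.Agent.Lib.BlockFirst Cfsg.Agent.Lib.BlockSecond Cfsg.Agent.Lib.BlockInd Cfsg.Agent.Lib.BlockNP Cfsg.Agent.Lib.BlockDeg Cfsg.Agent.Lib.BlockDef Cfsg.Agent.Lib.BlockRed Cfsg.Agent.Lib.BlockOrth Cfsg.Agent.Lib.BlockIdem Cfsg.Agent.Lib.BlockGA Cfsg.Agent.Lib.BlockLoc Cfsg.Agent.Lib.CharBasic Cfsg.Agent.Lib.BlockPP Cfsg.Agent.Lib.CharNormal Cfsg.Agent.Lib.CharPerm Cfsg.Agent.Lib.CharPermB Cfsg.Agent.Lib.BlockSum Cfsg.Agent.Lib.BlockKB Cfsg.Agent.Lib.BlockLar Cfsg.Agent.Lib.BlockBFM Cfsg.Agent.Lib.BlkH8E Cfsg.Agent.Lib.BlkH8D Cfsg.Agent.Lib.BlkH8C Cfsg.Agent.Lib.BlkH8B Cfsg.Agent.Lib.BlkH8A Cfsg.Agent.Lib.BlkH7R Cfsg.Agent.Lib.BlkH6L Cfsg.Agent.Lib.BlkH6K Cfsg.Agent.Lib.BlkH6J Cfsg.Agent.Lib.BlkH6I Cfsg.Agent.Lib.BlkH6H Cfsg.Agent.Lib.BlkH6G Cfsg.Agent.Lib.BlkH5T Cfsg.Agent.Lib.BlkH5Q Cfsg.Agent.Lib.BlkH5P Cfsg.Agent.Lib.BlkH5O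 Cfsg.Agent.Lib.BlkH5N Cfsg.Agent.Lib.BlkH5A Cfsg.Agent.Lib.BlkH5G Cfsg.Agent.Lib.BlkH5B Cfsg.Agent.Lib.BlkH5C Cfsg.Agent.Lib.BlkH5D Cfsg.Agent.Lib.BlkH5E Cfsg.Agent.Lib.BlkH5F Cfsg.Agent.Lib.BlkH5L Cfsg.Agent.Lib.BlkH5M Cfsg.Agent.Lib.BlkH5R Cfsg.Agent.Lib.BlkH5S Cfsg.Agent.Lib.BlkH5U Cfsg.Agent.Lib.BlkH5V Cfsg.Agent.Lib.BlkH5W Cfsg.Agent.Lib.BlkH5X Cfsg.Agent.Lib.BlkH6F Cfsg.Agent.Lib.BlkH6N Cfsg.Agent.Lib.BlkH6M Cfsg.Agent.Lib.BlkH6D Cfsg.Agent.Lib.BlkH6C Cfsg.Agent.Lib.BlkH6B Cfsg.Agent.Lib.BlkH6A Cfsg.Agent.Lib.BlkH5Y Cfsg.Agent.Lib.BlkH7C Cfsg.Agent.Lib.BlkH7A Cfsg.Agent.Lib.BlkH7B Cfsg.Agent.Lib.BlkH7E Cfsg.Agent.Lib.BlkH7D Cfsg.Agent.Lib.BlkH7F Cfsg.Agent.Lib.BlkH7G Cfsg.Agent.Lib.BlkH6P Cfsg.Agent.Lib.BlkH6O Cfsg.Agent.Lib.BlkH7H Cfsg.Agent.Lib.BlkH7I Cfsg.Agent.Lib.BlkH7J Cfsg.Agent.Lib.BlkH7K Cfsg.Agent.Lib.BlkH7L Cfsg.Agent.Lib.BlkH7M Cfsg.Agent.Lib.BlkH7N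 Cfsg.Agent.Lib.BlkH7O Cfsg.Agent.Lib.BlkH7P Cfsg.Agent.Lib.BlkH7Q Cfsg.Agent.Lib.BlockKul
open scoped ComplexConjugate



/-- Let p be a prime, M a maximal ideal of the algebraic integers containing p, G a finite group and H a normal subgroup. Write λ(X) for the sum of the squares of the degrees of the irreducible characters in the principal p-block of a group X. Then λ(H) ≤ λ(G) ≤ [G : H]·λ(H). -/
theorem result {G : Type*} [Group G] [Finite G] (p : ℕ) [Fact p.Prime] (M : Ideal Cfsg.AlgInt) (hM : Cfsg.IsPModular p M) (H : Subgroup G) [H.Normal] : (∑ᶠ θ ∈ Cfsg.principalBlock M H, Cfsg.charDegree (θ : H → ℂ) ^ 2) ≤ (∑ᶠ χ ∈ Cfsg.principalBlock M G, Cfsg.charDegree (χ : G → ℂ) ^ 2) ∧ (∑ᶠ χ ∈ Cfsg.principalBlock M G, Cfsg.charDegree (χ : G → ℂ) ^ 2) ≤ H.index * ∑ᶠ θ ∈ Cfsg.principalBlock M H, Cfsg.charDegree (θ : H → ℂ) ^ 2 := by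
  classical
  cases nonempty_fintype G
  haveI : Fintype H := Fintype.ofFinite _
  have e1 : (∑ᶠ θ ∈ principalBlock M H, charDegree (θ : H → ℂ) ^ 2) =
      ∑ θ ∈ Finset.univ.filter (· ∈ principalBlock M H), charDegree θ.1 ^ 2 := by
    rw [← finsum_mem_coe_finset]
    simp
  have e2 : (∑ᶠ χ ∈ principalBlock M G, charDegree (χ : G → ℂ) ^ 2) =
      ∑ χ ∈ Finset.univ.filter (· ∈ principalBlock M G), charDegree χ.1 ^ 2 := by
    rw [← finsum_mem_coe_finset]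
    simp
  rw [e1, e2]
  constructor
  · have hX : ∀ θ : IrrCharacter H, ∃ χ : IrrCharacter G, θ ∈ principalBlock M H →
        (χ ∈ principalBlock M G ∧ Over χ θ) := by
      intro θ
      by_cases hθ : θ ∈ principalBlock M H
      · obtain ⟨χ, h1, h2⟩ := Cfsg.Agent.Lib.BlkH8F.exists_above (G := G) hM hθ
        exact ⟨χ, fun _ => ⟨h1, h2⟩⟩
      · exact ⟨triv G, fun h => absurd h hθ⟩
    choose X hX using hX
    rw [← Finset.sum_fiberwise_of_maps_to (s := Finset.univ.filter (· ∈ principalBlock M H))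
      (t := Finset.univ.filter (· ∈ principalBlock M G)) (g := X)]
    · refine Finset.sum_le_sum fun χ hχ => ?_
      have h1 : ∀ θ ∈ (Finset.univ.filter (· ∈ principalBlock M H)).filter (fun θ => X θ = χ),
          charDegree θ.1 ^ 2 ≤ (Cfsg.Agent.Lib.BlkH8F.mul χ θ * charDegree θ.1) * charDegree χ.1 := by
        intro θ hθ
        rw [Finset.mem_filter, Finset.mem_filter] at hθ
        have h2 : Over χ θ := hθ.2 ▸ (hX θ hθ.1.2).2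
        have h3 := Nat.pos_of_ne_zero (Cfsg.Agent.Lib.BlkH8F.over_iff_mul.1 h2)
        have h4 : charDegree θ.1 ≤ Cfsg.Agent.Lib.BlkH8F.mul χ θ * charDegree θ.1 :=
          Nat.le_mul_of_pos_left _ h3
        have h5 : charDegree θ.1 ≤ charDegree χ.1 := by
          refine h4.trans ?_
          rw [Cfsg.Agent.Lib.BlkH8F.deg_eq_sum (H := H) χ]
          exact Finset.single_le_sum (f := fun θ : IrrCharacter H => Cfsg.Agent.Lib.BlkH8F.mul χ θ * charDegree θ.1)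
            (fun _ _ => Nat.zero_le _) (Finset.mem_univ θ)
        rw [pow_two]
        exact Nat.mul_le_mul h4 h5
      refine (Finset.sum_le_sum h1).trans ?_
      rw [← Finset.sum_mul, pow_two]
      refine Nat.mul_le_mul_right _ ?_
      conv_rhs => rw [Cfsg.Agent.Lib.BlkH8F.deg_eq_sum (H := H) χ]
      exact Finset.sum_le_sum_of_subset (Finset.subset_univ _)
    · intro θ hθ
      rw [Finset.mem_filter] at hθ ⊢
      exact ⟨Finset.mem_univ _, (hX θ hθ.2).1⟩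
  · have h1 : ∀ χ ∈ Finset.univ.filter (· ∈ principalBlock M G), charDegree χ.1 ^ 2 =
        ∑ θ ∈ Finset.univ.filter (· ∈ principalBlock M H),
          charDegree θ.1 * (Cfsg.Agent.Lib.BlkH8F.mul χ θ * charDegree χ.1) := by
      intro χ hχ
      have hχ' := (Finset.mem_filter.1 hχ).2
      have h2 : charDegree χ.1 = ∑ θ ∈ Finset.univ.filter (· ∈ principalBlock M H),
          Cfsg.Agent.Lib.BlkH8F.mul χ θ * charDegree θ.1 := by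
        conv_lhs => rw [Cfsg.Agent.Lib.BlkH8F.deg_eq_sum (H := H) χ]
        symm
        refine Finset.sum_subset (Finset.subset_univ _) fun θ _ hθ => ?_
        have : Cfsg.Agent.Lib.BlkH8F.mul χ θ = 0 := by
          by_contra hne
          exact hθ (Finset.mem_filter.2 ⟨Finset.mem_univ _,
            Cfsg.Agent.Lib.BlkH8F.mem_below hM hχ' (Cfsg.Agent.Lib.BlkH8F.over_iff_mul.2 hne)⟩)
        rw [this, zero_mul]
      have h3 : charDegree χ.1 ^ 2 = (∑ θ ∈ Finset.univ.filter (· ∈ principalBlock M H),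
          Cfsg.Agent.Lib.BlkH8F.mul χ θ * charDegree θ.1) * charDegree χ.1 := by
        rw [← h2, pow_two]
      rw [h3, Finset.sum_mul]
      refine Finset.sum_congr rfl fun θ _ => ?_
      ring
    rw [Finset.sum_congr rfl h1, Finset.sum_comm, Finset.mul_sum]
    refine Finset.sum_le_sum fun θ _ => ?_
    rw [← Finset.mul_sum, pow_two, ← mul_assoc, mul_comm]
    refine Nat.mul_le_mul_right _ ?_
    rw [Cfsg.Agent.Lib.BlkH8F.index_mul_deg]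
    exact Finset.sum_le_sum_of_subset (Finset.subset_univ _)

end Cfsg.Agent.S4708
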