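import Cfsg.Statements.S4709
import Cfsg.Agent.Lib.BlkH6O

set_option autoImplicit false
set_option linter.style.haveILetI false
set_option linter.unusedVariables false
open Cfsg

namespace Cfsg.Agent.S4709
open Cfsg.Agent.Lib.BlkH6O Cfsg.Agent.Lib.BlockRey Cfsg.Agent.Lib.BlockPC Cfsg.Agent.Lib.BlockRk Cfsg.Agent.Lib.BlockInt Cfsg.Agent.Lib.BlockIndIn Cfsg.Agent.Lib.BlockMaxB Cfsg.Agent.Lib.BlockMax Cfsg.Agent.Lib.BlockNilC Cfsg.Agent.Lib.BlockNilB Cfsg.Agent.Lib.BlockNil Cfsg.Agent.Lib.BlockFusB Cfsg.Agent.Lib.BlockFus Cfsg.Agent.Lib.BlockPairF Cfsg.Agent.Lib.BlockPairE Cfsg.Agent.Lib.BlockPairD Cfsg.Agent.Lib.BlockPairC Cfsg.Agent.Lib.BlockPairB Cfsg.Agent.Lib.BlockPair Cfsg.Agent.Lib.BlockBP Cfsg.Agent.Lib.BlockCovB Cfsg.Agent.Lib.BlockTr Cfsg.Agent.Lib.BlockMoreB Cfsg.Agent.Lib.BlockMore Cfsg.Agent.Lib.BlockQuotB Cfsg.Agent.Lib.BlockQuot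 Cfsg.Agent.Lib.BlockCov Cfsg.Agent.Lib.BlockM Cfsg.Agent.Lib.BlockHt Cfsg.Agent.Lib.BlockFirst Cfsg.Agent.Lib.BlockSecond Cfsg.Agent.Lib.BlockInd Cfsg.Agent.Lib.BlockNP Cfsg.Agent.Lib.BlockDeg Cfsg.Agent.Lib.BlockDef Cfsg.Agent.Lib.BlockRed Cfsg.Agent.Lib.BlockOrth Cfsg.Agent.Lib.BlockIdem Cfsg.Agent.Lib.BlockGA Cfsg.Agent.Lib.BlockLoc Cfsg.Agent.Lib.CharBasic Cfsg.Agent.Lib.BlockPP Cfsg.Agent.Lib.CharNormal Cfsg.Agent.Lib.CharPerm Cfsg.Agent.Lib.CharPermB Cfsg.Agent.Lib.BlockSum Cfsg.Agent.Lib.BlockKB Cfsg.Agent.Lib.BlockLar Cfsg.Agent.Lib.BlockBFM Cfsg.Agent.Lib.BlkH6L Cfsg.Agent.Lib.BlkH6K Cfsg.Agent.Lib.BlkH6J Cfsg.Agent.Lib.BlkH6I Cfsg.Agent.Lib.BlkH6H Cfsg.Agent.Lib.BlkH6G Cfsg.Agent.Lib.BlkH5T Cfsg.Agent.Lib.BlkH5Q Cfsg.Agent.Lib.BlkH5P Cfsg.Agent.Lib.BlkH5O Cfsg.Agent.Lib.BlkH5N Cfsg.Agent.Lib.BlkH5A Cfsg.Agent.Lib.BlkH5G Cfsg.Agent.Lib.BlkH5B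 Cfsg.Agent.Lib.BlkH5C Cfsg.Agent.Lib.BlkH5D Cfsg.Agent.Lib.BlkH5E Cfsg.Agent.Lib.BlkH5F Cfsg.Agent.Lib.BlkH5L Cfsg.Agent.Lib.BlkH5M Cfsg.Agent.Lib.BlkH5R Cfsg.Agent.Lib.BlkH5S Cfsg.Agent.Lib.BlkH5U Cfsg.Agent.Lib.BlkH5V Cfsg.Agent.Lib.BlkH5W Cfsg.Agent.Lib.BlkH5X Cfsg.Agent.Lib.BlkH6F Cfsg.Agent.Lib.BlkH6M Cfsg.Agent.Lib.BlkH6N Cfsg.Agent.Lib.BlkH6D Cfsg.Agent.Lib.BlkH6C Cfsg.Agent.Lib.BlkH6B Cfsg.Agent.Lib.BlkH6A Cfsg.Agent.Lib.BlkH5Y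
open scoped ComplexConjugate



/-- Let p be a prime, M a maximal ideal of the algebraic integers containing p, and G a finite group with a nontrivial abelian Sylow p-subgroup P; put N = N_G(P), C = C_G(P). Suppose N/C is cyclic of order m with 1 < m < #P − 1 (C has index m in N and N is generated by C and one element), and C_G(y) ∩ N = C for every non-identity y ∈ P. Put r = (#P − 1)/m. Then there is s ≤ m such that the principal p-block is the disjoint union of a set X of s characters containing the principal character and a set Y of r characters, with integers a_χ ≠ 0 (χ ∈ X), d and a sign δ = ±1, such that: every χ ∈ X takes the value a_χ at every element whose p-part is a non-identity element of P; there is a map ζ from the non-principal linear characters ψ of P onto Y, constant on N-conjugacy classes, with ζ_ψ(z) = d + δ·Σ ψ'(y) for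 every z whose p-part y is a non-identity element of P, the sum running over the N-conjugates ψ' of ψ; (d − δ)^2 + (r − 1) d^2 + Σ_{χ ∈ X} a_χ^2 = m + 1; all members of Y agree on p-regular elements; and (r d − δ) η(g) + Σ_{χ ∈ X} a_χ χ(g) = 0 for every η ∈ Y and every p-regular g. -/
theorem result {G : Type*} [Group G] [Finite G] (p : ℕ) [Fact p.Prime] (M : Ideal Cfsg.AlgInt) (hM : Cfsg.IsPModular p M) (P : Sylow p G) (hab : IsMulCommutative P) (hP1 : Nat.card P ≠ 1) (m : ℕ) (hm1 : 1 < m) (hm2 : m + 1 < Nat.card P) (hCN : (Subgroup.centralizer ((P : Subgroup G) : Set G)).relIndex (Subgroup.normalizer ((P : Subgroup G) : Set G)) = m) (hcyc : ∃ g : G, g ∈ Subgroup.normalizer ((P : Subgroup G) : Set G) ∧ Subgroup.centralizer ((P : Subgroup G) : Set G) ⊔ Subgroup.zpowers g = Subgroup.normalizer ((P : Subgroup G) : Set G)) (hfrob : ∀ y : G, y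 ∈ (P : Subgroup G) → y ≠ 1 → Subgroup.centralizer ({y} : Set G) ⊓ Subgroup.normalizer ((P : Subgroup G) : Set G) = Subgroup.centralizer ((P : Subgroup G) : Set G)) : ∃ (s : ℕ) (X Y : Set (Cfsg.IrrCharacter G)), s ≤ m ∧ Cfsg.principalBlock M G = X ∪ Y ∧ Disjoint X Y ∧ Nat.card X = s ∧ Nat.card Y = (Nat.card P - 1) / m ∧ (∃ χ₁ ∈ X, (χ₁ : G → ℂ) = fun _ => 1) ∧ ∃ (a : Cfsg.IrrCharacter G → ℤ) (d δ : ℤ) (ζ : (↥(P : Subgroup G) →* ℂˣ) → Cfsg.IrrCharacter G), (δ = 1 ∨ δ = -1) ∧ (∀ χ ∈ X, a χ ≠ 0 ∧ ∀ z y : G, Cfsg.IsPPart p z y → y ∈ (P : Subgroup G) → y ≠ 1 → (χ : G → ℂ) z = (a χ : ℂ)) ∧ (∀ ψ : ↥(P : Subgroup G) →* ℂˣ, ψ ≠ 1 → ζ ψ ∈ Y) ∧ (∀ η ∈ Y, ∃ ψ : ↥(P : Subgroup G) →* ℂˣ, ψ ≠ 1 ∧ ζ ψ = η) ∧ (∀ ψ ψ' : ↥(P : Subgroup G) →* ℂˣ, ψ ≠ 1 → (∃ n : G, n ∈ Subgroup.normalizer ((P : Subgroup G) : Set G) ∧ ∀ w w' : ↥(P : Subgroup G), (w' : G) = n * w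 * n⁻¹ → ψ' w' = ψ w) → ζ ψ' = ζ ψ) ∧ (∀ ψ : ↥(P : Subgroup G) →* ℂˣ, ψ ≠ 1 → ∀ (z : G) (y : ↥(P : Subgroup G)), Cfsg.IsPPart p z (y : G) → (y : G) ≠ 1 → (ζ ψ : G → ℂ) z = (d : ℂ) + (δ : ℂ) * ∑ᶠ ψ' ∈ {ψ' : ↥(P : Subgroup G) →* ℂˣ | ∃ n : G, n ∈ Subgroup.normalizer ((P : Subgroup G) : Set G) ∧ ∀ w w' : ↥(P : Subgroup G), (w' : G) = n * w * n⁻¹ → ψ' w' = ψ w}, ((ψ' y : ℂˣ) : ℂ)) ∧ ((d - δ) ^ 2 + ((Nat.card P - 1) / m - 1 : ℤ) * d ^ 2 + ∑ᶠ χ ∈ X, a χ ^ 2 = (m : ℤ) + 1) ∧ (∀ η ∈ Y, ∀ η' ∈ Y, ∀ g : G, ¬ p ∣ orderOf g → (η : G → ℂ) g = (η' : G → ℂ) g) ∧ (∀ η ∈ Y, ∀ g : G, ¬ p ∣ orderOf g → ((((Nat.card P - 1) / m : ℕ) : ℂ) * d - δ) * (η : G → ℂ) g + ∑ᶠ χ ∈ X, (a χ : ℂ) * (χ : G → ℂ) g = 0) := by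
  classical
  have hab' : ∀ x ∈ (P : Subgroup G), ∀ y ∈ (P : Subgroup G), x * y = y * x := by
    intro x hx y hy
    have h := hab.is_comm.comm ⟨x, hx⟩ ⟨y, hy⟩
    exact congrArg Subtype.val h
  obtain ⟨a, d, δ, ζ, X, Y, r, hr, hr2, hδ, hXY, hdis, hcY, htX, hat, hX, hζ, hη, hinj, hval, hnorm, hrel⟩ :=
    Cfsg.Agent.Lib.BlkH6O.pr_full hM P hab' m (by omega) hm2 hCN (fun y hy hy1 => (hfrob y hy hy1).le)
  have hδ2 : δ * δ = 1 := by rcases hδ with h | h <;> rw [h] <;> rfl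
  have hrdiv : (Nat.card P - 1) / m = r := Nat.div_eq_of_eq_mul_left (by omega) hr.symm
  have hsq : (Nat.card X : ℤ) ≤ ∑ᶠ χ ∈ X, a χ ^ 2 := by
    rw [finsum_blk X]
    have h1 : (Nat.card X : ℤ) = ∑ χ ∈ Finset.univ.filter (· ∈ X), (1 : ℤ) := by
      rw [Finset.sum_const, nsmul_eq_mul, mul_one, Nat.card_eq_fintype_card, Fintype.card_subtype]
    rw [h1]
    refine Finset.sum_le_sum (fun χ hχ => ?_)
    have h2 := (hX χ (Finset.mem_filter.1 hχ).2).1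
    have h3 : 0 < a χ ^ 2 := by positivity
    omega
  have hsm : Nat.card X ≤ m := by
    have h1 : 1 ≤ (d - δ) ^ 2 + ((r : ℤ) - 1) * d ^ 2 := by
      have h2 : (1 : ℤ) ≤ (r : ℤ) - 1 := by
        have : (2 : ℤ) ≤ (r : ℤ) := by exact_mod_cast hr2
        omega
      by_cases hd : d = 0
      · subst hd
        have : (0 - δ) ^ 2 = 1 := by linear_combination hδ2
        rw [this]
        nlinarith
      · have h3 : 1 ≤ d ^ 2 := by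
          have : 0 < d ^ 2 := by positivity
          omega
        have h4 : 1 ≤ ((r : ℤ) - 1) * d ^ 2 := by nlinarith
        have h5 : 0 ≤ (d - δ) ^ 2 := sq_nonneg _
        omega
    have h2 : (Nat.card X : ℤ) ≤ (m : ℤ) := by
      nlinarith
    exact_mod_cast h2
  have hzz : ((Nat.card P - 1) / m : ℤ) = (r : ℤ) := by
    have h1 : ((Nat.card P : ℤ) - 1) = (r : ℤ) * (m : ℤ) := by
      have h2 : 1 ≤ Nat.card P := Nat.card_pos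
      have h3 : ((Nat.card P - 1 : ℕ) : ℤ) = ((r * m : ℕ) : ℤ) := by rw [← hr]
      rw [Nat.cast_sub h2] at h3
      push_cast at h3
      exact h3
    rw [h1]
    exact Int.mul_ediv_cancel _ (by omega)
  have hYne : (r : ℂ) = (Nat.card Y : ℂ) := by rw [hcY]
  have hrelg : ∀ g : G, ¬ p ∣ orderOf g → ∀ η ∈ Y, (δ : ℂ) * η.1 g =
      ∑ᶠ χ ∈ X, (a χ : ℂ) * χ.1 g + (d : ℂ) * ∑ᶠ χ ∈ Y, χ.1 g := by
    intro g hg
    refine hrel (fun χ => χ.1 g) (fun u hu hu1 => ?_)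
    rw [finsum_blk]
    exact Cfsg.Agent.Lib.BlkH6O.pr_orth hM P hu hu1 hg
  have hδC : (δ : ℂ) * (δ : ℂ) = 1 := by exact_mod_cast congrArg (Int.cast : ℤ → ℂ) hδ2
  have hconst : ∀ η ∈ Y, ∀ η' ∈ Y, ∀ g : G, ¬ p ∣ orderOf g → η.1 g = η'.1 g := by
    intro η hη η' hη' g hg
    have h1 := hrelg g hg η hη
    have h2 := hrelg g hg η' hη'
    rw [← h2] at h1
    have h3 : (δ : ℂ) ≠ 0 := left_ne_zero_of_mul_eq_one hδC
    exact mul_left_cancel₀ h3 h1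
  refine ⟨Nat.card X, X, Y, hsm, hXY, hdis, rfl, hcY.trans hrdiv.symm, ⟨triv G, htX, rfl⟩, a, d, δ, ζ,
    hδ, hX, hζ, hη, ?_, hval, ?_, hconst, ?_⟩
  · intro ψ ψ' hψ hn
    have hn' : Cfsg.Agent.Lib.BlkH6O.NRel (P : Subgroup G) ψ ψ' := hn
    have hψ' : ψ' ≠ 1 := by
      rintro rfl
      apply hψ
      obtain ⟨n, hn1, hn2⟩ := hn
      refine MonoidHom.ext (fun w => ?_)
      have h1 := hn2 w ((P : Subgroup G).normalizerMonoidHom ⟨n, hn1⟩ w) rfl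
      rw [← h1]
      rfl
    exact ((hinj ψ ψ' hψ hψ').2 hn').symm
  · rw [hzz]
    linear_combination hnorm + hδ2
  · intro η hη' g hg
    have h1 := hrelg g hg η hη'
    have h2 : ∑ᶠ χ ∈ Y, χ.1 g = (r : ℂ) * η.1 g := by
      rw [finsum_blk Y]
      rw [Finset.sum_congr rfl (fun χ hχ => hconst χ (Finset.mem_filter.1 hχ).2 η hη' g hg),
        Finset.sum_const, nsmul_eq_mul, hYne, Nat.card_eq_fintype_card, Fintype.card_subtype]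
    rw [h2] at h1
    rw [hrdiv]
    linear_combination -h1

end Cfsg.Agent.S4709
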