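import Cfsg.Statements.S4713
import Cfsg.Agent.Lib.CharIM

set_option autoImplicit false
open Cfsg

namespace Cfsg.Agent.S4713

open Cfsg.Agent.Lib.CharIM Cfsg.Agent.Lib.BlockDeg Cfsg.Agent.Lib.CharClifford Cfsg.Agent.Lib.CharBasic

/-- Let p be a prime and G a finite p-solvable group. Then G has a normal abelian Sylow p-subgroup if and only if the degree of every irreducible character of G is prime to p. -/
theorem result {G : Type*} [Group G] [Finite G] (p : ℕ) [Fact p.Prime] (hsolv : Cfsg.IsPSolvable p G) (P : Sylow p G) : ((P : Subgroup G).Normal ∧ IsMulCommutative P) ↔ ∀ χ : Cfsg.IrrCharacter G, ¬ p ∣ Cfsg.charDegree (χ : G → ℂ) := by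
  constructor
  · rintro ⟨hPn, hPab⟩ χ h
    haveI := hPn
    have hab : ∀ a ∈ (P : Subgroup G), ∀ b ∈ (P : Subgroup G), a * b = b * a := by
      intro a ha b hb
      exact congrArg Subtype.val (hPab.is_comm.comm (⟨a, ha⟩ : (P : Subgroup G)) ⟨b, hb⟩)
    have h1 := ito χ.2 (P : Subgroup G) hab (charDegree_cast (isChar_of_irr χ.2)).symm
    exact P.not_dvd_index (h.trans h1)
  · intro h
    have h1 := main (p := p) (Nat.card G) G le_rfl hsolv (fun φ hφ => h ⟨φ, hφ⟩) P
    exact ⟨h1.1, ⟨⟨fun a b => Subtype.ext (h1.2 a a.2 b b.2)⟩⟩⟩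
end Cfsg.Agent.S4713
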