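import Cfsg.Statements.S4714
import Cfsg.Agent.Lib.BlockPC

set_option autoImplicit false
set_option linter.style.haveILetI false
set_option linter.unusedVariables false
open Cfsg

namespace Cfsg.Agent.S4714
open Cfsg.Agent.Lib.BlockPC Cfsg.Agent.Lib.BlockRk Cfsg.Agent.Lib.BlockInt Cfsg.Agent.Lib.BlockIndIn Cfsg.Agent.Lib.BlockMaxB Cfsg.Agent.Lib.BlockMax Cfsg.Agent.Lib.BlockNilC Cfsg.Agent.Lib.BlockNilB Cfsg.Agent.Lib.BlockNil Cfsg.Agent.Lib.BlockFusB Cfsg.Agent.Lib.BlockFus Cfsg.Agent.Lib.BlockPairF Cfsg.Agent.Lib.BlockPairE Cfsg.Agent.Lib.BlockPairD Cfsg.Agent.Lib.BlockPairC Cfsg.Agent.Lib.BlockPairB Cfsg.Agent.Lib.BlockPair Cfsg.Agent.Lib.BlockBP Cfsg.Agent.Lib.BlockCovB Cfsg.Agent.Lib.BlockTr Cfsg.Agent.Lib.BlockMoreB Cfsg.Agent.Lib.BlockMore Cfsg.Agent.Lib.BlockQuotB Cfsg.Agent.Lib.BlockQuot Cfsg.Agent.Lib.BlockCov Cfsg.Agent.Lib.BlockM Cfsg.Agent.Lib.BlockHt Cfsg.Agent.Lib.BlockFirst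 Cfsg.Agent.Lib.BlockSecond Cfsg.Agent.Lib.BlockInd Cfsg.Agent.Lib.BlockNP Cfsg.Agent.Lib.BlockDeg Cfsg.Agent.Lib.BlockDef Cfsg.Agent.Lib.BlockRed Cfsg.Agent.Lib.BlockOrth Cfsg.Agent.Lib.BlockIdem Cfsg.Agent.Lib.BlockGA Cfsg.Agent.Lib.BlockLoc Cfsg.Agent.Lib.CharBasic Cfsg.Agent.Lib.BlockPP Cfsg.Agent.Lib.CharNormal Cfsg.Agent.Lib.CharPerm Cfsg.Agent.Lib.CharPermB Cfsg.Agent.Lib.BlockSum
open scoped ComplexConjugate



/-- Let p be a prime, M a maximal ideal of the algebraic integers containing p, D a p-subgroup of the finite group G with G = D·C_G(D), and B a p-block with defect group D. Let χ be a member of B having D in its kernel (there is exactly one, the canonical character of B). Then the irreducible characters in B are exactly the functions θ on G for which there is an irreducible character ζ of D such that θ(yx) = ζ(y)χ(x) whenever y ∈ D, x has order prime to p and x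 commutes with y, and θ(z) = 0 whenever the p-part of z does not lie in D. -/
theorem result {G : Type*} [Group G] [Finite G] (p : ℕ) [Fact p.Prime] (M : Ideal Cfsg.AlgInt) (hM : Cfsg.IsPModular p M) (D : Subgroup G) (hD : IsPGroup p D) (hG : D ⊔ Subgroup.centralizer (D : Set G) = ⊤) (B : Set (Cfsg.IrrCharacter G)) (hB : Cfsg.IsPBlock M B) (hBD : Cfsg.IsDefectGroup p M B D) (χ : Cfsg.IrrCharacter G) (hχ : χ ∈ B) (hχD : ∀ y ∈ D, (χ : G → ℂ) y = (χ : G → ℂ) 1) : (∀ θ : Cfsg.IrrCharacter G, θ ∈ B ↔ ∃ ζ : Cfsg.IrrCharacter D, (∀ (y : D) (x : G), ¬ p ∣ orderOf x → Commute (y : G) x → (θ : G → ℂ) ((y : G) * x) = (ζ : D → ℂ) y * (χ : G → ℂ) x) ∧ (∀ z : G, (∀ y : G, Cfsg.IsPPart p z y → y ∉ D) → (θ : G → ℂ) z = 0)) ∧ ∀ ζ : Cfsg.IrrCharacter D, ∃ θ ∈ B, (∀ (y : D) (x : G), ¬ p ∣ orderOf x → Commute (y : G) x → (θ : G → ℂ) ((y : G) * x) = (ζ : D → ℂ) y * (χ : G → ℂ) x) ∧ (∀ z : G, (∀ y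 : G, Cfsg.IsPPart p z y → y ∉ D) → (θ : G → ℂ) z = 0) := by
  classical
  obtain ⟨hv, hirr, hall⟩ := Cfsg.Agent.Lib.BlockPC.pc_main hM hD hG hB hBD hχ hχD
  haveI := factP hM
  have hp := hM.1
  have key : ∀ (θ : IrrCharacter G) (ζ : IrrCharacter D), ((∀ (y : D) (x : G), ¬ p ∣ orderOf x →
      Commute (y : G) x → (θ : G → ℂ) ((y : G) * x) = (ζ : D → ℂ) y * (χ : G → ℂ) x) ∧
      (∀ z : G, (∀ y : G, IsPPart p z y → y ∉ D) → (θ : G → ℂ) z = 0)) ↔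
      θ.1 = Cfsg.Agent.Lib.BlockPC.eta p D ζ.1 χ.1 := by
    intro θ ζ
    constructor
    · rintro ⟨h1, h2⟩
      funext z
      by_cases h : pp p z ∈ D
      · rw [Cfsg.Agent.Lib.BlockPC.eta_pos h]
        have h3 := h1 ⟨pp p z, h⟩ (pq p z) (not_dvd_orderOf_pq hp z) (pp_commute_pq p z)
        rw [← h3]
        change _ = θ.1 (pp p z * pq p z)
        rw [pp_mul_pq]
      · rw [Cfsg.Agent.Lib.BlockPC.eta_neg h]
        apply h2
        intro y hy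
        rw [eq_pp_of_isPPart hp hy]
        exact h
    · intro h
      refine ⟨fun y x hx hc => ?_, fun z hz => ?_⟩
      · change θ.1 _ = _
        rw [h]
        exact Cfsg.Agent.Lib.BlockPC.eta_mul hp hD hx hc
      · change θ.1 z = 0
        rw [h]
        exact Cfsg.Agent.Lib.BlockPC.eta_neg (hz _ (isPPart_pp hp z))
  refine ⟨fun θ => ?_, fun ζ => ?_⟩
  · rw [hall θ]
    constructor
    · rintro ⟨ζ, hζ⟩
      exact ⟨ζ, (key θ ζ).2 hζ⟩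
    · rintro ⟨ζ, hζ⟩
      exact ⟨ζ, (key θ ζ).1 hζ⟩
  · exact ⟨⟨_, hirr ζ⟩, (hall _).2 ⟨ζ, rfl⟩, (key ⟨_, hirr ζ⟩ ζ).2 rfl⟩

end Cfsg.Agent.S4714
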