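import Cfsg.Statements.S4717
import Cfsg.Agent.Lib.BlkH6C

set_option autoImplicit false
set_option linter.style.haveILetI false
set_option linter.unusedVariables false
open Cfsg

namespace Cfsg.Agent.S4717
open Cfsg.Agent.Lib.BlkH6C Cfsg.Agent.Lib.BlockRey Cfsg.Agent.Lib.BlockPC Cfsg.Agent.Lib.BlockRk Cfsg.Agent.Lib.BlockInt Cfsg.Agent.Lib.BlockIndIn Cfsg.Agent.Lib.BlockMaxB Cfsg.Agent.Lib.BlockMax Cfsg.Agent.Lib.BlockNilC Cfsg.Agent.Lib.BlockNilB Cfsg.Agent.Lib.BlockNil Cfsg.Agent.Lib.BlockFusB Cfsg.Agent.Lib.BlockFus Cfsg.Agent.Lib.BlockPairF Cfsg.Agent.Lib.BlockPairE Cfsg.Agent.Lib.BlockPairD Cfsg.Agent.Lib.BlockPairC Cfsg.Agent.Lib.BlockPairB Cfsg.Agent.Lib.BlockPair Cfsg.Agent.Lib.BlockBP Cfsg.Agent.Lib.BlockCovB Cfsg.Agent.Lib.BlockTr Cfsg.Agent.Lib.BlockMoreB Cfsg.Agent.Lib.BlockMore Cfsg.Agent.Lib.BlockQuotB Cfsg.Agent.Lib.BlockQuot Cfsg.Agent.Lib.BlockCov Cfsg.Agent.Lib.BlockM Cfsg.Agent.Lib.BlockHt Cfsg.Agent.Lib.BlockFirst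 Cfsg.Agent.Lib.BlockSecond Cfsg.Agent.Lib.BlockInd Cfsg.Agent.Lib.BlockNP Cfsg.Agent.Lib.BlockDeg Cfsg.Agent.Lib.BlockDef Cfsg.Agent.Lib.BlockRed Cfsg.Agent.Lib.BlockOrth Cfsg.Agent.Lib.BlockIdem Cfsg.Agent.Lib.BlockGA Cfsg.Agent.Lib.BlockLoc Cfsg.Agent.Lib.CharBasic Cfsg.Agent.Lib.BlockPP Cfsg.Agent.Lib.CharNormal Cfsg.Agent.Lib.CharPerm Cfsg.Agent.Lib.CharPermB Cfsg.Agent.Lib.BlockSum Cfsg.Agent.Lib.BlockKB Cfsg.Agent.Lib.BlockLar Cfsg.Agent.Lib.BlockBFM Cfsg.Agent.Lib.BlkH6B Cfsg.Agent.Lib.BlkH6A Cfsg.Agent.Lib.BlkH5T Cfsg.Agent.Lib.BlkH5Q Cfsg.Agent.Lib.BlkH5P Cfsg.Agent.Lib.BlkH5O Cfsg.Agent.Lib.BlkH5N Cfsg.Agent.Lib.BlkH5A Cfsg.Agent.Lib.BlkH5G Cfsg.Agent.Lib.BlkH5B Cfsg.Agent.Lib.BlkH5C Cfsg.Agent.Lib.BlkH5D Cfsg.Agent.Lib.BlkH5E Cfsg.Agent.Lib.BlkH5F Cfsg.Agent.Lib.BlkH5L Cfsg.Agent.Lib.BlkH5M Cfsg.Agent.Lib.BlkH5R Cfsg.Agent.Lib.BlkH5S Cfsg.Agent.Lib.BlkH5X Cfsg.Agent.Lib.BlkH5U Cfsg.Agent.Lib.BlkH5V Cfsg.Agent.Lib.BlkH5W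 Cfsg.Agent.Lib.BlkH5Y
open scoped ComplexConjugate



/-- Let p be a prime, M a maximal ideal of the algebraic integers containing p, and r a natural number; say that a finite group X has deficiency class r when X has no non-principal p-block of defect ≥ r. If G has deficiency class r then so does the centralizer of every p-element of G; conversely, if r > 0 and the centralizer of every element of order p has deficiency class r, then G has deficiency class r. -/
theorem result {G : Type*} [Group G] [Finite G] (p : ℕ) [Fact p.Prime] (M : Ideal Cfsg.AlgInt) (hM : Cfsg.IsPModular p M) (r : ℕ) : ((∀ B' : Set (Cfsg.IrrCharacter G), Cfsg.IsPBlock M B' → B' ≠ Cfsg.principalBlock M G → Cfsg.blockDefect p B' < r) → ∀ y : G, (∃ k : ℕ, orderOf y = p ^ k) → (∀ B' : Set (Cfsg.IrrCharacter ↥(Subgroup.centralizer ({y} : Set G))), Cfsg.IsPBlock M B' → B' ≠ Cfsg.principalBlock M ↥(Subgroup.centralizer ({y} : Set G)) → Cfsg.blockDefect p B' <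 r)) ∧ (0 < r → (∀ y : G, orderOf y = p → (∀ B' : Set (Cfsg.IrrCharacter ↥(Subgroup.centralizer ({y} : Set G))), Cfsg.IsPBlock M B' → B' ≠ Cfsg.principalBlock M ↥(Subgroup.centralizer ({y} : Set G)) → Cfsg.blockDefect p B' < r)) → (∀ B' : Set (Cfsg.IrrCharacter G), Cfsg.IsPBlock M B' → B' ≠ Cfsg.principalBlock M G → Cfsg.blockDefect p B' < r)) := by
  classical
  haveI := factP hM
  have hp := hM.1
  constructor
  · intro hG y hy B' hB' hne
    obtain ⟨B₂, hB₂⟩ := exists_induced_centralizer hM hy hB'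
    have hne2 : B₂ ≠ principalBlock M G := fun h => hne ((third_main hM hB₂).1 h)
    have h1 := hG B₂ hB₂.2.1 hne2
    obtain ⟨D, hD⟩ := exists_defectGroup hM hB'
    obtain ⟨E, hE⟩ := exists_defectGroup hM hB₂.2.1
    have h2 := defect_le_of_induced hM hB₂ hD hE
    obtain ⟨x, hx⟩ := h2
    have h3 : Nat.card D ≤ Nat.card E := by
      have h4 : Nat.card (D.map (Subgroup.centralizer ({y} : Set G)).subtype) = Nat.card D :=
        Subgroup.card_map_of_injective (Subgroup.subtype_injective _)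
      rw [← h4, ← Cfsg.Agent.Lib.BlockDef.card_map_conj (D.map (Subgroup.centralizer ({y} : Set G)).subtype) x]
      exact Nat.le_of_dvd Nat.card_pos (Subgroup.card_dvd_of_le (by rintro _ ⟨d, hd, rfl⟩; exact hx d hd))
    rw [card_defectGroup hM hB' hD, card_defectGroup hM hB₂.2.1 hE] at h3
    exact lt_of_le_of_lt ((Nat.pow_le_pow_iff_right hp.one_lt).1 h3) h1
  · intro hr hC B' hB' hne
    by_contra hcon
    push Not at hcon
    obtain ⟨D, hD⟩ := exists_defectGroup hM hB'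
    have hDc := card_defectGroup hM hB' hD
    have hDp : IsPGroup p D := IsPGroup.of_card hDc
    haveI : Nontrivial D := by
      rw [← Finite.one_lt_card_iff_nontrivial, hDc]
      exact Nat.one_lt_pow (by omega) hp.one_lt
    haveI : Nontrivial (Subgroup.center D) := hDp.center_nontrivial
    have hZp : IsPGroup p (Subgroup.center D) := hDp.to_subgroup _
    have hdvd : p ∣ Nat.card (Subgroup.center D) := by
      obtain ⟨n, hn⟩ := IsPGroup.iff_card.1 hZp
      have h1 : 1 < Nat.card (Subgroup.center D) := Finite.one_lt_card_iff_nontrivial.2 inferInstance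
      rw [hn] at h1 ⊢
      rcases Nat.eq_zero_or_pos n with h0 | h0
      · rw [h0, pow_zero] at h1; exact absurd h1 (lt_irrefl _)
      · exact dvd_pow_self p h0.ne'
    obtain ⟨z, hz⟩ := exists_prime_orderOf_dvd_card' (G := Subgroup.center D) p hdvd
    set y : G := ((z : D) : G) with hydef
    have hyo : orderOf y = p := by
      rw [hydef, Subgroup.orderOf_coe, Subgroup.orderOf_coe, hz]
    obtain ⟨e, he⟩ := exists_max_of_defect hM hB' hD
    have hyD : y ∈ D := (z : D).2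
    have hDC : D ≤ Subgroup.centralizer ({y} : Set G) := by
      intro d hd
      rw [Subgroup.mem_centralizer_singleton_iff]
      have h1 := Subgroup.mem_center_iff.1 z.2 ⟨d, hd⟩
      exact congrArg (fun t : D => (t : G)) h1
    have hCD : Subgroup.centralizer (D : Set G) ≤ Subgroup.centralizer ({y} : Set G) := by
      intro w hw
      rw [Subgroup.mem_centralizer_singleton_iff]
      exact (Subgroup.mem_centralizer_iff.1 hw y hyD).symm
    obtain ⟨a', ha'⟩ := rel_exists_down (⟨D, e⟩ : BrauerPairIdx G) hDC hCD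
    have hbp' : IsBP p M a' := (rel_isBP hM ha' hCD).2 ((BPO_iff hM).1 he.1).1
    obtain ⟨b, hb⟩ := exists_block_of_pair hM hbp'
    have hbb : IsPBlock M b := ((BPO_iff hM).1 hb).2.1
    obtain ⟨B₂, hB₂⟩ := exists_induced_centralizer hM ⟨1, by rw [hyo, pow_one]⟩ hbb
    have h3 : IsBPO p M B₂ (⟨D, e⟩ : BrauerPairIdx G) := bpo_up hM hB₂ ha' hCD hb
    have h4 : B₂ = B' := block_of_pair_unique hM h3 he.1
    subst h4
    have hne2 : b ≠ principalBlock M _ := fun h => hne ((third_main hM hB₂).2 h)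
    have h5 := hC y hyo b hbb hne2
    obtain ⟨E, hE⟩ := exists_defectGroup hM hbb
    obtain ⟨x, hx⟩ := subConj_of_BPO hM hb hE
    have h6 : Nat.card a'.1 ≤ Nat.card E := by
      rw [← Cfsg.Agent.Lib.BlockDef.card_map_conj a'.1 x]
      exact Nat.le_of_dvd Nat.card_pos (Subgroup.card_dvd_of_le (by rintro _ ⟨d, hd, rfl⟩; exact hx d hd))
    have h7 : Nat.card a'.1 = Nat.card D := by
      have h8 : D = a'.1.map (Subgroup.centralizer ({y} : Set G)).subtype := ha'.1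
      rw [h8]
      exact (Subgroup.card_map_of_injective (Subgroup.subtype_injective _)).symm
    rw [h7, hDc, card_defectGroup hM hbb hE] at h6
    have h9 := (Nat.pow_le_pow_iff_right hp.one_lt).1 h6
    omega

end Cfsg.Agent.S4717
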