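import Cfsg.Statements.S4718
import Cfsg.Agent.Lib.BlkH6F
import Cfsg.Agent.Lib.BlockBP

set_option autoImplicit false
set_option linter.style.haveILetI false
set_option linter.unusedVariables false
universe u
open Cfsg

namespace Cfsg.Agent.S4718
open Cfsg.Agent.Lib.BlkH6F Cfsg.Agent.Lib.BlockRey Cfsg.Agent.Lib.BlockPC Cfsg.Agent.Lib.BlockRk Cfsg.Agent.Lib.BlockInt Cfsg.Agent.Lib.BlockIndIn Cfsg.Agent.Lib.BlockMaxB Cfsg.Agent.Lib.BlockMax Cfsg.Agent.Lib.BlockNilC Cfsg.Agent.Lib.BlockNilB Cfsg.Agent.Lib.BlockNil Cfsg.Agent.Lib.BlockFusB Cfsg.Agent.Lib.BlockFus Cfsg.Agent.Lib.BlockPairF Cfsg.Agent.Lib.BlockPairE Cfsg.Agent.Lib.BlockPairD Cfsg.Agent.Lib.BlockPairC Cfsg.Agent.Lib.BlockPairB Cfsg.Agent.Lib.BlockPair Cfsg.Agent.Lib.BlockBP Cfsg.Agent.Lib.BlockCovB Cfsg.Agent.Lib.BlockTr Cfsg.Agent.Lib.BlockMoreB Cfsg.Agent.Lib.BlockMore Cfsg.Agent.Lib.BlockQuotB Cfsg.Agent.Lib.BlockQuot Cfsg.Agent.Lib.BlockCov Cfsg.Agent.Lib.BlockM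 Cfsg.Agent.Lib.BlockHt Cfsg.Agent.Lib.BlockFirst Cfsg.Agent.Lib.BlockSecond Cfsg.Agent.Lib.BlockInd Cfsg.Agent.Lib.BlockNP Cfsg.Agent.Lib.BlockDeg Cfsg.Agent.Lib.BlockDef Cfsg.Agent.Lib.BlockRed Cfsg.Agent.Lib.BlockOrth Cfsg.Agent.Lib.BlockIdem Cfsg.Agent.Lib.BlockGA Cfsg.Agent.Lib.BlockLoc Cfsg.Agent.Lib.CharBasic Cfsg.Agent.Lib.BlockPP Cfsg.Agent.Lib.CharNormal Cfsg.Agent.Lib.CharPerm Cfsg.Agent.Lib.CharPermB Cfsg.Agent.Lib.BlockSum Cfsg.Agent.Lib.BlockKB Cfsg.Agent.Lib.BlockLar Cfsg.Agent.Lib.BlockBFM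
open scoped ComplexConjugate



/-- Let p be a prime and a a natural number. There is a bound N such that every finite group whose Sylow p-subgroups have order p^a and whose only p-block (relative to a maximal ideal of the algebraic integers containing p) is the principal block has order at most N. -/
theorem result (p : ℕ) [Fact p.Prime] (a : ℕ) : ∃ N : ℕ, ∀ (G : Type u) [Group G] [Finite G] (M : Ideal Cfsg.AlgInt), Cfsg.IsPModular p M → (Nat.card G).factorization p = a → (∀ B : Set (Cfsg.IrrCharacter G), Cfsg.IsPBlock M B → B = Cfsg.principalBlock M G) → Nat.card G ≤ N := by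
  classical
  obtain ⟨N, hN⟩ := landau_le (p ^ (2 * a) + 4)
  refine ⟨N, ?_⟩
  intro G _ _ M hM ha hB
  refine hN G ?_
  have h1 := card_bound hM (principal_isPBlock M G)
  rw [blockDefect_principal hM, ha] at h1
  cases nonempty_fintype G
  have h2 : Nat.card (principalBlock M G) = Nat.card (ConjClasses G) := by
    rw [← Cfsg.Agent.Lib.CharBasic.card_irr]
    have h3 : principalBlock M G = Set.univ := by
      ext χ
      refine ⟨fun _ => Set.mem_univ _, fun _ => ?_⟩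
      rw [← hB (blockOf M (χ : G → ℂ)) (isPBlock_blockOf M χ)]
      exact self_mem_blockOf hM χ
    rw [h3]
    exact Nat.card_congr (Equiv.Set.univ _)
  omega

end Cfsg.Agent.S4718
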