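import Cfsg.Statements.S4720
import Cfsg.Agent.Lib.BlkH6D

set_option autoImplicit false
set_option linter.style.haveILetI false
set_option linter.unusedVariables false
open Cfsg

namespace Cfsg.Agent.S4720
open Cfsg.Agent.Lib.BlkH6D Cfsg.Agent.Lib.BlockRey Cfsg.Agent.Lib.BlockPC Cfsg.Agent.Lib.BlockRk Cfsg.Agent.Lib.BlockInt Cfsg.Agent.Lib.BlockIndIn Cfsg.Agent.Lib.BlockMaxB Cfsg.Agent.Lib.BlockMax Cfsg.Agent.Lib.BlockNilC Cfsg.Agent.Lib.BlockNilB Cfsg.Agent.Lib.BlockNil Cfsg.Agent.Lib.BlockFusB Cfsg.Agent.Lib.BlockFus Cfsg.Agent.Lib.BlockPairF Cfsg.Agent.Lib.BlockPairE Cfsg.Agent.Lib.BlockPairD Cfsg.Agent.Lib.BlockPairC Cfsg.Agent.Lib.BlockPairB Cfsg.Agent.Lib.BlockPair Cfsg.Agent.Lib.BlockBP Cfsg.Agent.Lib.BlockCovB Cfsg.Agent.Lib.BlockTr Cfsg.Agent.Lib.BlockMoreB Cfsg.Agent.Lib.BlockMore Cfsg.Agent.Lib.BlockQuotB Cfsg.Agent.Lib.BlockQuot Cfsg.Agent.Lib.BlockCov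 Cfsg.Agent.Lib.BlockM Cfsg.Agent.Lib.BlockHt Cfsg.Agent.Lib.BlockFirst Cfsg.Agent.Lib.BlockSecond Cfsg.Agent.Lib.BlockInd Cfsg.Agent.Lib.BlockNP Cfsg.Agent.Lib.BlockDeg Cfsg.Agent.Lib.BlockDef Cfsg.Agent.Lib.BlockRed Cfsg.Agent.Lib.BlockOrth Cfsg.Agent.Lib.BlockIdem Cfsg.Agent.Lib.BlockGA Cfsg.Agent.Lib.BlockLoc Cfsg.Agent.Lib.CharBasic Cfsg.Agent.Lib.BlockPP Cfsg.Agent.Lib.CharNormal Cfsg.Agent.Lib.CharPerm Cfsg.Agent.Lib.CharPermB Cfsg.Agent.Lib.BlockSum Cfsg.Agent.Lib.BlockKB Cfsg.Agent.Lib.BlockLar Cfsg.Agent.Lib.BlockBFM Cfsg.Agent.Lib.BlkH6C Cfsg.Agent.Lib.BlkH6B Cfsg.Agent.Lib.BlkH6A Cfsg.Agent.Lib.BlkH5T Cfsg.Agent.Lib.BlkH5Q Cfsg.Agent.Lib.BlkH5P Cfsg.Agent.Lib.BlkH5O Cfsg.Agent.Lib.BlkH5N Cfsg.Agent.Lib.BlkH5A Cfsg.Agent.Lib.BlkH5G Cfsg.Agent.Lib.BlkH5B Cfsg.Agent.Lib.BlkH5C Cfsg.Agent.Lib.BlkH5D Cfsg.Agent.Lib.BlkH5E Cfsg.Agent.Lib.BlkH5F Cfsg.Agent.Lib.BlkH5L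 Cfsg.Agent.Lib.BlkH5M Cfsg.Agent.Lib.BlkH5R Cfsg.Agent.Lib.BlkH5S Cfsg.Agent.Lib.BlkH5X Cfsg.Agent.Lib.BlkH5U Cfsg.Agent.Lib.BlkH5V Cfsg.Agent.Lib.BlkH5W Cfsg.Agent.Lib.BlkH5Y
open scoped ComplexConjugate



/-- Let p be a prime, M a maximal ideal of the algebraic integers containing p, P a p-subgroup of the finite group G, N a subgroup with P ≤ N ≤ N_G(P), and U a nonempty subset of P normalized by N such that an element of U and an element of P that are conjugate in G are already conjugate in N, and such that λ(C_G(y)) = w·#C_N(y) for every y ∈ U with one rational number w, where λ(X) denotes the sum of the squares of the degrees of the irreducible characters in the principal p-block of X. For a complex function θ on P and χ in the principal block of G put a_χ(θ) = #P⁻¹ Σ_{y ∈ P} χ(y) θ(y⁻¹). Then for generalized characters θ, η of P with θ vanishing outside U,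 Σ_χ a_χ(θ)·conj(a_χ(η)) = (w/#P²)·Σ_{y ∈ P} θ(y)·conj(Σ_{x ∈ N} η(x y x⁻¹)) (η extended by zero off P; the conjugates lie in P), the first sum over the principal p-block of G. -/
theorem result {G : Type*} [Group G] [Finite G] (p : ℕ) [Fact p.Prime] (M : Ideal Cfsg.AlgInt) (hM : Cfsg.IsPModular p M) (P : Subgroup G) (hP : IsPGroup p P) (N : Subgroup G) (hPN : P ≤ N) (hNN : N ≤ Subgroup.normalizer (P : Set G)) (U : Set G) (hUne : U.Nonempty) (hUP : U ⊆ (P : Set G)) (hUN : ∀ n ∈ N, ∀ u ∈ U, n * u * n⁻¹ ∈ U) (hfus : ∀ u ∈ U, ∀ g : G, g * u * g⁻¹ ∈ (P : Set G) → ∃ n ∈ N, n * u * n⁻¹ = g * u * g⁻¹) (w : ℚ) (hw : ∀ y ∈ U, ((∑ᶠ ψ ∈ Cfsg.principalBlock M ↥(Subgroup.centralizer ({y} : Set G)), Cfsg.charDegree (ψ : ↥(Subgroup.centralizer ({y} : Set G)) → ℂ) ^ 2) : ℚ) = w * Nat.card ↥(N ⊓ Subgroup.centralizer ({y} : Set G))) (θ η : ↥P → ℂ) (hθ : Cfsg.IsGeneralizedCharacter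 ↥P θ) (hη : Cfsg.IsGeneralizedCharacter ↥P η) (hθU : ∀ y : ↥P, (y : G) ∉ U → θ y = 0) : ∑ᶠ χ ∈ Cfsg.principalBlock M G, ((Nat.card ↥P : ℂ)⁻¹ * ∑ᶠ y : ↥P, (χ : G → ℂ) (y : G) * θ y⁻¹) * (starRingEnd ℂ) ((Nat.card ↥P : ℂ)⁻¹ * ∑ᶠ y : ↥P, (χ : G → ℂ) (y : G) * η y⁻¹) = ((w : ℂ) / ((Nat.card ↥P : ℂ) ^ 2)) * ∑ᶠ y : ↥P, θ y * (starRingEnd ℂ) (∑ᶠ x : ↥N, Cfsg.extendByZero P η ((x : G) * (y : G) * (x : G)⁻¹)) := by
  classical
  have hp := hM.1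
  haveI : Fintype P := Fintype.ofFinite _
  haveI : Fintype N := Fintype.ofFinite _
  have hpe : ∀ z ∈ P, ∃ k, orderOf z = p ^ k := by
    intro z hz
    obtain ⟨k, hk⟩ := IsPGroup.iff_orderOf.1 hP ⟨z, hz⟩
    exact ⟨k, by rwa [Subgroup.orderOf_mk] at hk⟩
  -- the kernel
  have key : ∀ u ∈ U, ∀ z ∈ P, ∑ χ ∈ Finset.univ.filter (· ∈ principalBlock M G), χ.1 z * χ.1 u⁻¹ =
      (w : ℂ) * (Nat.card {x : N // (x : G) * u * (x : G)⁻¹ = z} : ℂ) := by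
    intro u hu z hz
    rw [principal_T hM (hpe u (hUP hu)) (hpe z hz)]
    split_ifs with h
    · obtain ⟨g, hg⟩ := isConj_iff.1 h
      obtain ⟨x₀, hx₀, hx₀'⟩ := hfus u hu g (by rw [hg]; exact hz)
      rw [card_conj_eq hx₀ (hx₀'.trans hg)]
      have h1 := hw u hu
      rw [finsum_mem_eq_finite_toFinset_sum _ (Set.toFinite _)] at h1
      have h2 : ((∑ i ∈ (Set.toFinite (principalBlock M (Subgroup.centralizer ({u} : Set G)))).toFinset,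
          (charDegree i.1 : ℚ) ^ 2 : ℚ) : ℂ) = ((w * (Nat.card ↥(N ⊓ Subgroup.centralizer ({u} : Set G)) : ℚ) : ℚ) : ℂ) := by
        rw [← h1]
      push_cast at h2
      rw [← h2]
      refine Finset.sum_congr ?_ (fun _ _ => rfl)
      ext ξ
      simp
    · have h1 : Nat.card {x : N // (x : G) * u * (x : G)⁻¹ = z} = 0 := by
        haveI : IsEmpty {x : N // (x : G) * u * (x : G)⁻¹ = z} :=
          ⟨fun x => h (isConj_iff.2 ⟨x.1, x.2⟩)⟩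
        exact Nat.card_of_isEmpty
      rw [h1, Nat.cast_zero, mul_zero]
  -- expand
  rw [finsum_block]
  simp only [finsum_eq_sum_of_fintype]
  have e1 : ∀ χ : IrrCharacter G, ((Nat.card P : ℂ)⁻¹ * ∑ y : P, χ.1 (y : G) * θ y⁻¹) *
      (starRingEnd ℂ) ((Nat.card P : ℂ)⁻¹ * ∑ y : P, χ.1 (y : G) * η y⁻¹) =
      ((Nat.card P : ℂ) ^ 2)⁻¹ * ∑ y : P, ∑ z : P, θ y * conj (η z) * (χ.1 (z : G) * χ.1 (y : G)⁻¹) := by
    intro χ
    have e2 : ∀ f : P → ℂ, ∑ y : P, χ.1 (y : G) * f y⁻¹ = ∑ y : P, χ.1 (y : G)⁻¹ * f y := by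
      intro f
      refine Fintype.sum_equiv (Equiv.inv P) _ _ (fun y => ?_)
      simp
    rw [e2 θ, e2 η, map_mul, map_inv₀, Complex.conj_natCast, map_sum]
    rw [show ((Nat.card P : ℂ)⁻¹ * ∑ y : P, χ.1 (y : G)⁻¹ * θ y) * ((Nat.card P : ℂ)⁻¹ *
      ∑ x : P, (starRingEnd ℂ) (χ.1 (x : G)⁻¹ * η x)) = ((Nat.card P : ℂ) ^ 2)⁻¹ *
      ((∑ y : P, χ.1 (y : G)⁻¹ * θ y) * ∑ x : P, (starRingEnd ℂ) (χ.1 (x : G)⁻¹ * η x)) by
        rw [sq, mul_inv]; ring]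
    rw [Finset.sum_mul_sum]
    congr 1
    refine Finset.sum_congr rfl (fun y _ => Finset.sum_congr rfl (fun z _ => ?_))
    rw [map_mul, conj_irr, inv_inv]
    ring
  rw [Finset.sum_congr rfl (fun χ _ => e1 χ), ← Finset.mul_sum, Finset.sum_comm]
  rw [div_mul_eq_mul_div, mul_comm ((w : ℂ)) _, div_eq_inv_mul]
  rw [Finset.sum_mul]
  congr 1
  refine Finset.sum_congr rfl (fun y _ => ?_)
  rw [Finset.sum_comm]
  by_cases hyU : (y : G) ∈ U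
  · have e3 : ∀ z : P, ∑ χ ∈ Finset.univ.filter (· ∈ principalBlock M G),
        θ y * conj (η z) * (χ.1 (z : G) * χ.1 (y : G)⁻¹) =
        θ y * (w : ℂ) * ∑ x : N, if (x : G) * (y : G) * (x : G)⁻¹ = z then conj (η z) else 0 := by
      intro z
      rw [← Finset.mul_sum, key y hyU z z.2, ← Finset.sum_filter, Finset.sum_const, nsmul_eq_mul]
      have e4 : (Finset.univ.filter (fun x : N => (x : G) * (y : G) * (x : G)⁻¹ = z)).card =
          Nat.card {x : N // (x : G) * (y : G) * (x : G)⁻¹ = z} := by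
        rw [Nat.card_eq_fintype_card, Fintype.card_subtype]
      rw [e4]
      ring
    rw [Finset.sum_congr rfl (fun z _ => e3 z), ← Finset.mul_sum, Finset.sum_comm]
    rw [mul_assoc, mul_comm (w : ℂ), ← mul_assoc]
    congr 2
    rw [map_sum]
    refine Finset.sum_congr rfl (fun x _ => ?_)
    have hxP : (x : G) * (y : G) * (x : G)⁻¹ ∈ P := hUP (hUN x x.2 y hyU)
    rw [Finset.sum_eq_single (⟨(x : G) * (y : G) * (x : G)⁻¹, hxP⟩ : P)]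
    · rw [if_pos rfl]
      congr 1
      unfold extendByZero
      exact (Function.Injective.extend_apply Subtype.val_injective η 0
        (⟨(x : G) * (y : G) * (x : G)⁻¹, hxP⟩ : P)).symm
    · intro z _ hz
      rw [if_neg]
      intro h
      exact hz (Subtype.ext h.symm)
    · intro h; exact absurd (Finset.mem_univ _) h
  · rw [hθU y hyU]
    simp

end Cfsg.Agent.S4720
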