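import Cfsg.Statements.S4721
import Cfsg.Agent.Lib.BlkH6S

set_option autoImplicit false
set_option linter.style.haveILetI false
set_option linter.unusedVariables false
open Cfsg

namespace Cfsg.Agent.S4721
open Cfsg.Agent.Lib.BlkH6S Cfsg.Agent.Lib.BlockRey Cfsg.Agent.Lib.BlockPC Cfsg.Agent.Lib.BlockRk Cfsg.Agent.Lib.BlockInt Cfsg.Agent.Lib.BlockIndIn Cfsg.Agent.Lib.BlockMaxB Cfsg.Agent.Lib.BlockMax Cfsg.Agent.Lib.BlockNilC Cfsg.Agent.Lib.BlockNilB Cfsg.Agent.Lib.BlockNil Cfsg.Agent.Lib.BlockFusB Cfsg.Agent.Lib.BlockFus Cfsg.Agent.Lib.BlockPairF Cfsg.Agent.Lib.BlockPairE Cfsg.Agent.Lib.BlockPairD Cfsg.Agent.Lib.BlockPairC Cfsg.Agent.Lib.BlockPairB Cfsg.Agent.Lib.BlockPair Cfsg.Agent.Lib.BlockBP Cfsg.Agent.Lib.BlockCovB Cfsg.Agent.Lib.BlockTr Cfsg.Agent.Lib.BlockMoreB Cfsg.Agent.Lib.BlockMore Cfsg.Agent.Lib.BlockQuotB Cfsg.Agent.Lib.BlockQuot Cfsg.Agent.Lib.BlockCov Cfsg.Agent.Lib.BlockM Cfsg.Agent.Lib.BlockHt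 Cfsg.Agent.Lib.BlockFirst Cfsg.Agent.Lib.BlockSecond Cfsg.Agent.Lib.BlockInd Cfsg.Agent.Lib.BlockNP Cfsg.Agent.Lib.BlockDeg Cfsg.Agent.Lib.BlockDef Cfsg.Agent.Lib.BlockRed Cfsg.Agent.Lib.BlockOrth Cfsg.Agent.Lib.BlockIdem Cfsg.Agent.Lib.BlockGA Cfsg.Agent.Lib.BlockLoc Cfsg.Agent.Lib.CharBasic Cfsg.Agent.Lib.BlockPP Cfsg.Agent.Lib.CharNormal Cfsg.Agent.Lib.CharPerm Cfsg.Agent.Lib.CharPermB Cfsg.Agent.Lib.BlockSum Cfsg.Agent.Lib.BlockKB Cfsg.Agent.Lib.BlockLar Cfsg.Agent.Lib.BlockBFM Cfsg.Agent.Lib.BlkH6L Cfsg.Agent.Lib.BlkH6K Cfsg.Agent.Lib.BlkH6J Cfsg.Agent.Lib.BlkH6I Cfsg.Agent.Lib.BlkH6H Cfsg.Agent.Lib.BlkH6G Cfsg.Agent.Lib.BlkH5T Cfsg.Agent.Lib.BlkH5Q Cfsg.Agent.Lib.BlkH5P Cfsg.Agent.Lib.BlkH5O Cfsg.Agent.Lib.BlkH5N Cfsg.Agent.Lib.BlkH5A Cfsg.Agent.Lib.BlkH5G Cfsg.Agent.Lib.BlkH5B Cfsg.Agent.Lib.BlkH5C Cfsg.Agent.Lib.BlkH5D Cfsg.Agent.Lib.BlkH5E Cfsg.Agent.Lib.BlkH5F Cfsg.Agent.Lib.BlkH5L Cfsg.Agent.Lib.BlkH5M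 Cfsg.Agent.Lib.BlkH5R Cfsg.Agent.Lib.BlkH5S Cfsg.Agent.Lib.BlkH5U Cfsg.Agent.Lib.BlkH5V Cfsg.Agent.Lib.BlkH5W Cfsg.Agent.Lib.BlkH5X Cfsg.Agent.Lib.BlkH6F Cfsg.Agent.Lib.BlkH6M Cfsg.Agent.Lib.BlkH6N Cfsg.Agent.Lib.BlkH6D Cfsg.Agent.Lib.BlkH6C Cfsg.Agent.Lib.BlkH6B Cfsg.Agent.Lib.BlkH6A Cfsg.Agent.Lib.BlkH5Y Cfsg.Agent.Lib.BlkH6O Cfsg.Agent.Lib.BlkH6P Cfsg.Agent.Lib.BlkH6Q Cfsg.Agent.Lib.BlkH6R
open scoped ComplexConjugate



/-- Let p be a prime, M a maximal ideal of the algebraic integers containing p, and G a finite group with a nontrivial abelian Sylow p-subgroup P, N = N_G(P), C = C_G(P), such that N/C is cyclic of order 3, #P > 4, and C_G(y) ∩ N = C for every non-identity y ∈ P. Then the principal p-block is the disjoint union of a set X of exactly 3 characters containing the principal character and a set Y of (#P − 1)/3 characters, with signs a_χ = ±1 (χ ∈ X, a = 1 at the principal character)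 and δ = ±1 such that every χ ∈ X takes the value a_χ at every element whose p-part is a non-identity element of P, and there is a map ζ from the non-principal linear characters of P onto Y, constant on N-conjugacy classes, with ζ_ψ(z) = δ·Σ ψ'(y) over the N-orbit of ψ, for z with p-part y ≠ 1 in P. If moreover G has an involution lying in no proper normal subgroup of G, then exactly two of the three numbers −δ and a_χ (χ ∈ X non-principal) equal −1, and the product of the degrees of the two non-principal members of X and of any member of Y is a perfect square. -/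
theorem result {G : Type*} [Group G] [Finite G] (p : ℕ) [Fact p.Prime] (M : Ideal Cfsg.AlgInt) (hM : Cfsg.IsPModular p M) (P : Sylow p G) (hab : IsMulCommutative P) (hP1 : Nat.card P ≠ 1) (hCN : (Subgroup.centralizer ((P : Subgroup G) : Set G)).relIndex (Subgroup.normalizer ((P : Subgroup G) : Set G)) = 3) (hcyc : ∃ g : G, g ∈ Subgroup.normalizer ((P : Subgroup G) : Set G) ∧ Subgroup.centralizer ((P : Subgroup G) : Set G) ⊔ Subgroup.zpowers g = Subgroup.normalizer ((P : Subgroup G) : Set G)) (hm2 : 3 + 1 < Nat.card P) (hfrob : ∀ y : G, y ∈ (P : Subgroup G) → y ≠ 1 → Subgroup.centralizer ({y} : Set G) ⊓ Subgroup.normalizer ((P : Subgroup G) : Set G) = Subgroup.centralizer ((P : Subgroup G) : Set G)) : ∃ (X Y : Set (Cfsg.IrrCharacter G)), Cfsg.principalBlock M G = X ∪ Y ∧ Disjoint X Y ∧ Nat.card X = 3 ∧ Nat.card Y = (Nat.card P - 1) / 3 ∧ (∃ χ₁ ∈ X, (χ₁ : G → ℂ) = fun _ => 1) ∧ ∃ (a : Cfsg.IrrCharacter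 G → ℤ) (δ : ℤ) (ζ : (↥(P : Subgroup G) →* ℂˣ) → Cfsg.IrrCharacter G), (δ = 1 ∨ δ = -1) ∧ (∀ χ ∈ X, (a χ = 1 ∨ a χ = -1) ∧ ∀ z y : G, Cfsg.IsPPart p z y → y ∈ (P : Subgroup G) → y ≠ 1 → (χ : G → ℂ) z = (a χ : ℂ)) ∧ (∀ ψ : ↥(P : Subgroup G) →* ℂˣ, ψ ≠ 1 → ζ ψ ∈ Y) ∧ (∀ η ∈ Y, ∃ ψ : ↥(P : Subgroup G) →* ℂˣ, ψ ≠ 1 ∧ ζ ψ = η) ∧ (∀ ψ ψ' : ↥(P : Subgroup G) →* ℂˣ, ψ ≠ 1 → (∃ n : G, n ∈ Subgroup.normalizer ((P : Subgroup G) : Set G) ∧ ∀ w w' : ↥(P : Subgroup G), (w' : G) = n * w * n⁻¹ → ψ' w' = ψ w) → ζ ψ' = ζ ψ) ∧ (∀ ψ : ↥(P : Subgroup G) →* ℂˣ, ψ ≠ 1 → ∀ (z : G) (y : ↥(P : Subgroup G)), Cfsg.IsPPart p z (y : G) → (y : G) ≠ 1 → (ζ ψ : G → ℂ) z = (δ : ℂ) * ∑ᶠ ψ' ∈ {ψ' : ↥(P : Subgroup G) →* ℂˣ | ∃ n : G, n ∈ Subgroup.normalizer ((P : Subgroup G) : Set G) ∧ ∀ w w' : ↥(P : Subgroup G), (w' : G) = n * w * n⁻¹ → ψ' w' = ψ w}, ((ψ' y : ℂˣ) : ℂ)) ∧ ((∃ t : G, orderOf t = 2 ∧ ∀ K : Subgroup G, K.Normal → t ∈ K →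 K = ⊤) → Nat.card {χ : Cfsg.IrrCharacter G // χ ∈ X ∧ (χ : G → ℂ) ≠ (fun _ => 1) ∧ a χ = -1} + (if δ = 1 then 1 else 0) = 2 ∧ ∀ η ∈ Y, IsSquare (Cfsg.charDegree (η : G → ℂ) * ∏ᶠ χ ∈ {χ : Cfsg.IrrCharacter G | χ ∈ X ∧ (χ : G → ℂ) ≠ fun _ => 1}, Cfsg.charDegree (χ : G → ℂ))) := by
  classical
  have hab' : ∀ x ∈ (P : Subgroup G), ∀ y ∈ (P : Subgroup G), x * y = y * x := by
    intro x hx y hy
    have h := hab.is_comm.comm ⟨x, hx⟩ ⟨y, hy⟩
    exact congrArg Subtype.val h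
  haveI : Fintype (P : Subgroup G) := Fintype.ofFinite _
  have hfrob' : ∀ y : G, y ∈ (P : Subgroup G) → y ≠ 1 →
      Subgroup.centralizer ({y} : Set G) ⊓ Subgroup.normalizer ((P : Subgroup G) : Set G) ≤
      Subgroup.centralizer ((P : Subgroup G) : Set G) := fun y hy hy1 => (hfrob y hy hy1).le
  obtain ⟨mult, a, δ, ζ, hD, h0, hO⟩ := Cfsg.Agent.Lib.BlkH6R.three_out hM P hab' hm2 hCN hfrob'
  obtain ⟨X, Y, r, hr, hr2, hδ, hXY, hdis, hcY, htX, hat, hX, hζ, hη, hinj, hval, hnorm, hrel⟩ :=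
    Cfsg.Agent.Lib.BlkH6O.pr_full_of hM P hab' 3 (by norm_num) hm2 hCN hfrob' mult hD h0 a 0 δ ζ hO
  have hS : ∑ᶠ χ ∈ X, a χ ^ 2 = 3 := by
    push_cast at hnorm
    linear_combination hnorm
  have hXs : ∀ χ ∈ X, a χ = 1 ∨ a χ = -1 := by
    intro χ hχ
    have h1 : a χ ^ 2 ≤ ∑ᶠ χ ∈ X, a χ ^ 2 := Cfsg.Agent.Lib.BlkH6R.single_le_sq hχ
    rw [hS] at h1
    have h2 := (hX χ hχ).1
    have h3 : -2 < a χ := by nlinarith
    have h4 : a χ < 2 := by nlinarith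
    omega
  have hX3 : Nat.card X = 3 := by
    have h1 := Cfsg.Agent.Lib.BlkH6R.card_eq_sq (X := X) (a := a) (fun χ hχ => by
      rcases hXs χ hχ with h | h <;> rw [h] <;> rfl)
    rw [hS] at h1
    exact_mod_cast h1.symm
  have hrdiv : (Nat.card P - 1) / 3 = r := Nat.div_eq_of_eq_mul_left (by omega) hr.symm
  have hval' : ∀ ψ : (P : Subgroup G) →* ℂˣ, ψ ≠ 1 → ∀ (z : G) (y : (P : Subgroup G)),
        IsPPart p z (y : G) → (y : G) ≠ 1 → (ζ ψ).1 z = (δ : ℂ) *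
          ∑ᶠ ψ' ∈ {ψ' : (P : Subgroup G) →* ℂˣ | Cfsg.Agent.Lib.BlkH6O.NRel (P : Subgroup G) ψ ψ'},
            ((ψ' y : ℂˣ) : ℂ) := by
    intro ψ hψ z y hzy hy1
    rw [hval ψ hψ z y hzy hy1, Int.cast_zero, zero_add]
  have hrel' : ∀ f : IrrCharacter G → ℂ, (∀ u ∈ (P : Subgroup G), u ≠ 1 →
        ∑ᶠ χ ∈ principalBlock M G, χ.1 u * f χ = 0) → ∀ η ∈ Y,
          (δ : ℂ) * f η = ∑ᶠ χ ∈ X, (a χ : ℂ) * f χ := by
    intro f hf η hη'
    rw [hrel f hf η hη', Int.cast_zero, zero_mul, add_zero]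
  refine ⟨X, Y, hXY, hdis, hX3, hcY.trans hrdiv.symm, ⟨triv G, htX, rfl⟩, a, δ, ζ, hδ,
    fun χ hχ => ⟨hXs χ hχ, (hX χ hχ).2⟩, hζ, hη, ?_, hval', ?_⟩
  · intro ψ ψ' hψ hn
    have hn' : Cfsg.Agent.Lib.BlkH6O.NRel (P : Subgroup G) ψ ψ' := hn
    have hψ' : ψ' ≠ 1 := by
      rintro rfl
      apply hψ
      obtain ⟨n, hn1, hn2⟩ := hn
      refine MonoidHom.ext (fun w => ?_)
      have h1 := hn2 w ((P : Subgroup G).normalizerMonoidHom ⟨n, hn1⟩ w) rfl
      rw [← h1]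
      rfl
    exact ((hinj ψ ψ' hψ hψ').2 hn').symm
  · rintro ⟨t, ht2, hgen⟩
    -- the two other members
    obtain ⟨χ₂, χ₃, h12, h13, h23, hXe⟩ : ∃ χ₂ χ₃ : IrrCharacter G, triv G ≠ χ₂ ∧ triv G ≠ χ₃ ∧
        χ₂ ≠ χ₃ ∧ X = {triv G, χ₂, χ₃} := by
      have h1 : Set.ncard X = 3 := hX3
      obtain ⟨x, y, z, hxy, hxz, hyz, rfl⟩ := Set.ncard_eq_three.1 h1
      rcases htX with h | h | h
      · subst h
        exact ⟨y, z, hxy, hxz, hyz, rfl⟩
      · subst h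
        refine ⟨x, z, hxy.symm, hyz, hxz, ?_⟩
        exact Set.insert_comm _ _ _
      · have h' : triv G = z := h
        subst h'
        refine ⟨x, y, hxz.symm, hyz.symm, hxy, ?_⟩
        ext w
        simp only [Set.mem_insert_iff, Set.mem_singleton_iff]
        tauto
    have hne2 : χ₂.1 ≠ fun _ => 1 := fun h => h12 (Subtype.ext h.symm)
    have hne3 : χ₃.1 ≠ fun _ => 1 := fun h => h13 (Subtype.ext h.symm)
    obtain ⟨t', ht'2, hgen', ht'P⟩ : ∃ t' : G, orderOf t' = 2 ∧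
        (∀ K : Subgroup G, K.Normal → t' ∈ K → K = ⊤) ∧ (p = 2 → t' ∈ (P : Subgroup G)) := by
      by_cases hp2 : p = 2
      · subst hp2
        have h1 : IsPGroup 2 (Subgroup.zpowers t) :=
          (isPGroup_zpowers_iff Nat.prime_two t).2 ⟨1, by rw [ht2, pow_one]⟩
        obtain ⟨Q, hQ⟩ := h1.exists_le_sylow
        obtain ⟨g, hg⟩ := MulAction.exists_smul_eq G Q P
        have h2 : g * t * g⁻¹ ∈ (P : Subgroup G) := by
          rw [← hg]
          exact ⟨t, hQ (Subgroup.mem_zpowers t), rfl⟩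
        refine ⟨g * t * g⁻¹, by rw [orderOf_conj, ht2], fun K hK hm => hgen K hK ?_, fun _ => h2⟩
        have h3 := hK.conj_mem _ hm g⁻¹
        have h4 : g⁻¹ * (g * t * g⁻¹) * g⁻¹⁻¹ = t := by group
        rwa [h4] at h3
      · exact ⟨t, ht2, hgen, fun h => absurd h hp2⟩
    obtain ⟨c1, c2, c3⟩ := Cfsg.Agent.Lib.BlkH6S.three_inv_core hM P hab' hm2 hCN hfrob' hδ hXY hdis
      htX hat (fun χ hχ => ⟨hXs χ hχ, (hX χ hχ).2⟩) hζ hη hinj hval' hrel' hXe h12 h13 h23 ht'2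
      hgen' ht'P
    constructor
    · have hset : {χ : IrrCharacter G | χ ∈ X ∧ χ.1 ≠ (fun _ => 1) ∧ a χ = -1} =
          {χ | (χ = χ₂ ∨ χ = χ₃) ∧ a χ = -1} := by
        ext χ
        simp only [Set.mem_ofPred_eq, hXe, Set.mem_insert_iff, Set.mem_singleton_iff]
        constructor
        · rintro ⟨h1, h2, h3⟩
          refine ⟨?_, h3⟩
          rcases h1 with h1 | h1 | h1
          · exact absurd (congrArg Subtype.val h1) h2
          · exact Or.inl h1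
          · exact Or.inr h1
        · rintro ⟨h1, h3⟩
          refine ⟨Or.inr h1, ?_, h3⟩
          rcases h1 with rfl | rfl
          · exact hne2
          · exact hne3
      have hcard : Nat.card {χ : IrrCharacter G // χ ∈ X ∧ χ.1 ≠ (fun _ => 1) ∧ a χ = -1} =
          (if a χ₂ = -1 then 1 else 0) + (if a χ₃ = -1 then 1 else 0) := by
        change Nat.card {χ : IrrCharacter G | χ ∈ X ∧ χ.1 ≠ (fun _ => 1) ∧ a χ = -1} = _
        rw [hset]
        change Set.ncard _ = _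
        by_cases e2 : a χ₂ = -1
        · by_cases e3 : a χ₃ = -1
          · have : {χ | (χ = χ₂ ∨ χ = χ₃) ∧ a χ = -1} = ({χ₂, χ₃} : Set (IrrCharacter G)) := by
              ext χ
              simp only [Set.mem_ofPred_eq, Set.mem_insert_iff, Set.mem_singleton_iff]
              constructor
              · exact fun h => h.1
              · rintro (rfl | rfl)
                · exact ⟨Or.inl rfl, e2⟩
                · exact ⟨Or.inr rfl, e3⟩
            rw [this, Set.ncard_pair h23, if_pos e2, if_pos e3]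
          · have : {χ | (χ = χ₂ ∨ χ = χ₃) ∧ a χ = -1} = ({χ₂} : Set (IrrCharacter G)) := by
              ext χ
              simp only [Set.mem_ofPred_eq, Set.mem_singleton_iff]
              constructor
              · rintro ⟨rfl | rfl, h⟩
                · rfl
                · exact absurd h e3
              · rintro rfl
                exact ⟨Or.inl rfl, e2⟩
            rw [this, Set.ncard_singleton, if_pos e2, if_neg e3]
        · by_cases e3 : a χ₃ = -1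
          · have : {χ | (χ = χ₂ ∨ χ = χ₃) ∧ a χ = -1} = ({χ₃} : Set (IrrCharacter G)) := by
              ext χ
              simp only [Set.mem_ofPred_eq, Set.mem_singleton_iff]
              constructor
              · rintro ⟨rfl | rfl, h⟩
                · exact absurd h e2
                · rfl
              · rintro rfl
                exact ⟨Or.inr rfl, e3⟩
            rw [this, Set.ncard_singleton, if_neg e2, if_pos e3]
          · have : {χ | (χ = χ₂ ∨ χ = χ₃) ∧ a χ = -1} = (∅ : Set (IrrCharacter G)) := by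
              ext χ
              simp only [Set.mem_ofPred_eq, Set.mem_empty_iff_false, iff_false]
              rintro ⟨rfl | rfl, h⟩
              · exact e2 h
              · exact e3 h
            rw [this, Set.ncard_empty, if_neg e2, if_neg e3]
      rw [hcard]
      have hχ₂X : χ₂ ∈ X := by rw [hXe]; simp
      have hχ₃X : χ₃ ∈ X := by rw [hXe]; simp
      rcases hXs χ₂ hχ₂X with e2 | e2 <;> rcases hXs χ₃ hχ₃X with e3 | e3 <;>
        rcases hδ with e4 | e4 <;> rw [e2, e3, e4] at c1 c2 ⊢ <;>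
        first
        | (exfalso; revert c1; norm_num; done)
        | (exfalso; revert c2; norm_num; done)
        | (norm_num; done)
    · intro η hη'
      have h1 : ∏ᶠ χ ∈ {χ : IrrCharacter G | χ ∈ X ∧ χ.1 ≠ fun _ => 1}, charDegree χ.1 =
          charDegree χ₂.1 * charDegree χ₃.1 := by
        have h2 : {χ : IrrCharacter G | χ ∈ X ∧ χ.1 ≠ fun _ => 1} = {χ₂, χ₃} := by
          ext χ
          simp only [Set.mem_ofPred_eq, hXe, Set.mem_insert_iff, Set.mem_singleton_iff]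
          constructor
          · rintro ⟨h1, h2⟩
            rcases h1 with h1 | h1
            · exact absurd (congrArg Subtype.val h1) h2
            · exact h1
          · intro h1
            refine ⟨Or.inr h1, ?_⟩
            rcases h1 with rfl | rfl
            · exact hne2
            · exact hne3
        rw [h2, finprod_mem_pair h23]
      rw [h1]
      have h3 := c3 η hη'
      have h4 : IsSquare ((charDegree η.1 * (charDegree χ₂.1 * charDegree χ₃.1) : ℕ) : ℤ) := by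
        push_cast
        exact h3
      exact Int.isSquare_natCast_iff.1 h4

end Cfsg.Agent.S4721
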