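import Cfsg.Statements.S4722
import Cfsg.Agent.Lib.BlkH6E
import Cfsg.Agent.Lib.Cores
import Cfsg.Agent.Lib.CharExc

set_option autoImplicit false
set_option linter.style.haveILetI false
set_option linter.unusedVariables false
open Cfsg

namespace Cfsg.Agent.S4722
open Cfsg.Agent.Lib.BlkH6E Cfsg.Agent.Lib.BlockRey Cfsg.Agent.Lib.BlockPC Cfsg.Agent.Lib.BlockRk Cfsg.Agent.Lib.BlockInt Cfsg.Agent.Lib.BlockIndIn Cfsg.Agent.Lib.BlockMaxB Cfsg.Agent.Lib.BlockMax Cfsg.Agent.Lib.BlockNilC Cfsg.Agent.Lib.BlockNilB Cfsg.Agent.Lib.BlockNil Cfsg.Agent.Lib.BlockFusB Cfsg.Agent.Lib.BlockFus Cfsg.Agent.Lib.BlockPairF Cfsg.Agent.Lib.BlockPairE Cfsg.Agent.Lib.BlockPairD Cfsg.Agent.Lib.BlockPairC Cfsg.Agent.Lib.BlockPairB Cfsg.Agent.Lib.BlockPair Cfsg.Agent.Lib.BlockBP Cfsg.Agent.Lib.BlockCovB Cfsg.Agent.Lib.BlockTr Cfsg.Agent.Lib.BlockMoreB Cfsg.Agent.Lib.BlockMore Cfsg.Agent.Lib.BlockQuotB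 Cfsg.Agent.Lib.BlockQuot Cfsg.Agent.Lib.BlockCov Cfsg.Agent.Lib.BlockM Cfsg.Agent.Lib.BlockHt Cfsg.Agent.Lib.BlockFirst Cfsg.Agent.Lib.BlockSecond Cfsg.Agent.Lib.BlockInd Cfsg.Agent.Lib.BlockNP Cfsg.Agent.Lib.BlockDeg Cfsg.Agent.Lib.BlockDef Cfsg.Agent.Lib.BlockRed Cfsg.Agent.Lib.BlockOrth Cfsg.Agent.Lib.BlockIdem Cfsg.Agent.Lib.BlockGA Cfsg.Agent.Lib.BlockLoc Cfsg.Agent.Lib.CharBasic Cfsg.Agent.Lib.BlockPP Cfsg.Agent.Lib.CharNormal Cfsg.Agent.Lib.CharPerm Cfsg.Agent.Lib.CharPermB Cfsg.Agent.Lib.BlockSum Cfsg.Agent.Lib.BlockKB Cfsg.Agent.Lib.BlockLar Cfsg.Agent.Lib.BlockBFM Cfsg.Agent.Lib.BlkH6D Cfsg.Agent.Lib.BlkH6C Cfsg.Agent.Lib.BlkH6B Cfsg.Agent.Lib.BlkH6A Cfsg.Agent.Lib.BlkH5T Cfsg.Agent.Lib.BlkH5Q Cfsg.Agent.Lib.BlkH5P Cfsg.Agent.Lib.BlkH5O Cfsg.Agent.Lib.BlkH5N Cfsg.Agent.Lib.BlkH5A Cfsg.Agent.Lib.BlkH5G Cfsg.Agent.Lib.BlkH5B Cfsg.Agent.Lib.BlkH5C Cfsg.Agent.Lib.BlkH5D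 Cfsg.Agent.Lib.BlkH5E Cfsg.Agent.Lib.BlkH5F Cfsg.Agent.Lib.BlkH5L Cfsg.Agent.Lib.BlkH5M Cfsg.Agent.Lib.BlkH5R Cfsg.Agent.Lib.BlkH5S Cfsg.Agent.Lib.BlkH5X Cfsg.Agent.Lib.BlkH5U Cfsg.Agent.Lib.BlkH5V Cfsg.Agent.Lib.BlkH5W Cfsg.Agent.Lib.BlkH5Y
open scoped ComplexConjugate



/-- Let M be a maximal ideal of the algebraic integers containing 2, P a 2-subgroup of the finite group G, U a subset of P, and t an involution of G such that no element of U is inverted by any conjugate of t. Let θ be a generalized character of P vanishing outside U, and for χ in the principal 2-block B₀ put a_χ = #P⁻¹ Σ_{y ∈ P} χ(y) θ(y⁻¹). Then Σ_{χ ∈ B₀} a_χ χ(t)^2/χ(1) = 0, Σ_{χ ∈ B₀} a_χ χ(1) = 0 and Σ_{χ ∈ B₀} a_χ χ(t) = 0. If moreover #P⁻¹ Σ_{y ∈ P} θ(y) ≠ 0, then either at least two of the a_χ have positive real part and at least two have negative real part, or G has a proper normal subgroup containing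 O_2'(G) and t. -/
theorem result {G : Type*} [Group G] [Finite G] (M : Ideal Cfsg.AlgInt) (hM : Cfsg.IsPModular 2 M) (P : Subgroup G) (hP : IsPGroup 2 P) (U : Set G) (hUP : U ⊆ (P : Set G)) (t : G) (ht : orderOf t = 2) (hinv : ∀ u ∈ U, ∀ g : G, (g * t * g⁻¹) * u * (g * t * g⁻¹)⁻¹ ≠ u⁻¹) (θ : ↥P → ℂ) (hθ : Cfsg.IsGeneralizedCharacter ↥P θ) (hθU : ∀ y : ↥P, (y : G) ∉ U → θ y = 0) : (∑ᶠ χ ∈ Cfsg.principalBlock M G, ((Nat.card ↥P : ℂ)⁻¹ * ∑ᶠ y : ↥P, (χ : G → ℂ) (y : G) * θ y⁻¹) * (χ : G → ℂ) t ^ 2 / (χ : G → ℂ) 1 = 0) ∧ (∑ᶠ χ ∈ Cfsg.principalBlock M G, ((Nat.card ↥P : ℂ)⁻¹ * ∑ᶠ y : ↥P, (χ : G → ℂ) (y : G) * θ y⁻¹) * (χ : G → ℂ) 1 = 0) ∧ (∑ᶠ χ ∈ Cfsg.principalBlock M G, ((Nat.card ↥P : ℂ)⁻¹ * ∑ᶠ y : ↥P, (χ : G → ℂ) (y : G) * θ y⁻¹) * (χ : G → ℂ) t = 0) ∧ ((Nat.card ↥P : ℂ)⁻¹ * ∑ᶠ y : ↥P, θ y ≠ 0 → (2 ≤ Nat.card {χ : Cfsg.IrrCharacter G // χ ∈ Cfsg.principalBlock M G ∧ 0 < (((Nat.card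 ↥P : ℂ)⁻¹ * ∑ᶠ y : ↥P, (χ : G → ℂ) (y : G) * θ y⁻¹)).re} ∧ 2 ≤ Nat.card {χ : Cfsg.IrrCharacter G // χ ∈ Cfsg.principalBlock M G ∧ (((Nat.card ↥P : ℂ)⁻¹ * ∑ᶠ y : ↥P, (χ : G → ℂ) (y : G) * θ y⁻¹)).re < 0}) ∨ ∃ K : Subgroup G, K.Normal ∧ K ≠ ⊤ ∧ Cfsg.pPrimeCore 2 G ≤ K ∧ t ∈ K) := by
  classical
  haveI : Fact (Nat.Prime 2) := ⟨hM.1⟩
  cases nonempty_fintype G
  haveI : Fintype P := Fintype.ofFinite _
  have hpe : ∀ z ∈ P, ∃ k, orderOf z = 2 ^ k := by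
    intro z hz
    obtain ⟨k, hk⟩ := IsPGroup.iff_orderOf.1 hP ⟨z, hz⟩
    exact ⟨k, by rwa [Subgroup.orderOf_mk] at hk⟩
  have htt : t * t = 1 := by
    have := pow_orderOf_eq_one t
    rwa [ht, sq] at this
  have htinv : t⁻¹ = t := inv_eq_of_mul_eq_one_left htt
  have hl : IsLoc M (eB (principalBlock M G)) := isLoc_eB hM (principal_isPBlock M G)
  -- the coefficients
  have ea : ∀ χ : IrrCharacter G, (Nat.card P : ℂ)⁻¹ * ∑ᶠ y : P, χ.1 (y : G) * θ y⁻¹ =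
      (Nat.card P : ℂ)⁻¹ * ∑ y : P, θ y * χ.1 (y : G)⁻¹ := by
    intro χ
    rw [finsum_eq_sum_of_fintype]
    congr 1
    refine Fintype.sum_equiv (Equiv.inv P) _ _ (fun y => ?_)
    simp [mul_comm]
  have hgen : ∀ (g : IrrCharacter G → ℂ), (∀ y : P, (y : G) ∈ U →
      ∑ χ ∈ Finset.univ.filter (· ∈ principalBlock M G), χ.1 (y : G)⁻¹ * g χ = 0) →
      ∑ χ ∈ Finset.univ.filter (· ∈ principalBlock M G),
        ((Nat.card P : ℂ)⁻¹ * ∑ᶠ y : P, χ.1 (y : G) * θ y⁻¹) * g χ = 0 := by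
    intro g hg
    have e1 : ∀ χ : IrrCharacter G, ((Nat.card P : ℂ)⁻¹ * ∑ᶠ y : P, χ.1 (y : G) * θ y⁻¹) * g χ =
        (Nat.card P : ℂ)⁻¹ * ∑ y : P, θ y * (χ.1 (y : G)⁻¹ * g χ) := by
      intro χ
      rw [ea, mul_assoc, Finset.sum_mul]
      congr 1
      exact Finset.sum_congr rfl (fun y _ => by ring)
    rw [Finset.sum_congr rfl (fun χ _ => e1 χ), ← Finset.mul_sum, Finset.sum_comm]
    have e2 : ∀ y : P, ∑ χ ∈ Finset.univ.filter (· ∈ principalBlock M G),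
        θ y * (χ.1 (y : G)⁻¹ * g χ) = 0 := by
      intro y
      rw [← Finset.mul_sum]
      by_cases hy : (y : G) ∈ U
      · rw [hg y hy, mul_zero]
      · rw [hθU y hy, zero_mul]
    rw [Finset.sum_eq_zero (fun y _ => e2 y), mul_zero]
  have h1 : ∑ χ ∈ Finset.univ.filter (· ∈ principalBlock M G),
      ((Nat.card P : ℂ)⁻¹ * ∑ᶠ y : P, χ.1 (y : G) * θ y⁻¹) * (χ.1 t ^ 2 / χ.1 1) = 0 := by
    refine hgen _ (fun y hy => ?_)
    have h := inv_sum hM hl (t := t) (v := (y : G)⁻¹) htt (by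
      rw [pp_inv hM.1, pp_eq_self hM.1 (hpe _ y.2)]) (by
      intro g hg
      apply hinv _ hy g
      have h2 := congrArg (fun z => z⁻¹) hg
      simp only [inv_inv] at h2
      rw [← h2]
      group)
    rw [← h]
    exact Finset.sum_congr rfl (fun χ _ => by ring)
  have h2 : ∑ χ ∈ Finset.univ.filter (· ∈ principalBlock M G),
      ((Nat.card P : ℂ)⁻¹ * ∑ᶠ y : P, χ.1 (y : G) * θ y⁻¹) * χ.1 1 = 0 := by
    refine hgen _ (fun y hy => ?_)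
    have hy1 : (y : G) ≠ 1 := by
      intro h
      apply hinv _ hy 1
      rw [h]; group
    have h := block_orth hM hl (g := (1 : G)) (h := (y : G)) (by
      rw [pp_one, pp_eq_self hM.1 (hpe _ y.2)]
      intro h
      exact hy1 (isConj_one_right.1 h))
    rw [← h]
    exact Finset.sum_congr rfl (fun χ _ => mul_comm _ _)
  have h3 : ∑ χ ∈ Finset.univ.filter (· ∈ principalBlock M G),
      ((Nat.card P : ℂ)⁻¹ * ∑ᶠ y : P, χ.1 (y : G) * θ y⁻¹) * χ.1 t = 0 := by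
    refine hgen _ (fun y hy => ?_)
    have h := block_orth hM hl (g := t) (h := (y : G)) (by
      rw [pp_eq_self hM.1 ⟨1, by rw [ht, pow_one]⟩, pp_eq_self hM.1 (hpe _ y.2)]
      intro h
      obtain ⟨g, hg⟩ := isConj_iff.1 h
      apply hinv _ hy g
      rw [hg, mul_inv_cancel_right]
      have h4 : (y : G) * (y : G) = 1 := by
        rw [← hg]
        calc g * t * g⁻¹ * (g * t * g⁻¹) = g * (t * t) * g⁻¹ := by group
          _ = 1 := by rw [htt]; group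
      exact (inv_eq_of_mul_eq_one_left h4).symm)
    rw [← h]
    exact Finset.sum_congr rfl (fun χ _ => mul_comm _ _)
  refine ⟨?_, ?_, ?_, ?_⟩
  · rw [finsum_block, ← h1]
    exact Finset.sum_congr rfl (fun χ _ => by rw [mul_div_assoc])
  · rw [finsum_block, ← h2]
  · rw [finsum_block, ← h3]
  -- the last part
  intro hs
  -- integrality
  have hint : ∀ χ : IrrCharacter G, ∃ m : ℤ,
      (Nat.card P : ℂ)⁻¹ * ∑ᶠ y : P, χ.1 (y : G) * θ y⁻¹ = m := by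
    intro χ
    obtain ⟨m, hm⟩ := Cfsg.Agent.Lib.CharExc.gen_inner_int
      (Cfsg.Agent.Lib.CharExc.gen_of_char (Cfsg.Agent.Lib.CharInd.isChar_res P (isChar_of_irr χ.2))) hθ
    refine ⟨m, ?_⟩
    rw [← hm, Cfsg.Agent.Lib.CharBasic.classInner_def, finsum_eq_sum_of_fintype]
    congr 1
    refine Finset.sum_congr rfl (fun y _ => ?_)
    congr 1
    obtain ⟨α, β, hα, hβ, hαβ⟩ := hθ
    rw [hαβ, Pi.sub_apply, Pi.sub_apply, map_sub, Cfsg.Agent.Lib.CharBasic.char_inv hα,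
      Cfsg.Agent.Lib.CharBasic.char_inv hβ]
  choose m hm using hint
  have hre : ∀ χ : IrrCharacter G,
      ((Nat.card P : ℂ)⁻¹ * ∑ᶠ y : P, χ.1 (y : G) * θ y⁻¹).re = (m χ : ℝ) := by
    intro χ
    rw [hm χ, Complex.intCast_re]
  have htre : ∀ χ : IrrCharacter G, χ.1 t = (((χ.1 t).re : ℝ) : ℂ) := by
    intro χ
    have h := conj_irr χ t
    rw [htinv] at h
    exact (Complex.conj_eq_iff_re.1 h).symm
  set S := Finset.univ.filter (· ∈ principalBlock M G) with hS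
  have r1 : ∑ χ ∈ S, (m χ : ℝ) * (charDegree χ.1 : ℝ) = 0 := by
    have h4 : ∑ χ ∈ S, (m χ : ℂ) * (charDegree χ.1 : ℂ) = 0 := by
      rw [← h2]
      exact Finset.sum_congr rfl (fun χ _ => by rw [hm χ, irr_one_eq])
    apply Complex.ofReal_injective
    push_cast
    exact h4
  have r2 : ∑ χ ∈ S, (m χ : ℝ) * (χ.1 t).re = 0 := by
    have h4 : ∑ χ ∈ S, (m χ : ℂ) * χ.1 t = 0 := by
      rw [← h3]
      exact Finset.sum_congr rfl (fun χ _ => by rw [hm χ])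
    apply Complex.ofReal_injective
    push_cast
    rw [← h4]
    exact Finset.sum_congr rfl (fun χ _ => by rw [← htre])
  have r3 : ∑ χ ∈ S, (m χ : ℝ) * ((χ.1 t).re ^ 2 / (charDegree χ.1 : ℝ)) = 0 := by
    have h4 : ∑ χ ∈ S, (m χ : ℂ) * (χ.1 t ^ 2 / (charDegree χ.1 : ℂ)) = 0 := by
      rw [← h1]
      exact Finset.sum_congr rfl (fun χ _ => by rw [hm χ, irr_one_eq])
    apply Complex.ofReal_injective
    push_cast
    rw [← h4]
    exact Finset.sum_congr rfl (fun χ _ => by rw [← htre])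
  have hpos : ∀ χ ∈ S, (0 : ℝ) < (charDegree χ.1 : ℝ) := by
    intro χ _
    have h5 : (charDegree χ.1 : ℂ) ≠ 0 := by
      rw [← irr_one_eq]; exact isIrr_one_ne_zero χ.2
    have h6 : charDegree χ.1 ≠ 0 := fun h => h5 (by rw [h, Nat.cast_zero])
    exact_mod_cast Nat.pos_of_ne_zero h6
  have htS : triv G ∈ S := Finset.mem_filter.2 ⟨Finset.mem_univ _, triv_mem hM⟩
  have hmt : (m (triv G) : ℝ) ≠ 0 := by
    intro h
    apply hs
    have h5 := hm (triv G)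
    have h6 : (m (triv G) : ℂ) = 0 := by
      have : (m (triv G)) = 0 := by exact_mod_cast h
      rw [this, Int.cast_zero]
    rw [h6] at h5
    rw [← h5, finsum_eq_sum_of_fintype, finsum_eq_sum_of_fintype]
    congr 1
    refine Fintype.sum_equiv (Equiv.inv P) _ _ (fun y => ?_)
    simp [triv]
  by_cases hcard : 2 ≤ Nat.card {χ : IrrCharacter G // χ ∈ principalBlock M G ∧
      0 < (((Nat.card ↥P : ℂ)⁻¹ * ∑ᶠ y : ↥P, χ.1 (y : G) * θ y⁻¹)).re} ∧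
      2 ≤ Nat.card {χ : IrrCharacter G // χ ∈ principalBlock M G ∧
      (((Nat.card ↥P : ℂ)⁻¹ * ∑ᶠ y : ↥P, χ.1 (y : G) * θ y⁻¹)).re < 0}
  · exact Or.inl hcard
  right
  have hratio : ∃ r : ℝ, ∀ χ ∈ S, (m χ : ℝ) ≠ 0 → (χ.1 t).re = r * (charDegree χ.1 : ℝ) := by
    rcases not_and_or.1 hcard with h | h
    · have hss : Subsingleton {χ : IrrCharacter G // χ ∈ principalBlock M G ∧
          0 < (((Nat.card ↥P : ℂ)⁻¹ * ∑ᶠ y : ↥P, χ.1 (y : G) * θ y⁻¹)).re} :=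
        Finite.card_le_one_iff_subsingleton.1 (by omega)
      have h5 := ratio_lemma S (fun χ => -(m χ : ℝ)) (fun χ => (charDegree χ.1 : ℝ))
        (fun χ => (χ.1 t).re) hpos
        (by simp only [neg_mul, Finset.sum_neg_distrib, r1, neg_zero])
        (by simp only [neg_mul, Finset.sum_neg_distrib, r2, neg_zero])
        (by simp only [neg_mul, Finset.sum_neg_distrib, r3, neg_zero])
        (by
          intro i hi j hj h6 h7
          have h8 : (⟨i, (Finset.mem_filter.1 hi).2, by rw [hre]; linarith⟩ :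
              {χ : IrrCharacter G // χ ∈ principalBlock M G ∧
              0 < (((Nat.card ↥P : ℂ)⁻¹ * ∑ᶠ y : ↥P, χ.1 (y : G) * θ y⁻¹)).re}) =
              ⟨j, (Finset.mem_filter.1 hj).2, by rw [hre]; linarith⟩ := Subsingleton.elim _ _
          exact congrArg (fun z => z.1) h8) htS (neg_ne_zero.2 hmt)
      obtain ⟨r, hr⟩ := h5
      exact ⟨r, fun χ hχ h9 => hr χ hχ (neg_ne_zero.2 h9)⟩
    · have hss : Subsingleton {χ : IrrCharacter G // χ ∈ principalBlock M G ∧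
          (((Nat.card ↥P : ℂ)⁻¹ * ∑ᶠ y : ↥P, χ.1 (y : G) * θ y⁻¹)).re < 0} :=
        Finite.card_le_one_iff_subsingleton.1 (by omega)
      exact ratio_lemma S (fun χ => (m χ : ℝ)) (fun χ => (charDegree χ.1 : ℝ))
        (fun χ => (χ.1 t).re) hpos r1 r2 r3
        (by
          intro i hi j hj h6 h7
          have h8 : (⟨i, (Finset.mem_filter.1 hi).2, by rw [hre]; exact h6⟩ :
              {χ : IrrCharacter G // χ ∈ principalBlock M G ∧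
              (((Nat.card ↥P : ℂ)⁻¹ * ∑ᶠ y : ↥P, χ.1 (y : G) * θ y⁻¹)).re < 0}) =
              ⟨j, (Finset.mem_filter.1 hj).2, by rw [hre]; exact h7⟩ := Subsingleton.elim _ _
          exact congrArg (fun z => z.1) h8) htS hmt
  obtain ⟨r, hr⟩ := hratio
  have hr1 : r = 1 := by
    have h5 := hr (triv G) htS hmt
    have h6 : (charDegree (triv G).1 : ℂ) = 1 := by rw [← irr_one_eq]; rfl
    have h7 : (charDegree (triv G).1 : ℝ) = 1 := by exact_mod_cast h6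
    rw [h7, mul_one] at h5
    rw [← h5]
    rfl
  subst hr1
  obtain ⟨χ₁, hχ₁, hne, hm1⟩ : ∃ χ₁ ∈ S, χ₁ ≠ triv G ∧ (m χ₁ : ℝ) ≠ 0 := by
    by_contra hcon
    push Not at hcon
    rw [Finset.sum_eq_single_of_mem (triv G) htS (fun χ hχ hne => by
      rw [hcon χ hχ hne, zero_mul])] at r1
    rcases mul_eq_zero.1 r1 with h | h
    · exact hmt h
    · exact (hpos _ htS).ne' h
  have htk : χ₁.1 t = χ₁.1 1 := by
    rw [htre χ₁, hr χ₁ hχ₁ hm1, one_mul, irr_one_eq]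
    push_cast
    rfl
  refine ⟨kerB {χ₁}, kerB_normal _, ?_, ?_, ?_⟩
  · intro htop
    apply hne
    have hconst : ∀ g : G, χ₁.1 g = χ₁.1 1 := by
      intro g
      have : g ∈ kerB {χ₁} := by rw [htop]; exact Subgroup.mem_top g
      exact this χ₁ rfl
    apply Subtype.ext
    refine Cfsg.Agent.Lib.CharBasic.irr_eq_of_inner_ne_zero χ₁.2 (triv G).2 ?_
    rw [Cfsg.Agent.Lib.CharBasic.classInner_def]
    have h5 : ∀ g : G, χ₁.1 g * (starRingEnd ℂ) ((triv G).1 g) = χ₁.1 1 := by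
      intro g
      rw [hconst g]
      change χ₁.1 1 * (starRingEnd ℂ) 1 = χ₁.1 1
      rw [map_one, mul_one]
    rw [Finset.sum_congr rfl (fun g _ => h5 g), Finset.sum_const, Finset.card_univ, nsmul_eq_mul,
      ← Nat.card_eq_fintype_card, ← mul_assoc, inv_mul_cancel₀ (Nat.cast_ne_zero.2 Nat.card_pos.ne'),
      one_mul]
    exact isIrr_one_ne_zero χ₁.2
  · intro g hg χ hχ
    rw [Set.mem_singleton_iff] at hχ
    subst hχ
    haveI := Cfsg.Agent.Lib.Cores.pPrimeCore_normal (G := G) 2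
    refine triv_of_sameBlock hM (pPrimeCore 2 G) (Cfsg.Agent.Lib.Cores.pPrimeCore_not_dvd 2)
      (sameBlock_of_mem hM (principal_isPBlock M G) (triv_mem hM) (Finset.mem_filter.1 hχ₁).2)
      (fun _ _ => rfl) g hg
  · intro χ hχ
    rw [Set.mem_singleton_iff] at hχ
    subst hχ
    exact htk

end Cfsg.Agent.S4722
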