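import Cfsg.Statements.S4723
import Cfsg.Agent.Lib.BlkH8E
import Cfsg.Agent.Lib.CharClifford

set_option autoImplicit false
set_option linter.style.haveILetI false
set_option linter.unusedVariables false
open Cfsg

namespace Cfsg.Agent.S4723
open Cfsg.Agent.Lib.BlkH8E Cfsg.Agent.Lib.BlockRey Cfsg.Agent.Lib.BlockPC Cfsg.Agent.Lib.BlockRk Cfsg.Agent.Lib.BlockInt Cfsg.Agent.Lib.BlockIndIn Cfsg.Agent.Lib.BlockMaxB Cfsg.Agent.Lib.BlockMax Cfsg.Agent.Lib.BlockNilC Cfsg.Agent.Lib.BlockNilB Cfsg.Agent.Lib.BlockNil Cfsg.Agent.Lib.BlockFusB Cfsg.Agent.Lib.BlockFus Cfsg.Agent.Lib.BlockPairF Cfsg.Agent.Lib.BlockPairE Cfsg.Agent.Lib.BlockPairD Cfsg.Agent.Lib.BlockPairC Cfsg.Agent.Lib.BlockPairB Cfsg.Agent.Lib.BlockPair Cfsg.Agent.Lib.BlockBP Cfsg.Agent.Lib.BlockCovB Cfsg.Agent.Lib.BlockTr Cfsg.Agent.Lib.BlockMoreB Cfsg.Agent.Lib.BlockMore Cfsg.Agent.Lib.BlockQuotB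 Cfsg.Agent.Lib.BlockQuot Cfsg.Agent.Lib.BlockCov Cfsg.Agent.Lib.BlockM Cfsg.Agent.Lib.BlockHt Cfsg.Agent.Lib.BlockFirst Cfsg.Agent.Lib.BlockSecond Cfsg.Agent.Lib.BlockInd Cfsg.Agent.Lib.BlockNP Cfsg.Agent.Lib.BlockDeg Cfsg.Agent.Lib.BlockDef Cfsg.Agent.Lib.BlockRed Cfsg.Agent.Lib.BlockOrth Cfsg.Agent.Lib.BlockIdem Cfsg.Agent.Lib.BlockGA Cfsg.Agent.Lib.BlockLoc Cfsg.Agent.Lib.CharBasic Cfsg.Agent.Lib.BlockPP Cfsg.Agent.Lib.CharNormal Cfsg.Agent.Lib.CharPerm Cfsg.Agent.Lib.CharPermB Cfsg.Agent.Lib.BlockSum Cfsg.Agent.Lib.BlockKB Cfsg.Agent.Lib.BlockLar Cfsg.Agent.Lib.BlockBFM Cfsg.Agent.Lib.BlkH8D Cfsg.Agent.Lib.BlkH8C Cfsg.Agent.Lib.BlkH8B Cfsg.Agent.Lib.BlkH8A Cfsg.Agent.Lib.BlkH7R Cfsg.Agent.Lib.BlkH6L Cfsg.Agent.Lib.BlkH6K Cfsg.Agent.Lib.BlkH6J Cfsg.Agent.Lib.BlkH6I Cfsg.Agent.Lib.BlkH6H Cfsg.Agent.Lib.BlkH6G Cfsg.Agent.Lib.BlkH5T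 Cfsg.Agent.Lib.BlkH5Q Cfsg.Agent.Lib.BlkH5P Cfsg.Agent.Lib.BlkH5O Cfsg.Agent.Lib.BlkH5N Cfsg.Agent.Lib.BlkH5A Cfsg.Agent.Lib.BlkH5G Cfsg.Agent.Lib.BlkH5B Cfsg.Agent.Lib.BlkH5C Cfsg.Agent.Lib.BlkH5D Cfsg.Agent.Lib.BlkH5E Cfsg.Agent.Lib.BlkH5F Cfsg.Agent.Lib.BlkH5L Cfsg.Agent.Lib.BlkH5M Cfsg.Agent.Lib.BlkH5R Cfsg.Agent.Lib.BlkH5S Cfsg.Agent.Lib.BlkH5U Cfsg.Agent.Lib.BlkH5V Cfsg.Agent.Lib.BlkH5W Cfsg.Agent.Lib.BlkH5X Cfsg.Agent.Lib.BlkH6F Cfsg.Agent.Lib.BlkH6N Cfsg.Agent.Lib.BlkH6M Cfsg.Agent.Lib.BlkH6D Cfsg.Agent.Lib.BlkH6C Cfsg.Agent.Lib.BlkH6B Cfsg.Agent.Lib.BlkH6A Cfsg.Agent.Lib.BlkH5Y Cfsg.Agent.Lib.BlkH7C Cfsg.Agent.Lib.BlkH7A Cfsg.Agent.Lib.BlkH7B Cfsg.Agent.Lib.BlkH7E Cfsg.Agent.Lib.BlkH7D Cfsg.Agent.Lib.BlkH7F Cfsg.Agent.Lib.BlkH7G Cfsg.Agent.Lib.BlkH6P Cfsg.Agent.Lib.BlkH6O Cfsg.Agent.Lib.BlkH7H Cfsg.Agent.Lib.BlkH7I Cfsg.Agent.Lib.BlkH7J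 Cfsg.Agent.Lib.BlkH7K Cfsg.Agent.Lib.BlkH7L Cfsg.Agent.Lib.BlkH7M Cfsg.Agent.Lib.BlkH7N Cfsg.Agent.Lib.BlkH7O Cfsg.Agent.Lib.BlkH7P Cfsg.Agent.Lib.BlkH7Q Cfsg.Agent.Lib.BlockKul
open scoped ComplexConjugate



/-- Let p be a prime, M a maximal ideal of the algebraic integers containing p, H a normal subgroup of the finite group G and b a p-block of H. Let T be the stabilizer of b in G. Then b contains a character θ of height zero whose own stabilizer in G (the elements g with θ(g h g⁻¹) = θ(h) for all h ∈ H) has index prime to p in T, i.e. contains a Sylow p-subgroup of T. -/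
theorem result {G : Type*} [Group G] [Finite G] (p : ℕ) [Fact p.Prime] (M : Ideal Cfsg.AlgInt) (hM : Cfsg.IsPModular p M) (H : Subgroup G) [H.Normal] (b : Set (Cfsg.IrrCharacter ↥H)) (hb : Cfsg.IsPBlock M b) (T : Subgroup G) (hT : (∀ g : G, g ∈ T ↔ ∀ θ ∈ b, ∀ θ' : Cfsg.IrrCharacter ↥H, (∀ h h' : ↥H, (h' : G) = g * h * g⁻¹ → (θ' : ↥H → ℂ) h' = (θ : ↥H → ℂ) h) → θ' ∈ b)) : ∃ θ ∈ b, Cfsg.blockHeight p b (θ : ↥H → ℂ) = 0 ∧ ∃ S : Subgroup G, S ≤ T ∧ (∀ g : G, g ∈ S ↔ (g ∈ T ∧ ∀ h h' : ↥H, (h' : G) = g * h * g⁻¹ → (θ : ↥H → ℂ) h' = (θ : ↥H → ℂ) h)) ∧ ¬ p ∣ S.relIndex T := by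
  classical
  cases nonempty_fintype G
  have hp : p.Prime := Fact.out
  have hT' : ∀ g ∈ T, ∀ θ ∈ b, cjI g θ ∈ b := by
    intro g hg θ hθ
    refine (hT g⁻¹).1 (T.inv_mem hg) θ hθ (cjI g θ) ?_
    intro h h' hh
    rw [cjI_coe, cj_apply]
    refine congrArg θ.1 (Subtype.ext ?_)
    simp only [hh]
    group
  have hHT : H ≤ T := by
    intro g hg
    rw [hT]
    intro θ hθ θ' h'
    have : θ' = θ := by
      apply Subtype.ext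
      funext x
      have e1 := h' (⟨g, hg⟩⁻¹ * x * ⟨g, hg⟩) x (by
        simp only [Subgroup.coe_mul, InvMemClass.coe_inv]
        group)
      rw [e1]
      have := irr_cl θ x (⟨g, hg⟩⁻¹ : H)
      simpa using this
    rw [this]
    exact hθ
  obtain ⟨Q⟩ : Nonempty (Sylow p T) := inferInstance
  set Q' : Subgroup G := (Q : Subgroup T).map T.subtype with hQ'
  have hQT : Q' ≤ T := Subgroup.map_subtype_le _
  have hQi : ¬ p ∣ Q'.relIndex T := by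
    have : Q'.relIndex T = (Q : Subgroup T).index := by
      unfold Subgroup.relIndex
      congr 1
      rw [hQ', Subgroup.subgroupOf]
      exact Subgroup.comap_map_eq_self_of_injective (Subgroup.subtype_injective T) _
    rw [this]
    exact Q.not_dvd_index
  have hQp : IsPGroup p Q' := Q.2.map _
  have hidx : ¬ p ∣ (Q'.subgroupOf H).index := by
    intro hd
    refine hQi (hd.trans ?_)
    change Q'.relIndex H ∣ _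
    rw [← Cfsg.Agent.Lib.BlkH8E.relIndex_normal (H := H) Q']
    exact Dvd.intro _ (Subgroup.relIndex_mul_relIndex Q' (Q' ⊔ H) T le_sup_left (sup_le hQT hHT))
  obtain ⟨θ, hθ, h0, hfix⟩ := Cfsg.Agent.Lib.BlkH8E.exists_fixed hM hb Q'
    (fun q hq => hT' q (hQT hq)) hQp hidx
  refine ⟨θ, hθ, h0, T ⊓ Cfsg.Agent.Lib.CharClifford.inertia (G := G) θ.1, inf_le_left, ?_, ?_⟩
  · intro g
    rw [Subgroup.mem_inf, Cfsg.Agent.Lib.CharClifford.mem_inertia]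
    refine and_congr_right fun _ => ?_
    constructor
    · intro h x x' hx
      have := congrFun h x
      rw [cj_apply] at this
      rw [← this]
      exact congrArg θ.1 (Subtype.ext hx)
    · intro h
      funext x
      rw [cj_apply]
      exact h x _ rfl
  · intro hd
    refine hQi (hd.trans (Subgroup.relIndex_dvd_of_le_left _ ?_))
    refine le_inf hQT fun q hq => ?_
    rw [Cfsg.Agent.Lib.CharClifford.mem_inertia]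
    exact Subtype.ext_iff.1 (hfix q hq)

end Cfsg.Agent.S4723
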