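import Cfsg.Statements.S4725
import Cfsg.Agent.Lib.BlkH8D

set_option autoImplicit false
set_option linter.style.haveILetI false
set_option linter.unusedVariables false
open Cfsg

namespace Cfsg.Agent.S4725
open Cfsg.Agent.Lib.BlkH8D Cfsg.Agent.Lib.BlockRey Cfsg.Agent.Lib.BlockPC Cfsg.Agent.Lib.BlockRk Cfsg.Agent.Lib.BlockInt Cfsg.Agent.Lib.BlockIndIn Cfsg.Agent.Lib.BlockMaxB Cfsg.Agent.Lib.BlockMax Cfsg.Agent.Lib.BlockNilC Cfsg.Agent.Lib.BlockNilB Cfsg.Agent.Lib.BlockNil Cfsg.Agent.Lib.BlockFusB Cfsg.Agent.Lib.BlockFus Cfsg.Agent.Lib.BlockPairF Cfsg.Agent.Lib.BlockPairE Cfsg.Agent.Lib.BlockPairD Cfsg.Agent.Lib.BlockPairC Cfsg.Agent.Lib.BlockPairB Cfsg.Agent.Lib.BlockPair Cfsg.Agent.Lib.BlockBP Cfsg.Agent.Lib.BlockCovB Cfsg.Agent.Lib.BlockTr Cfsg.Agent.Lib.BlockMoreB Cfsg.Agent.Lib.BlockMore Cfsg.Agent.Lib.BlockQuotB Cfsg.Agent.Lib.BlockQuot Cfsg.Agent.Lib.BlockCov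 Cfsg.Agent.Lib.BlockM Cfsg.Agent.Lib.BlockHt Cfsg.Agent.Lib.BlockFirst Cfsg.Agent.Lib.BlockSecond Cfsg.Agent.Lib.BlockInd Cfsg.Agent.Lib.BlockNP Cfsg.Agent.Lib.BlockDeg Cfsg.Agent.Lib.BlockDef Cfsg.Agent.Lib.BlockRed Cfsg.Agent.Lib.BlockOrth Cfsg.Agent.Lib.BlockIdem Cfsg.Agent.Lib.BlockGA Cfsg.Agent.Lib.BlockLoc Cfsg.Agent.Lib.CharBasic Cfsg.Agent.Lib.BlockPP Cfsg.Agent.Lib.CharNormal Cfsg.Agent.Lib.CharPerm Cfsg.Agent.Lib.CharPermB Cfsg.Agent.Lib.BlockSum Cfsg.Agent.Lib.BlockKB Cfsg.Agent.Lib.BlockLar Cfsg.Agent.Lib.BlockBFM Cfsg.Agent.Lib.BlkH8C Cfsg.Agent.Lib.BlkH8B Cfsg.Agent.Lib.BlkH8A Cfsg.Agent.Lib.BlkH7R Cfsg.Agent.Lib.BlkH6L Cfsg.Agent.Lib.BlkH6K Cfsg.Agent.Lib.BlkH6J Cfsg.Agent.Lib.BlkH6I Cfsg.Agent.Lib.BlkH6H Cfsg.Agent.Lib.BlkH6G Cfsg.Agent.Lib.BlkH5T Cfsg.Agent.Lib.BlkH5Q Cfsg.Agent.Lib.BlkH5P Cfsg.Agent.Lib.BlkH5O Cfsg.Agent.Lib.BlkH5N Cfsg.Agent.Lib.BlkH5A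 Cfsg.Agent.Lib.BlkH5G Cfsg.Agent.Lib.BlkH5B Cfsg.Agent.Lib.BlkH5C Cfsg.Agent.Lib.BlkH5D Cfsg.Agent.Lib.BlkH5E Cfsg.Agent.Lib.BlkH5F Cfsg.Agent.Lib.BlkH5L Cfsg.Agent.Lib.BlkH5M Cfsg.Agent.Lib.BlkH5R Cfsg.Agent.Lib.BlkH5S Cfsg.Agent.Lib.BlkH5U Cfsg.Agent.Lib.BlkH5V Cfsg.Agent.Lib.BlkH5W Cfsg.Agent.Lib.BlkH5X Cfsg.Agent.Lib.BlkH6F Cfsg.Agent.Lib.BlkH6N Cfsg.Agent.Lib.BlkH6M Cfsg.Agent.Lib.BlkH6D Cfsg.Agent.Lib.BlkH6C Cfsg.Agent.Lib.BlkH6B Cfsg.Agent.Lib.BlkH6A Cfsg.Agent.Lib.BlkH5Y Cfsg.Agent.Lib.BlkH7C Cfsg.Agent.Lib.BlkH7A Cfsg.Agent.Lib.BlkH7B Cfsg.Agent.Lib.BlkH7E Cfsg.Agent.Lib.BlkH7D Cfsg.Agent.Lib.BlkH7F Cfsg.Agent.Lib.BlkH7G Cfsg.Agent.Lib.BlkH6P Cfsg.Agent.Lib.BlkH6O Cfsg.Agent.Lib.BlkH7H Cfsg.Agent.Lib.BlkH7I Cfsg.Agent.Lib.BlkH7J Cfsg.Agent.Lib.BlkH7K Cfsg.Agent.Lib.BlkH7L Cfsg.Agent.Lib.BlkH7M Cfsg.Agent.Lib.BlkH7N Cfsg.Agent.Lib.BlkH7O Cfsg.Agent.Lib.BlkH7P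 Cfsg.Agent.Lib.BlkH7Q Cfsg.Agent.Lib.BlockKul
open scoped ComplexConjugate



/-- Let p be a prime, M a maximal ideal of the algebraic integers containing p, H a subgroup of the finite group G, and b a p-block of H inducing the p-block B of G, with b and B of the same defect. Then for every height-zero ζ ∈ b there is a height-zero χ ∈ B whose multiplicity in the character induced from ζ is not divisible by p. -/
theorem result {G : Type*} [Group G] [Fintype G] (p : ℕ) [Fact p.Prime] (M : Ideal Cfsg.AlgInt) (hM : Cfsg.IsPModular p M) (H : Subgroup G) (b : Set (Cfsg.IrrCharacter ↥H)) (B : Set (Cfsg.IrrCharacter G)) (hind : Cfsg.IsInducedBlock M H b B) (hdef : Cfsg.blockDefect p b = Cfsg.blockDefect p B) (ζ : Cfsg.IrrCharacter ↥H) (hζ : ζ ∈ b) (hζ0 : Cfsg.blockHeight p b (ζ : ↥H → ℂ) = 0) : ∃ χ ∈ B, Cfsg.blockHeight p B (χ : G → ℂ) = 0 ∧ ∃ a : ℕ, Cfsg.classInner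 (Cfsg.indFun H (ζ : ↥H → ℂ)) (χ : G → ℂ) = (a : ℂ) ∧ ¬ p ∣ a := by
  classical
  cases nonempty_fintype H
  have hp : p.Prime := Fact.out
  have hb := hind.1
  have hB := hind.2.1
  have hlb := isLoc_eB hM hB
  have ichar := Cfsg.Agent.Lib.CharInd.isChar_ind H (isChar_of_irr ζ.2)
  choose m hm using fun χ : IrrCharacter G => exists_nat_inner ichar χ.2
  by_contra hcon
  push Not at hcon
  set S : ℕ := ∑ χ ∈ Finset.univ.filter (· ∈ B), m χ * charDegree χ.1 with hS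
  have e1 : (S : ℂ) = (H.index : ℂ) * ζ.1 1 * om ζ.1 (resGA H (eB B)) := by
    rw [← blockPart_ind_one, blockPart_eq, hS]
    push_cast
    refine Finset.sum_congr rfl fun χ _ => ?_
    rw [hm, charDegree_cast (isChar_of_irr χ.2)]
  obtain ⟨χ₀, hχ₀⟩ := block_nonempty hM hB
  have hlo : MemLocalRing M (om ζ.1 (resGA H (eB B))) :=
    loc_om hM ζ.2 (resGA_isCl H (eB_isCl _)) (resGA_loc hlb)
  have e2 : red hM (om ζ.1 (resGA H (eB B))) = 1 := by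
    rw [← lam_rd hM ζ.2 (resGA_isCl H (eB_isCl _)) (resGA_loc hlb), rd_resGA]
    have := lam_of_induced hM hind hζ hχ₀ (eF_isCl hM B)
    rw [lam_eF_mem hM hlb hχ₀] at this
    exact this
  have hu : ¬ MemLocalIdeal M (om ζ.1 (resGA H (eB B))) := by
    rw [← red_eq_zero_iff hM hlo, e2]
    exact one_ne_zero
  have hi0 : H.index ≠ 0 := Subgroup.index_ne_zero_of_finite
  have hd0 : charDegree ζ.1 ≠ 0 := charDegree_ne_zero ζ.2
  have hS0 : S ≠ 0 := by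
    intro h0
    rw [h0, Nat.cast_zero] at e1
    have := ne_zero_of_not_max hM hu
    have h2 : (H.index : ℂ) ≠ 0 := by exact_mod_cast hi0
    have h3 : ζ.1 1 ≠ 0 := isIrr_one_ne_zero ζ.2
    exact (mul_ne_zero (mul_ne_zero h2 h3) this) e1.symm
  have hle : S.factorization p ≤ (H.index * charDegree ζ.1).factorization p := by
    refine fac_le_of_mul hM hS0 (mul_ne_zero hi0 hd0) (loc_one hM) hlo hu ?_
    rw [mul_one, e1]
    push_cast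
    rw [charDegree_cast (isChar_of_irr ζ.2)]
  have hfz := fac_degree_add (p := p) hζ
  have hGH : (Nat.card G).factorization p = H.index.factorization p + (Nat.card H).factorization p := by
    have h1 := H.card_mul_index
    have h2 := congrArg (fun n => n.factorization p) h1
    simp only [Nat.factorization_mul Nat.card_pos.ne' hi0, Finsupp.add_apply] at h2
    omega
  rw [Nat.factorization_mul hi0 hd0, Finsupp.add_apply] at hle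
  have hdvd : p ^ (H.index.factorization p + (charDegree ζ.1).factorization p + 1) ∣ S := by
    refine Finset.dvd_sum fun χ hχ => ?_
    have hχB := (Finset.mem_filter.1 hχ).2
    have hfx := fac_degree_add (p := p) hχB
    by_cases h0 : blockHeight p B χ.1 = 0
    · have h1 : p ∣ m χ := hcon χ hχB h0 (m χ) (hm χ)
      rw [pow_succ, mul_comm]
      refine mul_dvd_mul h1 ?_
      rw [hp.pow_dvd_iff_le_factorization (charDegree_ne_zero χ.2)]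
      omega
    · refine Dvd.dvd.mul_left ?_ _
      rw [hp.pow_dvd_iff_le_factorization (charDegree_ne_zero χ.2)]
      omega
  rw [hp.pow_dvd_iff_le_factorization hS0] at hdvd
  omega

end Cfsg.Agent.S4725
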