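import Cfsg.Statements.S4727
import Cfsg.Agent.Lib.BlkH6C

set_option autoImplicit false
set_option linter.style.haveILetI false
set_option linter.unusedVariables false
open Cfsg

namespace Cfsg.Agent.S4727
open Cfsg.Agent.Lib.BlkH6C Cfsg.Agent.Lib.BlockRey Cfsg.Agent.Lib.BlockPC Cfsg.Agent.Lib.BlockRk Cfsg.Agent.Lib.BlockInt Cfsg.Agent.Lib.BlockIndIn Cfsg.Agent.Lib.BlockMaxB Cfsg.Agent.Lib.BlockMax Cfsg.Agent.Lib.BlockNilC Cfsg.Agent.Lib.BlockNilB Cfsg.Agent.Lib.BlockNil Cfsg.Agent.Lib.BlockFusB Cfsg.Agent.Lib.BlockFus Cfsg.Agent.Lib.BlockPairF Cfsg.Agent.Lib.BlockPairE Cfsg.Agent.Lib.BlockPairD Cfsg.Agent.Lib.BlockPairC Cfsg.Agent.Lib.BlockPairB Cfsg.Agent.Lib.BlockPair Cfsg.Agent.Lib.BlockBP Cfsg.Agent.Lib.BlockCovB Cfsg.Agent.Lib.BlockTr Cfsg.Agent.Lib.BlockMoreB Cfsg.Agent.Lib.BlockMore Cfsg.Agent.Lib.BlockQuotB Cfsg.Agent.Lib.BlockQuot Cfsg.Agent.Lib.BlockCov Cfsg.Agent.Lib.BlockM Cfsg.Agent.Lib.BlockHt Cfsg.Agent.Lib.BlockFirst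 Cfsg.Agent.Lib.BlockSecond Cfsg.Agent.Lib.BlockInd Cfsg.Agent.Lib.BlockNP Cfsg.Agent.Lib.BlockDeg Cfsg.Agent.Lib.BlockDef Cfsg.Agent.Lib.BlockRed Cfsg.Agent.Lib.BlockOrth Cfsg.Agent.Lib.BlockIdem Cfsg.Agent.Lib.BlockGA Cfsg.Agent.Lib.BlockLoc Cfsg.Agent.Lib.CharBasic Cfsg.Agent.Lib.BlockPP Cfsg.Agent.Lib.CharNormal Cfsg.Agent.Lib.CharPerm Cfsg.Agent.Lib.CharPermB Cfsg.Agent.Lib.BlockSum Cfsg.Agent.Lib.BlockKB Cfsg.Agent.Lib.BlockLar Cfsg.Agent.Lib.BlockBFM Cfsg.Agent.Lib.BlkH6B Cfsg.Agent.Lib.BlkH6A Cfsg.Agent.Lib.BlkH5T Cfsg.Agent.Lib.BlkH5Q Cfsg.Agent.Lib.BlkH5P Cfsg.Agent.Lib.BlkH5O Cfsg.Agent.Lib.BlkH5N Cfsg.Agent.Lib.BlkH5A Cfsg.Agent.Lib.BlkH5G Cfsg.Agent.Lib.BlkH5B Cfsg.Agent.Lib.BlkH5C Cfsg.Agent.Lib.BlkH5D Cfsg.Agent.Lib.BlkH5E Cfsg.Agent.Lib.BlkH5F Cfsg.Agent.Lib.BlkH5L Cfsg.Agent.Lib.BlkH5M Cfsg.Agent.Lib.BlkH5R Cfsg.Agent.Lib.BlkH5S Cfsg.Agent.Lib.BlkH5X Cfsg.Agent.Lib.BlkH5U Cfsg.Agent.Lib.BlkH5V Cfsg.Agent.Lib.BlkH5W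 Cfsg.Agent.Lib.BlkH5Y
open scoped ComplexConjugate



/-- Let p be a prime, π a set of primes containing p, M a maximal ideal of the algebraic integers containing p, and B a p-block of the finite group G with defect group D; let B₁ be the block of N_G(D) with defect group D that induces B (the Brauer correspondent of B). Suppose every element of O_π'(N_G(D)), the largest normal subgroup of N_G(D) whose order has no prime divisor in π, lies in the kernel of every member of B₁. If y is a p-element whose centralizer C has a normal Hall π'-subgroup (every element of C whose order has no prime divisor in π lies in O_π'(C)), then χ(y x) = χ(y) for every χ ∈ B and every x ∈ C whose order has no prime divisor in π. -/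
theorem result {G : Type*} [Group G] [Finite G] (p : ℕ) [Fact p.Prime] (M : Ideal Cfsg.AlgInt) (hM : Cfsg.IsPModular p M) (π : Set ℕ) (hpπ : p ∈ π) (B : Set (Cfsg.IrrCharacter G)) (hB : Cfsg.IsPBlock M B) (D : Subgroup G) (hBD : Cfsg.IsDefectGroup p M B D) (B₁ : Set (Cfsg.IrrCharacter ↥(Subgroup.normalizer (D : Set G)))) (hB₁ : Cfsg.IsInducedBlock M (Subgroup.normalizer (D : Set G)) B₁ B) (hB₁D : Cfsg.IsDefectGroup p M B₁ (D.subgroupOf (Subgroup.normalizer (D : Set G)))) (hker : ∀ n : ↥(Subgroup.normalizer (D : Set G)), n ∈ Cfsg.piCore {q | q ∉ π} ↥(Subgroup.normalizer (D : Set G)) → n ∈ Cfsg.blockKer B₁) (y : G) (hy : ∃ k : ℕ, orderOf y = p ^ k) (hC : ∀ x : ↥(Subgroup.centralizer ({y} : Set G)), (∀ q : ℕ, q.Prime → q ∣ orderOf x → q ∉ π) → x ∈ Cfsg.piCore {q | q ∉ π} ↥(Subgroup.centralizer ({y} : Set G))) : ∀ χ ∈ B, ∀ x : G, x ∈ Subgroup.centralizer ({y} : Set G) → (∀ q : ℕ, q.Prime → q ∣ orderOf x → q ∉ π) → (χ : G → ℂ) (y * x)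 = (χ : G → ℂ) y := by
  classical
  haveI := factP hM
  cases nonempty_fintype G
  intro χ hχ x hx hxp
  haveI : Fintype ↥(Subgroup.centralizer ({y} : Set G)) := Fintype.ofFinite _
  haveI : Fintype {B : Set (IrrCharacter ↥(Subgroup.centralizer ({y} : Set G))) // IsPBlock M B} :=
    Fintype.ofFinite _
  set C := Subgroup.centralizer ({y} : Set G) with hCdef
  set F : C → ℂ := fun c : C => χ.1 (y * (c : G)) with hF
  have hFcl : IsClassFunction C F := translate_classFn (isChar_classFn (isChar_of_irr χ.2)) y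
  have hexp : ∀ u : C, F u = ∑ B' : {B : Set (IrrCharacter C) // IsPBlock M B}, blockPart B'.1 F u := by
    intro u
    have h1 := blockPart_compl_add hFcl (∅ : Set (IrrCharacter C)) u
    rw [blockPart_empty, zero_add, Set.compl_empty, blockPart_eq, Finset.filter_true_of_mem (fun _ _ => Set.mem_univ _),
      sum_by_blocks hM] at h1
    rw [h1]
    refine Finset.sum_congr rfl (fun B' _ => ?_)
    rw [blockPart_eq]
  have hx1 : ¬ p ∣ orderOf (⟨x, hx⟩ : C) := by
    rw [Subgroup.orderOf_mk]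
    exact fun h => hxp p hM.1 h hpπ
  have hkey : F ⟨x, hx⟩ = F 1 := by
    rw [hexp, hexp 1]
    refine Finset.sum_congr rfl (fun B' _ => ?_)
    obtain ⟨B₂, hB₂⟩ := exists_induced_centralizer hM hy B'.2
    by_cases h : B₂ = B
    · subst h
      obtain ⟨D₀, hD₀⟩ := exists_defectGroup hM B'.2
      have hyC : y ∈ C := Subgroup.mem_centralizer_singleton_iff.2 rfl
      -- `y` lies in the defect group
      have hyD : y ∈ D₀.map C.subtype := by
        have hZ : (Subgroup.zpowers (⟨y, hyC⟩ : C)).Normal := by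
          constructor
          intro n hn g
          have hc : g * n * g⁻¹ = n := by
            obtain ⟨k, hk⟩ := hn
            have h1 : Commute g (⟨y, hyC⟩ : C) := by
              apply Subtype.ext
              exact Subgroup.mem_centralizer_singleton_iff.1 g.2
            have h2 : Commute g n := by
              rw [← hk]
              exact h1.zpow_right k
            rw [h2.eq, mul_inv_cancel_right]
          rw [hc]; exact hn
        have hZp : IsPGroup p (Subgroup.zpowers (⟨y, hyC⟩ : C)) := by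
          obtain ⟨k, hk⟩ := hy
          refine IsPGroup.of_card (n := k) ?_
          rw [Nat.card_zpowers, Subgroup.orderOf_mk, hk]
        have h1 := normal_le_defectGroup hM B'.2 hD₀ hZp
        exact ⟨⟨y, hyC⟩, h1 (Subgroup.mem_zpowers _), rfl⟩
      have hCD : Subgroup.centralizer ((D₀.map C.subtype : Subgroup G) : Set G) ≤ C := by
        intro z hz
        rw [hCdef, Subgroup.mem_centralizer_singleton_iff]
        exact (Subgroup.mem_centralizer_iff.1 hz y hyD).symm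
      have hk := ker_local hM hpπ (fun c hc => pk_of_corr hM hpπ hBD hB₁ hB₁D hker hc) hB₂ hD₀ hCD
      have hxk := hk ⟨x, hx⟩ (hC ⟨x, hx⟩ (by
        intro q hq hd
        rw [Subgroup.orderOf_mk] at hd
        exact hxp q hq hd))
      rw [blockPart_eq, blockPart_eq]
      refine Finset.sum_congr rfl (fun ξ hξ => ?_)
      rw [hxk ξ (Finset.mem_filter.1 hξ).2]
    · have hχ' : χ ∉ B₂ := fun h' => h (block_eq_of_mem_of_mem hM hB₂.2.1 hB h' hχ)
      rw [second_main_part hM hy hB₂ hχ' hx1, second_main_part hM hy hB₂ hχ' (by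
        rw [orderOf_one]; exact hM.1.not_dvd_one)]
  have h2 : F 1 = χ.1 y := by
    rw [hF]
    change χ.1 (y * ((1 : C) : G)) = χ.1 y
    rw [Subgroup.coe_one, mul_one]
  rw [← h2]
  exact hkey

end Cfsg.Agent.S4727
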