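import Cfsg.Statements.S4730
import Cfsg.Agent.Lib.BlkH8B

set_option autoImplicit false
set_option linter.style.haveILetI false
set_option linter.unusedVariables false
open Cfsg

namespace Cfsg.Agent.S4730
open Cfsg.Agent.Lib.BlkH8B Cfsg.Agent.Lib.BlockRey Cfsg.Agent.Lib.BlockPC Cfsg.Agent.Lib.BlockRk Cfsg.Agent.Lib.BlockInt Cfsg.Agent.Lib.BlockIndIn Cfsg.Agent.Lib.BlockMaxB Cfsg.Agent.Lib.BlockMax Cfsg.Agent.Lib.BlockNilC Cfsg.Agent.Lib.BlockNilB Cfsg.Agent.Lib.BlockNil Cfsg.Agent.Lib.BlockFusB Cfsg.Agent.Lib.BlockFus Cfsg.Agent.Lib.BlockPairF Cfsg.Agent.Lib.BlockPairE Cfsg.Agent.Lib.BlockPairD Cfsg.Agent.Lib.BlockPairC Cfsg.Agent.Lib.BlockPairB Cfsg.Agent.Lib.BlockPair Cfsg.Agent.Lib.BlockBP Cfsg.Agent.Lib.BlockCovB Cfsg.Agent.Lib.BlockTr Cfsg.Agent.Lib.BlockMoreB Cfsg.Agent.Lib.BlockMore Cfsg.Agent.Lib.BlockQuotB Cfsg.Agent.Lib.BlockQuot Cfsg.Agent.Lib.BlockCov Cfsg.Agent.Lib.BlockM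 Cfsg.Agent.Lib.BlockHt Cfsg.Agent.Lib.BlockFirst Cfsg.Agent.Lib.BlockSecond Cfsg.Agent.Lib.BlockInd Cfsg.Agent.Lib.BlockNP Cfsg.Agent.Lib.BlockDeg Cfsg.Agent.Lib.BlockDef Cfsg.Agent.Lib.BlockRed Cfsg.Agent.Lib.BlockOrth Cfsg.Agent.Lib.BlockIdem Cfsg.Agent.Lib.BlockGA Cfsg.Agent.Lib.BlockLoc Cfsg.Agent.Lib.CharBasic Cfsg.Agent.Lib.BlockPP Cfsg.Agent.Lib.CharNormal Cfsg.Agent.Lib.CharPerm Cfsg.Agent.Lib.CharPermB Cfsg.Agent.Lib.BlockSum Cfsg.Agent.Lib.BlockKB Cfsg.Agent.Lib.BlockLar Cfsg.Agent.Lib.BlockBFM Cfsg.Agent.Lib.BlkH8A Cfsg.Agent.Lib.BlkH7R Cfsg.Agent.Lib.BlkH6L Cfsg.Agent.Lib.BlkH6K Cfsg.Agent.Lib.BlkH6J Cfsg.Agent.Lib.BlkH6I Cfsg.Agent.Lib.BlkH6H Cfsg.Agent.Lib.BlkH6G Cfsg.Agent.Lib.BlkH5T Cfsg.Agent.Lib.BlkH5Q Cfsg.Agent.Lib.BlkH5P Cfsg.Agent.Lib.BlkH5O Cfsg.Agent.Lib.BlkH5N Cfsg.Agent.Lib.BlkH5A Cfsg.Agent.Lib.BlkH5G Cfsg.Agent.Lib.BlkH5B Cfsg.Agent.Lib.BlkH5C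 Cfsg.Agent.Lib.BlkH5D Cfsg.Agent.Lib.BlkH5E Cfsg.Agent.Lib.BlkH5F Cfsg.Agent.Lib.BlkH5L Cfsg.Agent.Lib.BlkH5M Cfsg.Agent.Lib.BlkH5R Cfsg.Agent.Lib.BlkH5S Cfsg.Agent.Lib.BlkH5U Cfsg.Agent.Lib.BlkH5V Cfsg.Agent.Lib.BlkH5W Cfsg.Agent.Lib.BlkH5X Cfsg.Agent.Lib.BlkH6F Cfsg.Agent.Lib.BlkH6N Cfsg.Agent.Lib.BlkH6M Cfsg.Agent.Lib.BlkH6D Cfsg.Agent.Lib.BlkH6C Cfsg.Agent.Lib.BlkH6B Cfsg.Agent.Lib.BlkH6A Cfsg.Agent.Lib.BlkH5Y Cfsg.Agent.Lib.BlkH7C Cfsg.Agent.Lib.BlkH7A Cfsg.Agent.Lib.BlkH7B Cfsg.Agent.Lib.BlkH7E Cfsg.Agent.Lib.BlkH7D Cfsg.Agent.Lib.BlkH7F Cfsg.Agent.Lib.BlkH7G Cfsg.Agent.Lib.BlkH6P Cfsg.Agent.Lib.BlkH6O Cfsg.Agent.Lib.BlkH7H Cfsg.Agent.Lib.BlkH7I Cfsg.Agent.Lib.BlkH7J Cfsg.Agent.Lib.BlkH7K Cfsg.Agent.Lib.BlkH7L Cfsg.Agent.Lib.BlkH7M Cfsg.Agent.Lib.BlkH7N Cfsg.Agent.Lib.BlkH7O Cfsg.Agent.Lib.BlkH7P Cfsg.Agent.Lib.BlkH7Q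
open scoped ComplexConjugate



/-- Let p be a prime, M a maximal ideal of the algebraic integers containing p, and G a finite group with trivial centre, Sylow p-subgroup P of order p^a and centre Z(P) of order p^b. If χ is a faithful irreducible character of G whose degree is a power of p, then the p-block of χ has defect at most a − b; in particular, if P is abelian then χ lies in a block of defect zero. -/
theorem result {G : Type*} [Group G] [Finite G] (p : ℕ) [Fact p.Prime] (M : Ideal Cfsg.AlgInt) (hM : Cfsg.IsPModular p M) (hZ : Subgroup.center G = ⊥) (P : Sylow p G) (a b : ℕ) (ha : Nat.card P = p ^ a) (hb : Nat.card (Subgroup.center ↥(P : Subgroup G)) = p ^ b) (χ : Cfsg.IrrCharacter G) (hfaith : ∀ g : G, (χ : G → ℂ) g = (χ : G → ℂ) 1 → g = 1) (n : ℕ) (hdeg : Cfsg.charDegree (χ : G → ℂ) = p ^ n) : Cfsg.blockDefect p (Cfsg.blockOf M (χ : G → ℂ)) ≤ a - b ∧ (IsMulCommutative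 ↥(P : Subgroup G) → Cfsg.blockDefect p (Cfsg.blockOf M (χ : G → ℂ)) = 0) := by
  classical
  cases nonempty_fintype G
  have hp : p.Prime := Fact.out
  have hdeg' : χ.1 1 = ((p ^ n : ℕ) : ℂ) := by
    rw [← hdeg, charDegree_cast (isChar_of_irr χ.2)]
  have hfa : (Nat.card G).factorization p = a := by
    have := Sylow.card_eq_multiplicity P
    rw [ha] at this
    exact (Nat.pow_right_injective hp.two_le this).symm
  -- the centre of P in G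
  set Z : Subgroup G := (Subgroup.center ↥(P : Subgroup G)).map (P : Subgroup G).subtype with hZdef
  haveI : Fintype Z := Fintype.ofFinite _
  have hcard : Nat.card Z = p ^ b := by
    rw [← hb]
    exact Nat.card_congr ((Subgroup.center ↥(P : Subgroup G)).equivMapOfInjective _
      (Subgroup.subtype_injective _)).toEquiv.symm
  have hzc : ∀ z ∈ Z, ∀ x ∈ (P : Subgroup G), Commute z x := by
    rintro z ⟨z', hz', rfl⟩ x hx
    have := Subgroup.mem_center_iff.1 hz' ⟨x, hx⟩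
    exact (congrArg Subtype.val this).symm
  have hzero : ∀ z ∈ Z, z ≠ 1 → χ.1 z = 0 := by
    intro z hz hz1
    rcases Cfsg.Agent.Lib.BlkH8B.zero_of_p_pow P (hzc z hz) χ.2 hdeg' with h | h
    · exact h
    · have := Cfsg.Agent.Lib.BlkH8B.mem_center_of_norm χ.2 hfaith hdeg' h
      rw [hZ, Subgroup.mem_bot] at this
      exact absurd this hz1
  have hB := isPBlock_blockOf M χ
  have hmin : ∀ ψ ∈ blockOf M χ.1, b ≤ (charDegree ψ.1).factorization p := by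
    intro ψ hψ
    have h1 := Cfsg.Agent.Lib.BlkH8B.val_of_max hM (Z := Z) (ψ := ψ) (by
      intro z hz hz1
      have hs := hψ z
      have e1 : centralChar χ.1 z = 0 := by simp [centralChar, hzero z hz hz1]
      rw [e1, zero_sub, max_neg_iff] at hs
      have hidx := Cfsg.Agent.Lib.BlkH8B.index_coprime P (hzc z hz)
      have hidx' : ¬ MemLocalIdeal M (((Subgroup.centralizer ({z} : Set G)).index : ℕ) : ℂ) := by
        rw [max_natCast_iff hM]; exact hidx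
      have e2 : ψ.1 z / ψ.1 1 = centralChar ψ.1 z / (((Subgroup.centralizer ({z} : Set G)).index : ℕ) : ℂ) := by
        unfold centralChar
        have : (((Subgroup.centralizer ({z} : Set G)).index : ℕ) : ℂ) ≠ 0 := ne_zero_of_not_max hM hidx'
        field_simp
      rw [e2]
      exact max_div hM hs (loc_natCast hM _) hidx')
    rw [hcard, hp.factorization_pow] at h1
    simpa using h1
  have hmain : blockDefect p (blockOf M χ.1) ≤ a - b := by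
    unfold blockDefect
    rw [hfa]
    refine Nat.sub_le_sub_left ?_ a
    refine le_csInf ?_ ?_
    · exact ⟨_, χ, self_mem_blockOf hM χ, rfl⟩
    · rintro _ ⟨ψ, hψ, rfl⟩
      exact hmin ψ hψ
  refine ⟨hmain, fun hcomm => ?_⟩
  have hab : a = b := by
    have h1 : Subgroup.center ↥(P : Subgroup G) = ⊤ := by
      rw [Subgroup.eq_top_iff']
      intro x
      rw [Subgroup.mem_center_iff]
      intro y
      exact hcomm.is_comm.comm y x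
    rw [h1, Subgroup.card_top] at hb
    exact Nat.pow_right_injective hp.two_le (ha.symm.trans hb)
  rw [hab, Nat.sub_self] at hmain
  exact Nat.le_zero.1 hmain

end Cfsg.Agent.S4730
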