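import Cfsg.Statements.S4733
import Cfsg.Agent.Lib.BlkH5J

set_option autoImplicit false
set_option linter.style.haveILetI false
set_option linter.unusedVariables false
open Cfsg

namespace Cfsg.Agent.S4733
open Cfsg.Agent.Lib.BlkH5J Cfsg.Agent.Lib.BlockRey Cfsg.Agent.Lib.BlockPC Cfsg.Agent.Lib.BlockRk Cfsg.Agent.Lib.BlockInt Cfsg.Agent.Lib.BlockIndIn Cfsg.Agent.Lib.BlockMaxB Cfsg.Agent.Lib.BlockMax Cfsg.Agent.Lib.BlockNilC Cfsg.Agent.Lib.BlockNilB Cfsg.Agent.Lib.BlockNil Cfsg.Agent.Lib.BlockFusB Cfsg.Agent.Lib.BlockFus Cfsg.Agent.Lib.BlockPairF Cfsg.Agent.Lib.BlockPairE Cfsg.Agent.Lib.BlockPairD Cfsg.Agent.Lib.BlockPairC Cfsg.Agent.Lib.BlockPairB Cfsg.Agent.Lib.BlockPair Cfsg.Agent.Lib.BlockBP Cfsg.Agent.Lib.BlockCovB Cfsg.Agent.Lib.BlockTr Cfsg.Agent.Lib.BlockMoreB Cfsg.Agent.Lib.BlockMore Cfsg.Agent.Lib.BlockQuotB Cfsg.Agent.Lib.BlockQuot Cfsg.Agent.Lib.BlockCov Cfsg.Agent.Lib.BlockM Cfsg.Agent.Lib.BlockHt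 Cfsg.Agent.Lib.BlockFirst Cfsg.Agent.Lib.BlockSecond Cfsg.Agent.Lib.BlockInd Cfsg.Agent.Lib.BlockNP Cfsg.Agent.Lib.BlockDeg Cfsg.Agent.Lib.BlockDef Cfsg.Agent.Lib.BlockRed Cfsg.Agent.Lib.BlockOrth Cfsg.Agent.Lib.BlockIdem Cfsg.Agent.Lib.BlockGA Cfsg.Agent.Lib.BlockLoc Cfsg.Agent.Lib.CharBasic Cfsg.Agent.Lib.BlockPP Cfsg.Agent.Lib.CharNormal Cfsg.Agent.Lib.CharPerm Cfsg.Agent.Lib.CharPermB Cfsg.Agent.Lib.BlockSum Cfsg.Agent.Lib.BlockKB Cfsg.Agent.Lib.BlockLar Cfsg.Agent.Lib.BlockBFM Cfsg.Agent.Lib.BlkH5A Cfsg.Agent.Lib.BlkH5B Cfsg.Agent.Lib.BlkH5C Cfsg.Agent.Lib.BlkH5D Cfsg.Agent.Lib.BlkH5E Cfsg.Agent.Lib.BlkH5F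
open scoped ComplexConjugate



/-- Let p be a prime, M a maximal ideal of the algebraic integers containing p, and B a p-block of the finite group G with k irreducible characters and p-regular rank l (the number of irreducible Brauer characters). Then l ≤ k, and the following are equivalent: B has defect 0; k = l = 1; k = l. -/
theorem result {G : Type*} [Group G] [Finite G] (p : ℕ) [Fact p.Prime] (M : Ideal Cfsg.AlgInt) (hM : Cfsg.IsPModular p M) (B : Set (Cfsg.IrrCharacter G)) (hB : Cfsg.IsPBlock M B) : Cfsg.blockRank p B ≤ Nat.card B ∧ (Cfsg.blockDefect p B = 0 ↔ (Nat.card B = 1 ∧ Cfsg.blockRank p B = 1)) ∧ (Cfsg.blockDefect p B = 0 ↔ Nat.card B = Cfsg.blockRank p B) := by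
  classical
  cases nonempty_fintype G
  have hp := hM.1
  haveI : Fintype (⊤ : Subgroup G) := Fintype.ofFinite _
  -- the trace
  have htr : ∑ ξ ∈ Finset.univ.filter (· ∈ B), (bf p B ξ ξ : ℂ) =
      ((p ^ blockDefect p B : ℕ) : ℂ) * blockRank p B := by
    have hG0 : (Nat.card G : ℂ) ≠ 0 := Nat.cast_ne_zero.2 Nat.card_pos.ne'
    have e1 : ∀ ξ ∈ Finset.univ.filter (· ∈ B),
        (Nat.card G : ℂ) * (bf p B ξ ξ : ℂ) = ((p ^ blockDefect p B : ℕ) : ℂ) *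
          ∑ z ∈ Finset.univ.filter (fun z : G => ¬ p ∣ orderOf z), ξ.1 z * conj (ξ.1 z) := by
      intro ξ hξ
      rw [← bf_spec hM hB (Finset.mem_filter.1 hξ).2 ξ, classInner_def, mul_inv_cancel_left₀ hG0,
        Finset.mul_sum, Finset.sum_filter]
      refine Finset.sum_congr rfl (fun z _ => ?_)
      rw [rp_eq]
      dsimp only
      by_cases hz : p ∣ orderOf z
      · rw [if_pos hz, if_neg (not_not.2 hz), zero_mul]
      · rw [if_neg hz, if_pos hz, mul_assoc]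
    apply mul_left_cancel₀ hG0
    have h1 := rank_sum hM hB
    rw [finsum_blk] at h1
    rw [Finset.mul_sum, Finset.sum_congr rfl e1, ← Finset.mul_sum, h1]
    ring
  have htr' : ∑ ξ ∈ Finset.univ.filter (· ∈ B), bf p B ξ ξ =
      ((p ^ blockDefect p B : ℕ) : ℤ) * blockRank p B := by exact_mod_cast htr
  have hpos : (0 : ℤ) < ((p ^ blockDefect p B : ℕ) : ℤ) := by exact_mod_cast pow_pos hp.pos _
  have hcardB : Nat.card B = (Finset.univ.filter (· ∈ B)).card := by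
    rw [Nat.card_eq_fintype_card, Fintype.card_subtype]
  have hmul : ∀ χ ∈ Finset.univ.filter (· ∈ B), ∑ ψ ∈ Finset.univ.filter (· ∈ B),
      bf p B χ ψ * bf p B χ ψ = ((p ^ blockDefect p B : ℕ) : ℤ) * bf p B χ χ := fun χ hχ =>
    bf_mul hM hB (Finset.mem_filter.1 hχ).2 (Finset.mem_filter.1 hχ).2
  have hle : ∀ χ ∈ Finset.univ.filter (· ∈ B), bf p B χ χ ≤ ((p ^ blockDefect p B : ℕ) : ℤ) := by
    intro χ hχ
    have h1 := hmul χ hχ
    have h2 : bf p B χ χ * bf p B χ χ ≤ ∑ ψ ∈ Finset.univ.filter (· ∈ B),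
        bf p B χ ψ * bf p B χ ψ :=
      Finset.single_le_sum (f := fun ψ => bf p B χ ψ * bf p B χ ψ) (fun ψ _ => mul_self_nonneg _) hχ
    rw [h1] at h2
    by_contra hcon
    push Not at hcon
    have h3 : 0 < bf p B χ χ := hpos.trans hcon
    nlinarith
  have h1 : blockRank p B ≤ Nat.card B := by
    have h2 := Finset.sum_le_sum hle
    rw [htr', Finset.sum_const, ← hcardB, nsmul_eq_mul, mul_comm] at h2
    have h3 := le_of_mul_le_mul_right h2 hpos
    exact_mod_cast h3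
  -- equality
  have h2 : Nat.card B = blockRank p B → Nat.card B = 1 ∧ blockDefect p B = 0 := by
    intro heq
    have h3 : ∀ χ ∈ Finset.univ.filter (· ∈ B), bf p B χ χ = ((p ^ blockDefect p B : ℕ) : ℤ) := by
      have h4 : ∑ χ ∈ Finset.univ.filter (· ∈ B), (((p ^ blockDefect p B : ℕ) : ℤ) - bf p B χ χ) = 0 := by
        rw [Finset.sum_sub_distrib, htr', Finset.sum_const, ← hcardB, nsmul_eq_mul, heq]
        ring
      intro χ hχ
      have h5 := (Finset.sum_eq_zero_iff_of_nonneg (fun χ hχ => sub_nonneg.2 (hle χ hχ))).1 h4 χ hχ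
      linarith
    have h4 : ∀ χ ∈ Finset.univ.filter (· ∈ B), ∀ ψ ∈ Finset.univ.filter (· ∈ B), χ ≠ ψ →
        bf p B χ ψ = 0 := by
      intro χ hχ ψ hψ hne
      have h5 := hmul χ hχ
      rw [← Finset.add_sum_erase _ _ hχ, h3 χ hχ] at h5
      have h6 : ∑ ψ ∈ (Finset.univ.filter (· ∈ B)).erase χ, bf p B χ ψ * bf p B χ ψ = 0 := by
        linarith
      have h7 := (Finset.sum_eq_zero_iff_of_nonneg (fun ψ _ => mul_self_nonneg _)).1 h6 ψ
        (Finset.mem_erase.2 ⟨Ne.symm hne, hψ⟩)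
      exact mul_self_eq_zero.1 h7
    obtain ⟨ψ, hψ, hψ0⟩ := exists_height_zero (block_nonempty hM hB) p
    have hψ' : ψ ∈ Finset.univ.filter (· ∈ B) := Finset.mem_filter.2 ⟨Finset.mem_univ _, hψ⟩
    have h5 : ∀ χ ∈ Finset.univ.filter (· ∈ B), χ = ψ := by
      intro χ hχ
      by_contra hne
      exact bf_ne_zero hM hB (Finset.mem_filter.1 hχ).2 hψ hψ0 (h4 χ hχ ψ hψ' hne)
    constructor
    · rw [hcardB, Finset.card_eq_one]
      exact ⟨ψ, by
        ext χ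
        rw [Finset.mem_singleton]
        exact ⟨h5 χ, fun h => h ▸ hψ'⟩⟩
    · have h6 := bf_not_dvd hM hB hψ hψ hψ0
      rw [hψ0, h3 ψ hψ'] at h6
      by_contra hne
      apply h6
      exact_mod_cast pow_dvd_pow p (by omega : 0 + 1 ≤ blockDefect p B)
  have h3 : blockDefect p B = 0 → Nat.card B = 1 ∧ blockRank p B = 1 := by
    intro h0
    obtain ⟨χ, hχ⟩ := block_nonempty hM hB
    have hbf : ∀ χ ∈ Finset.univ.filter (· ∈ B), ∀ ψ ∈ Finset.univ.filter (· ∈ B),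
        bf p B χ ψ * bf p B χ ψ ≤ bf p B χ χ := by
      intro χ hχ ψ hψ
      have h1 := hmul χ hχ
      rw [h0] at h1
      have h2 : bf p B χ ψ * bf p B χ ψ ≤ ∑ ψ ∈ Finset.univ.filter (· ∈ B),
          bf p B χ ψ * bf p B χ ψ :=
        Finset.single_le_sum (f := fun ψ => bf p B χ ψ * bf p B χ ψ) (fun ψ _ => mul_self_nonneg _) hψ
      rw [h1] at h2
      simpa using h2
    obtain ⟨ψ, hψ, hψ0⟩ := exists_height_zero (block_nonempty hM hB) p
    have hψ' : ψ ∈ Finset.univ.filter (· ∈ B) := Finset.mem_filter.2 ⟨Finset.mem_univ _, hψ⟩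
    have hle' : bf p B ψ ψ ≤ 1 := by
      have := hle ψ hψ'
      rw [h0] at this
      simpa using this
    have hge : bf p B ψ ψ ≠ 0 := bf_ne_zero hM hB hψ hψ hψ0
    have hge' : 0 ≤ bf p B ψ ψ := (mul_self_nonneg _).trans (hbf ψ hψ' ψ hψ')
    have h1' : bf p B ψ ψ = 1 := by omega
    have h4 := hmul ψ hψ'
    rw [← Finset.add_sum_erase _ _ hψ', h1', h0] at h4
    have h5 : ∑ χ ∈ (Finset.univ.filter (· ∈ B)).erase ψ, bf p B ψ χ * bf p B ψ χ = 0 := by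
      simpa using h4
    have h6 : ∀ χ ∈ Finset.univ.filter (· ∈ B), χ = ψ := by
      intro χ hχ
      by_contra hne
      have h7 := (Finset.sum_eq_zero_iff_of_nonneg (fun ψ _ => mul_self_nonneg _)).1 h5 χ
        (Finset.mem_erase.2 ⟨hne, hχ⟩)
      have h8 := mul_self_eq_zero.1 h7
      rw [bf_symm hM hB hψ (Finset.mem_filter.1 hχ).2] at h8
      exact bf_ne_zero hM hB (Finset.mem_filter.1 hχ).2 hψ hψ0 h8
    have h7 : Finset.univ.filter (· ∈ B) = {ψ} := by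
      ext χ
      rw [Finset.mem_singleton]
      exact ⟨h6 χ, fun h => h ▸ hψ'⟩
    have h8 : Nat.card B = 1 := by rw [hcardB, h7, Finset.card_singleton]
    refine ⟨h8, ?_⟩
    rw [h7, Finset.sum_singleton, h1', h0] at htr'
    have : (1 : ℤ) = blockRank p B := by simpa using htr'
    exact_mod_cast this.symm
  exact ⟨h1, ⟨h3, fun h => (h2 (h.1.trans h.2.symm)).2⟩, ⟨fun h => (h3 h).1.trans (h3 h).2.symm,
    fun h => (h2 h).2⟩⟩

end Cfsg.Agent.S4733
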