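import Cfsg.Statements.S4735
import Cfsg.Agent.Lib.BlkH8P

set_option autoImplicit false
set_option linter.style.haveILetI false
set_option linter.unusedVariables false
open Cfsg

namespace Cfsg.Agent.S4735
open Cfsg.Agent.Lib.BlkH8P Cfsg.Agent.Lib.BlockRey Cfsg.Agent.Lib.BlockPC Cfsg.Agent.Lib.BlockRk Cfsg.Agent.Lib.BlockInt Cfsg.Agent.Lib.BlockIndIn Cfsg.Agent.Lib.BlockMaxB Cfsg.Agent.Lib.BlockMax Cfsg.Agent.Lib.BlockNilC Cfsg.Agent.Lib.BlockNilB Cfsg.Agent.Lib.BlockNil Cfsg.Agent.Lib.BlockFusB Cfsg.Agent.Lib.BlockFus Cfsg.Agent.Lib.BlockPairF Cfsg.Agent.Lib.BlockPairE Cfsg.Agent.Lib.BlockPairD Cfsg.Agent.Lib.BlockPairC Cfsg.Agent.Lib.BlockPairB Cfsg.Agent.Lib.BlockPair Cfsg.Agent.Lib.BlockBP Cfsg.Agent.Lib.BlockCovB Cfsg.Agent.Lib.BlockTr Cfsg.Agent.Lib.BlockMoreB Cfsg.Agent.Lib.BlockMore Cfsg.Agent.Lib.BlockQuotB Cfsg.Agent.Lib.BlockQuot Cfsg.Agent.Lib.BlockCov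 Cfsg.Agent.Lib.BlockM Cfsg.Agent.Lib.BlockHt Cfsg.Agent.Lib.BlockFirst Cfsg.Agent.Lib.BlockSecond Cfsg.Agent.Lib.BlockInd Cfsg.Agent.Lib.BlockNP Cfsg.Agent.Lib.BlockDeg Cfsg.Agent.Lib.BlockDef Cfsg.Agent.Lib.BlockRed Cfsg.Agent.Lib.BlockOrth Cfsg.Agent.Lib.BlockIdem Cfsg.Agent.Lib.BlockGA Cfsg.Agent.Lib.BlockLoc Cfsg.Agent.Lib.CharBasic Cfsg.Agent.Lib.BlockPP Cfsg.Agent.Lib.CharNormal Cfsg.Agent.Lib.CharPerm Cfsg.Agent.Lib.CharPermB Cfsg.Agent.Lib.BlockSum Cfsg.Agent.Lib.BlockKB Cfsg.Agent.Lib.BlockLar Cfsg.Agent.Lib.BlockBFM Cfsg.Agent.Lib.BlkH8A Cfsg.Agent.Lib.BlkH7R Cfsg.Agent.Lib.BlkH6L Cfsg.Agent.Lib.BlkH6K Cfsg.Agent.Lib.BlkH6J Cfsg.Agent.Lib.BlkH6I Cfsg.Agent.Lib.BlkH6H Cfsg.Agent.Lib.BlkH6G Cfsg.Agent.Lib.BlkH5T Cfsg.Agent.Lib.BlkH5Q Cfsg.Agent.Lib.BlkH5P Cfsg.Agent.Lib.BlkH5O Cfsg.Agent.Lib.BlkH5N Cfsg.Agent.Lib.BlkH5A Cfsg.Agent.Lib.BlkH5G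 Cfsg.Agent.Lib.BlkH5B Cfsg.Agent.Lib.BlkH5C Cfsg.Agent.Lib.BlkH5D Cfsg.Agent.Lib.BlkH5E Cfsg.Agent.Lib.BlkH5F Cfsg.Agent.Lib.BlkH5L Cfsg.Agent.Lib.BlkH5M Cfsg.Agent.Lib.BlkH5R Cfsg.Agent.Lib.BlkH5S Cfsg.Agent.Lib.BlkH5U Cfsg.Agent.Lib.BlkH5V Cfsg.Agent.Lib.BlkH5W Cfsg.Agent.Lib.BlkH5X Cfsg.Agent.Lib.BlkH6F Cfsg.Agent.Lib.BlkH6N Cfsg.Agent.Lib.BlkH6M Cfsg.Agent.Lib.BlkH6D Cfsg.Agent.Lib.BlkH6C Cfsg.Agent.Lib.BlkH6B Cfsg.Agent.Lib.BlkH6A Cfsg.Agent.Lib.BlkH5Y Cfsg.Agent.Lib.BlkH7C Cfsg.Agent.Lib.BlkH7A Cfsg.Agent.Lib.BlkH7B Cfsg.Agent.Lib.BlkH7E Cfsg.Agent.Lib.BlkH7D Cfsg.Agent.Lib.BlkH7F Cfsg.Agent.Lib.BlkH7G Cfsg.Agent.Lib.BlkH6P Cfsg.Agent.Lib.BlkH6O Cfsg.Agent.Lib.BlkH7H Cfsg.Agent.Lib.BlkH7I Cfsg.Agent.Lib.BlkH7J Cfsg.Agent.Lib.BlkH7K Cfsg.Agent.Lib.BlkH7L Cfsg.Agent.Lib.BlkH7M Cfsg.Agent.Lib.BlkH7N Cfsg.Agent.Lib.BlkH7O Cfsg.Agent.Lib.BlkH7P Cfsg.Agent.Lib.BlkH7Q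 Cfsg.Agent.Lib.BlkH8F Cfsg.Agent.Lib.BlkH8E Cfsg.Agent.Lib.BlkH8D Cfsg.Agent.Lib.BlkH8C Cfsg.Agent.Lib.BlkH8B Cfsg.Agent.Lib.BlockKul Cfsg.Agent.Lib.BlkH8O
open scoped ComplexConjugate



/-- Let p be a prime, M a maximal ideal of the algebraic integers containing p, G a finite group, H = O_p'(G) and Ḡ = G/H. For x ∈ G write λ(G, x) for the sum of |χ(x)|^2 over the irreducible characters χ in the principal p-block of G. Then λ(G, x) is a positive integer, λ(G, x) = λ(Ḡ, x̄) where x̄ is the image of x, and λ(G, x) ≤ #C_Ḡ(x̄). Moreover λ(G, 1) = [G : H] if and only if the principal block is the only p-block of Ḡ. -/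
theorem result {G : Type*} [Group G] [Finite G] (p : ℕ) [Fact p.Prime] (M : Ideal Cfsg.AlgInt) (hM : Cfsg.IsPModular p M) (x : G) : (∃ n : ℕ, 0 < n ∧ ∑ᶠ χ ∈ Cfsg.principalBlock M G, Complex.normSq ((χ : G → ℂ) x) = n) ∧ ∑ᶠ χ ∈ Cfsg.principalBlock M G, Complex.normSq ((χ : G → ℂ) x) = ∑ᶠ ψ ∈ Cfsg.principalBlock M (G ⧸ Cfsg.pPrimeCore p G), Complex.normSq ((ψ : G ⧸ Cfsg.pPrimeCore p G → ℂ) (QuotientGroup.mk x)) ∧ ∑ᶠ χ ∈ Cfsg.principalBlock M G, Complex.normSq ((χ : G → ℂ) x) ≤ (Nat.card ↥(Subgroup.centralizer ({(QuotientGroup.mk x : G ⧸ Cfsg.pPrimeCore p G)} : Set (G ⧸ Cfsg.pPrimeCore p G))) : ℝ) ∧ ((∑ᶠ χ ∈ Cfsg.principalBlock M G, Cfsg.charDegree (χ : G → ℂ) ^ 2) = (Cfsg.pPrimeCore p G).index ↔ ∀ B : Set (Cfsg.IrrCharacter (G ⧸ Cfsg.pPrimeCore p G)), Cfsg.IsPBlock M B → B = Cfsg.principalBlock M (G ⧸ Cfsg.pPrimeCore p G)) := by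
  classical
  haveI := Fintype.ofFinite G
  have hNn : (Cfsg.pPrimeCore p G).Normal := Cfsg.Agent.Lib.Cores.pPrimeCore_normal p
  have hNp : ¬ p ∣ Nat.card (Cfsg.pPrimeCore p G) := Cfsg.Agent.Lib.Cores.pPrimeCore_not_dvd p
  haveI : Fintype (G ⧸ Cfsg.pPrimeCore p G) := Fintype.ofFinite _
  have hf := QuotientGroup.mk'_surjective (Cfsg.pPrimeCore p G)
  have himg : Cfsg.principalBlock M G =
      (inflI (QuotientGroup.mk' (Cfsg.pPrimeCore p G)) hf) '' Cfsg.principalBlock M (G ⧸ Cfsg.pPrimeCore p G) := by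
    ext χ
    rw [Cfsg.Agent.Lib.BlkH8O.principal_quot hM hNp χ]
    constructor
    · rintro ⟨ψ, h1, rfl⟩; exact ⟨ψ, h1, rfl⟩
    · rintro ⟨ψ, h1, rfl⟩; exact ⟨ψ, h1, rfl⟩
  have hfr : ∀ {L : Type _} [Group L] [Finite L] (B : Set (Cfsg.IrrCharacter L)) [DecidablePred (· ∈ B)] {R : Type} [AddCommMonoid R] [Fintype (Cfsg.IrrCharacter L)]
      (f : Cfsg.IrrCharacter L → R), ∑ᶠ χ ∈ B, f χ = ∑ χ ∈ Finset.univ.filter (· ∈ B), f χ := by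
    intro L _ _ B _ R _ _ f
    rw [finsum_mem_eq_finite_toFinset_sum _ (Set.toFinite B)]
    refine Finset.sum_congr ?_ fun χ _ => rfl
    ext χ
    simp
  have hquot : ∑ᶠ χ ∈ Cfsg.principalBlock M G, Complex.normSq ((χ : G → ℂ) x) =
      ∑ᶠ ψ ∈ Cfsg.principalBlock M (G ⧸ Cfsg.pPrimeCore p G), Complex.normSq ((ψ : G ⧸ Cfsg.pPrimeCore p G → ℂ) (QuotientGroup.mk x)) := by
    rw [himg, finsum_mem_image (inflI_injective _ hf).injOn]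
    rfl
  have hcol : ∀ y : G ⧸ Cfsg.pPrimeCore p G,
      ∑ ψ : Cfsg.IrrCharacter (G ⧸ Cfsg.pPrimeCore p G), Complex.normSq (ψ.1 y) =
      (Nat.card (Subgroup.centralizer ({y} : Set (G ⧸ Cfsg.pPrimeCore p G))) : ℝ) := by
    intro y
    have h1 := Cfsg.Agent.Lib.CharBasic.column_orth y y
    rw [if_pos (IsConj.refl y)] at h1
    simp only [Complex.mul_conj] at h1
    exact_mod_cast h1
  refine ⟨?_, hquot, ?_, ?_⟩
  · obtain ⟨n, hn⟩ := Cfsg.Agent.Lib.BlkH8P.lam_int hM x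
    simp only [Complex.mul_conj] at hn
    have h1 : ∑ χ ∈ Finset.univ.filter (· ∈ Cfsg.principalBlock M G), Complex.normSq (χ.1 x) = (n : ℝ) := by
      exact_mod_cast hn
    have h2 : (1 : ℝ) ≤ ∑ χ ∈ Finset.univ.filter (· ∈ Cfsg.principalBlock M G), Complex.normSq (χ.1 x) := by
      have h3 : Complex.normSq ((triv G).1 x) = 1 := by
        change Complex.normSq (1 : ℂ) = 1
        exact Complex.normSq_one
      rw [← h3]
      refine Finset.single_le_sum (f := fun χ : Cfsg.IrrCharacter G => Complex.normSq (χ.1 x))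
        (fun χ _ => Complex.normSq_nonneg _) ?_
      rw [Finset.mem_filter]
      exact ⟨Finset.mem_univ _, triv_mem hM⟩
    rw [h1] at h2
    have h4 : (1 : ℤ) ≤ n := by exact_mod_cast h2
    refine ⟨n.toNat, by omega, ?_⟩
    rw [hfr, h1]
    have h5 : ((n.toNat : ℤ) : ℝ) = (n : ℝ) := by rw [Int.toNat_of_nonneg (by omega)]
    exact_mod_cast h5.symm
  · rw [hquot, hfr, ← hcol]
    exact Finset.sum_le_sum_of_subset_of_nonneg (Finset.filter_subset _ _)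
      (fun _ _ _ => Complex.normSq_nonneg _)
  · have hdeg : ∑ᶠ χ ∈ Cfsg.principalBlock M G, Cfsg.charDegree (χ : G → ℂ) ^ 2 =
        ∑ ψ ∈ Finset.univ.filter (· ∈ Cfsg.principalBlock M (G ⧸ Cfsg.pPrimeCore p G)), Cfsg.charDegree ψ.1 ^ 2 := by
      rw [himg, finsum_mem_image (inflI_injective _ hf).injOn, hfr]
      refine Finset.sum_congr rfl fun ψ _ => ?_
      have : Cfsg.charDegree (inflI (QuotientGroup.mk' (Cfsg.pPrimeCore p G)) hf ψ).1 = Cfsg.charDegree ψ.1 := by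
        simp only [Cfsg.charDegree]
        rfl
      rw [this]
    have htot : ∑ ψ : Cfsg.IrrCharacter (G ⧸ Cfsg.pPrimeCore p G), Cfsg.charDegree ψ.1 ^ 2 =
        (Cfsg.pPrimeCore p G).index := by
      have h1 := Cfsg.Agent.Lib.CharBasic.column_orth (1 : G ⧸ Cfsg.pPrimeCore p G) 1
      rw [if_pos (IsConj.refl _)] at h1
      have h2 : ∀ ψ : Cfsg.IrrCharacter (G ⧸ Cfsg.pPrimeCore p G), ψ.1 1 * conj (ψ.1 1) =
          ((Cfsg.charDegree ψ.1 ^ 2 : ℕ) : ℂ) := by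
        intro ψ
        rw [← charDegree_cast (isChar_of_irr ψ.2)]
        push_cast
        rw [Complex.conj_natCast, sq]
      simp only [h2] at h1
      have h3 : Subgroup.centralizer ({1} : Set (G ⧸ Cfsg.pPrimeCore p G)) = ⊤ := by
        rw [eq_top_iff]
        intro y _
        rw [Subgroup.mem_centralizer_iff]
        intro z hz
        rw [Set.mem_singleton_iff.1 hz, one_mul, mul_one]
      rw [h3, Subgroup.card_top, ← Subgroup.index_eq_card] at h1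
      exact_mod_cast h1
    rw [hdeg, ← htot]
    constructor
    · intro h
      have hall : ∀ ψ : Cfsg.IrrCharacter (G ⧸ Cfsg.pPrimeCore p G), ψ ∈ Cfsg.principalBlock M (G ⧸ Cfsg.pPrimeCore p G) := by
        intro ψ
        by_contra hψ
        have h1 : ∑ ψ ∈ Finset.univ.filter (· ∈ Cfsg.principalBlock M (G ⧸ Cfsg.pPrimeCore p G)), Cfsg.charDegree ψ.1 ^ 2 <
            ∑ ψ : Cfsg.IrrCharacter (G ⧸ Cfsg.pPrimeCore p G), Cfsg.charDegree ψ.1 ^ 2 := by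
          refine Finset.sum_lt_sum_of_subset (Finset.filter_subset _ _) (Finset.mem_univ ψ) ?_ ?_ ?_
          · rw [Finset.mem_filter]; exact fun h2 => hψ h2.2
          · exact pow_pos (charDegree_pos ψ.2) 2
          · intro _ _ _; exact Nat.zero_le _
        exact h1.ne h
      intro B hB
      obtain ⟨ψ, hψ⟩ := block_nonempty hM hB
      rw [← blockOf_eq_of_mem hM hB hψ, ← blockOf_eq_of_mem hM (principal_isPBlock M _) (hall ψ)]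
    · intro h
      refine Finset.sum_congr ?_ fun _ _ => rfl
      ext ψ
      simp only [Finset.mem_filter, Finset.mem_univ, true_and, iff_true]
      rw [← h _ (isPBlock_blockOf M ψ)]
      exact self_mem_blockOf hM ψ

end Cfsg.Agent.S4735
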