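import Cfsg.Statements.S4736
import Cfsg.Agent.Lib.BlkH8O
import Cfsg.Agent.Lib.BlkH8N

set_option autoImplicit false
set_option linter.style.haveILetI false
set_option linter.unusedVariables false
open Cfsg

namespace Cfsg.Agent.S4736
open Cfsg.Agent.Lib.BlkH8O Cfsg.Agent.Lib.BlockRey Cfsg.Agent.Lib.BlockPC Cfsg.Agent.Lib.BlockRk Cfsg.Agent.Lib.BlockInt Cfsg.Agent.Lib.BlockIndIn Cfsg.Agent.Lib.BlockMaxB Cfsg.Agent.Lib.BlockMax Cfsg.Agent.Lib.BlockNilC Cfsg.Agent.Lib.BlockNilB Cfsg.Agent.Lib.BlockNil Cfsg.Agent.Lib.BlockFusB Cfsg.Agent.Lib.BlockFus Cfsg.Agent.Lib.BlockPairF Cfsg.Agent.Lib.BlockPairE Cfsg.Agent.Lib.BlockPairD Cfsg.Agent.Lib.BlockPairC Cfsg.Agent.Lib.BlockPairB Cfsg.Agent.Lib.BlockPair Cfsg.Agent.Lib.BlockBP Cfsg.Agent.Lib.BlockCovB Cfsg.Agent.Lib.BlockTr Cfsg.Agent.Lib.BlockMoreB Cfsg.Agent.Lib.BlockMore Cfsg.Agent.Lib.BlockQuotB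 Cfsg.Agent.Lib.BlockQuot Cfsg.Agent.Lib.BlockCov Cfsg.Agent.Lib.BlockM Cfsg.Agent.Lib.BlockHt Cfsg.Agent.Lib.BlockFirst Cfsg.Agent.Lib.BlockSecond Cfsg.Agent.Lib.BlockInd Cfsg.Agent.Lib.BlockNP Cfsg.Agent.Lib.BlockDeg Cfsg.Agent.Lib.BlockDef Cfsg.Agent.Lib.BlockRed Cfsg.Agent.Lib.BlockOrth Cfsg.Agent.Lib.BlockIdem Cfsg.Agent.Lib.BlockGA Cfsg.Agent.Lib.BlockLoc Cfsg.Agent.Lib.CharBasic Cfsg.Agent.Lib.BlockPP Cfsg.Agent.Lib.CharNormal Cfsg.Agent.Lib.CharPerm Cfsg.Agent.Lib.CharPermB Cfsg.Agent.Lib.BlockSum Cfsg.Agent.Lib.BlockKB Cfsg.Agent.Lib.BlockLar Cfsg.Agent.Lib.BlockBFM Cfsg.Agent.Lib.BlkH8A Cfsg.Agent.Lib.BlkH7R Cfsg.Agent.Lib.BlkH6L Cfsg.Agent.Lib.BlkH6K Cfsg.Agent.Lib.BlkH6J Cfsg.Agent.Lib.BlkH6I Cfsg.Agent.Lib.BlkH6H Cfsg.Agent.Lib.BlkH6G Cfsg.Agent.Lib.BlkH5T Cfsg.Agent.Lib.BlkH5Q Cfsg.Agent.Lib.BlkH5P Cfsg.Agent.Lib.BlkH5O Cfsg.Agent.Lib.BlkH5N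 Cfsg.Agent.Lib.BlkH5A Cfsg.Agent.Lib.BlkH5G Cfsg.Agent.Lib.BlkH5B Cfsg.Agent.Lib.BlkH5C Cfsg.Agent.Lib.BlkH5D Cfsg.Agent.Lib.BlkH5E Cfsg.Agent.Lib.BlkH5F Cfsg.Agent.Lib.BlkH5L Cfsg.Agent.Lib.BlkH5M Cfsg.Agent.Lib.BlkH5R Cfsg.Agent.Lib.BlkH5S Cfsg.Agent.Lib.BlkH5U Cfsg.Agent.Lib.BlkH5V Cfsg.Agent.Lib.BlkH5W Cfsg.Agent.Lib.BlkH5X Cfsg.Agent.Lib.BlkH6F Cfsg.Agent.Lib.BlkH6N Cfsg.Agent.Lib.BlkH6M Cfsg.Agent.Lib.BlkH6D Cfsg.Agent.Lib.BlkH6C Cfsg.Agent.Lib.BlkH6B Cfsg.Agent.Lib.BlkH6A Cfsg.Agent.Lib.BlkH5Y Cfsg.Agent.Lib.BlkH7C Cfsg.Agent.Lib.BlkH7A Cfsg.Agent.Lib.BlkH7B Cfsg.Agent.Lib.BlkH7E Cfsg.Agent.Lib.BlkH7D Cfsg.Agent.Lib.BlkH7F Cfsg.Agent.Lib.BlkH7G Cfsg.Agent.Lib.BlkH6P Cfsg.Agent.Lib.BlkH6O Cfsg.Agent.Lib.BlkH7H Cfsg.Agent.Lib.BlkH7I Cfsg.Agent.Lib.BlkH7J Cfsg.Agent.Lib.BlkH7K Cfsg.Agent.Lib.BlkH7L Cfsg.Agent.Lib.BlkH7M Cfsg.Agent.Lib.BlkH7N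 Cfsg.Agent.Lib.BlkH7O Cfsg.Agent.Lib.BlkH7P Cfsg.Agent.Lib.BlkH7Q Cfsg.Agent.Lib.BlkH8F Cfsg.Agent.Lib.BlkH8E Cfsg.Agent.Lib.BlkH8D Cfsg.Agent.Lib.BlkH8C Cfsg.Agent.Lib.BlkH8B Cfsg.Agent.Lib.BlockKul Cfsg.Agent.Lib.BlkH8N
open scoped ComplexConjugate



/-- Let p be a prime, M a maximal ideal of the algebraic integers containing p, and G a finite p-solvable group with Sylow p-subgroup P. Then P is abelian if and only if every irreducible character in the principal p-block of G has height zero. -/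
theorem result {G : Type*} [Group G] [Finite G] (p : ℕ) [Fact p.Prime] (M : Ideal Cfsg.AlgInt) (hM : Cfsg.IsPModular p M) (hsolv : Cfsg.IsPSolvable p G) (P : Sylow p G) : IsMulCommutative P ↔ ∀ χ ∈ Cfsg.principalBlock M G, Cfsg.blockHeight p (Cfsg.principalBlock M G) (χ : G → ℂ) = 0 := by
  classical
  set N := Cfsg.pPrimeCore p G with hN
  haveI hNn : N.Normal := Cfsg.Agent.Lib.Cores.pPrimeCore_normal p
  have hNp : ¬ p ∣ Nat.card N := Cfsg.Agent.Lib.Cores.pPrimeCore_not_dvd p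
  have hf := QuotientGroup.mk'_surjective N
  have hqs : Cfsg.IsPSolvable p (G ⧸ N) := Cfsg.Agent.Lib.PSol.quotient hsolv N
  have hcore : Cfsg.pPrimeCore p (G ⧸ N) = ⊥ := Cfsg.Agent.Lib.Cores.pPrimeCore_quotient_pPrimeCore p
  have hB : (∀ χ ∈ Cfsg.principalBlock M G, Cfsg.blockHeight p (Cfsg.principalBlock M G) (χ : G → ℂ) = 0) ↔
      ∀ ψ : Cfsg.IrrCharacter (G ⧸ N), ¬ p ∣ Cfsg.charDegree ψ.1 := by
    constructor
    · intro h ψ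
      have h1 : inflI (QuotientGroup.mk' N) hf ψ ∈ Cfsg.principalBlock M G :=
        (Cfsg.Agent.Lib.BlkH8O.principal_quot hM hNp _).2
          ⟨ψ, Cfsg.Agent.Lib.BlkH8O.mem_principal hM hqs hcore ψ, rfl⟩
      exact (Cfsg.Agent.Lib.BlkH8O.height_principal hM h1).1 (h _ h1)
    · intro h χ hχ
      obtain ⟨ψ, -, hψ⟩ := (Cfsg.Agent.Lib.BlkH8O.principal_quot hM hNp χ).1 hχ
      rw [Cfsg.Agent.Lib.BlkH8O.height_principal hM hχ, hψ]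
      exact h ψ
  rw [hB]
  constructor
  · intro hP ψ
    haveI := Cfsg.Agent.Lib.Cores.pCore_normal (G := G ⧸ N) p
    have hC := Cfsg.Agent.Lib.HallHigman.centralizer_pCore_le p hqs hcore
    have hle := Cfsg.Agent.Lib.Cores.pCore_le_sylow (P.mapSurjective hf)
    have hab : ∀ a ∈ (P.mapSurjective hf : Subgroup (G ⧸ N)),
        ∀ b ∈ (P.mapSurjective hf : Subgroup (G ⧸ N)), a * b = b * a := by
      rintro _ ⟨a, ha, rfl⟩ _ ⟨b, hb, rfl⟩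
      have h1 := hP.is_comm.comm (⟨a, ha⟩ : P) (⟨b, hb⟩ : P)
      rw [← map_mul, ← map_mul]
      exact congrArg _ (congrArg Subtype.val h1)
    have heq : Cfsg.pCore p (G ⧸ N) = (P.mapSurjective hf : Subgroup (G ⧸ N)) := by
      refine le_antisymm hle fun a ha => hC ?_
      rw [Subgroup.mem_centralizer_iff]
      intro b hb
      exact hab b (hle hb) a ha
    have h2 := Cfsg.Agent.Lib.CharClifford.ito ψ.2 (Cfsg.pCore p (G ⧸ N))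
      (fun a ha b hb => hab a (hle ha) b (hle hb)) (charDegree_cast (isChar_of_irr ψ.2)).symm
    intro hd
    have h3 := hd.trans h2
    rw [heq] at h3
    exact (P.mapSurjective hf).not_dvd_index h3
  · intro h
    obtain ⟨Q, hQn, hQc, hQp, hQi⟩ := Cfsg.Agent.Lib.BlkH8N.ito_psolv p (Nat.card (G ⧸ N)) (G ⧸ N) le_rfl hqs h
    have hmem : ∀ x ∈ (P : Subgroup G), QuotientGroup.mk' N x ∈ Q := by
      intro x hx
      obtain ⟨k, hk⟩ := IsPGroup.iff_orderOf.1 P.2 ⟨x, hx⟩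
      rw [Subgroup.orderOf_mk] at hk
      have h1 : orderOf (QuotientGroup.mk' Q (QuotientGroup.mk' N x)) ∣ p ^ k := by
        rw [← hk]
        exact (orderOf_map_dvd _ _).trans (orderOf_map_dvd _ _)
      have h2 : orderOf (QuotientGroup.mk' Q (QuotientGroup.mk' N x)) ∣ Q.index := by
        rw [Subgroup.index_eq_card]
        exact orderOf_dvd_natCard _
      have h3 : Nat.Coprime (p ^ k) Q.index :=
        Nat.Coprime.pow_left k ((Nat.Prime.coprime_iff_not_dvd Fact.out).2 hQi)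
      have h4 := Nat.eq_one_of_dvd_coprimes h3 h1 h2
      rw [orderOf_eq_one_iff] at h4
      exact (QuotientGroup.eq_one_iff _).1 h4
    refine ⟨⟨fun a b => ?_⟩⟩
    have h1 := hQc _ (hmem a a.2) _ (hmem b b.2)
    have h2 : QuotientGroup.mk' N ((a : G) * b * (a : G)⁻¹ * (b : G)⁻¹) = 1 := by
      rw [map_mul, map_mul, map_mul, map_inv, map_inv, h1]
      group
    have h3 : (a : G) * b * (a : G)⁻¹ * (b : G)⁻¹ ∈ N := (QuotientGroup.eq_one_iff _).1 h2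
    have h4 : a * b * a⁻¹ * b⁻¹ = 1 := by
      obtain ⟨k, hk⟩ := IsPGroup.iff_orderOf.1 P.2 (a * b * a⁻¹ * b⁻¹)
      have h5 : orderOf (⟨_, h3⟩ : N) ∣ p ^ k := by
        rw [Subgroup.orderOf_mk, ← hk]
        have : ((a : G) * b * (a : G)⁻¹ * (b : G)⁻¹) = ((a * b * a⁻¹ * b⁻¹ : P) : G) := rfl
        rw [this, Subgroup.orderOf_coe]
      have h6 : orderOf (⟨_, h3⟩ : N) ∣ Nat.card N := orderOf_dvd_natCard _
      have h7 : Nat.Coprime (p ^ k) (Nat.card N) :=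
        Nat.Coprime.pow_left k ((Nat.Prime.coprime_iff_not_dvd Fact.out).2 hNp)
      have h8 := Nat.eq_one_of_dvd_coprimes h7 h5 h6
      rw [orderOf_eq_one_iff] at h8
      have h9 : (a : G) * b * (a : G)⁻¹ * (b : G)⁻¹ = 1 := congrArg (fun z : N => (z : G)) h8
      exact Subtype.ext h9
    have h5 : a * b * a⁻¹ = b := mul_inv_eq_one.1 h4
    exact mul_inv_eq_iff_eq_mul.1 h5

end Cfsg.Agent.S4736
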