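import Cfsg.Statements.S5016
import Mathlib
import Cfsg.Agent.Lib.Components
-- import your own Cfsg.Agent.* helpers here

set_option autoImplicit false
open Cfsg

namespace Cfsg.Agent.S5016

open Matrix

variable {k : Type*} [Field k]

def L (s : k) : SpecialLinearGroup (Fin 2) k := ⟨!![1, 0; s, 1], by simp [Matrix.det_fin_two]⟩
def U (t : k) : SpecialLinearGroup (Fin 2) k := ⟨!![1, t; 0, 1], by simp [Matrix.det_fin_two]⟩

theorem L_mul (s t : k) : L s * L t = L (s + t) := by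
  apply Subtype.ext
  show (L s).1 * (L t).1 = (L (s + t)).1
  unfold L
  ext i j
  fin_cases i <;> fin_cases j <;> simp [Matrix.mul_apply, Fin.sum_univ_two]

theorem U_mul (s t : k) : U s * U t = U (s + t) := by
  apply Subtype.ext
  show (U s).1 * (U t).1 = (U (s + t)).1
  unfold U
  ext i j
  fin_cases i <;> fin_cases j <;> simp [Matrix.mul_apply, Fin.sum_univ_two]
  ring

theorem L_zero : L (0 : k) = 1 := by
  apply Subtype.ext
  show (L (0 : k)).1 = 1
  unfold L
  ext i j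
  fin_cases i <;> fin_cases j <;> simp

theorem U_zero : U (0 : k) = 1 := by
  apply Subtype.ext
  show (U (0 : k)).1 = 1
  unfold U
  ext i j
  fin_cases i <;> fin_cases j <;> simp

theorem L_inv (s : k) : (L s)⁻¹ = L (-s) := by
  rw [inv_eq_iff_mul_eq_one, L_mul, add_neg_cancel, L_zero]

theorem U_inv (s : k) : (U s)⁻¹ = U (-s) := by
  rw [inv_eq_iff_mul_eq_one, U_mul, add_neg_cancel, U_zero]

theorem mem_lower {g : SpecialLinearGroup (Fin 2) k} : g ∈ lowerUnipotentSL2 k ↔ ∃ s, g = L s := by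
  constructor
  · intro h
    induction h using Subgroup.closure_induction with
    | mem x hx =>
      obtain ⟨h1, h2, h3⟩ := hx
      refine ⟨x.1 1 0, ?_⟩
      apply Subtype.ext
      show x.1 = (L (x.1 1 0)).1
      have h1' : x.1 0 1 = 0 := h1
      have h2' : x.1 0 0 = 1 := h2
      have h3' : x.1 1 1 = 1 := h3
      unfold L
      ext i j
      fin_cases i <;> fin_cases j <;> simp [h1', h2', h3']
    | one => exact ⟨0, L_zero.symm⟩
    | mul x y _ _ hx hy =>
      obtain ⟨s, rfl⟩ := hx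
      obtain ⟨t, rfl⟩ := hy
      exact ⟨s + t, L_mul s t⟩
    | inv x _ hx =>
      obtain ⟨s, rfl⟩ := hx
      exact ⟨-s, L_inv s⟩
  · rintro ⟨s, rfl⟩
    exact Subgroup.subset_closure ⟨rfl, rfl, rfl⟩

theorem mem_upper {g : SpecialLinearGroup (Fin 2) k} : g ∈ upperUnipotentSL2 k ↔ ∃ s, g = U s := by
  constructor
  · intro h
    induction h using Subgroup.closure_induction with
    | mem x hx =>
      obtain ⟨h1, h2, h3⟩ := hx
      refine ⟨x.1 0 1, ?_⟩
      apply Subtype.ext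
      show x.1 = (U (x.1 0 1)).1
      have h1' : x.1 1 0 = 0 := h1
      have h2' : x.1 0 0 = 1 := h2
      have h3' : x.1 1 1 = 1 := h3
      unfold U
      ext i j
      fin_cases i <;> fin_cases j <;> simp [h1', h2', h3']
    | one => exact ⟨0, U_zero.symm⟩
    | mul x y _ _ hx hy =>
      obtain ⟨s, rfl⟩ := hx
      obtain ⟨t, rfl⟩ := hy
      exact ⟨s + t, U_mul s t⟩
    | inv x _ hx =>
      obtain ⟨s, rfl⟩ := hx
      exact ⟨-s, U_inv s⟩
  · rintro ⟨s, rfl⟩
    exact Subgroup.subset_closure ⟨rfl, rfl, rfl⟩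

theorem conj1 (x t : k) : (U (-t) * L x * U t).1 = !![1 - t * x, -(t ^ 2 * x); x, 1 + x * t] := by
  show (U (-t)).1 * (L x).1 * (U t).1 = _
  unfold U L
  ext i j
  fin_cases i <;> fin_cases j <;> simp [Matrix.mul_apply, Fin.sum_univ_two] <;> ring

theorem conj2 (y s : k) : (L (-s) * U y * L s).1 = !![1 + y * s, y; -(s ^ 2 * y), 1 - s * y] := by
  show (L (-s)).1 * (U y).1 * (L s).1 = _
  unfold U L
  ext i j
  fin_cases i <;> fin_cases j <;> simp [Matrix.mul_apply, Fin.sum_univ_two] <;> ring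

theorem conj_eq {s t : k} (h : s * t = 1) (x : k) : U (-t) * L x * U t = L (-s) * U (-(x * t ^ 2)) * L s := by
  apply Subtype.ext
  rw [conj1, conj2]
  have hs : s ^ 2 * t ^ 2 = 1 := by rw [← mul_pow, h, one_pow]
  ext i j
  fin_cases i <;> fin_cases j <;> simp
  · linear_combination (x * t) * h
  · ring
  · linear_combination (-x) * hs
  · linear_combination (-(x * t)) * h

theorem conjBy_eq {s t : k} (h : s * t = 1) : conjBy (lowerUnipotentSL2 k) (U t)⁻¹ = conjBy (upperUnipotentSL2 k) (L s)⁻¹ := by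
  have ht : t ≠ 0 := by rintro rfl; simp at h
  apply le_antisymm
  · rintro _ ⟨g, hg, rfl⟩
    obtain ⟨x, rfl⟩ := mem_lower.1 hg
    refine ⟨U (-(x * t ^ 2)), mem_upper.2 ⟨_, rfl⟩, ?_⟩
    show (L s)⁻¹ * U (-(x * t ^ 2)) * (L s)⁻¹⁻¹ = (U t)⁻¹ * L x * (U t)⁻¹⁻¹
    rw [inv_inv, inv_inv, L_inv, U_inv, conj_eq h]
  · rintro _ ⟨g, hg, rfl⟩
    obtain ⟨y, rfl⟩ := mem_upper.1 hg
    refine ⟨L (-(y * s ^ 2)), mem_lower.2 ⟨_, rfl⟩, ?_⟩
    show (U t)⁻¹ * L (-(y * s ^ 2)) * (U t)⁻¹⁻¹ = (L s)⁻¹ * U y * (L s)⁻¹⁻¹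
    rw [inv_inv, inv_inv, L_inv, U_inv, conj_eq h]
    congr 3
    have hs : s ^ 2 * t ^ 2 = 1 := by rw [← mul_pow, h, one_pow]
    linear_combination y * hs

theorem L_inj {s t : k} (h : L s = L t) : s = t := congrArg (fun g : SpecialLinearGroup (Fin 2) k => g.1 1 0) h
theorem U_inj {s t : k} (h : U s = U t) : s = t := congrArg (fun g : SpecialLinearGroup (Fin 2) k => g.1 0 1) h

theorem gen (g : SpecialLinearGroup (Fin 2) k) : g ∈ lowerUnipotentSL2 k ⊔ upperUnipotentSL2 k := by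
  have hL : ∀ s : k, L s ∈ lowerUnipotentSL2 k ⊔ upperUnipotentSL2 k := fun s =>
    (le_sup_left : lowerUnipotentSL2 k ≤ _) (mem_lower.2 ⟨s, rfl⟩)
  have hU : ∀ s : k, U s ∈ lowerUnipotentSL2 k ⊔ upperUnipotentSL2 k := fun s =>
    (le_sup_right : upperUnipotentSL2 k ≤ _) (mem_upper.2 ⟨s, rfl⟩)
  have hmain : ∀ g : SpecialLinearGroup (Fin 2) k, g.1 1 0 ≠ 0 → g ∈ lowerUnipotentSL2 k ⊔ upperUnipotentSL2 k := by
    intro g hc
    have hd : g.1 0 0 * g.1 1 1 - g.1 0 1 * g.1 1 0 = 1 := by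
      have := g.2; rwa [Matrix.det_fin_two] at this
    have e : g = U ((g.1 0 0 - 1) / g.1 1 0) * L (g.1 1 0) * U ((g.1 1 1 - 1) / g.1 1 0) := by
      apply Subtype.ext
      show g.1 = (U ((g.1 0 0 - 1) / g.1 1 0)).1 * (L (g.1 1 0)).1 * (U ((g.1 1 1 - 1) / g.1 1 0)).1
      unfold U L
      generalize g.1 = A at hc hd
      ext i j
      fin_cases i <;> fin_cases j <;> simp [Matrix.mul_apply, Fin.sum_univ_two]
      · field_simp; ring
      · field_simp; linear_combination (-1 : k) * hd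
      · field_simp; ring
    rw [e]
    exact mul_mem (mul_mem (hU _) (hL _)) (hU _)
  by_cases hc : g.1 1 0 = 0
  · have hd : g.1 0 0 * g.1 1 1 - g.1 0 1 * g.1 1 0 = 1 := by
      have := g.2; rwa [Matrix.det_fin_two] at this
    have hd' : g.1 1 1 ≠ 0 := by
      intro h; rw [h, hc] at hd; simp at hd
    have e : (g * L 1).1 1 0 = g.1 1 1 := by
      show (g.1 * (L 1).1 : Matrix (Fin 2) (Fin 2) k) 1 0 = _
      unfold L
      rw [Matrix.mul_apply, Fin.sum_univ_two, hc]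
      simp
    have h1 := hmain (g * L 1) (by rw [e]; exact hd')
    have h2 := mul_mem h1 (inv_mem (hL 1))
    rwa [mul_inv_cancel_right] at h2
  · exact hmain g hc

/-- For any field k, the special linear group SL₂(k) is a special rank one group with abelian unipotent subgroups, the unipotent subgroups being the group of lower unitriangular matrices and the group of upper unitriangular matrices. -/
theorem result (k : Type*) [Field k] :
    Cfsg.IsRankOneGroup (Matrix.SpecialLinearGroup (Fin 2) k) (Cfsg.lowerUnipotentSL2 k) (Cfsg.upperUnipotentSL2 k) ∧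
    Cfsg.IsSpecialRankOnePair (Cfsg.lowerUnipotentSL2 k) (Cfsg.upperUnipotentSL2 k) ∧
    Cfsg.HasAbelianUnipotents (Cfsg.lowerUnipotentSL2 k) (Cfsg.upperUnipotentSL2 k) := by
  have hA : IsMulCommutative (lowerUnipotentSL2 k) := ⟨⟨fun a b => by
    obtain ⟨s, hs⟩ := mem_lower.1 a.2
    obtain ⟨t, ht⟩ := mem_lower.1 b.2
    apply Subtype.ext
    show (a : SpecialLinearGroup (Fin 2) k) * b = b * a
    rw [hs, ht, L_mul, L_mul, add_comm]⟩⟩
  have hB : IsMulCommutative (upperUnipotentSL2 k) := ⟨⟨fun a b => by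
    obtain ⟨s, hs⟩ := mem_upper.1 a.2
    obtain ⟨t, ht⟩ := mem_upper.1 b.2
    apply Subtype.ext
    show (a : SpecialLinearGroup (Fin 2) k) * b = b * a
    rw [hs, ht, U_mul, U_mul, add_comm]⟩⟩
  have hpair : Cfsg.IsRankOnePair (lowerUnipotentSL2 k) (upperUnipotentSL2 k) := by
    refine ⟨?_, Cfsg.Agent.Lib.Components.isNilpotent_of_isMulCommutative hA,
      Cfsg.Agent.Lib.Components.isNilpotent_of_isMulCommutative hB, ?_, ?_⟩
    · intro h
      have h1 : L (1 : k) ∈ lowerUnipotentSL2 k := mem_lower.2 ⟨1, rfl⟩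
      rw [h] at h1
      obtain ⟨t, ht⟩ := mem_upper.1 h1
      have : (1 : k) = 0 := congrArg (fun g : SpecialLinearGroup (Fin 2) k => g.1 1 0) ht
      exact one_ne_zero this
    · intro a ha ha1
      obtain ⟨s, rfl⟩ := mem_lower.1 ha
      have hs : s ≠ 0 := by rintro rfl; exact ha1 L_zero
      refine ⟨U s⁻¹, mem_upper.2 ⟨_, rfl⟩, ?_, conjBy_eq (mul_inv_cancel₀ hs)⟩
      intro h
      rw [← U_zero] at h
      exact inv_ne_zero hs (U_inj h)
    · intro b hb hb1
      obtain ⟨t, rfl⟩ := mem_upper.1 hb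
      have ht : t ≠ 0 := by rintro rfl; exact hb1 U_zero
      refine ⟨L t⁻¹, mem_lower.2 ⟨_, rfl⟩, ?_, (conjBy_eq (inv_mul_cancel₀ ht)).symm⟩
      intro h
      rw [← L_zero] at h
      exact inv_ne_zero ht (L_inj h)
  refine ⟨⟨?_, hpair⟩, ⟨hpair, ?_⟩, hA, hB⟩
  · rw [eq_top_iff]; intro g _; exact gen g
  · intro a ha ha1 b hb hb1 hab
    obtain ⟨s, rfl⟩ := mem_lower.1 ha
    obtain ⟨t, rfl⟩ := mem_upper.1 hb
    have ht : t ≠ 0 := by rintro rfl; exact hb1 U_zero
    have h1 : (U t)⁻¹ * L 1 * (U t)⁻¹⁻¹ ∈ conjBy (lowerUnipotentSL2 k) (U t)⁻¹ := ⟨L 1, mem_lower.2 ⟨1, rfl⟩, rfl⟩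
    rw [hab] at h1
    obtain ⟨g, hg, hg'⟩ := h1
    obtain ⟨y, rfl⟩ := mem_upper.1 hg
    have h2 : L (-s) * U y * L s = U (-t) * L 1 * U t := by
      rw [← L_inv, ← U_inv]
      have : (L s)⁻¹ * U y * (L s)⁻¹⁻¹ = (U t)⁻¹ * L 1 * (U t)⁻¹⁻¹ := hg'
      rwa [inv_inv, inv_inv] at this
    have h3 := congrArg Subtype.val h2
    have h4 : !![1 + y * s, y; -(s ^ 2 * y), 1 - s * y] = !![1 - t * 1, -(t ^ 2 * 1); (1 : k), 1 + 1 * t] := by
      rw [← conj2, ← conj1]; exact h3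
    have e1 : 1 + y * s = 1 - t * 1 := congrFun (congrFun h4 0) 0
    have e2 : y = -(t ^ 2 * 1) := congrFun (congrFun h4 0) 1
    have hst : s * t = 1 := by
      have e3 : t * (s * t - 1) = 0 := by
        rw [e2] at e1
        linear_combination (-1 : k) * e1
      rcases mul_eq_zero.1 e3 with h | h
      · exact absurd h ht
      · linear_combination h
    rw [L_inv, U_inv, conj_eq hst]
    congr 3
    linear_combination (-t) * hst

end Cfsg.Agent.S5016
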