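import Cfsg.Statements.S5079
import Cfsg.Agent.Lib.FusSat

set_option autoImplicit false
open Cfsg
open Cfsg.Agent.Lib.FusBase Cfsg.Agent.Lib.FusSat Cfsg.FusionSystem

namespace Cfsg.Agent.S5079

/-- In any fusion system over a finite p-group S: if P is fully automized and receptive and Q is conjugate to P in the system, then there is a map of the system with source N_S(Q) and values in N_S(P) carrying Q onto P. -/
theorem result {Ω : Type*} [Group Ω] {S : Subgroup Ω} [Finite S] (p : ℕ) [Fact p.Prime] (hS : IsPGroup p S) (F : Cfsg.FusionSystem S) (P Q : Subgroup Ω) (h₁ : F.IsFullyAutomized p P) (h₂ : F.IsReceptive P) (hQ : F.IsConj Q P) : ∃ φ ∈ F.Hom (Cfsg.FusionSystem.normalizerIn S Q), (∀ x, φ x ∈ Cfsg.FusionSystem.normalizerIn S P) ∧ (Q.subgroupOf (Cfsg.FusionSystem.normalizerIn S Q)).map φ = P := by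
  obtain ⟨f, hf⟩ := isConj_iff.1 hQ
  obtain ⟨a, g, ha, hg, hgf, hg'⟩ := extend_normalizer hS h₁ h₂ hf
  have hle := le_normalizerIn hf.le_left
  have himg : img Q g = P := by
    rw [img_congr hgf]; exact (hf.trans ha).img_eq
  obtain ⟨φ, hφ, h⟩ := hg
  refine ⟨φ, hφ, fun x => by rw [h]; exact hg' x x.2, ?_⟩
  apply le_antisymm
  · rintro _ ⟨x, hx, rfl⟩
    rw [h, ← himg]; exact mem_img_of_mem hx
  · intro y hy
    rw [← himg] at hy
    obtain ⟨x, hx, rfl⟩ := ((mor_ext hφ).congr (g := g) (fun x hx => by rw [ext_mem φ hx, h]) |>.restrict hle).mem_img.1 hy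
    exact ⟨⟨x, hle hx⟩, hx, h _⟩

end Cfsg.Agent.S5079
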