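import Cfsg.Statements.S5087
import Cfsg.Agent.Lib.FusNormalB

set_option autoImplicit false
open Cfsg
open Cfsg.Agent.Lib.FusBase Cfsg.Agent.Lib.FusSat Cfsg.FusionSystem Cfsg.Agent.Lib.FusAlperin Cfsg.Agent.Lib.FusNormal Cfsg.Agent.Lib.FusNormalB

namespace Cfsg.Agent.S5087

/-- In a saturated fusion system over a finite p-group S, a subgroup Q is normal in the system if and only if every subgroup P that equals S or is essential contains Q and every element of Aut_F(P) maps Q onto itself. -/
theorem result {Ω : Type*} [Group Ω] {S : Subgroup Ω} [Finite S] (p : ℕ) [Fact p.Prime] (hS : IsPGroup p S) (F : Cfsg.FusionSystem S) (hF : F.IsSaturated p) (Q : Subgroup Ω) : F.IsNormal Q ↔ ∀ P : Subgroup Ω, (P = S ∨ F.IsEssential p P) → (Q ≤ P ∧ ∀ α ∈ F.autGroup P, (Q.subgroupOf P).map α.toMonoidHom = Q.subgroupOf P) := by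
  constructor
  · intro h P hP
    have hQP : Q ≤ P := by
      rcases hP with rfl | hP
      · exact h.1
      · exact normal_le_centric_radical hS h hP.1 (essential_radical hS hP)
    have hPS : P ≤ S := by
      rcases hP with rfl | hP
      · exact le_rfl
      · exact hP.1.1
    refine ⟨hQP, fun α hα => ?_⟩
    have h1 := img_eq_of_stronglyClosed (normal_stronglyClosed h) (iso_fn hPS hα).mor hQP
    ext y
    constructor
    · rintro ⟨x, hx, rfl⟩
      have h2 : fn α x ∈ Q := by rw [← h1]; exact mem_img_of_mem hx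
      rw [fn_apply] at h2
      exact h2
    · intro hy
      have hy' : (y : Ω) ∈ img Q (fn α) := by rw [h1]; exact hy
      obtain ⟨x, hx, hxy⟩ := ((iso_fn hPS hα).mor.restrict hQP).mem_img.1 hy'
      refine ⟨⟨x, hQP hx⟩, hx, Subtype.ext ?_⟩
      rw [← hxy, fn_mem α (hQP hx)]; rfl
  · intro h
    refine normal_of_aut hS hF fun P hP => ⟨(h P hP).1, fun f hf => ?_⟩
    have h1 := (h P hP).2 _ (autOf_mem hf)
    have hQP := (h P hP).1
    apply le_antisymm
    · rw [img_le_iff]
      intro x hx
      have h2 : autOf hf ⟨x, hQP hx⟩ ∈ (Q.subgroupOf P).map (autOf hf).toMonoidHom := ⟨_, hx, rfl⟩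
      rw [h1] at h2
      exact h2
    · intro y hy
      have h2 : (⟨y, hQP hy⟩ : P) ∈ (Q.subgroupOf P).map (autOf hf).toMonoidHom := by
        rw [h1]; exact hy
      obtain ⟨x, hx, hxy⟩ := h2
      have h3 : f x = y := congrArg Subtype.val hxy
      rw [← h3]; exact mem_img_of_mem hx

end Cfsg.Agent.S5087
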