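import Cfsg.Statements.S5088
import Cfsg.Agent.Lib.FusNormalB

set_option autoImplicit false
open Cfsg
open Cfsg.Agent.Lib.FusBase Cfsg.Agent.Lib.FusSat Cfsg.FusionSystem Cfsg.Agent.Lib.FusAlperin Cfsg.Agent.Lib.FusNormal Cfsg.Agent.Lib.FusNormalB

namespace Cfsg.Agent.S5088

open scoped commutatorElement in
private theorem comm_eq {G : Type*} [Group G] {A B C : Subgroup G} (h : ⁅A, B⁆ ≤ C) {a b : G} (ha : a ∈ A) (hb : b ∈ B) :
    a * b * a⁻¹ * b⁻¹ ∈ C := h (Subgroup.commutator_mem_commutator ha hb)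

/-- In a saturated fusion system over a finite p-group, a subgroup Q is normal in the system if and only if there is a chain of subgroups 1 = Q₀ ≤ Q₁ ≤ ⋯ ≤ Qₙ = Q such that each Qᵢ with i ≥ 1 is strongly closed in the system and [Q, Qᵢ] ≤ Qᵢ₋₁. -/
theorem result {Ω : Type*} [Group Ω] {S : Subgroup Ω} [Finite S] (p : ℕ) [Fact p.Prime] (hS : IsPGroup p S) (F : Cfsg.FusionSystem S) (hF : F.IsSaturated p) (Q : Subgroup Ω) : F.IsNormal Q ↔ ∃ (n : ℕ) (Qs : Fin (n + 1) → Subgroup Ω), Qs 0 = ⊥ ∧ Qs (Fin.last n) = Q ∧ Monotone Qs ∧ ∀ i : Fin n, F.StronglyClosed (Qs i.succ) ∧ ⁅Q, Qs i.succ⁆ ≤ Qs (Fin.castSucc i) := by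
  constructor
  · intro h
    obtain ⟨n, Rs, h0, hn, hm, hnor, hle, hc⟩ := exists_chain_of_normal hS h
    refine ⟨n, fun i => Rs i, h0, hn, fun i j hij => hm hij, fun i => ⟨normal_stronglyClosed (hnor _), ?_⟩⟩
    exact hc i
  · rintro ⟨n, Qs, h0, hn, hm, h⟩
    refine normal_of_chain hS hF (fun i => if h : i < n + 1 then Qs ⟨i, h⟩ else S) n (by simpa using h0) ?_ ?_ ?_
    · simp only [lt_add_iff_pos_right, zero_lt_one, dite_true]
      exact hn
    · intro i hi
      simp only [show i < n + 1 by omega, dite_true]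
      rcases Nat.eq_zero_or_pos i with rfl | hi'
      · have : Qs ⟨0, by omega⟩ = ⊥ := h0
        rw [this]; exact stronglyClosed_bot F
      · obtain ⟨j, rfl⟩ := Nat.exists_eq_add_of_lt hi'
        have := (h ⟨j, by omega⟩).1
        have e : (⟨0 + j + 1, by omega⟩ : Fin (n + 1)) = Fin.succ ⟨j, by omega⟩ := by
          apply Fin.ext; simp
        rw [e]; exact this
    · intro i hi b hb x hx
      simp only [show i + 1 < n + 1 by omega, dite_true] at hx
      simp only [show i < n + 1 by omega, dite_true]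
      have h1 := (h ⟨i, hi⟩).2
      have h2 : b * x * b⁻¹ * x⁻¹ ∈ Qs (Fin.castSucc ⟨i, hi⟩) := comm_eq h1 hb hx
      have h3 : F.StronglyClosed (Qs (Fin.castSucc ⟨i, hi⟩)) ∨ Qs (Fin.castSucc ⟨i, hi⟩) = ⊥ := by
        rcases Nat.eq_zero_or_pos i with rfl | hi'
        · exact Or.inr h0
        · obtain ⟨j, rfl⟩ := Nat.exists_eq_add_of_lt hi'
          have := (h ⟨j, by omega⟩).1
          have e : (Fin.castSucc ⟨0 + j + 1, hi⟩ : Fin (n + 1)) = Fin.succ ⟨j, by omega⟩ := by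
            apply Fin.ext; simp
          rw [e]; exact Or.inl this
      have hxS : x ∈ S := (h ⟨i, hi⟩).1.1 hx
      have e : x⁻¹ * (b * x * b⁻¹) = x⁻¹ * (b * x * b⁻¹ * x⁻¹) * x := by group
      rw [e]
      have goal : x⁻¹ * (b * x * b⁻¹ * x⁻¹) * x ∈ Qs (Fin.castSucc ⟨i, hi⟩) := by
        rcases h3 with h3 | h3
        · exact (Subgroup.mem_normalizer_iff''.1 (StronglyClosed_normalizer h3 hxS) _).1 h2
        · rw [h3, Subgroup.mem_bot] at h2 ⊢
          rw [h2]; group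
      exact goal

end Cfsg.Agent.S5088
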