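import Cfsg.Statements.S5089
import Cfsg.Agent.Lib.FusNormalB

set_option autoImplicit false
open Cfsg
open Cfsg.Agent.Lib.FusBase Cfsg.Agent.Lib.FusSat Cfsg.FusionSystem Cfsg.Agent.Lib.FusAlperin Cfsg.Agent.Lib.FusNormal Cfsg.Agent.Lib.FusNormalB

namespace Cfsg.Agent.S5089

/-- A saturated fusion system over a finite p-group has a nontrivial subgroup that is normal in the system (O_p(F) ≠ 1) if and only if some nontrivial abelian subgroup is strongly closed in the system. -/
theorem result {Ω : Type*} [Group Ω] {S : Subgroup Ω} [Finite S] (p : ℕ) [Fact p.Prime] (hS : IsPGroup p S) (F : Cfsg.FusionSystem S) (hF : F.IsSaturated p) : F.core ≠ ⊥ ↔ ∃ Q : Subgroup Ω, Q ≠ ⊥ ∧ IsMulCommutative Q ∧ F.StronglyClosed Q := by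
  constructor
  · intro h
    have hn := core_normal F
    set C := F.core with hC
    have hfin : Finite C := finite_of_le hn.1
    have hnt : Nontrivial C := (Subgroup.nontrivial_iff_ne_bot C).2 h
    have hz := (hS.to_le hn.1).center_nontrivial
    refine ⟨(Subgroup.center C).map C.subtype, ?_, ?_, ?_⟩
    · rw [Ne, Subgroup.map_eq_bot_iff_of_injective _ C.subtype_injective]
      exact (Subgroup.nontrivial_iff_ne_bot _).1 hz
    · infer_instance
    · refine normal_stronglyClosed (normal_of_char hn (Subgroup.map_subtype_le _) ?_)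
      have : ((Subgroup.center C).map C.subtype).subgroupOf C = Subgroup.center C :=
        Subgroup.comap_map_eq_self_of_injective C.subtype_injective _
      rw [this]; infer_instance
  · rintro ⟨Q, hQ1, hQab, hQ⟩ h
    have := normal_of_abelian hS hF hQ fun x hx y hy => by
      have := hQab.is_comm.comm ⟨x, hx⟩ ⟨y, hy⟩
      exact congrArg Subtype.val this
    apply hQ1
    rw [eq_bot_iff, ← h]
    exact le_core this

end Cfsg.Agent.S5089
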