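import Cfsg.Statements.S5094
import Mathlib
import Cfsg.Agent.Lib.ZStarC

set_option autoImplicit false
open Cfsg

namespace Cfsg.Agent.S5094

open Subgroup

/-- a `p`-subgroup of `N B` can be moved into `B` by an element of the normal `p'`-subgroup `N`. -/
theorem conj_into {G : Type*} [Group G] [Finite G] {p : ℕ} (hp : p.Prime) {N A B : Subgroup G} (hN : N.Normal)
    (hNp : ¬ p ∣ Nat.card N) (hA : IsPGroup p A) (hB : IsPGroup p B) (hAB : A ≤ N ⊔ B) :
    ∃ n ∈ N, ∀ a ∈ A, n * a * n⁻¹ ∈ B := by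
  haveI : Fact p.Prime := ⟨hp⟩
  haveI := hN
  have hBle : B ≤ N ⊔ B := le_sup_right
  have hidx : ¬ p ∣ (B.subgroupOf (N ⊔ B)).index := by
    have h1 := (B.subgroupOf (N ⊔ B)).card_mul_index
    rw [Nat.card_congr (subgroupOfEquivOfLe hBle).toEquiv] at h1
    have h2 := Cfsg.Agent.Lib.Cores.card_sup_dvd (N := N) (H := B) (le_top.trans (normalizer_eq_top_iff.mpr hN).ge)
    rw [← h1, mul_comm] at h2
    have h3 : (B.subgroupOf (N ⊔ B)).index ∣ Nat.card N := Nat.dvd_of_mul_dvd_mul_right Nat.card_pos h2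
    intro h4; exact hNp (h4.trans h3)
  have hBp : IsPGroup p (B.subgroupOf (N ⊔ B)) := hB.comap_of_injective _ (subtype_injective _)
  have hAp : IsPGroup p (A.subgroupOf (N ⊔ B)) := hA.comap_of_injective _ (subtype_injective _)
  obtain ⟨Q, hQ⟩ := hAp.exists_le_sylow
  obtain ⟨c, hc⟩ := MulAction.exists_smul_eq (N ⊔ B : Subgroup G) (hBp.toSylow hidx) Q
  have hdec : ∀ c ∈ N ⊔ B, ∃ n ∈ N, ∃ u ∈ B, n * u = c := by
    intro c h
    rw [← SetLike.mem_coe, normal_mul] at h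
    obtain ⟨n, hn, u, hu, hnu⟩ := Set.mem_mul.mp h
    exact ⟨n, hn, u, hu, hnu⟩
  obtain ⟨n, hn, u, hu, hnu⟩ := hdec (c : G) c.2
  refine ⟨n⁻¹, inv_mem hn, ?_⟩
  intro a ha
  have h1 : (⟨a, hAB ha⟩ : (N ⊔ B : Subgroup G)) ∈ (Q : Subgroup (N ⊔ B : Subgroup G)) := hQ ha
  rw [← hc] at h1
  obtain ⟨w, hw, hwa⟩ := h1
  have hwB : (w : G) ∈ B := hw
  have h2 : (c : G) * w * (c : G)⁻¹ = a := congrArg Subtype.val hwa
  have h3 : n⁻¹ * a * n⁻¹⁻¹ = u * (w : G) * u⁻¹ := by rw [← h2, ← hnu]; group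
  rw [h3]
  exact mul_mem (mul_mem hu hwB) (inv_mem hu)

/-- Glauberman's Z*-Theorem in fusion language: for a finite group G with Sylow 2-subgroup S, the centre of the fusion system of G on S is the set of elements of S whose image in G/O(G) is central, O(G) being the largest normal subgroup of odd order. -/
theorem result {G : Type*} [Group G] [Finite G] (S : Sylow 2 G) : (Cfsg.groupFusionSystem (S : Subgroup G)).center = (S : Subgroup G) ⊓ (Subgroup.center (G ⧸ Cfsg.oddCore G)).comap (QuotientGroup.mk' (Cfsg.oddCore G)) := by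
  classical
  haveI hNn : (Cfsg.pPrimeCore 2 G).Normal := Cfsg.Agent.Lib.Cores.pPrimeCore_normal (G := G) 2
  have hmemc : ∀ x : G, x ∈ (Subgroup.center (G ⧸ Cfsg.oddCore G)).comap (QuotientGroup.mk' (Cfsg.oddCore G)) ↔
      ∀ g : G, x * g * x⁻¹ * g⁻¹ ∈ Cfsg.pPrimeCore 2 G := by
    intro x
    rw [Subgroup.mem_comap, Subgroup.mem_center_iff]
    constructor
    · intro h g
      have h1 := h (QuotientGroup.mk' (Cfsg.oddCore G) g)
      rw [← QuotientGroup.ker_mk' (Cfsg.pPrimeCore 2 G), MonoidHom.mem_ker, map_mul, map_mul, map_mul, map_inv, map_inv]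
      rw [← h1]; group
    · intro h g
      obtain ⟨g, rfl⟩ := QuotientGroup.mk'_surjective _ g
      have h1 := h g
      rw [← QuotientGroup.ker_mk' (Cfsg.pPrimeCore 2 G), MonoidHom.mem_ker, map_mul, map_mul, map_mul, map_inv, map_inv] at h1
      have h2 := mul_inv_eq_one.mp h1
      have h3 := mul_inv_eq_iff_eq_mul.mp h2
      exact h3.symm
  have hSO : ∀ s ∈ (S : Subgroup G), s ∈ Cfsg.pPrimeCore 2 G → s = 1 := by
    intro s hs hs2
    obtain ⟨k, hk⟩ := Cfsg.Agent.Lib.BlockPP.exists_orderOf_of_mem Nat.prime_two S.isPGroup' hs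
    have h1 := Cfsg.Agent.Lib.BSuz.core_not_dvd Nat.prime_two hs2
    have hk0 : k = 0 := by
      by_contra h0; rw [hk] at h1; exact h1 (dvd_pow_self 2 h0)
    rw [hk0, pow_zero, orderOf_eq_one_iff] at hk
    exact hk
  apply le_antisymm
  · apply sSup_le
    intro Q hQ
    obtain ⟨hQS, hQc⟩ := hQ
    have hiso : ∀ x ∈ Q, ∀ g : G, g * x * g⁻¹ ∈ (S : Subgroup G) → g * x * g⁻¹ = x := by
      intro x hx g hg
      have hxS : Subgroup.zpowers x ≤ (S : Subgroup G) := by rw [Subgroup.zpowers_le]; exact hQS hx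
      have himg : ∀ y : Subgroup.zpowers x, g * (y : G) * g⁻¹ ∈ (S : Subgroup G) := by
        rintro ⟨y, hy⟩
        obtain ⟨k, rfl⟩ := Subgroup.mem_zpowers_iff.mp hy
        change g * x ^ k * g⁻¹ ∈ _
        rw [← conj_zpow]; exact zpow_mem hg k
      obtain ⟨ψ, hψ, h1, h2⟩ := hQc (Subgroup.zpowers x)
        ((MulAut.conj g).toMonoidHom.comp (Subgroup.zpowers x).subtype)
        ⟨hxS, himg, g, fun y => rfl⟩
      have e1 := h1 ⟨x, Subgroup.mem_zpowers x⟩
      have e2 := h2 ⟨x, hx⟩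
      have e3 : (Subgroup.inclusion (le_sup_left : Subgroup.zpowers x ≤ Subgroup.zpowers x ⊔ Q) ⟨x, Subgroup.mem_zpowers x⟩) =
        (Subgroup.inclusion (le_sup_right : Q ≤ Subgroup.zpowers x ⊔ Q) ⟨x, hx⟩) := rfl
      rw [e3, e2] at e1
      exact e1.symm
    intro x hx
    exact Subgroup.mem_inf.mpr ⟨hQS hx, (hmemc x).mpr (Cfsg.Agent.Lib.ZStar.zstar_group S hQS hiso hx)⟩
  · apply le_sSup
    refine ⟨inf_le_left, ?_⟩
    rintro P φ ⟨hPS, hφS, g, hg⟩
    set Z := (S : Subgroup G) ⊓ (Subgroup.center (G ⧸ Cfsg.oddCore G)).comap (QuotientGroup.mk' (Cfsg.oddCore G)) with hZ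
    have hZc : ∀ z ∈ Z, ∀ g : G, z * g * z⁻¹ * g⁻¹ ∈ Cfsg.pPrimeCore 2 G := fun z hz => (hmemc z).mp hz.2
    have hZS : Z ≤ (S : Subgroup G) := inf_le_left
    have hZcomm : ∀ z ∈ Z, ∀ s ∈ (S : Subgroup G), Commute z s := by
      intro z hz s hs
      have h1 := hSO _ (mul_mem (mul_mem (mul_mem (hZS hz) hs) (inv_mem (hZS hz))) (inv_mem hs)) (hZc z hz s)
      have h5 : z * s * z⁻¹ = s := mul_inv_eq_one.mp h1
      calc z * s = (z * s * z⁻¹) * z := by group
        _ = s * z := by rw [h5]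
    -- work in C = C(gPg⁻¹)
    set R : Set G := {x | ∃ y ∈ P, g * y * g⁻¹ = x} with hR
    set C := Subgroup.centralizer R with hC
    have hRS : ∀ x ∈ R, x ∈ (S : Subgroup G) := by
      rintro x ⟨y, hy, rfl⟩
      have := hφS ⟨y, hy⟩
      rw [hg] at this; exact this
    have hmC : ∀ w : G, (∀ x ∈ R, Commute w x) → w ∈ C := by
      intro w hw
      rw [hC, Subgroup.mem_centralizer_iff]
      intro x hx; exact (hw x hx).eq.symm
    have hZC : Z ≤ C := fun z hz => hmC z fun x hx => hZcomm z hz x (hRS x hx)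
    have hZgC : Z.map (MulAut.conj g).toMonoidHom ≤ C := by
      rintro _ ⟨z, hz, rfl⟩
      apply hmC
      rintro x ⟨y, hy, rfl⟩
      change (g * z * g⁻¹) * (g * y * g⁻¹) = (g * y * g⁻¹) * (g * z * g⁻¹)
      have h1 := (hZcomm z hz y (hPS hy)).eq
      calc (g * z * g⁻¹) * (g * y * g⁻¹) = g * (z * y) * g⁻¹ := by group
        _ = g * (y * z) * g⁻¹ := by rw [h1]
        _ = _ := by group
    have hZp : IsPGroup 2 Z := S.isPGroup'.to_le hZS
    -- inside C
    set N := (Cfsg.pPrimeCore 2 G).subgroupOf C with hN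
    have hNn' : N.Normal := by rw [hN]; infer_instance
    have hNc : ¬ 2 ∣ Nat.card N := by
      have h1 : Nat.card N ∣ Nat.card (Cfsg.pPrimeCore 2 G) := by
        have : Nat.card N = Nat.card ((Cfsg.pPrimeCore 2 G) ⊓ C : Subgroup G) := by
          rw [hN, ← Subgroup.inf_subgroupOf_right]
          exact Nat.card_congr (Subgroup.subgroupOfEquivOfLe inf_le_right).toEquiv
        rw [this]; exact Subgroup.card_dvd_of_le inf_le_left
      intro h2; exact Cfsg.Agent.Lib.Cores.pPrimeCore_not_dvd (G := G) 2 (h2.trans h1)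
    have hcong : ∀ z ∈ Z, (g * z * g⁻¹) * z⁻¹ ∈ Cfsg.pPrimeCore 2 G := by
      intro z hz
      have h1 := hZc z hz g
      have h2 : (g * z * g⁻¹) * z⁻¹ = g * ((z * g⁻¹ * z⁻¹ * g⁻¹⁻¹)) * g⁻¹ := by group
      rw [h2]
      exact hNn.conj_mem _ (hZc z hz g⁻¹) g
    obtain ⟨n, hn, hn2⟩ := conj_into (G := C) Nat.prime_two (N := N)
      (A := (Z.map (MulAut.conj g).toMonoidHom).subgroupOf C) (B := Z.subgroupOf C) hNn' hNc
      ((hZp.map _).comap_of_injective _ (Subgroup.subtype_injective _))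
      (hZp.comap_of_injective _ (Subgroup.subtype_injective _)) (by
        rintro w ⟨z, hz, hzw⟩
        have hzw' : g * z * g⁻¹ = (w : G) := hzw
        have h1 : w = (w * (⟨z, hZC hz⟩ : C)⁻¹) * ⟨z, hZC hz⟩ := by group
        rw [h1]
        apply mul_mem
        · apply Subgroup.mem_sup_left
          rw [hN, Subgroup.mem_subgroupOf]
          change (w : G) * z⁻¹ ∈ _
          rw [← hzw']; exact hcong z hz
        · apply Subgroup.mem_sup_right
          rw [Subgroup.mem_subgroupOf]; exact hz)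
    have hnO : (n : G) ∈ Cfsg.pPrimeCore 2 G := hn
    set h := (n : G) * g with hh
    have hfixZ : ∀ z ∈ Z, h * z * h⁻¹ = z := by
      intro z hz
      have h1 := hn2 ⟨g * z * g⁻¹, hZgC ⟨z, hz, rfl⟩⟩ ⟨z, hz, rfl⟩
      rw [Subgroup.mem_subgroupOf] at h1
      have h2 : (n : G) * (g * z * g⁻¹) * (n : G)⁻¹ ∈ Z := h1
      have h3 : (n : G) * (g * z * g⁻¹) * (n : G)⁻¹ = h * z * h⁻¹ := by rw [hh]; group
      rw [h3] at h2
      have h4 : (h * z * h⁻¹) * z⁻¹ ∈ Cfsg.pPrimeCore 2 G := by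
        have h5 : (h * z * h⁻¹) * z⁻¹ = (n : G) * ((g * z * g⁻¹) * z⁻¹) * (z * (n : G)⁻¹ * z⁻¹) := by rw [hh]; group
        rw [h5]
        exact mul_mem (mul_mem hnO (hcong z hz)) (hNn.conj_mem _ (inv_mem hnO) z)
      have h5 := hSO _ (mul_mem (hZS h2) (inv_mem (hZS hz))) h4
      exact mul_inv_eq_one.mp h5
    have hP : ∀ x ∈ P, h * x * h⁻¹ = g * x * g⁻¹ := by
      intro x hx
      have h1 : (n : G) * (g * x * g⁻¹) = (g * x * g⁻¹) * n :=
        ((Subgroup.mem_centralizer_iff.mp n.2) (g * x * g⁻¹) ⟨x, hx, rfl⟩).symm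
      calc h * x * h⁻¹ = ((n : G) * (g * x * g⁻¹)) * (n : G)⁻¹ := by rw [hh]; group
        _ = g * x * g⁻¹ := by rw [h1]; group
    refine ⟨(MulAut.conj h).toMonoidHom.comp (P ⊔ Z).subtype, ⟨sup_le hPS hZS, ?_, h, fun x => rfl⟩, ?_, ?_⟩
    · rintro ⟨x, hx⟩
      change h * x * h⁻¹ ∈ (S : Subgroup G)
      have h1 : P ⊔ Z ≤ (S : Subgroup G).comap (MulAut.conj h).toMonoidHom := by
        apply sup_le
        · intro y hy
          change h * y * h⁻¹ ∈ (S : Subgroup G)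
          rw [hP y hy]; exact hRS _ ⟨y, hy, rfl⟩
        · intro z hz
          change h * z * h⁻¹ ∈ (S : Subgroup G)
          rw [hfixZ z hz]; exact hZS hz
      exact h1 hx
    · rintro ⟨x, hx⟩
      change h * x * h⁻¹ = φ ⟨x, hx⟩
      rw [hg]; exact hP x hx
    · rintro ⟨x, hx⟩
      exact hfixZ x hx

end Cfsg.Agent.S5094
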