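import Cfsg.Statements.S5102
import Cfsg.Agent.Lib.FusGroup

set_option autoImplicit false
open Cfsg
open Cfsg.Agent.Lib.FusBase Cfsg.Agent.Lib.FusGroup Cfsg.Agent.Lib.SylRel Cfsg.FusionSystem Cfsg.Agent.Lib.FusNormal

namespace Cfsg.Agent.S5102

/-- A normal p-subgroup of a finite group G is normal in the fusion system of G on a Sylow p-subgroup. -/
theorem result {G : Type*} [Group G] [Finite G] (p : ℕ) [Fact p.Prime] (S : Sylow p G) (R : Subgroup G) [R.Normal] (hR : IsPGroup p R) : (Cfsg.groupFusionSystem (S : Subgroup G)).IsNormal R := by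
  have hRS : R ≤ S := (Cfsg.Agent.Lib.Cores.le_pCore inferInstance hR).trans (Cfsg.Agent.Lib.Cores.pCore_le_sylow S)
  rw [isNormal_iff]
  refine ⟨hRS, fun P f hf => ?_⟩
  obtain ⟨hP, hfS, g, hg⟩ := mor_grp.1 hf
  have hnor : ∀ g : G, ∀ x ∈ R, g * x * g⁻¹ ∈ R := fun g x hx => Subgroup.Normal.conj_mem inferInstance x hx g
  have hmap : (P ⊔ R).map (MulAut.conj g).toMonoidHom ≤ S := by
    rw [Subgroup.map_sup]
    refine sup_le (map_conj_le.2 fun x hx => ?_) (map_conj_le.2 fun x hx => hRS (hnor g x hx))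
    rw [← hg x hx]; exact hfS x hx
  refine ⟨fun x => g * x * g⁻¹, mor_grp.2 ⟨sup_le hP hRS, map_conj_le.1 hmap, g, fun x _ => rfl⟩,
    fun x hx => (hg x hx).symm, ?_⟩
  apply le_antisymm
  · rw [img_le_iff]; exact fun x hx => hnor g x hx
  · intro y hy
    have h1 := hnor g⁻¹ y hy
    have h2 : y = (fun x => g * x * g⁻¹) (g⁻¹ * y * g⁻¹⁻¹) := by
      show y = g * (g⁻¹ * y * g⁻¹⁻¹) * g⁻¹
      group
    rw [h2]; exact mem_img_of_mem h1

end Cfsg.Agent.S5102
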