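import Cfsg.Statements.S5105
import Cfsg.Agent.Lib.FusModel

set_option autoImplicit false
open Cfsg
open Cfsg.Agent.Lib.FusMor Cfsg.Agent.Lib.FusModel

namespace Cfsg.Agent.S5105

/-- Model Theorem, rigidity: if G is a model of a constrained fusion system over a finite p-group S (through ι : S → G), then every automorphism of G fixing ι(S) elementwise is conjugation by ι(z) for some z in the centre of S. -/
theorem result {Ω : Type*} [Group Ω] {S : Subgroup Ω} [Finite S] (p : ℕ) [Fact p.Prime] (hS : IsPGroup p S) (F : Cfsg.FusionSystem S) (hF : F.IsConstrained p) {G : Type*} [Group G] (ι : S →* G) (hG : F.IsModel p G ι) (ψ : G ≃* G) (hψ : ∀ x : S, ψ (ι x) = ι x) : ∃ z : S, z ∈ Subgroup.center S ∧ ∀ g : G, ψ g = ι z * g * (ι z)⁻¹ := by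
  obtain ⟨hfinG, hr, ⟨T, hT⟩, hC⟩ := hG
  classical
  set O : Subgroup G := pCore p G with hO
  have hOn : O.Normal := Cfsg.Agent.Lib.Cores.pCore_normal p
  have hOT : O ≤ (T : Subgroup G) := Cfsg.Agent.Lib.Cores.pCore_le_sylow T
  have hψT : ∀ t ∈ (T : Subgroup G), ψ t = t := by
    intro t ht
    rw [hT] at ht
    obtain ⟨s, rfl⟩ := ht
    exact hψ s
  set A : Subgroup G := Subgroup.centralizer (O : Set G) with hA
  have hAO : A ≤ O := hC
  have hAn : A.Normal := inferInstance
  have hAc : ∀ a ∈ A, ∀ b ∈ A, a * b = b * a := fun a ha b hb => (Subgroup.mem_centralizer_iff.1 hb a (hAO ha))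
  -- the cocycle
  let c : G → G := fun g => ψ g * g⁻¹
  have hcA : ∀ g, c g ∈ A := by
    intro g
    rw [hA, Subgroup.mem_centralizer_iff]
    intro x hx
    -- `ψ (g⁻¹ x g) = g⁻¹ x g`
    have h1 : g⁻¹ * x * g ∈ O := by
      have := hOn.conj_mem x hx g⁻¹
      rwa [inv_inv] at this
    have h2 := hψT _ (hOT h1)
    rw [map_mul, map_mul, map_inv, hψT x (hOT hx)] at h2
    show x * (ψ g * g⁻¹) = ψ g * g⁻¹ * x
    have h3 : x * ψ g = ψ g * (g⁻¹ * x * g) := by rw [← h2]; group
    rw [← mul_assoc, h3]; group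
  have hcm : ∀ g h, c (g * h) = c g * (g * c h * g⁻¹) := by
    intro g h
    have h1 : c (g * h) = ψ g * c h * g⁻¹ := by show ψ (g * h) * (g * h)⁻¹ = ψ g * (ψ h * h⁻¹) * g⁻¹; rw [map_mul]; group
    rw [h1]
    show ψ g * c h * g⁻¹ = ψ g * g⁻¹ * (g * c h * g⁻¹)
    group
  have hcT : ∀ t ∈ (T : Subgroup G), c t = 1 := fun t ht => by
    show ψ t * t⁻¹ = 1
    rw [hψT t ht]; group
  -- the conjugation action on the commutative group `A`
  let hAcomm : CommGroup A := { (inferInstance : Group A) with mul_comm := fun a b => Subtype.ext (hAc a a.2 b b.2) }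
  let cc : G → A := fun g => ⟨c g, hcA g⟩
  let act : G → (A →* A) := fun g => MonoidHom.mk' (fun a => ⟨g * a * g⁻¹, hAn.conj_mem a a.2 g⟩) (fun a b => Subtype.ext (by
    show g * ((a : G) * b) * g⁻¹ = g * a * g⁻¹ * (g * b * g⁻¹)
    group))
  have hccm : ∀ g h, cc (g * h) = cc g * act g (cc h) := fun g h => Subtype.ext (hcm g h)
  have hccT : ∀ g, ∀ t ∈ (T : Subgroup G), cc (g * t) = cc g := by
    intro g t ht
    rw [hccm]
    have : cc t = 1 := Subtype.ext (hcT t ht)
    rw [this, map_one, mul_one]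
  let q : G ⧸ (T : Subgroup G) → A := Quotient.lift cc (by
    intro a b hab
    have h1 : a⁻¹ * b ∈ (T : Subgroup G) := QuotientGroup.leftRel_apply.1 hab
    have h2 := hccT a _ h1
    rw [mul_inv_cancel_left] at h2
    exact h2.symm)
  have hq : ∀ g : G, q (QuotientGroup.mk g) = cc g := fun _ => rfl
  let _ : Fintype (G ⧸ (T : Subgroup G)) := Fintype.ofFinite _
  let a : A := ∏ x : G ⧸ (T : Subgroup G), q x
  have hkey : ∀ g : G, a = cc g ^ (T : Subgroup G).index * act g a := by
    intro g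
    have h1 : a = ∏ x : G ⧸ (T : Subgroup G), q (g • x) := (Fintype.prod_bijective (fun x => g • x) (MulAction.bijective g) _ _ (fun x => rfl)).symm
    have h2 : ∀ x : G ⧸ (T : Subgroup G), q (g • x) = cc g * act g (q x) := by
      intro x
      obtain ⟨y, rfl⟩ := QuotientGroup.mk_surjective x
      show q (QuotientGroup.mk (g * y)) = _
      rw [hq, hq, hccm]
    have h3 : a = ∏ x : G ⧸ (T : Subgroup G), cc g * act g (q x) := by
      rw [h1]; exact Finset.prod_congr rfl fun x _ => h2 x
    rw [Finset.prod_mul_distrib, Finset.prod_const, Finset.card_univ, ← Nat.card_eq_fintype_card, ← map_prod] at h3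
    rw [Subgroup.index_eq_card]
    exact h3
  -- an inverse of the index
  have hcop : Nat.Coprime (Nat.card A) (T : Subgroup G).index := by
    have hAp : IsPGroup p A := T.2.to_le (hAO.trans hOT)
    obtain ⟨k, hk⟩ := IsPGroup.iff_card.1 hAp
    rw [hk]
    exact Nat.Coprime.pow_left _ ((Fact.out : p.Prime).coprime_iff_not_dvd.2 T.not_dvd_index)
  have hbij : Function.Bijective (fun b : A => b ^ (T : Subgroup G).index) := (powCoprime hcop).bijective
  obtain ⟨b, hb⟩ := hbij.surjective a
  have hb' : b ^ (T : Subgroup G).index = a := hb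
  have hψb : ∀ g : G, ψ g = (b : G) * g * (b : G)⁻¹ := by
    intro g
    have h1 := hkey g
    have h2 : cc g = b * (act g b)⁻¹ := by
      apply hbij.injective
      show cc g ^ (T : Subgroup G).index = (b * (act g b)⁻¹) ^ (T : Subgroup G).index
      rw [mul_pow, inv_pow, ← map_pow, hb']
      exact eq_mul_inv_of_mul_eq h1.symm
    have h3 : c g = (b : G) * (g * (b : G) * g⁻¹)⁻¹ := congrArg Subtype.val h2
    have h4 : ψ g = c g * g := by show ψ g = ψ g * g⁻¹ * g; group
    rw [h4, h3]; group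
  have hbT : (b : G) ∈ ι.range := by rw [← hT]; exact hOT (hAO b.2)
  obtain ⟨z, hz⟩ := hbT
  refine ⟨z, ?_, fun g => by rw [hz]; exact hψb g⟩
  rw [Subgroup.mem_center_iff]
  intro s
  apply hr.1
  rw [map_mul, map_mul, hz]
  have h1 := hψb (ι s)
  rw [hψ s] at h1
  conv_lhs => rw [h1]
  group

end Cfsg.Agent.S5105
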