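import Cfsg.Statements.S5106
import Cfsg.Agent.Lib.FusNormalB

set_option autoImplicit false
open Cfsg
open Cfsg.Agent.Lib.FusBase Cfsg.Agent.Lib.FusSat Cfsg.FusionSystem Cfsg.Agent.Lib.FusAlperin Cfsg.Agent.Lib.FusNormal Cfsg.Agent.Lib.FusNormalB

namespace Cfsg.Agent.S5106

/-- In a saturated fusion system over a finite p-group S, a subgroup R ≤ S is normal in the system if and only if every map of the system whose source is a subgroup of R is the restriction of an element of Aut_F(R). -/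
theorem result {Ω : Type*} [Group Ω] {S : Subgroup Ω} [Finite S] (p : ℕ) [Fact p.Prime] (hS : IsPGroup p S) (F : Cfsg.FusionSystem S) (hF : F.IsSaturated p) (R : Subgroup Ω) (hRS : R ≤ S) : F.IsNormal R ↔ ∀ (P : Subgroup Ω) (hPR : P ≤ R) (φ : P →* Ω), φ ∈ F.Hom P → ∃ α ∈ F.autGroup R, ∀ x : P, ((α (Subgroup.inclusion hPR x) : R) : Ω) = φ x := by
  constructor
  · intro h P hPR φ hφ
    obtain ⟨g, hg, h1, h2⟩ := (isNormal_iff.1 h).2 P _ (mor_ext hφ)
    rw [sup_eq_right.2 hPR] at hg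
    have hi : Iso F R R g := ⟨hg, h2⟩
    refine ⟨autOf hi, autOf_mem hi, fun x => ?_⟩
    rw [autOf_apply, ← ext_apply φ]
    exact h1 x x.2
  · intro h
    refine normal_of_extend hS hF hRS fun P hPR f hf => ?_
    obtain ⟨φ, hφ, h'⟩ := hf
    obtain ⟨α, hα, h1⟩ := h P hPR φ hφ
    refine ⟨fn α, iso_fn hRS hα, fun x hx => ?_⟩
    rw [fn_mem α (hPR hx), ← h' ⟨x, hx⟩, ← h1]; rfl

end Cfsg.Agent.S5106
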