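import Cfsg.Statements.S5107
import Cfsg.Agent.Lib.FusGroup

set_option autoImplicit false
open Cfsg
open Cfsg.Agent.Lib.FusBase Cfsg.Agent.Lib.FusSat Cfsg.Agent.Lib.FusGroup Cfsg.Agent.Lib.SylRel Cfsg.FusionSystem Cfsg.Agent.Lib.FusNormal Cfsg.Agent.Lib.FusNormalB

namespace Cfsg.Agent.S5107

open scoped commutatorElement in
private theorem comm_eq {G : Type*} [Group G] {A B C : Subgroup G} (h : ⁅A, B⁆ ≤ C) {a b : G} (ha : a ∈ A) (hb : b ∈ B) :
    a * b * a⁻¹ * b⁻¹ ∈ C := h (Subgroup.commutator_mem_commutator ha hb)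

/-- If a Sylow p-subgroup S of a finite group G has nilpotency class at most two and its centre is strongly closed in S with respect to G, then every map of the fusion system of G on S is conjugation by an element of N_G(S), and S is the largest subgroup normal in that fusion system. -/
theorem result {G : Type*} [Group G] [Finite G] (p : ℕ) [Fact p.Prime] (S : Sylow p G) (hcl : ⁅(S : Subgroup G), (S : Subgroup G)⁆ ≤ (S : Subgroup G) ⊓ Subgroup.centralizer ((S : Subgroup G) : Set G)) (hZ : Cfsg.IsStronglyClosed ((S : Subgroup G) ⊓ Subgroup.centralizer ((S : Subgroup G) : Set G)) (S : Subgroup G)) : (∀ (P : Subgroup G) (φ : P →* G), φ ∈ (Cfsg.groupFusionSystem (S : Subgroup G)).Hom P → ∃ g ∈ Subgroup.normalizer ((S : Subgroup G) : Set G), ∀ x : P, φ x = g * (x : G) * g⁻¹) ∧ (Cfsg.groupFusionSystem (S : Subgroup G)).core = S := by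
  set Z := (S : Subgroup G) ⊓ Subgroup.centralizer ((S : Subgroup G) : Set G) with hZd
  have hsat := saturated_grp S
  have hZsc : (groupFusionSystem (S : Subgroup G)).StronglyClosed Z := by
    rw [stronglyClosed_iff]
    refine ⟨inf_le_left, fun P f hf x hx hxZ => ?_⟩
    obtain ⟨hP, hfS, g, hg⟩ := mor_grp.1 hf
    rw [hg x hx]
    refine hZ.2 x hxZ g ?_
    rw [← hg x hx]; exact hfS x hx
  have hnor : (groupFusionSystem (S : Subgroup G)).IsNormal S := by
    refine normal_of_chain S.2 hsat (fun i => if i = 0 then ⊥ else if i = 1 then Z else S) 2 (by simp) (by simp) ?_ ?_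
    · intro i hi
      interval_cases i
      · simpa using stronglyClosed_bot _
      · simpa using hZsc
      · simpa using stronglyClosed_self _
    · intro i hi b hb x hx
      interval_cases i
      · simp only [zero_add, one_ne_zero, if_false, if_true] at hx ⊢
        have := Subgroup.mem_centralizer_iff.1 hx.2 b hb
        rw [this, Subgroup.mem_bot]; group
      · simp only [one_ne_zero, if_false, if_true] at hx ⊢
        have hx' : x ∈ (S : Subgroup G) := by simpa using hx
        have := comm_eq hcl ((S : Subgroup G).inv_mem hx') hb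
        have e : x⁻¹ * (b * x * b⁻¹) = x⁻¹ * b * x⁻¹⁻¹ * b⁻¹ := by group
        rw [e]; exact this
  refine ⟨fun P φ hφ => ?_, le_antisymm (sSup_le fun Q hQ => hQ.1) (le_core hnor)⟩
  obtain ⟨g, hg, h1, h2⟩ := (isNormal_iff.1 hnor).2 P _ (mor_ext hφ)
  have hP : P ≤ S := (mor_ext hφ).le
  obtain ⟨-, -, n, hn⟩ := mor_grp.1 (hg.restrict (le_sup_right : (S : Subgroup G) ≤ P ⊔ S))
  refine ⟨n, ?_, fun x => ?_⟩
  · refine mem_normalizer_of_conj_mem fun x hx => ?_
    rw [← hn x hx, ← h2]; exact mem_img_of_mem hx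
  · rw [← hn x (hP x.2), h1 x x.2, ext_apply]

end Cfsg.Agent.S5107
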