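import Cfsg.Statements.S5119
import Cfsg.Agent.Lib.FusInv

set_option autoImplicit false
open Cfsg
open Cfsg.Agent.Lib.FusInv Cfsg.Agent.Lib.FusBase Cfsg.Agent.Lib.FusNormal Cfsg.FusionSystem

namespace Cfsg.Agent.S5119

/-- Let F be a saturated fusion system over a finite p-group S and E a subsystem of F over a subgroup T that is strongly closed in F. Then E is invariant in F (invariance under Aut_F(T) plus the Frattini condition) if and only if the strong invariance condition holds: for P ≤ Q ≤ T, every map φ of E from P into Q and every map ψ of F with source Q, the transported map ψ φ ψ⁻¹ on ψ(P) is a map of E. -/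
theorem result {Ω : Type*} [Group Ω] {S : Subgroup Ω} [Finite S] (p : ℕ) [Fact p.Prime] (hS : IsPGroup p S) (F : Cfsg.FusionSystem S) (hF : F.IsSaturated p) {T : Subgroup Ω} (E : Cfsg.FusionSystem T) (hE : E.IsSubsystemOf F) (hT : F.StronglyClosed T) : E.IsInvariantIn F ↔ ∀ (P Q : Subgroup Ω) (hPQ : P ≤ Q) (_ : Q ≤ T) (φ : P →* Ω) (_ : φ ∈ E.Hom P) (hφQ : ∀ x : P, φ x ∈ Q) (ψ : Q →* Ω) (_ : ψ ∈ F.Hom Q), ∃ χ ∈ E.Hom ((P.subgroupOf Q).map ψ), ∀ (x : P) (hx : ψ (Subgroup.inclusion hPQ x) ∈ (P.subgroupOf Q).map ψ), χ ⟨ψ (Subgroup.inclusion hPQ x), hx⟩ = ψ ⟨φ x, hφQ x⟩ := by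
  constructor
  · intro h P Q hPQ hQ φ hφ hφQ ψ hψ
    obtain ⟨k, hk, hk'⟩ := strong_of_invariant h hPQ hQ (mor_ext hφ) (fun x hx => by rw [ext_mem φ hx]; exact hφQ _) (mor_ext hψ)
    rw [← map_eq_img hPQ (φ := ψ) (fun x => (ext_apply ψ x).symm)] at hk
    obtain ⟨χ, hχ, hχk⟩ := hk
    refine ⟨χ, hχ, fun x hx => ?_⟩
    rw [hχk]
    have := hk' x x.2
    rw [ext_mem ψ (hPQ x.2), ext_apply, ext_mem ψ (hφQ x)] at this
    exact this
  · intro h
    refine invariant_of_strong hS hF hE hT fun P Q f g hPQ hQ hf hfQ hg => ?_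
    obtain ⟨φ, hφ, hφf⟩ := hf
    obtain ⟨ψ, hψ, hψg⟩ := hg
    have hφQ : ∀ x : P, φ x ∈ Q := fun x => by rw [hφf]; exact hfQ x x.2
    obtain ⟨χ, hχ, h1⟩ := h P Q hPQ hQ φ hφ hφQ ψ hψ
    have he : (P.subgroupOf Q).map ψ = img P g := map_eq_img hPQ hψg
    refine ⟨ext χ, he ▸ mor_ext hχ, fun x hx => ?_⟩
    have hx' : ψ (Subgroup.inclusion hPQ ⟨x, hx⟩) ∈ (P.subgroupOf Q).map ψ := by
      rw [he, hψg]; exact mem_img_of_mem hx
    have h2 := h1 ⟨x, hx⟩ hx'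
    rw [← ext_apply χ ⟨ψ (Subgroup.inclusion hPQ ⟨x, hx⟩), hx'⟩] at h2
    have e1 : ((⟨ψ (Subgroup.inclusion hPQ ⟨x, hx⟩), hx'⟩ : (P.subgroupOf Q).map ψ) : Ω) = g x := hψg _
    rw [e1, hψg] at h2
    rw [h2]
    show g (φ ⟨x, hx⟩) = g (f x)
    rw [hφf]

end Cfsg.Agent.S5119
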