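import Cfsg.Statements.S5123
import Cfsg.Agent.Lib.FusGroup

set_option autoImplicit false
open Cfsg
open Cfsg.Agent.Lib.FusBase Cfsg.Agent.Lib.FusGroup Cfsg.Agent.Lib.SylRel Cfsg.FusionSystem

namespace Cfsg.Agent.S5123

/-- Let G be a finite group with Sylow p-subgroup S, P, Q ≤ S and g ∈ G with gPg⁻¹ = Q, and suppose N_S(Q) is a Sylow p-subgroup of N_G(Q). Let N be the set of x ∈ N_S(P) with gxg⁻¹ ∈ N_S(Q)C_G(Q). Then some h ∈ C_G(Q) satisfies (hg)N(hg)⁻¹ ≤ S. -/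
theorem result {G : Type*} [Group G] [Finite G] (p : ℕ) [Fact p.Prime] (S : Sylow p G) (P Q : Subgroup G) (hP : P ≤ S) (hQ : Q ≤ S) (g : G) (hg : P.map (MulAut.conj g).toMonoidHom = Q) (hN : (∃ R : Sylow p ↥(Subgroup.normalizer (Q : Set G)), (R : Subgroup ↥(Subgroup.normalizer (Q : Set G))) = (Cfsg.FusionSystem.normalizerIn (S : Subgroup G) Q).subgroupOf (Subgroup.normalizer (Q : Set G)))) : ∃ h ∈ Subgroup.centralizer (Q : Set G), ((Cfsg.FusionSystem.normalizerIn (S : Subgroup G) P) ⊓ (Cfsg.FusionSystem.normalizerIn (S : Subgroup G) Q ⊔ Subgroup.centralizer (Q : Set G)).comap (MulAut.conj g).toMonoidHom).map (MulAut.conj (h * g)).toMonoidHom ≤ S := by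
  have h2 : NSyl p ⊤ (S : Subgroup G) Q := by
    unfold NSyl
    rw [top_inf_eq]
    exact (sylIn_iff inf_le_right).2 hN
  obtain ⟨c, hc, h3⟩ := h2.extend (sylIn_of_sylow S) (g := g) trivial hg
    ((normalizerIn (S : Subgroup G) P) ⊓ (normalizerIn (S : Subgroup G) Q ⊔ Subgroup.centralizer (Q : Set G)).comap (MulAut.conj g).toMonoidHom)
    inf_le_left (by
      rintro x ⟨hx1, hx2⟩
      have hx3 : g * x * g⁻¹ ∈ normalizerIn (S : Subgroup G) Q ⊔ Subgroup.centralizer (Q : Set G) := hx2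
      rw [← SetLike.mem_coe, Subgroup.coe_mul_of_left_le_normalizer_right _ _
        (show normalizerIn (S : Subgroup G) Q ≤ _ from inf_le_right.trans (norm_norm_cent Q))] at hx3
      obtain ⟨a, ha, b, hb, hab⟩ := hx3
      exact ⟨a, ha, b, ⟨trivial, hb⟩, hab.symm⟩)
  exact ⟨c, hc.2, map_conj_le.2 h3⟩

end Cfsg.Agent.S5123
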