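import Cfsg.Statements.S5139
import Cfsg.Agent.Lib.PPIC

set_option autoImplicit false
open Cfsg
open Cfsg.FusionSystem Cfsg.Agent.Lib.FusBase Cfsg.Agent.Lib.FusInv Cfsg.Agent.Lib.FusGroup Cfsg.Agent.Lib.FusHyp Cfsg.Agent.Lib.FusHypB Cfsg.Agent.Lib.PPIA Cfsg.Agent.Lib.PPIB Cfsg.Agent.Lib.PPIC

namespace Cfsg.Agent.S5139

/-- Let G be a finite group with Sylow p-subgroup S and O^p(G) the subgroup generated by the elements of order prime to p. Then the p-residual subsystem of the fusion system of G on S — the saturated subsystem of p-power index over the hyperfocal subgroup — is the fusion system of O^p(G) on S ∩ O^p(G): its maps are exactly the conjugation maps by elements of O^p(G) between subgroups of S ∩ O^p(G). -/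
theorem result {G : Type*} [Group G] [Finite G] (p : ℕ) [Fact p.Prime] (S : Sylow p G) (E : Cfsg.FusionSystem ((Cfsg.groupFusionSystem (S : Subgroup G)).hyperfocalSubgroup p)) (hE : (Cfsg.groupFusionSystem (S : Subgroup G)).IsPResidual p E) : ∃ h : (S : Subgroup G) ⊓ Cfsg.pResidual p G ≤ Cfsg.pResidual p G, ∀ P : Subgroup G, E.Hom P = (Cfsg.fusionSystemOfSubgroup (Cfsg.pResidual p G) ((S : Subgroup G) ⊓ Cfsg.pResidual p G) h).Hom P := by
  refine ⟨inf_le_right, ?_⟩
  have hn : (Cfsg.pResidual p G).Normal := Cfsg.Agent.Lib.PRes.normal p G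
  have hN := Cfsg.Agent.Lib.FusInvB.normal_of_normal S (Cfsg.pResidual p G)
  have key : ∀ (H : Subgroup G), H = (S : Subgroup G) ⊓ Cfsg.pResidual p G → ∀ E : Cfsg.FusionSystem H,
      E.IsSaturated p → E.HasPPowerIndexIn (groupFusionSystem (S : Subgroup G)) p → ∀ P : Subgroup G,
      E.Hom P = (Cfsg.fusionSystemOfSubgroup (Cfsg.pResidual p G) ((S : Subgroup G) ⊓ Cfsg.pResidual p G) inf_le_right).Hom P := by
    intro H hH E hEs hEi
    subst hH
    have hF : (groupFusionSystem (S : Subgroup G)).IsSaturated p := hN.1.2.1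
    have h1 : (Cfsg.fusionSystemOfSubgroup (Cfsg.pResidual p G) ((S : Subgroup G) ⊓ Cfsg.pResidual p G) inf_le_right).HasPPowerIndexIn
        (groupFusionSystem (S : Subgroup G)) p := by
      refine ⟨hN.1.2.2.1, (hyp_grp S).le, fun P hP => ?_⟩
      rintro _ ⟨β, hβ, rfl⟩
      obtain ⟨g, hg, hgN, hgx⟩ := pres_grp (hP.trans inf_le_left) hβ
      rw [mem_autGroup' hP]
      refine ⟨fun x => g * x * g⁻¹, ?_, hgx⟩
      refine ⟨(MulAut.conj g).toMonoidHom.comp P.subtype, ⟨hP, fun x => ?_, g, hg, fun x => rfl⟩, fun x => rfl⟩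
      have h2 := hP (Subtype.mem ((β : MulAut P) x))
      rw [show (((β : MulAut P) x : P) : G) = g * x * g⁻¹ from hgx x] at h2
      exact h2
    have h2 := eq_of_idx S.2 hF hEs hEi hN.1.1 h1
    intro P
    rw [h2]
  exact key _ (hyp_grp S) E hE.1 hE.2

end Cfsg.Agent.S5139
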