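import Cfsg.Statements.S5160
import Mathlib
import Cfsg.Agent.H8.FSim4

set_option autoImplicit false
open Cfsg

namespace Cfsg.Agent.S5160

open Cfsg.Agent.H8.FSim Cfsg.Agent.Lib.FusBase Cfsg.Agent.Lib.FusSat in

/-- Let G be a finite group with nontrivial Sylow p-subgroup S and F its fusion system on S. Suppose (a) no nontrivial proper subgroup of S is strongly closed in F, and (b) the automorphisms of S induced by G are generated by those induced, for R running over the fully normalized radical centric subgroups of F, by the subgroup of N_G(R) generated by its elements of p-power order. Then F is simple. -/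
theorem result {G : Type*} [Group G] [Finite G] (p : ℕ) [Fact p.Prime] (S : Sylow p G) (hS1 : (S : Subgroup G) ≠ ⊥) (ha : ∀ T : Subgroup G, (Cfsg.groupFusionSystem (S : Subgroup G)).StronglyClosed T → T = ⊥ ∨ T = (S : Subgroup G)) (hb : Cfsg.autInducedBy ⊤ (S : Subgroup G) = ⨆ (R : Subgroup G) (_ : (Cfsg.groupFusionSystem (S : Subgroup G)).IsFullyNormalized R ∧ (Cfsg.groupFusionSystem (S : Subgroup G)).IsRadical p R ∧ (Cfsg.groupFusionSystem (S : Subgroup G)).IsCentric R), Cfsg.autInducedBy (Subgroup.closure {g : G | g ∈ Subgroup.normalizer (R : Set G) ∧ ∃ k : ℕ, orderOf g = p ^ k}) (S : Subgroup G)) : (Cfsg.groupFusionSystem (S : Subgroup G)).IsSimple p := by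
  refine simple_of_gen S hS1 ?_ ha
  intro E hEs hE
  rw [hb]
  refine iSup_le fun R => iSup_le fun hR => ?_
  intro α hα
  obtain ⟨g, hg, h1⟩ := mem_autInducedBy.1 hα
  exact conj_mem S hEs hE (FN_FA S.isPGroup' (Cfsg.Agent.Lib.FusGroup.saturated_grp S) hR.1) hR.2.2 hg h1

end Cfsg.Agent.S5160
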