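import Cfsg.Statements.S5348
import Cfsg.Agent.Lib.ThreeT.Basic

set_option autoImplicit false
open Cfsg

namespace Cfsg.Agent.S5348

/-- Let D be a conjugation-invariant generating set of 3-transpositions of a finite group G and d a member of D. Let V be the set of members of D commuting with exactly the same members of D as d, and W the set of members w of D such that the members of D other than w commuting with w are precisely the members of D other than d commuting with d. Then V = {d} or W = {d}. -/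
theorem result {G : Type*} [Group G] [Finite G] {D : Set G} (hD : Cfsg.IsThreeTranspositionGroup D) {d : G} (hd : d ∈ D) : {v : G | v ∈ D ∧ ∀ e ∈ D, Commute v e ↔ Commute d e} = {d} ∨ {w : G | w ∈ D ∧ {y : G | y ∈ D ∧ y ≠ d ∧ Commute d y} = {y : G | y ∈ D ∧ y ≠ w ∧ Commute w y}} = {d} := by
  by_contra hcon
  push Not at hcon
  obtain ⟨h1, h2⟩ := hcon
  have hv : ∃ v ∈ D, (∀ e ∈ D, Commute v e ↔ Commute d e) ∧ v ≠ d := by
    by_contra hno
    push Not at hno
    apply h1
    ext x
    constructor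
    · rintro ⟨hx, hx'⟩
      exact hno x hx hx'
    · rintro rfl
      exact ⟨hd, fun e _ => Iff.rfl⟩
  have hw : ∃ w ∈ D, {y : G | y ∈ D ∧ y ≠ d ∧ Commute d y} = {y : G | y ∈ D ∧ y ≠ w ∧ Commute w y} ∧ w ≠ d := by
    by_contra hno
    push Not at hno
    apply h2
    ext x
    constructor
    · rintro ⟨hx, hx'⟩
      exact hno x hx hx'
    · rintro rfl
      exact ⟨hd, rfl⟩
  obtain ⟨v, hvD, hv1, hv2⟩ := hv
  obtain ⟨w, hwD, hw1, hw2⟩ := hw
  have h3 : Commute d v := (hv1 v hvD).1 (Commute.refl v)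
  have h4 : v ∈ {y : G | y ∈ D ∧ y ≠ w ∧ Commute w y} := by
    rw [← hw1]; exact ⟨hvD, hv2, h3⟩
  have h5 : Commute d w := (hv1 w hwD).1 h4.2.2.symm
  have h6 : w ∈ {y : G | y ∈ D ∧ y ≠ w ∧ Commute w y} := by
    rw [← hw1]; exact ⟨hwD, hw2, h5⟩
  exact h6.2.1 rfl

end Cfsg.Agent.S5348
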