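import Cfsg.Statements.S5349
import Cfsg.Agent.Lib.ThreeT.Struct3

set_option autoImplicit false
open Cfsg

namespace Cfsg.Agent.S5349

/-- Let D be a conjugacy class of 3-transpositions generating the finite group G, with at least two members, and d a member of D. Then the set of members of D commuting with exactly the same members of D as d coincides with the set of members of D lying in the coset of d modulo the largest normal 2-subgroup of G, and also with the orbit of d under conjugation by that normal 2-subgroup. -/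
theorem result {G : Type*} [Group G] [Finite G] {D : Set G} (hD : Cfsg.IsThreeTranspositionClass D) (hD2 : ∃ a ∈ D, ∃ b ∈ D, a ≠ b) {d : G} (hd : d ∈ D) : {v : G | v ∈ D ∧ ∀ e ∈ D, Commute v e ↔ Commute d e} = {v : G | v ∈ D ∧ d⁻¹ * v ∈ Cfsg.pCore 2 G} ∧ {v : G | v ∈ D ∧ ∀ e ∈ D, Commute v e ↔ Commute d e} = {v : G | ∃ g ∈ Cfsg.pCore 2 G, v = g * d * g⁻¹} := by
  have hc := Cfsg.Agent.Lib.ThreeT.class_conj hD
  have hR : ∀ v ∈ D, (∀ e ∈ D, Commute v e ↔ Commute d e) ↔ Cfsg.Agent.Lib.ThreeT.RV D d v :=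
    fun v _ => ⟨fun h e he => (h e he).symm, fun h e he => (h e he).symm⟩
  constructor
  · ext v
    constructor
    · rintro ⟨hv, h⟩
      exact ⟨hv, (Cfsg.Agent.Lib.ThreeT.RV_iff hD.1 hc hd hv).1 ((hR v hv).1 h)⟩
    · rintro ⟨hv, h⟩
      exact ⟨hv, (hR v hv).2 ((Cfsg.Agent.Lib.ThreeT.RV_iff hD.1 hc hd hv).2 h)⟩
  · ext v
    have hn := Cfsg.Agent.Lib.ThreeT.class_noncomm hD hD2 hd
    constructor
    · rintro ⟨hv, h⟩
      exact (Cfsg.Agent.Lib.ThreeT.RV_orbit hD.1 hc hd hv hn).1 ((hR v hv).1 h)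
    · rintro ⟨g, hg, rfl⟩
      have hv := hc g d hd
      exact ⟨hv, (hR _ hv).2 ((Cfsg.Agent.Lib.ThreeT.RV_orbit hD.1 hc hd hv hn).2 ⟨g, hg, rfl⟩)⟩

end Cfsg.Agent.S5349
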