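import Cfsg.Statements.S5355
import Cfsg.Agent.Lib.ThreeT.VW

set_option autoImplicit false
open Cfsg

namespace Cfsg.Agent.S5355

open Cfsg.Agent.Lib.ThreeT Equiv in
theorem key {G : Type*} [Group G] {D : Set G} (hD : Cfsg.IsThreeTranspositionSet D)
    (hc : ∀ g : G, ∀ d ∈ D, g * d * g⁻¹ ∈ D)
    (hex : ∀ x ∈ D, ∃ y ∈ D, y ≠ x ∧ Commute x y)
    (huq : ∀ x ∈ D, ∀ a ∈ D, ∀ b ∈ D, a ≠ x → b ≠ x → Commute x a → Commute x b → a = b)
    (p : G → G) (hp : ∀ x ∈ D, p x ∈ D ∧ p x ≠ x ∧ Commute x (p x)) {x y : G} (hx : x ∈ D)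
    (hy : y ∈ D) (h : ¬ Commute x y) : ∃ φ : Perm (Fin 4) →* G, Function.Injective φ ∧
      φ (swap 0 1) = x ∧ φ (swap 2 3) = p x ∧ φ (swap 1 2) = y ∧ φ (swap 0 3) = p y ∧
      φ (swap 0 2) = x * y * x ∧ φ (swap 1 3) = p (x * y * x) := by
  obtain ⟨h1, h2, h3⟩ := hp x hx
  have hyx' : ¬ Commute y (p x) := by
    intro h4
    by_cases hyp : y = p x
    · exact h (hyp ▸ h3)
    · have h5 := huq (p x) h1 x hx y hy h2.symm hyp h3.symm h4.symm
      exact h (h5 ▸ Commute.refl x)
  obtain ⟨φ, hinj, h01, h12, h23⟩ := exists_s4 hD hx hy h1 h2.symm h3 h hyx'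
  have hφ : ∀ σ : Perm (Fin 4), φ (σ * swap 0 1 * σ⁻¹) ∈ D := by
    intro σ
    rw [map_mul, map_mul, map_inv, h01]; exact hc _ x hx
  have hcm : ∀ σ τ : Perm (Fin 4), σ * τ = τ * σ → Commute (φ σ) (φ τ) := by
    intro σ τ hst
    change φ σ * φ τ = φ τ * φ σ
    rw [← map_mul, ← map_mul, hst]
  have h03 : φ (swap 0 3) = p y := by
    have hD03 := hφ (swap 1 3)
    rw [show (swap 1 3 * swap 0 1 * (swap 1 3)⁻¹ : Perm (Fin 4)) = swap 0 3 by decide +kernel] at hD03
    apply huq y hy _ hD03 _ (hp y hy).1 _ (hp y hy).2.1 _ (hp y hy).2.2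
    · rw [← h12]; intro h5; exact absurd (hinj h5) (by decide +kernel)
    · rw [← h12]; exact hcm _ _ (by decide +kernel)
  have h02 : φ (swap 0 2) = x * y * x := by
    rw [← h01, ← h12, ← map_mul, ← map_mul]
    exact congrArg φ (by decide +kernel)
  have hD02 : φ (swap 0 2) ∈ D := by
    have := hφ (swap 1 2)
    rwa [show (swap 1 2 * swap 0 1 * (swap 1 2)⁻¹ : Perm (Fin 4)) = swap 0 2 by decide +kernel] at this
  have h13 : φ (swap 1 3) = p (x * y * x) := by
    have hD13 := hφ (swap 0 3)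
    rw [show (swap 0 3 * swap 0 1 * (swap 0 3)⁻¹ : Perm (Fin 4)) = swap 1 3 by decide +kernel] at hD13
    rw [← h02]
    apply huq _ hD02 _ hD13 _ (hp _ hD02).1 _ (hp _ hD02).2.1 _ (hp _ hD02).2.2
    · intro h5; exact absurd (hinj h5) (by decide +kernel)
    · exact hcm _ _ (by decide +kernel)
  exact ⟨φ, hinj, h01, h23, h12, h03, h02, h13⟩

/-- Let D be a conjugacy class of 3-transpositions generating the finite group G, with at least two members, and d a member of D. Suppose that every member of D commuting with d commutes with exactly the same members of D as d does, and that exactly one member of D other than d commutes with d. Then G is isomorphic to the symmetric group of degree 4. -/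
theorem result {G : Type*} [Group G] [Finite G] {D : Set G} (hD : Cfsg.IsThreeTranspositionClass D) (hD2 : ∃ a ∈ D, ∃ b ∈ D, a ≠ b) {d : G} (hd : d ∈ D) (hV : {y : G | y ∈ D ∧ Commute d y} = {v : G | v ∈ D ∧ ∀ e ∈ D, Commute v e ↔ Commute d e}) (hm : {y : G | y ∈ D ∧ Commute d y}.ncard = 2) : Nonempty (G ≃* Equiv.Perm (Fin 4)) := by
  classical
  have hc := Cfsg.Agent.Lib.ThreeT.class_conj hD
  have hcard : ∀ x ∈ D, {y : G | y ∈ D ∧ Commute x y}.ncard = 2 := by
    intro x hx
    obtain ⟨g, rfl⟩ := Cfsg.Agent.Lib.ThreeT.class_trans hD d hd x hx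
    rw [← hm]
    have : {y : G | y ∈ D ∧ Commute (g * d * g⁻¹) y} = (fun y => g * y * g⁻¹) '' {y : G | y ∈ D ∧ Commute d y} := by
      ext y
      constructor
      · rintro ⟨hy, hy'⟩
        have e : g * (g⁻¹ * y * g) * g⁻¹ = y := by group
        refine ⟨g⁻¹ * y * g, ⟨Cfsg.Agent.Lib.ThreeT.conj_inv_mem hc g hy, ?_⟩, e⟩
        rw [← Cfsg.Agent.Lib.ThreeT.commute_conj_iff g, e]; exact hy'
      · rintro ⟨y, ⟨hy, hy'⟩, rfl⟩
        exact ⟨hc g y hy, (Cfsg.Agent.Lib.ThreeT.commute_conj_iff g d y).2 hy'⟩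
    rw [this, Set.ncard_image_of_injective _ (Cfsg.Agent.Lib.ThreeT.conj_injective g)]
  have hset : ∀ x ∈ D, ∃ y, y ≠ x ∧ {z : G | z ∈ D ∧ Commute x z} = {x, y} := by
    intro x hx
    obtain ⟨a, b, hab, heq⟩ := Set.ncard_eq_two.1 (hcard x hx)
    have hxm : x ∈ {z : G | z ∈ D ∧ Commute x z} := ⟨hx, Commute.refl x⟩
    rw [heq] at hxm
    rcases hxm with rfl | rfl
    · exact ⟨b, hab.symm, heq⟩
    · exact ⟨a, hab, by rw [heq, Set.pair_comm]⟩
  have hex : ∀ x ∈ D, ∃ y ∈ D, y ≠ x ∧ Commute x y := by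
    intro x hx
    obtain ⟨y, hy, heq⟩ := hset x hx
    have : y ∈ {z : G | z ∈ D ∧ Commute x z} := by rw [heq]; right; rfl
    exact ⟨y, this.1, hy, this.2⟩
  have huq : ∀ x ∈ D, ∀ a ∈ D, ∀ b ∈ D, a ≠ x → b ≠ x → Commute x a → Commute x b → a = b := by
    intro x hx a ha b hb hax hbx hxa hxb
    obtain ⟨y, hy, heq⟩ := hset x hx
    have h1 : a ∈ {z : G | z ∈ D ∧ Commute x z} := ⟨ha, hxa⟩
    have h2 : b ∈ {z : G | z ∈ D ∧ Commute x z} := ⟨hb, hxb⟩
    rw [heq] at h1 h2
    rcases h1 with h1 | h1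
    · exact absurd h1 hax
    rcases h2 with h2 | h2
    · exact absurd h2 hbx
    rw [Set.mem_singleton_iff.1 h1, Set.mem_singleton_iff.1 h2]
  set p : G → G := fun x => if h : ∃ y ∈ D, y ≠ x ∧ Commute x y then h.choose else x with hpdef
  have hp : ∀ x ∈ D, p x ∈ D ∧ p x ≠ x ∧ Commute x (p x) := by
    intro x hx
    have h := hex x hx
    have : p x = h.choose := by rw [hpdef]; exact dif_pos h
    rw [this]; exact h.choose_spec
  have K := fun {x y : G} (hx : x ∈ D) (hy : y ∈ D) (h : ¬ Commute x y) => key hD.1 hc hex huq p hp hx hy h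
  have hq1 : ∀ x ∈ D, x * p x ≠ 1 := fun x hx =>
    Cfsg.Agent.Lib.ThreeT.mul_ne1 hD.1 hx (hp x hx).1 (hp x hx).2.1.symm
  have hq2 : ∀ x ∈ D, (x * p x) * (x * p x) = 1 := by
    intro x hx
    have := (Cfsg.Agent.Lib.ThreeT.comm_iff hD.1 hx (hp x hx).1).1 (hp x hx).2.2
    rwa [sq] at this
  have hqmul : ∀ x ∈ D, ∀ y ∈ D, ¬ Commute x y → (x * y * x) * p (x * y * x) = (x * p x) * (y * p y) ∧
      (x * p x) * (y * p y) = (y * p y) * (x * p x) := by
    intro x hx y hy h
    obtain ⟨φ, _, h01, h23, h12, h03, h02, h13⟩ := K hx hy h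
    rw [← h13, ← h02, ← h23, ← h01, ← h03, ← h12]
    simp only [← map_mul]
    exact ⟨congrArg φ (by decide +kernel), congrArg φ (by decide +kernel)⟩
  obtain ⟨e, he, hde⟩ := Cfsg.Agent.Lib.ThreeT.class_noncomm hD hD2 hd
  set g := d * e * d with hg
  have hgD : g ∈ D := Cfsg.Agent.Lib.ThreeT.third_mem hD.1 hc hd he
  have hdd := Cfsg.Agent.Lib.ThreeT.sq1 hD.1 hd
  have hdi := Cfsg.Agent.Lib.ThreeT.inv1 hD.1 hd
  have hei := Cfsg.Agent.Lib.ThreeT.inv1 hD.1 he
  have hgi := Cfsg.Agent.Lib.ThreeT.inv1 hD.1 hgD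
  have hmain : ∀ f ∈ D, Commute d f ∨ Commute e f ∨ Commute g f := by
    intro f hf
    by_contra hno
    push Not at hno
    obtain ⟨hdf, hef, hgf⟩ := hno
    have hfi := Cfsg.Agent.Lib.ThreeT.inv1 hD.1 hf
    have hdfD : d * f * d ∈ D := Cfsg.Agent.Lib.ThreeT.third_mem hD.1 hc hd hf
    have h1 : ¬ Commute e (d * f * d) := by
      intro h
      apply hgf
      rw [← Cfsg.Agent.Lib.ThreeT.commute_conj_iff d, hdi] at h
      have e2 : d * (d * f * d) * d = f := by
        calc d * (d * f * d) * d = (d * d) * f * (d * d) := by group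
          _ = f := by rw [hdd]; group
      rwa [e2] at h
    have hfg : ¬ Commute f g := fun h => hgf h.symm
    set x := e * (d * f * d) * e with hx
    have hxD : x ∈ D := Cfsg.Agent.Lib.ThreeT.third_mem hD.1 hc he hdfD
    have hy : f * g * f = d * x * d := by
      rw [hx]
      have b1 := Cfsg.Agent.Lib.ThreeT.braid hD.1 hf hgD hfg
      rw [b1, hg]
      group
    have q1 := (hqmul e he _ hdfD h1).1
    have q2 := (hqmul d hd f hf hdf).1
    have q3 := (hqmul f hf g hgD hfg).1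
    have q4 := (hqmul d hd e he hde).1
    have c1 := (hqmul d hd e he hde).2
    have c2 := (hqmul d hd f hf hdf).2
    have c3 := (hqmul e he f hf hef).2
    have hxd : ¬ Commute d x := by
      intro h
      -- conj by e
      rw [← Cfsg.Agent.Lib.ThreeT.commute_conj_iff e, hei] at h
      have hee := Cfsg.Agent.Lib.ThreeT.sq1 hD.1 he
      have e3 : e * x * e = d * f * d := by
        rw [hx]
        calc e * (e * (d * f * d) * e) * e = (e * e) * (d * f * d) * (e * e) := by group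
          _ = d * f * d := by rw [hee]; group
      rw [e3, ← Cfsg.Agent.Lib.ThreeT.braid hD.1 hd he hde] at h
      rw [← Cfsg.Agent.Lib.ThreeT.commute_conj_iff d, hdi] at h
      have e4 : d * (d * f * d) * d = f := by
        calc d * (d * f * d) * d = (d * d) * f * (d * d) := by group
          _ = f := by rw [hdd]; group
      have e5 : d * (d * e * d) * d = e := by
        calc d * (d * e * d) * d = (d * d) * e * (d * d) := by group
          _ = e := by rw [hdd]; group
      rw [e4, e5] at h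
      exact hef h
    have q5 := (hqmul d hd x hxD hxd).1
    rw [← hy, q3, q4, q1, q2] at q5
    -- f * (d e) = d * (e * (d f))
    apply hq1 d hd
    set qd := d * p d
    set qe := e * p e
    set qf := f * p f
    have h5 : qf * (qd * qe) = qe * (qd * qf) := by
      calc qf * (qd * qe) = (qf * qd) * qe := by group
        _ = (qd * qf) * qe := by rw [c2]
        _ = qd * (qf * qe) := by group
        _ = qd * (qe * qf) := by rw [c3]
        _ = (qd * qe) * qf := by group
        _ = (qe * qd) * qf := by rw [c1]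
        _ = qe * (qd * qf) := by group
    rw [h5] at q5
    have h6 : 1 * (qe * (qd * qf)) = qd * (qe * (qd * qf)) := by rw [one_mul]; exact q5
    exact (mul_right_cancel h6).symm
  obtain ⟨φ, hinj, h01, h23, h12, h03, h02, h13⟩ := K hd he hde
  have hDr : D ⊆ φ.range := by
    intro f hf
    rcases hmain f hf with h | h | h
    · by_cases hfd : f = d
      · exact ⟨_, h01.trans hfd.symm⟩
      · exact ⟨_, h23.trans (huq d hd _ (hp d hd).1 f hf (hp d hd).2.1 hfd (hp d hd).2.2 h)⟩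
    · by_cases hfd : f = e
      · exact ⟨_, h12.trans hfd.symm⟩
      · exact ⟨_, h03.trans (huq e he _ (hp e he).1 f hf (hp e he).2.1 hfd (hp e he).2.2 h)⟩
    · by_cases hfd : f = g
      · exact ⟨_, h02.trans hfd.symm⟩
      · exact ⟨_, h13.trans (huq g hgD _ (hp g hgD).1 f hf (hp g hgD).2.1 hfd (hp g hgD).2.2 h)⟩
  have hsurj : Function.Surjective φ := by
    rw [← MonoidHom.range_eq_top, eq_top_iff, ← hD.2.2, Subgroup.closure_le]
    exact hDr
  exact ⟨(MulEquiv.ofBijective φ ⟨hinj, hsurj⟩).symm⟩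

end Cfsg.Agent.S5355
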