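import Cfsg.Statements.S5358
import Cfsg.Agent.Lib.ThreeT.Basic

set_option autoImplicit false
open scoped MatrixGroups
open Cfsg

namespace Cfsg.Agent.S5358

/-- Let Q be a non-degenerate quadratic form on the n-dimensional coordinate space over the field with three elements and u, v vectors of the same non-zero norm Q(u) = Q(v) spanning different lines (v ≠ u and v ≠ −u). Then the reflection matrices of u and v commute if and only if u and v are orthogonal for the polar form of Q. -/
theorem result (n : ℕ) (Q : QuadraticForm (ZMod 3) (Fin n → ZMod 3)) (hQ : (QuadraticMap.polarBilin Q).Nondegenerate) (u v : Fin n → ZMod 3) (hu : Q u ≠ 0) (huv : Q u = Q v) (h1 : v ≠ u) (h2 : v ≠ -u) : Commute (Cfsg.reflectionMatrix (⇑Q) u) (Cfsg.reflectionMatrix (⇑Q) v) ↔ QuadraticMap.polar (⇑Q) u v = 0 := by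
  set B : (Fin n → ZMod 3) → (Fin n → ZMod 3) → ZMod 3 := fun x y => QuadraticMap.polar (⇑Q) x y with hB
  have hBadd : ∀ x y z, B x (y + z) = B x y + B x z := fun x y z => QuadraticMap.polar_add_right Q x y z
  have hBsmul : ∀ (c : ZMod 3) x y, B x (c • y) = c * B x y := fun c x y => QuadraticMap.polar_smul_right Q c x y
  have hBsymm : ∀ x y, B x y = B y x := fun x y => QuadraticMap.polar_comm (⇑Q) x y
  have hu0 : u ≠ 0 := by rintro rfl; simp at hu
  -- dot product with `polarVec` is the polar form
  have hdot : ∀ w x : Fin n → ZMod 3, Cfsg.polarVec (⇑Q) w ⬝ᵥ x = B w x := by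
    intro w x
    have hx : x = ∑ j, x j • (Pi.single j 1 : Fin n → ZMod 3) := by
      ext i
      simp [Finset.sum_apply, Pi.single_apply]
    have h1 : B w x = ∑ j, x j * B w (Pi.single j 1) := by
      conv_lhs => rw [hx]
      have := map_sum ((QuadraticMap.polarBilin Q) w) (fun j => x j • (Pi.single j 1 : Fin n → ZMod 3)) Finset.univ
      change (QuadraticMap.polarBilin Q) w (∑ j, x j • (Pi.single j 1 : Fin n → ZMod 3)) = _
      rw [this]
      apply Finset.sum_congr rfl
      intro j _
      rw [map_smul, smul_eq_mul]; rfl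
    rw [h1, dotProduct]
    apply Finset.sum_congr rfl
    intro j _
    rw [mul_comm]; rfl
  have hmul : ∀ w x : Fin n → ZMod 3, (Cfsg.reflectionMatrix (⇑Q) w).mulVec x = x - ((Q w)⁻¹ * B w x) • w := by
    intro w x
    unfold Cfsg.reflectionMatrix
    rw [Matrix.sub_mulVec, Matrix.one_mulVec, Matrix.smul_mulVec, Matrix.vecMulVec_mulVec, hdot]
    ext i
    simp
    ring
  set c := (Q u)⁻¹ with hc
  have hc0 : c ≠ 0 := inv_ne_zero hu
  have hcv : (Q v)⁻¹ = c := by rw [hc, huv]
  have hcomp : ∀ x : Fin n → ZMod 3,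
      ((Cfsg.reflectionMatrix (⇑Q) u) * (Cfsg.reflectionMatrix (⇑Q) v)).mulVec x =
        x - (c * B v x) • v - (c * B u x) • u + (c * c * B v x * B u v) • u := by
    intro x
    rw [← Matrix.mulVec_mulVec, hmul, hmul, hcv]
    have : B u (x - (c * B v x) • v) = B u x - c * B v x * B u v := by
      rw [sub_eq_add_neg, hBadd, ← neg_smul, hBsmul]; ring
    rw [this, ← hc]
    ext i
    simp only [Pi.sub_apply, Pi.add_apply, Pi.smul_apply, smul_eq_mul]
    ring
  have hcomp' : ∀ x : Fin n → ZMod 3,
      ((Cfsg.reflectionMatrix (⇑Q) v) * (Cfsg.reflectionMatrix (⇑Q) u)).mulVec x =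
        x - (c * B u x) • u - (c * B v x) • v + (c * c * B u x * B u v) • v := by
    intro x
    rw [← Matrix.mulVec_mulVec, hmul, hmul, hcv]
    have : B v (x - (c * B u x) • u) = B v x - c * B u x * B u v := by
      rw [sub_eq_add_neg, hBadd, ← neg_smul, hBsmul, hBsymm v u]; ring
    rw [← hc, this]
    ext i
    simp only [Pi.sub_apply, Pi.add_apply, Pi.smul_apply, smul_eq_mul]
    ring
  constructor
  · intro h
    by_contra hne
    have hne' : B u v ≠ 0 := hne
    have key : ∀ x, (B v x) • u = (B u x) • v := by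
      intro x
      have h3 : ((Cfsg.reflectionMatrix (⇑Q) u) * (Cfsg.reflectionMatrix (⇑Q) v)).mulVec x =
          ((Cfsg.reflectionMatrix (⇑Q) v) * (Cfsg.reflectionMatrix (⇑Q) u)).mulVec x := by
        rw [h.eq]
      rw [hcomp, hcomp'] at h3
      ext i
      have h4 := congrFun h3 i
      simp only [Pi.sub_apply, Pi.add_apply, Pi.smul_apply, smul_eq_mul] at h4 ⊢
      have h5 : (c * c * B u v) * (B v x * u i) = (c * c * B u v) * (B u x * v i) := by
        linear_combination h4
      exact mul_left_cancel₀ (mul_ne_zero (mul_ne_zero hc0 hc0) hne') h5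
    have h3 := key v
    have h4 := key u
    -- B v v ≠ 0 as 2 Q v ≠ 0
    have hvv : B v v ≠ 0 := by
      have : B v v = 2 * Q v := by
        change QuadraticMap.polar (⇑Q) v v = _
        rw [QuadraticMap.polar_self]; simp
      rw [this, ← huv]
      intro h0
      rcases mul_eq_zero.1 h0 with h1 | h1
      · exact absurd h1 (by decide)
      · exact hu h1
    -- u = λ v
    have h5 : u = ((B v v)⁻¹ * B u v) • v := by
      rw [mul_smul, ← h3, smul_smul, inv_mul_cancel₀ hvv, one_smul]
    set l := (B v v)⁻¹ * B u v with hl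
    have hl3 : ∀ l : ZMod 3, l = 0 ∨ l = 1 ∨ l = -1 := by decide
    rcases hl3 l with h6 | h6 | h6
    · rw [h6, zero_smul] at h5; exact hu0 h5
    · rw [h6, one_smul] at h5; exact h1 h5.symm
    · rw [h6, neg_one_smul] at h5
      apply h2; rw [h5, neg_neg]
  · intro h
    have h' : B u v = 0 := h
    change _ * _ = _ * _
    apply Matrix.ext_of_mulVec_single
    intro i
    rw [hcomp, hcomp', h', mul_zero, zero_smul, mul_zero, zero_smul]
    abel

end Cfsg.Agent.S5358
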