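import Cfsg.Statements.S5361
import Cfsg.Agent.Lib.ThreeT.Struct3

set_option autoImplicit false
open Cfsg

namespace Cfsg.Agent.S5361

/-- Let D be a conjugacy class of 3-transpositions generating the finite group G, and suppose the centre of G is trivial and some two different members of D commute. Then the following are equivalent: (1) the commutator subgroup of G is simple (possibly of prime order); (2) G acts primitively on D by conjugation; (3) the largest normal 2-subgroup and the largest normal 3-subgroup of G are trivial and the commuting graph of D is connected. -/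
theorem result {G : Type*} [Group G] [Finite G] {D : Set G} (hD : Cfsg.IsThreeTranspositionClass D) (hZ : Subgroup.center G = ⊥) (hw : ∃ a ∈ D, ∃ b ∈ D, a ≠ b ∧ Commute a b) : (IsSimpleGroup (commutator G) ↔ Cfsg.IsPrimitiveUnderConj D) ∧ (Cfsg.IsPrimitiveUnderConj D ↔ (Cfsg.pCore 2 G = ⊥ ∧ Cfsg.pCore 3 G = ⊥ ∧ (Cfsg.commutingGraph D).Connected)) := by
  have hD2 : ∃ a ∈ D, ∃ b ∈ D, a ≠ b := by
    obtain ⟨a, ha, b, hb, hne, _⟩ := hw
    exact ⟨a, ha, b, hb, hne⟩
  constructor
  · constructor
    · intro h
      exact Cfsg.Agent.Lib.ThreeT.prim_of_simple hD hD2 h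
    · intro h
      have P : Cfsg.Agent.Lib.ThreeT.Prim D := ⟨Cfsg.Agent.Lib.ThreeT.grp_of_class hD, h, hw⟩
      obtain ⟨L, hLn, hL, hi, hcl, hF⟩ := P.structure
      have hLcomm : commutator G = L := by
        apply le_antisymm hcl
        rw [← Cfsg.Agent.Lib.Components.component_commutator hL, commutator_def]
        exact Subgroup.commutator_mono le_top le_top
      have hcen : Subgroup.center L = ⊥ := by
        rw [Subgroup.eq_bot_iff_forall]
        intro x hx
        have h1 : ((Subgroup.center L).map L.subtype).Normal := inferInstance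
        rcases Cfsg.Agent.Lib.ThreeT.normal_dichotomy hD P.core_two P.core_three hL.2 _ h1
          (Subgroup.map_subtype_le _) with h2 | h2
        · exfalso
          apply Cfsg.Agent.Lib.Components.quasisimple_center_ne_top hL.2
          rw [eq_top_iff]
          intro y _
          have : (y : G) ∈ (Subgroup.center L).map L.subtype := by rw [h2]; exact y.2
          obtain ⟨z, hz, hzy⟩ := this
          rwa [← Subtype.ext hzy]
        · have h3 : (x : G) ∈ Subgroup.center G := h2 ⟨x, hx, rfl⟩
          rw [hZ, Subgroup.mem_bot] at h3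
          exact Subtype.ext h3
      rw [hLcomm]
      exact Cfsg.Agent.Lib.ThreeT.simple_quot hD hL.2 hcen
  · constructor
    · intro h
      have P : Cfsg.Agent.Lib.ThreeT.Prim D := ⟨Cfsg.Agent.Lib.ThreeT.grp_of_class hD, h, hw⟩
      have h2 := P.core_two
      have h3 := P.core_three
      rw [hZ] at h2 h3
      exact ⟨le_bot_iff.1 h2, le_bot_iff.1 h3, P.connected⟩
    · rintro ⟨h2, h3, hcon⟩
      have h2' : Cfsg.pCore 2 G ≤ Subgroup.center G := by rw [h2]; exact bot_le
      have h3' : Cfsg.pCore 3 G ≤ Subgroup.center G := by rw [h3]; exact bot_le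
      obtain ⟨L, hLn, hL, hF⟩ := Cfsg.Agent.Lib.ThreeT.structure_thm hD hD2 h2' h3'
      exact Cfsg.Agent.Lib.ThreeT.prim_of_index hD hD2 h2' h3' hL.2
        (Cfsg.Agent.Lib.ThreeT.index_of_mul_mem hD
        (Cfsg.Agent.Lib.ThreeT.mul_mem_of_connected hD hL hcon)).1

end Cfsg.Agent.S5361
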