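import Cfsg.Statements.S5363
import Cfsg.Agent.Lib.ThreeT.Basic

set_option autoImplicit false
open Cfsg

namespace Cfsg.Agent.S5363

/-- Let D be a conjugation-invariant set of involutions of a finite group G. Then every product of two members of D has odd order or order 2 if and only if, for every a in D and every b in D different from a and commuting with a, the members of D commuting with a b are exactly those commuting with both a and b. -/
theorem result {G : Type*} [Group G] [Finite G] {D : Set G} (hinv : ∀ d ∈ D, orderOf d = 2) (hconj : ∀ g : G, ∀ d ∈ D, g * d * g⁻¹ ∈ D) : (∀ a ∈ D, ∀ b ∈ D, Odd (orderOf (a * b)) ∨ orderOf (a * b) = 2) ↔ ∀ a ∈ D, ∀ b ∈ D, b ≠ a → Commute a b → {y : G | y ∈ D ∧ Commute (a * b) y} = {y : G | y ∈ D ∧ Commute a y} ∩ {y : G | y ∈ D ∧ Commute b y} := by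
  have hsq : ∀ x ∈ D, x * x = 1 := by
    intro x hx
    have := pow_orderOf_eq_one x
    rwa [hinv x hx, sq] at this
  have hin : ∀ x ∈ D, x⁻¹ = x := fun x hx => inv_eq_of_mul_eq_one_right (hsq x hx)
  have hn1 : ∀ x ∈ D, x ≠ 1 := by
    rintro x hx rfl
    have := hinv 1 hx
    simp at this
  have hcm : ∀ x ∈ D, ∀ y ∈ D, (Commute x y ↔ (x * y) ^ 2 = 1) := fun x hx y hy =>
    Cfsg.Agent.Lib.ThreeT.comm_iff_of_sq (hsq x hx) (hsq y hy)
  constructor
  · intro h a ha b hb hba hab
    have hzsq : (a * b) * (a * b) = 1 := by rw [← sq]; exact (hcm a ha b hb).1 hab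
    have hz1 : a * b ≠ 1 := by
      intro h1
      apply hba
      rw [← hin a ha]; exact eq_inv_of_mul_eq_one_right h1
    have key : ∀ y ∈ D, Commute (a * b) y → Commute a y := by
      intro y hy hz
      by_contra hay
      have hyb : ¬ Commute b y := by
        intro h1
        apply hay
        have : a = (a * b) * b⁻¹ := by group
        rw [this]
        exact hz.mul_left h1.inv_left
      -- order of y a is odd
      have h1 : Odd (orderOf (y * a)) := by
        rcases h y hy a ha with h1 | h1
        · exact h1
        · exfalso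
          apply hay
          have := pow_orderOf_eq_one (y * a)
          rw [h1] at this
          exact ((hcm y hy a ha).2 this).symm
      have h2 : Odd (orderOf (y * b)) := by
        rcases h y hy b hb with h1 | h1
        · exact h1
        · exfalso
          apply hyb
          have := pow_orderOf_eq_one (y * b)
          rw [h1] at this
          exact ((hcm y hy b hb).2 this).symm
      have hza : Commute (y * a) (a * b) := by
        apply Commute.mul_left hz.symm
        change a * (a * b) = a * b * a
        rw [mul_assoc, ← hab.eq]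
      have h3 : y * b = (y * a) * (a * b) := by
        rw [mul_assoc, ← mul_assoc a a b, hsq a ha, one_mul]
      obtain ⟨k, hk⟩ := h1
      obtain ⟨m, hm⟩ := h2
      have hzpow : ∀ j : ℕ, (a * b) ^ (2 * j + 1) = a * b := by
        intro j
        rw [pow_succ, pow_mul, sq, hzsq, one_pow, one_mul]
      have h4 : (y * b) ^ ((2 * k + 1) * (2 * m + 1)) = a * b := by
        have h5 : (y * a) ^ (2 * k + 1) = 1 := by rw [← hk]; exact pow_orderOf_eq_one _
        rw [h3, hza.mul_pow, pow_mul (y * a), h5, one_pow, one_mul]
        have : (2 * k + 1) * (2 * m + 1) = 2 * (2 * k * m + k + m) + 1 := by ring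
        rw [this, hzpow]
      have h6 : (y * b) ^ ((2 * k + 1) * (2 * m + 1)) = 1 := by
        have h5 : (y * b) ^ (2 * m + 1) = 1 := by rw [← hm]; exact pow_orderOf_eq_one _
        rw [mul_comm, pow_mul, h5, one_pow]
      rw [h6] at h4
      exact hz1 h4.symm
    ext y
    constructor
    · rintro ⟨hy, hz⟩
      have h1 := key y hy hz
      refine ⟨⟨hy, h1⟩, hy, ?_⟩
      have : b = a⁻¹ * (a * b) := by group
      rw [this]
      exact h1.inv_left.mul_left hz
    · rintro ⟨⟨hy, h1⟩, _, h2⟩
      exact ⟨hy, h1.mul_left h2⟩
  · intro h a ha b hb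
    rcases Nat.even_or_odd (orderOf (a * b)) with hev | hodd
    swap
    · left; exact hodd
    right
    obtain ⟨k, hk⟩ := hev
    have hpos : 0 < orderOf (a * b) := orderOf_pos _
    have hrefl : ∀ n : ℕ, a * (a * b) ^ n ∈ D ∧ a * (a * b) ^ (n + 1) ∈ D := by
      intro n
      induction n with
      | zero =>
        refine ⟨by simpa using ha, ?_⟩
        rw [zero_add, pow_one, ← mul_assoc, hsq a ha, one_mul]; exact hb
      | succ n ih =>
        refine ⟨ih.2, ?_⟩
        have h1 := hconj (a * b)⁻¹ _ ih.1
        have h2 : (a * b)⁻¹ * (a * (a * b) ^ n) * (a * b)⁻¹⁻¹ = a * (a * b) ^ (n + 1 + 1) := by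
          rw [mul_inv_rev, hin a ha, hin b hb, pow_succ' (a * b) (n + 1), inv_eq_of_mul_eq_one_right (a := b * a) (b := a * b)]
          · calc b * a * (a * (a * b) ^ n) * (a * b) = b * (a * a) * ((a * b) ^ n * (a * b)) := by group
              _ = b * (a * b) ^ (n + 1) := by rw [hsq a ha, mul_one, pow_succ]
              _ = (a * a) * b * (a * b) ^ (n + 1) := by rw [hsq a ha, one_mul]
              _ = a * (a * b * (a * b) ^ (n + 1)) := by simp only [mul_assoc]
          · calc b * a * (a * b) = b * (a * a) * b := by group
              _ = 1 := by rw [hsq a ha, mul_one, hsq b hb]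
        rw [← h2]; exact h1
    set t := (a * b) ^ k with ht
    have htt : t * t = 1 := by
      rw [ht, ← pow_add, ← hk]; exact pow_orderOf_eq_one _
    have hti : t⁻¹ = t := inv_eq_of_mul_eq_one_right htt
    have htne : t ≠ 1 := by
      intro h1
      have : orderOf (a * b) ∣ k := orderOf_dvd_of_pow_eq_one h1
      have := Nat.le_of_dvd (by omega) this
      omega
    have hat : a * t ∈ D := (hrefl k).1
    -- a t a = t⁻¹ = t
    have hata : Commute a t := by
      have h1 := hsq _ hat
      change a * t = t * a
      calc a * t = (a * t * (a * t)) * (a * t)⁻¹ := by group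
        _ = (a * t)⁻¹ := by rw [h1, one_mul]
        _ = t * a := by rw [mul_inv_rev, hti, hin a ha]
    have hcoma : Commute a (a * t) := (Commute.refl a).mul_right hata
    have hne : a * t ≠ a := by
      intro h1
      apply htne
      exact mul_left_cancel (h1.trans (mul_one a).symm)
    have h5 := h a ha (a * t) hat hne hcoma
    have h6 : a * (a * t) = t := by rw [← mul_assoc, hsq a ha, one_mul]
    rw [h6] at h5
    have htb : Commute t b := by
      have h7 : Commute t (a * b) := (Commute.refl (a * b)).pow_left k
      have h8 : b = a⁻¹ * (a * b) := by group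
      rw [h8]
      exact hata.symm.inv_right.mul_right h7
    have h9 : b ∈ {y : G | y ∈ D ∧ Commute t y} := ⟨hb, htb⟩
    rw [h5] at h9
    have h10 : (a * b) ^ 2 = 1 := (hcm a ha b hb).1 h9.1.2
    have h11 := orderOf_dvd_of_pow_eq_one h10
    have h12 := Nat.le_of_dvd (by norm_num) h11
    omega

end Cfsg.Agent.S5363
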