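import Cfsg.Statements.S5364
import Cfsg.Agent.Lib.ThreeT.Basic

set_option autoImplicit false
open Cfsg

namespace Cfsg.Agent.S5364

/-- Let D be a conjugation-invariant set of involutions of a finite group G and t an involution in the centre of G such that d t does not lie in D for any d in D. If the images of the members of D in G modulo the subgroup generated by t satisfy the 3-transposition order conditions (each has order 2 and any two have product of order at most 3), then so do the members of D. -/
theorem result {G : Type*} [Group G] [Finite G] {D : Set G} (hinv : ∀ d ∈ D, orderOf d = 2) (hconj : ∀ g : G, ∀ d ∈ D, g * d * g⁻¹ ∈ D) (t : G) (ht : orderOf t = 2) (htZ : t ∈ Subgroup.center G) (hDt : ∀ d ∈ D, d * t ∉ D) [(Subgroup.zpowers t).Normal] (himg : Cfsg.IsThreeTranspositionSet ((QuotientGroup.mk : G → G ⧸ Subgroup.zpowers t) '' D)) : Cfsg.IsThreeTranspositionSet D := by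
  have hsq : ∀ x ∈ D, x * x = 1 := by
    intro x hx
    have := pow_orderOf_eq_one x
    rwa [hinv x hx, sq] at this
  have hin : ∀ x ∈ D, x⁻¹ = x := fun x hx => inv_eq_of_mul_eq_one_right (hsq x hx)
  have htt : t * t = 1 := by
    have := pow_orderOf_eq_one t
    rwa [ht, sq] at this
  have hcen : ∀ g : G, t * g = g * t := fun g => (Subgroup.mem_center_iff.1 htZ g).symm
  have hz : ∀ g : G, ((g : G) : G ⧸ Subgroup.zpowers t) = 1 → g = 1 ∨ g = t := by
    intro g hg
    rw [QuotientGroup.eq_one_iff] at hg
    obtain ⟨k, rfl⟩ := Subgroup.mem_zpowers_iff.1 hg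
    have h2 : t ^ (2 : ℤ) = 1 := by
      have := htt
      rw [← sq] at this; exact_mod_cast this
    rcases Int.even_or_odd k with ⟨j, hj⟩ | ⟨j, hj⟩
    · left
      rw [hj, ← two_mul, zpow_mul, h2, one_zpow]
    · right
      rw [hj, zpow_add, zpow_mul, h2, one_zpow, one_mul, zpow_one]
  refine ⟨hinv, ?_⟩
  intro d hd e he
  rcases himg.2 _ ⟨d, hd, rfl⟩ _ ⟨e, he, rfl⟩ with h | h
  · left
    have h1 : (((d * e) ^ 2 : G) : G ⧸ Subgroup.zpowers t) = 1 := h
    rcases hz _ h1 with h2 | h2
    · exact h2
    · exfalso
      have h3 : e * d * e = d * t := by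
        rw [← h2, sq]
        calc e * d * e = (d * d) * (e * d * e) := by rw [hsq d hd, one_mul]
          _ = d * (d * e * (d * e)) := by group
      apply hDt d hd
      rw [← h3]
      have := hconj e d hd
      rwa [hin e he] at this
  · right
    have h1 : (((d * e) ^ 3 : G) : G ⧸ Subgroup.zpowers t) = 1 := h
    rcases hz _ h1 with h2 | h2
    · exact h2
    · exfalso
      have hded : d * e * d ∈ D := by
        have := hconj d e he
        rwa [hin d hd] at this
      have hede : e * d * e ∈ D := by
        have := hconj e d hd
        rwa [hin e he] at this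
      apply hDt _ hded
      have h3 : d * e * d * t = e * d * e := by
        rw [← h2]
        calc d * e * d * (d * e) ^ 3 = d * e * (d * d) * e * (d * e) * (d * e) := by
              rw [pow_succ, sq]; group
          _ = d * (e * e) * (d * e) * (d * e) := by rw [hsq d hd]; group
          _ = (d * d) * e * (d * e) := by rw [hsq e he]; group
          _ = e * d * e := by rw [hsq d hd]; group
      rw [h3]; exact hede

end Cfsg.Agent.S5364
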