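import Cfsg.Statements.S5393
import Cfsg.Agent.Lib.Golay.Coset
import Cfsg.Agent.Lib.Golay.Misc
import Cfsg.Agent.Lib.Golay.OctOrb

set_option autoImplicit false
open Cfsg

namespace Cfsg.Agent.S5393

open Cfsg Cfsg.Agent.Lib.Golay Finset
open scoped Pointwise

theorem supp_add (v w : GolayPt → ZMod 2) : support₂ (v + w) = symmDiff (support₂ v) (support₂ w) := by
  have h := supp_sub w v
  have : v - w = v + w := by
    ext p; simp only [Pi.sub_apply, Pi.add_apply]
    generalize v p = a
    generalize w p = b
    revert a b; decide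
  rw [this] at h
  exact h

theorem supp_perm (σ : Equiv.Perm GolayPt) (w : GolayPt → ZMod 2) :
    support₂ (fun p => w (σ.symm p)) = σ • support₂ w := by
  ext p
  rw [mem_smul_iff]
  unfold support₂
  rw [mem_filter, mem_filter]
  simp

/-- the family of supports of a submodule -/
def fam (W : Submodule (ZMod 2) (GolayPt → ZMod 2)) (s : Finset GolayPt) : Prop := ofSet s ∈ W

theorem fam_iff {W : Submodule (ZMod 2) (GolayPt → ZMod 2)} {w : GolayPt → ZMod 2} : w ∈ W ↔ fam W (support₂ w) := by
  unfold fam; rw [ofSet_supp]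

theorem fam_symm {W : Submodule (ZMod 2) (GolayPt → ZMod 2)} {s t : Finset GolayPt} (hs : fam W s) (ht : fam W t) :
    fam W (symmDiff s t) := by
  unfold fam at *
  have h := W.add_mem hs ht
  rw [fam_iff, supp_add, supp_ofSet, supp_ofSet] at h
  exact h

theorem fam_smul {W : Submodule (ZMod 2) (GolayPt → ZMod 2)}
    (hW : ∀ σ ∈ M24, ∀ w ∈ W, (fun p => w (σ.symm p)) ∈ W) {σ : Equiv.Perm GolayPt} (hσ : σ ∈ M24) {s : Finset GolayPt}
    (hs : fam W s) : fam W (σ • s) := by
  have h := hW σ hσ _ hs
  rw [fam_iff, supp_perm, supp_ofSet] at h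
  exact h

/-- a family containing all octads contains the code -/
theorem fam_of_octads {W : Submodule (ZMod 2) (GolayPt → ZMod 2)} (h : ∀ o ∈ octads, fam W o) {s : Finset GolayPt}
    (hs : IsWord s) : fam W s := by
  refine word_induction (P := fam W) ?_ (fun s t hs ht => fam_symm hs ht) ?_ hs
  · unfold fam
    have : ofSet (∅ : Finset GolayPt) = 0 := by ext p; simp [ofSet]
    rw [this]; exact W.zero_mem
  · intro i hi
    obtain ⟨h1, h2⟩ := rows_octads i hi
    exact h _ (mem_octads.2 ⟨(isWord_st (comb_lt _)).2 h1, by rw [card_st]; exact h2⟩)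

theorem octads_of_octad {W : Submodule (ZMod 2) (GolayPt → ZMod 2)}
    (hW : ∀ σ ∈ M24, ∀ w ∈ W, (fun p => w (σ.symm p)) ∈ W) {o : Finset GolayPt} (ho : o ∈ octads) (h : fam W o) :
    ∀ o' ∈ octads, fam W o' := by
  intro o' ho'
  obtain ⟨g, hg, rfl⟩ := octads_transitive ho ho'
  exact fam_smul hW hg h

theorem octads_of_dodecad {W : Submodule (ZMod 2) (GolayPt → ZMod 2)}
    (hW : ∀ σ ∈ M24, ∀ w ∈ W, (fun p => w (σ.symm p)) ∈ W) {d : Finset GolayPt} (hd : d ∈ dodecads) (h : fam W d) :
    ∀ o' ∈ octads, fam W o' := by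
  have hd' : {a | a ∈ dodecads ∧ (a ∩ d).card = 8}.Nonempty := by
    have := (ncard_dod_rel hd).2.1
    rw [Set.nonempty_iff_ne_empty]
    intro h
    rw [h, Set.ncard_empty] at this
    exact absurd this (by norm_num)
  obtain ⟨a, ha, h8⟩ := hd'
  obtain ⟨g, hg, e⟩ := dodecads_transitive hd ha
  have h1 : fam W a := by rw [← e]; exact fam_smul hW hg h
  have h2 := fam_symm h1 h
  refine octads_of_octad hW (o := symmDiff a d) ?_ h2
  rw [mem_octads]
  refine ⟨(mem_dodecads.1 ha).1.symmDiff (mem_dodecads.1 hd).1, ?_⟩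
  have := card_symmDiff a d
  rw [h8, (mem_dodecads.1 ha).2, (mem_dodecads.1 hd).2] at this
  omega

theorem univ_fam {W : Submodule (ZMod 2) (GolayPt → ZMod 2)} (h : ∀ o ∈ octads, fam W o) : fam W univ :=
  fam_of_octads h isWord_univ

theorem ofSet_univ : ofSet (univ : Finset GolayPt) = fun _ => 1 := by ext p; simp [ofSet]

theorem mem_span_one {w : GolayPt → ZMod 2} : w ∈ Submodule.span (ZMod 2) {fun _ : GolayPt => (1 : ZMod 2)} ↔
    w = 0 ∨ w = fun _ => 1 := by
  rw [Submodule.mem_span_singleton]
  constructor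
  · rintro ⟨a, rfl⟩
    have : a = 0 ∨ a = 1 := by revert a; decide
    rcases this with rfl | rfl
    · left; simp
    · right; simp
  · rintro (rfl | rfl)
    · exact ⟨0, by simp⟩
    · exact ⟨1, by simp⟩

/-- an invariant subspace of the code containing a word other than `0`, `1` contains all octads -/
theorem main {W : Submodule (ZMod 2) (GolayPt → ZMod 2)}
    (hW : ∀ σ ∈ M24, ∀ w ∈ W, (fun p => w (σ.symm p)) ∈ W) {s : Finset GolayPt} (hs : fam W s) (hw : IsWord s)
    (h0 : s.card ≠ 0) (h24 : s.card ≠ 24) : ∀ o ∈ octads, fam W o := by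
  rcases hw.card with h | h | h | h | h
  · exact absurd h h0
  · exact octads_of_octad hW (mem_octads.2 ⟨hw, h⟩) hs
  · exact octads_of_dodecad hW (mem_dodecads.2 ⟨hw, h⟩) hs
  · -- a word of weight 16: its complement is an octad
    have hc : sᶜ ∈ octads := mem_octads.2 ⟨hw.compl, by rw [card_compl, h, card_golayPt]⟩
    -- move the complement to an octad disjoint from it
    have hne : {a | a ∈ octads ∧ (a ∩ sᶜ).card = 0}.Nonempty := by
      have := (ncard_oct_rel hc).2.2.2
      rw [Set.nonempty_iff_ne_empty]
      intro h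
      rw [h, Set.ncard_empty] at this
      exact absurd this (by norm_num)
    obtain ⟨a, ha, ha0⟩ := hne
    obtain ⟨g, hg, e⟩ := octads_transitive hc ha
    have h1 : fam W (g • s) := fam_smul hW hg hs
    have h2 : g • s = aᶜ := by rw [← e, ← smul_compl', compl_compl]
    rw [h2] at h1
    have h3 := fam_symm h1 hs
    -- aᶜ + s = a ∪ sᶜ complement-wise: an element of weight 16; its complement is an octad again; use three of them
    have h4 : symmDiff aᶜ s = a ∪ sᶜ := by
      rw [card_eq_zero] at ha0
      ext p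
      have h5 : p ∈ a → p ∈ sᶜ → False := fun h6 h7 => by
        have : p ∈ a ∩ sᶜ := mem_inter.2 ⟨h6, h7⟩
        rw [ha0] at this
        exact absurd this (notMem_empty p)
      rw [mem_compl] at h5
      simp only [mem_symmDiff, mem_compl, mem_union]
      tauto
    -- complements of octads meeting in four points
    have hne4 : {b | b ∈ octads ∧ (b ∩ sᶜ).card = 4}.Nonempty := by
      have := (ncard_oct_rel hc).2.1
      rw [Set.nonempty_iff_ne_empty]
      intro h
      rw [h, Set.ncard_empty] at this
      exact absurd this (by norm_num)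
    obtain ⟨b, hb, hb4⟩ := hne4
    obtain ⟨k, hk, e'⟩ := octads_transitive hc hb
    have h6 : fam W (k • s) := fam_smul hW hk hs
    have h7 : k • s = bᶜ := by rw [← e', ← smul_compl', compl_compl]
    rw [h7] at h6
    have h8 := fam_symm h6 hs
    have h9 : symmDiff bᶜ s = symmDiff b sᶜ := by
      ext p
      simp only [mem_symmDiff, mem_compl]
      tauto
    rw [h9] at h8
    refine octads_of_octad hW (o := symmDiff b sᶜ) ?_ h8
    rw [mem_octads]
    refine ⟨(mem_octads.1 hb).1.symmDiff hw.compl, ?_⟩
    have := card_symmDiff b sᶜ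
    rw [hb4, (mem_octads.1 hb).2, (mem_octads.1 hc).2] at this
    omega
  · exact absurd h h24

/-- The length-24 code built from the squares modulo 23 contains the all-ones word, and the code modulo the all-ones word is an irreducible module over the field with two elements for the code's automorphism group: a subspace of the code that contains the all-ones word and is invariant under every coordinate permutation preserving the code is either the span of the all-ones word or the whole code. -/
theorem result : (fun _ : Cfsg.GolayPt => (1 : ZMod 2)) ∈ Cfsg.golayCode ∧ ∀ W : Submodule (ZMod 2) (Cfsg.GolayPt → ZMod 2), (fun _ => (1 : ZMod 2)) ∈ W → W ≤ Cfsg.golayCode → (∀ σ ∈ Cfsg.M24, ∀ w ∈ W, (fun p => w (σ.symm p)) ∈ W) → W = Submodule.span (ZMod 2) {fun _ => (1 : ZMod 2)} ∨ W = Cfsg.golayCode := by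
  have h1 : (fun _ : Cfsg.GolayPt => (1 : ZMod 2)) ∈ Cfsg.golayCode := by
    rw [mem_golay_iff, ← ofSet_univ, supp_ofSet]; exact isWord_univ
  refine ⟨h1, ?_⟩
  intro W hW1 hWC hW
  by_cases h : ∃ w ∈ W, (support₂ w).card ≠ 0 ∧ (support₂ w).card ≠ 24
  · right
    obtain ⟨w, hw, h0, h24⟩ := h
    have hall := main hW (fam_iff.1 hw) ((mem_golay_iff w).1 (hWC hw)) h0 h24
    apply le_antisymm hWC
    intro v hv
    rw [fam_iff]
    exact fam_of_octads hall ((mem_golay_iff v).1 hv)
  · left
    push Not at h
    apply le_antisymm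
    · intro w hw
      rw [mem_span_one]
      by_cases h0 : (support₂ w).card = 0
      · left
        apply support_inj
        rw [card_eq_zero.1 h0]; decide
      · right
        have h24 := h w hw h0
        rw [← ofSet_univ, ← ofSet_supp w]
        congr 1
        apply Finset.eq_univ_of_card
        rw [h24, card_golayPt]
    · rw [Submodule.span_singleton_le_iff_mem]; exact hW1

end Cfsg.Agent.S5393
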