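import Cfsg.Statements.S5394
import Cfsg.Agent.Lib.Golay.FixCount

set_option autoImplicit false
open Cfsg

namespace Cfsg.Agent.S5394

/-- The automorphism group of the length-24 code built from the squares modulo 23 has exactly two conjugacy classes of involutions: an involution either fixes exactly the eight points of an octad or has no fixed points, both kinds occur, and any two involutions of the same kind are conjugate in the group. -/
theorem result : (∀ g ∈ Cfsg.M24, orderOf g = 2 → (Finset.univ.filter fun p => g p = p) ∈ Cfsg.octads ∨ ∀ p, g p ≠ p) ∧ (∃ g ∈ Cfsg.M24, orderOf g = 2 ∧ (Finset.univ.filter fun p => g p = p) ∈ Cfsg.octads) ∧ (∃ g ∈ Cfsg.M24, orderOf g = 2 ∧ ∀ p, g p ≠ p) ∧ ∀ g ∈ Cfsg.M24, ∀ h ∈ Cfsg.M24, orderOf g = 2 → orderOf h = 2 → ((∀ p, g p ≠ p) ↔ (∀ p, h p ≠ p)) → ∃ k ∈ Cfsg.M24, k * g * k⁻¹ = h := by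
  open Cfsg.Agent.Lib.Golay in
  open scoped Pointwise in
  have hsq : ∀ g : Equiv.Perm Cfsg.GolayPt, orderOf g = 2 → g * g = 1 ∧ g ≠ 1 := by
    intro g h
    have := orderOf_eq_prime_iff.1 h
    exact ⟨by rw [← sq]; exact this.1, this.2⟩
  have ho1 : orderOf (pm cI1) = 2 := by
    apply orderOf_eq_prime
    · rw [sq]; exact (sq_iff reps_valid.1).2 (by decide +kernel)
    · intro h
      have := nfix_reps.1
      rw [h] at this
      revert this
      decide
  have ho2 : orderOf (pm cI2) = 2 := by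
    apply orderOf_eq_prime
    · rw [sq]; exact (sq_iff reps_valid.2.1).2 (by decide +kernel)
    · intro h
      have := nfix_reps.2.1
      rw [h] at this
      revert this
      decide
  refine ⟨?_, ⟨pm cI1, pm_mem_M24 reps_pres.1, ho1, fix_cI1⟩, ⟨pm cI2, pm_mem_M24 reps_pres.2.1, ho2,
    nfix_zero.1 nfix_reps.2.1⟩, ?_⟩
  · intro g hg h2
    obtain ⟨k, hk, e | e⟩ := inv_class hg (hsq g h2).1 (hsq g h2).2
    · left
      have h1 := fixset_conj k g
      rw [e] at h1
      have h2 : (Finset.univ.filter fun p => g p = p) = k⁻¹ • (Finset.univ.filter fun p => pm cI1 p = p) := by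
        rw [h1, inv_smul_smul]
      rw [h2]
      exact smul_mem_octads (Cfsg.M24.inv_mem hk) fix_cI1
    · right
      rw [← nfix_zero, ← nfix_conj k g, e]
      exact nfix_reps.2.1
  · intro g hg h hh hg2 hh2 hiff
    rw [← nfix_zero, ← nfix_zero] at hiff
    obtain ⟨k, hk, e⟩ := inv_class hg (hsq g hg2).1 (hsq g hg2).2
    obtain ⟨l, hl, e'⟩ := inv_class hh (hsq h hh2).1 (hsq h hh2).2
    have key : k * g * k⁻¹ = l * h * l⁻¹ := by
      have n1 := nfix_conj k g
      have n2 := nfix_conj l h
      rcases e with e | e <;> rcases e' with e' | e'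
      · rw [e, e']
      · exfalso
        rw [e, nfix_reps.1] at n1
        rw [e', nfix_reps.2.1] at n2
        have := hiff.2 n2.symm
        omega
      · exfalso
        rw [e, nfix_reps.2.1] at n1
        rw [e', nfix_reps.1] at n2
        have := hiff.1 n1.symm
        omega
      · rw [e, e']
    refine ⟨l⁻¹ * k, Cfsg.M24.mul_mem (Cfsg.M24.inv_mem hl) hk, ?_⟩
    have : l⁻¹ * k * g * (l⁻¹ * k)⁻¹ = l⁻¹ * (k * g * k⁻¹) * l := by group
    rw [this, key]; group

end Cfsg.Agent.S5394
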