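import Cfsg.Statements.S5407
import Cfsg.Agent.Lib.Monster.Final

set_option autoImplicit false
open Cfsg

namespace Cfsg.Agent.S5407

/-- Let G be a finite group of Monster type at the involution z with Q the extraspecial normal subgroup of order 2^25 of C = C_G(z) (so C/Q is identified with the first Conway group with Q modulo its centre the Leech lattice modulo 2, and z is not weakly closed in Q). Then under any such identification ψ of the Leech lattice modulo 2 with Q modulo its centre, an element x of Q is a conjugate of z other than z exactly when x modulo the centre is the image under ψ of a lattice vector of squared length 64 in the coordinates used here, that is, of norm 8 in the customary normalisation in which the minimal vectors have norm 4 (twice the minimal norm). -/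
theorem result {G : Type*} [Group G] [Finite G] (z : G) (Q : Subgroup (Subgroup.centralizer ({z} : Set G))) [Q.Normal] (hM : Cfsg.IsOfMonsterType z Q) (e : (Subgroup.centralizer ({z} : Set G)) ⧸ Q ≃* Cfsg.Spor.Co1) (ψ : Cfsg.leechLattice → Q ⧸ Subgroup.center Q) (hψ : Cfsg.IsLeechModTwoIso Q e ψ) (x : Q) : (IsConj z ((x : Subgroup.centralizer ({z} : Set G)) : G) ∧ ((x : Subgroup.centralizer ({z} : Set G)) : G) ≠ z) ↔ ∃ v : Cfsg.leechLattice, Cfsg.sqNorm (v : Cfsg.GolayPt → ℤ) = 64 ∧ ψ v = QuotientGroup.mk x := by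
  open Cfsg.Agent.Lib.Monster Cfsg.Agent.Lib.Golay in
  have hS := hM.1
  have M := exists_mon hS e ψ hψ
  have hxm : ((x : Subgroup.centralizer ({z} : Set G)) : G) ∈ Q.map (Cz z).subtype := ⟨x, x.2, rfl⟩
  obtain ⟨g, hg, hne⟩ := setting_conj hS
  constructor
  · rintro ⟨hc, hne'⟩
    obtain ⟨a, ha⟩ := isConj_iff.1 hc
    rw [← ha] at hxm hne'
    obtain ⟨k, q, hq, hk⟩ := M.type64 hxm hne'
    have hqx : q = x := Subtype.ext (Subtype.ext (hq.trans ha))
    refine ⟨k • t0L, ?_, by rw [hk, hqx]⟩
    rw [← app_coe, app_norm k t0L.2]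
    exact norm_std (mem_std.2 ⟨pa, Or.inl rfl⟩)
  · rintro ⟨v, hn, hv⟩
    have hR : ∃ q : Q, ((q : Cz z) : G) = ((x : Cz z) : G) ∧ ψ v = QuotientGroup.mk q := ⟨x, rfl, hv⟩
    exact ⟨M.conj_of_64 hg hne hR hn, (M.ne_of_R hR (Or.inr hn)).2⟩

end Cfsg.Agent.S5407
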