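import Cfsg.Statements.S5408
import Cfsg.Agent.Lib.Monster.Final

set_option autoImplicit false
open Cfsg

namespace Cfsg.Agent.S5408

/-- Let G be a finite group of Monster type at the involution z with Q the extraspecial normal subgroup of order 2^25 of C = C_G(z) (so C/Q is identified with the first Conway group with Q modulo its centre the Leech lattice modulo 2, and z is not weakly closed in Q). Then Q is of plus type: it contains an elementary abelian subgroup of order 2^13. -/
theorem result {G : Type*} [Group G] [Finite G] (z : G) (Q : Subgroup (Subgroup.centralizer ({z} : Set G))) [Q.Normal] (hM : Cfsg.IsOfMonsterType z Q) : ∃ E : Subgroup Q, Cfsg.IsElementaryAbelian 2 E ∧ Nat.card E = 2 ^ 13 := by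
  open Cfsg.Agent.Lib.Monster in
  obtain ⟨hS, e, ψ, hψ⟩ := hM
  have M := exists_mon hS e ψ hψ
  obtain ⟨g, hg, hne⟩ := setting_conj hS
  have hm : ∀ q : Q, ((q : Cz z) : G) ∈ Q.map (Cz z).subtype := fun q => ⟨q, q.2, rfl⟩
  let f : Q →* G := (Cz z).subtype.comp Q.subtype
  let E : Subgroup Q := ((Q.map (Cz z).subtype).map (MulAut.conj g).toMonoidHom).comap f
  have hE : ∀ q : Q, q ∈ E ↔ g⁻¹ * ((q : Cz z) : G) * g ∈ Q.map (Cz z).subtype := by
    intro q
    show f q ∈ (Q.map (Cz z).subtype).map (MulAut.conj g).toMonoidHom ↔ _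
    rw [Subgroup.mem_map]
    constructor
    · rintro ⟨y, hy, h⟩
      have h' : g * y * g⁻¹ = ((q : Cz z) : G) := h
      rw [← h']
      have : g⁻¹ * (g * y * g⁻¹) * g = y := by group
      rw [this]; exact hy
    · intro h
      refine ⟨_, h, ?_⟩
      show g * (g⁻¹ * ((q : Cz z) : G) * g) * g⁻¹ = ((q : Cz z) : G)
      group
  have hel := M.elab_inter hg hne
  refine ⟨E, ⟨⟨⟨fun a b => ?_⟩⟩, fun a ha => ?_⟩, ?_⟩
  · apply Subtype.ext
    apply Subtype.ext
    apply Subtype.ext
    exact (hel _ (hm a) _ (hm b) ((hE _).1 a.2) ((hE _).1 b.2)).1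
  · rw [pow_two]
    apply Subtype.ext
    apply Subtype.ext
    exact (hel _ (hm a) _ (hm a) ((hE _).1 ha) ((hE _).1 ha)).2
  · rw [← M.card_inter hg hne]
    refine Nat.card_congr (Equiv.ofBijective (fun q => ⟨(((q : Q) : Cz z) : G), hm q, q.2⟩) ⟨?_, ?_⟩)
    · intro a b h
      have h' : (((a : Q) : Cz z) : G) = (((b : Q) : Cz z) : G) := by
        have := congrArg (fun t : ((Q.map (Cz z).subtype) ⊓ (Q.map (Cz z).subtype).map (MulAut.conj g).toMonoidHom : Subgroup G) => (t : G)) h
        exact this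
      exact Subtype.ext (Subtype.ext (Subtype.ext h'))
    · rintro ⟨x, ⟨q, hq, rfl⟩, hx⟩
      exact ⟨⟨⟨q, hq⟩, hx⟩, rfl⟩

end Cfsg.Agent.S5408
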