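import Cfsg.Statements.S5410
import Cfsg.Agent.Lib.Monster.Final

set_option autoImplicit false
open Cfsg

namespace Cfsg.Agent.S5410

open Cfsg.Agent.Lib.Monster Cfsg.Agent.Lib.Golay

theorem aux_kap (σ : M24) (h : (QuotientGroup.mk (kap σ) : Spor.Co1) ∈ Sg.map (QuotientGroup.mk' (Subgroup.center Co0))) : σ = 1 := by
  obtain ⟨c, hc, h⟩ := h
  have hneg : negEl ∈ Sg := by
    refine ⟨Finset.univ, by simpa using isWord_empty.compl, fun x hx => ?_⟩
    rw [negEl_app' hx]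
    ext k; unfold Cfsg.Agent.Lib.Golay.sgn; simp
  have h1 : kap σ ∈ Sg := by
    rcases mk_eq.1 (show (QuotientGroup.mk (kap σ) : Spor.Co1) = QuotientGroup.mk c from h.symm) with h2 | h2
    · rw [h2]; exact hc
    · rw [h2]; exact mul_mem hneg hc
  have h2 := (mem_Sg_iff ⟨kap σ, kap_mem σ⟩).1 h1
  rw [piN_kap] at h2
  exact h2

theorem aux_dec {g : Co0} (hg : g ∈ monoN) : ∃ c ∈ Sg, ∃ σ : M24, g = c * kap σ := by
  refine ⟨g * (kap (piN ⟨g, hg⟩))⁻¹, ?_, piN ⟨g, hg⟩, by group⟩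
  have h1 : (⟨g, hg⟩ * ⟨kap (piN ⟨g, hg⟩), kap_mem _⟩⁻¹ : monoN) = ⟨g * (kap (piN ⟨g, hg⟩))⁻¹, mul_mem hg (inv_mem (kap_mem _))⟩ := rfl
  have := (mem_Sg_iff ⟨g * (kap (piN ⟨g, hg⟩))⁻¹, mul_mem hg (inv_mem (kap_mem _))⟩).2 (by
    rw [← h1, map_mul, map_inv, piN_kap, mul_inv_cancel])
  exact this

/-- Let G be a finite group of Monster type at the involution z with Q the extraspecial normal subgroup of order 2^25 of C = C_G(z) (so C/Q is identified with the first Conway group with Q modulo its centre the Leech lattice modulo 2, and z is not weakly closed in Q). Let g in G with s = g z g⁻¹ a member of Q other than z, let X be the image in C/Q of the centralizer of s in C, and let E be the image in C/Q of the intersection of g Q g⁻¹ with C. Then E is a normal subgroup of X, elementary abelian of order 2^11, and it has a complement in X isomorphic to the Mathieu group of degree 24 (the automorphism group of the length-24 binary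 Golay code). -/
theorem result {G : Type*} [Group G] [Finite G] (z : G) (Q : Subgroup (Subgroup.centralizer ({z} : Set G))) [Q.Normal] (hM : Cfsg.IsOfMonsterType z Q) (s : G) (hsQ : ∃ hsc : s ∈ Subgroup.centralizer ({z} : Set G), (⟨s, hsc⟩ : Subgroup.centralizer ({z} : Set G)) ∈ Q) (hs : IsConj z s) (hs1 : s ≠ z) (g : G) (hg : g * z * g⁻¹ = s) (X E : Subgroup ((Subgroup.centralizer ({z} : Set G)) ⧸ Q)) (hX : X = ((Subgroup.centralizer ({z} : Set G) ⊓ Subgroup.centralizer ({s} : Set G)).subgroupOf (Subgroup.centralizer ({z} : Set G))).map (QuotientGroup.mk' Q)) (hE : E = (((Q.map (Subgroup.centralizer ({z} : Set G)).subtype).map (MulAut.conj g).toMonoidHom ⊓ Subgroup.centralizer ({z} : Set G)).subgroupOf (Subgroup.centralizer ({z} : Set G))).map (QuotientGroup.mk' Q)) : E ≤ X ∧ (∀ x ∈ X, ∀ y ∈ E, x * y * x⁻¹ ∈ E) ∧ Cfsg.IsElementaryAbelian 2 E ∧ Nat.card E = 2 ^ 11 ∧ ∃ K : Subgroup ((Subgroup.centralizer ({z} : Set G)) ⧸ Q),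 K ≤ X ∧ E ⊓ K = ⊥ ∧ E ⊔ K = X ∧ Nonempty (K ≃* Cfsg.M24) := by
  obtain ⟨hS, e, ψ, hψ⟩ := hM
  have M := exists_mon hS e ψ hψ
  obtain ⟨hsc, hsm⟩ := hsQ
  have hsm' : s ∈ Q.map (Cz z).subtype := ⟨⟨s, hsc⟩, hsm, rfl⟩
  subst hg
  obtain ⟨k, hk⟩ := M.type64 hsm' hs1
  have M' := M.twist k
  have hSg := M'.map_AG hsm' hs1 hk
  have hmono := fun g0 => M'.mem_std_iff hsm' hs1 (g0 := g0) hk
  set e' : (Subgroup.centralizer ({z} : Set G)) ⧸ Q ≃* Spor.Co1 := e.trans (MulAut.conj (QuotientGroup.mk k⁻¹ : Spor.Co1)) with he'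
  have hφ : ∀ h : Cz z, ((MulAut.conj (QuotientGroup.mk k⁻¹ : Spor.Co1)).toMonoidHom.comp (e.toMonoidHom.comp (QuotientGroup.mk' Q))) h =
      e' (QuotientGroup.mk h) := fun h => rfl
  -- membership in E and X
  have hEm : ∀ x, x ∈ E ↔ e' x ∈ Sg.map (QuotientGroup.mk' (Subgroup.center Co0)) := by
    intro x
    rw [hE, ← hSg]
    constructor
    · rintro ⟨h, ⟨⟨y, hy, hy2⟩, hc⟩, rfl⟩
      refine ⟨h, ?_, rfl⟩
      show g⁻¹ * (h : G) * g ∈ Q.map (Cz z).subtype
      have h' : g * y * g⁻¹ = (h : G) := hy2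
      rw [← h']
      have : g⁻¹ * (g * y * g⁻¹) * g = y := by group
      rw [this]; exact hy
    · rintro ⟨h, hh, hx⟩
      rw [hφ] at hx
      have : x = QuotientGroup.mk h := e'.injective hx.symm
      rw [this]
      refine ⟨h, ⟨⟨g⁻¹ * (h : G) * g, hh, ?_⟩, h.2⟩, rfl⟩
      show g * (g⁻¹ * (h : G) * g) * g⁻¹ = (h : G)
      group
  have hXm : ∀ x, x ∈ X ↔ e' x ∈ monoN.map (QuotientGroup.mk' (Subgroup.center Co0)) := by
    intro x
    rw [hX]
    constructor
    · rintro ⟨h, ⟨hc, hc2⟩, rfl⟩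
      obtain ⟨t, ht⟩ := QuotientGroup.mk_surjective (e' (QuotientGroup.mk h))
      refine ⟨t, ?_, ht⟩
      rw [SetLike.mem_coe, ← hmono]
      have h3 := M'.Rconj h t (by rw [hφ, ht]) hk
      have h4 : (h : G) * (g * z * g⁻¹) * (h : G)⁻¹ = g * z * g⁻¹ := by
        have := mem_Cz.1 hc2
        rw [mul_inv_eq_iff_eq_mul]; exact this.symm
      rw [h4] at h3
      exact h3
    · rintro ⟨t, ht, hx⟩
      rw [SetLike.mem_coe, ← hmono] at ht
      obtain ⟨h, h1, h2⟩ := M'.lift hk (M'.s_ne hsm' hs1) hs1 ht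
      rw [hφ] at h1
      have : x = QuotientGroup.mk h := e'.injective (by rw [h1]; exact hx.symm)
      rw [this]
      exact ⟨h, ⟨h.2, mem_Cz.2 h2.symm⟩, rfl⟩
  have hle : E ≤ X := by
    intro x hx
    rw [hXm]
    obtain ⟨c, hc, h⟩ := (hEm x).1 hx
    exact ⟨c, Sg_le hc, h⟩
  refine ⟨hle, ?_, ?_, ?_, ?_⟩
  · intro x hx y hy
    rw [hEm, map_mul, map_mul, map_inv]
    obtain ⟨t, ht, h1⟩ := (hXm x).1 hx
    obtain ⟨c, hc, h2⟩ := (hEm y).1 hy
    refine ⟨t * c * t⁻¹, ?_, ?_⟩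
    · have := (mem_Sg_iff (⟨t, ht⟩ * ⟨c, Sg_le hc⟩ * ⟨t, ht⟩⁻¹ : monoN)).2 (by
        rw [map_mul, map_mul, (mem_Sg_iff ⟨c, Sg_le hc⟩).1 hc, mul_one, map_inv, mul_inv_cancel])
      exact this
    · rw [map_mul, map_mul, map_inv, h1, h2]
  · have hcomm : ∀ a ∈ Sg, ∀ b ∈ Sg, a * b = b * a := by
      rintro a ⟨c, hc, ha⟩ b ⟨d, hd, hb⟩
      apply ext_app
      intro x hx
      rw [app_mul, app_mul, hb x hx, ha _ (sgn_mem hx hd), ha x hx, hb _ (sgn_mem hx hc), sgn_symmDiff, sgn_symmDiff,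
        symmDiff_comm]
    have hsq : ∀ a ∈ Sg, a * a = 1 := by
      rintro a ⟨c, hc, ha⟩
      apply ext_app
      intro x hx
      rw [app_mul, ha x hx, ha _ (sgn_mem hx hc), sgn_sgn, app_one]
    refine ⟨⟨⟨fun a b => ?_⟩⟩, fun a ha => ?_⟩
    · obtain ⟨c, hc, h1⟩ := (hEm _).1 a.2
      obtain ⟨d, hd, h2⟩ := (hEm _).1 b.2
      apply Subtype.ext
      apply e'.injective
      show e' ((a : _) * b) = e' ((b : _) * a)
      rw [map_mul, map_mul, ← h1, ← h2, ← map_mul, ← map_mul, hcomm c hc d hd]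
    · obtain ⟨c, hc, h1⟩ := (hEm _).1 ha
      apply e'.injective
      rw [pow_two, map_mul, map_one, ← h1, ← map_mul, hsq c hc, map_one]
  · have : Nat.card E = Nat.card (Sg.map (QuotientGroup.mk' (Subgroup.center Co0))) := by
      refine Nat.card_congr (Equiv.ofBijective (fun x => ⟨e' x, (hEm x).1 x.2⟩) ⟨?_, ?_⟩)
      · intro a b h
        exact Subtype.ext (e'.injective (Subtype.ext_iff.1 h))
      · rintro ⟨y, hy⟩
        refine ⟨⟨e'.symm y, (hEm _).2 (by rw [MulEquiv.apply_symm_apply]; exact hy)⟩, ?_⟩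
        apply Subtype.ext
        exact e'.apply_symm_apply y
    rw [this, card_map_Sg]; norm_num
  · let κ : M24 →* (Subgroup.centralizer ({z} : Set G)) ⧸ Q :=
      e'.symm.toMonoidHom.comp ((QuotientGroup.mk' (Subgroup.center Co0)).comp kap)
    have hκ : ∀ σ, e' (κ σ) = QuotientGroup.mk (kap σ) := fun σ => e'.apply_symm_apply _
    have hinj : Function.Injective κ := by
      rw [injective_iff_map_eq_one]
      intro σ h
      apply aux_kap
      rw [← hκ, h, map_one]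
      exact one_mem _
    refine ⟨κ.range, ?_, ?_, ?_, ⟨(MonoidHom.ofInjective hinj).symm⟩⟩
    · rintro _ ⟨σ, rfl⟩
      rw [hXm, hκ]
      exact ⟨kap σ, kap_mem σ, rfl⟩
    · rw [eq_bot_iff]
      rintro x ⟨hx, σ, rfl⟩
      have hx' : κ σ ∈ E := hx
      rw [hEm, hκ] at hx'
      rw [aux_kap σ hx', map_one]
      exact Subgroup.mem_bot.2 rfl
    · apply le_antisymm
      · apply sup_le hle
        rintro _ ⟨σ, rfl⟩
        rw [hXm, hκ]
        exact ⟨kap σ, kap_mem σ, rfl⟩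
      · intro x hx
        obtain ⟨t, ht, h1⟩ := (hXm x).1 hx
        obtain ⟨c, hc, σ, rfl⟩ := aux_dec ht
        have h2 : x = e'.symm (QuotientGroup.mk c) * κ σ := by
          apply e'.injective
          rw [map_mul, hκ, MulEquiv.apply_symm_apply, ← h1]; rfl
        rw [h2]
        apply Subgroup.mul_mem_sup
        · rw [hEm, MulEquiv.apply_symm_apply]; exact ⟨c, hc, rfl⟩
        · exact ⟨σ, rfl⟩

end Cfsg.Agent.S5410
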