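import Cfsg.Statements.S5411
import Cfsg.Agent.Lib.Monster.Final

set_option autoImplicit false
open Cfsg

namespace Cfsg.Agent.S5411

/-- Let G be a finite group of Monster type at the involution z with Q the extraspecial normal subgroup of order 2^25 of C = C_G(z) (so C/Q is identified with the first Conway group with Q modulo its centre the Leech lattice modulo 2, and z is not weakly closed in Q). Then C acts transitively by conjugation on the involutions of Q that are not conjugate to z in G. -/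
theorem result {G : Type*} [Group G] [Finite G] (z : G) (Q : Subgroup (Subgroup.centralizer ({z} : Set G))) [Q.Normal] (hM : Cfsg.IsOfMonsterType z Q) (s t : G) (hsQ : ∃ hsc : s ∈ Subgroup.centralizer ({z} : Set G), (⟨s, hsc⟩ : Subgroup.centralizer ({z} : Set G)) ∈ Q) (htQ : ∃ htc : t ∈ Subgroup.centralizer ({z} : Set G), (⟨t, htc⟩ : Subgroup.centralizer ({z} : Set G)) ∈ Q) (hs2 : orderOf s = 2) (ht2 : orderOf t = 2) (hs : ¬ IsConj z s) (ht : ¬ IsConj z t) : ∃ h ∈ Subgroup.centralizer ({z} : Set G), h * s * h⁻¹ = t := by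
  open Cfsg.Agent.Lib.Monster Cfsg.Agent.Lib.Golay in
  obtain ⟨hS, e, ψ, hψ⟩ := hM
  have M := exists_mon hS e ψ hψ
  obtain ⟨hsc, hsm⟩ := hsQ
  obtain ⟨htc, htm⟩ := htQ
  have hsm' : s ∈ Q.map (Cz z).subtype := ⟨⟨s, hsc⟩, hsm, rfl⟩
  have htm' : t ∈ Q.map (Cz z).subtype := ⟨⟨t, htc⟩, htm, rfl⟩
  obtain ⟨g, hg, hne⟩ := setting_conj hS
  obtain ⟨v, hv, hvn⟩ := M.not_conj_type hg hne hsm' hs2 hs
  obtain ⟨w, hw, hwn⟩ := M.not_conj_type hg hne htm' ht2 ht
  obtain ⟨k, hk⟩ := Eqv.one ((min_trans v.2 hvn).trans (min_trans w.2 hwn).symm)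
  have h1 := M.ne_of_R hv (Or.inl hvn)
  exact M.trans_of hv hw h1.1 h1.2 hk

end Cfsg.Agent.S5411
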