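import Cfsg.Statements.S5420
import Cfsg.Agent.Lib.ThreeT.LargeEx

set_option autoImplicit false
open Cfsg

namespace Cfsg.Agent.S5420

/-- Let Q be an extraspecial 2-subgroup of the finite group G whose centralizer in G is its centre Z and which is normal in the centralizer of Z. If Z lies in the largest normal 2-subgroup of G, then Q is a large extraspecial 2-subgroup of G: it normalizes no non-trivial subgroup of G of odd order. -/
theorem result {G : Type*} [Group G] [Finite G] (Q : Subgroup G) (hL1 : Cfsg.IsExtraspecial 2 ↥Q) (hL2 : Subgroup.centralizer (Q : Set G) = ((Subgroup.center ↥Q).map Q.subtype)) (hL3 : Subgroup.centralizer (((Subgroup.center ↥Q).map Q.subtype) : Set G) ≤ Subgroup.normalizer (Q : Set G)) (hZ : ((Subgroup.center ↥Q).map Q.subtype) ≤ Cfsg.pCore 2 G) : Cfsg.IsLargeExtraspecial Q := by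
  refine ⟨hL1, hL2, hL3, ?_⟩
  intro K hK hQK
  apply Cfsg.Agent.Lib.LargeEx.eq_bot_of_centralizes hL1 hL2 hL3 hK hQK
  intro k hk x hx
  have hxQ : x ∈ Q := by obtain ⟨y, _, rfl⟩ := hx; exact y.2
  have hN := Cfsg.Agent.Lib.Cores.pCore_normal (G := G) 2
  have h3 : k * x * k⁻¹ * x⁻¹ ∈ Cfsg.pCore 2 G :=
    Subgroup.mul_mem _ (hN.conj_mem _ (hZ hx) k) (Subgroup.inv_mem _ (hZ hx))
  have h4 : k * x * k⁻¹ * x⁻¹ ∈ K := by
    have e : k * x * k⁻¹ * x⁻¹ = k * (x * k⁻¹ * x⁻¹) := by group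
    rw [e]
    exact K.mul_mem hk ((Subgroup.mem_normalizer_iff.1 (hQK hxQ) _).1 (K.inv_mem hk))
  have h5 := Cfsg.Agent.Lib.LargeEx.eq_one_of_odd_two hK (Cfsg.Agent.Lib.Cores.pCore_isPGroup 2) h4 h3
  change k * x = x * k
  calc k * x = (k * x * k⁻¹ * x⁻¹) * (x * k) := by group
    _ = x * k := by rw [h5, one_mul]

end Cfsg.Agent.S5420
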