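import Cfsg.Statements.S5421
import Cfsg.Agent.Lib.ThreeT.LargeEx

set_option autoImplicit false
open Cfsg

namespace Cfsg.Agent.S5421

/-- Let Q be an extraspecial 2-subgroup of the finite group G whose centralizer in G is its centre Z and which is normal in the centralizer of Z. If some involution b of Q outside Z has Z inside the largest normal 2-subgroup of the centralizer of b, then Q is a large extraspecial 2-subgroup of G. -/
theorem result {G : Type*} [Group G] [Finite G] (Q : Subgroup G) (hL1 : Cfsg.IsExtraspecial 2 ↥Q) (hL2 : Subgroup.centralizer (Q : Set G) = ((Subgroup.center ↥Q).map Q.subtype)) (hL3 : Subgroup.centralizer (((Subgroup.center ↥Q).map Q.subtype) : Set G) ≤ Subgroup.normalizer (Q : Set G)) (b : G) (hbQ : b ∈ Q) (hbZ : b ∉ ((Subgroup.center ↥Q).map Q.subtype)) (hb : orderOf b = 2) (hZ : ((Subgroup.center ↥Q).map Q.subtype) ≤ (Cfsg.pCore 2 ↥(Subgroup.centralizer ({b} : Set G))).map (Subgroup.centralizer ({b} : Set G)).subtype)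 : Cfsg.IsLargeExtraspecial Q := by
  refine ⟨hL1, hL2, hL3, ?_⟩
  intro K hK hQK
  obtain ⟨z, hzQ, hz2, hZz, hZall⟩ := Cfsg.Agent.Lib.LargeEx.exists_z hL1
  have hbb : b * b = 1 := by
    have := pow_orderOf_eq_one b; rwa [hb, sq] at this
  have hzz : z * z = 1 := by
    have := pow_orderOf_eq_one z; rwa [hz2, sq] at this
  have hbi : b⁻¹ = b := inv_eq_of_mul_eq_one_right hbb
  have hzi : z⁻¹ = z := inv_eq_of_mul_eq_one_right hzz
  have hzcen : ∀ q ∈ Q, q * z = z * q := by
    intro q hq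
    obtain ⟨y, hy, hyz⟩ := (hZall z).2 (Or.inr rfl)
    have := Subgroup.mem_center_iff.1 hy ⟨q, hq⟩
    rw [← hyz]; exact congrArg Subtype.val this
  have hQn : ∀ q ∈ Q, ∀ k ∈ K, q * k * q⁻¹ ∈ K := fun q hq k hk =>
    (Subgroup.mem_normalizer_iff.1 (hQK hq) k).1 hk
  have h1 : ∀ k ∈ K, Commute k b → Commute k z := by
    intro k hk hkb
    have hkC : k ∈ Subgroup.centralizer ({b} : Set G) := Subgroup.mem_centralizer_singleton_iff.2 hkb
    obtain ⟨y, hy, hyz⟩ := hZ ((hZall z).2 (Or.inr rfl))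
    have h3 : (⟨k, hkC⟩ * y * ⟨k, hkC⟩⁻¹ * y⁻¹ : Subgroup.centralizer ({b} : Set G)) ∈
        Cfsg.pCore 2 (Subgroup.centralizer ({b} : Set G)) :=
      Subgroup.mul_mem _ ((Cfsg.Agent.Lib.Cores.pCore_normal (G := Subgroup.centralizer ({b} : Set G)) 2).conj_mem _ hy _)
        (Subgroup.inv_mem _ hy)
    have h4 : k * z * k⁻¹ * z⁻¹ ∈ (Cfsg.pCore 2 (Subgroup.centralizer ({b} : Set G))).map
        (Subgroup.centralizer ({b} : Set G)).subtype := ⟨_, h3, by rw [← hyz]; rfl⟩
    have h5 : k * z * k⁻¹ * z⁻¹ ∈ K := by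
      have e : k * z * k⁻¹ * z⁻¹ = k * (z * k⁻¹ * z⁻¹) := by group
      rw [e]
      exact K.mul_mem hk (hQn z hzQ _ (K.inv_mem hk))
    have h6 := Cfsg.Agent.Lib.LargeEx.eq_one_of_odd_two hK
      ((Cfsg.Agent.Lib.Cores.pCore_isPGroup 2).map _) h5 h4
    change k * z = z * k
    calc k * z = (k * z * k⁻¹ * z⁻¹) * (z * k) := by group
      _ = z * k := by rw [h6, one_mul]
  -- `b` and `b z` are conjugate in `Q`
  obtain ⟨q, hqQ, hq⟩ : ∃ q ∈ Q, q * b * q⁻¹ = b * z := by
    have hnc : (⟨b, hbQ⟩ : Q) ∉ Subgroup.center Q := fun h => hbZ ⟨_, h, rfl⟩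
    rw [Subgroup.mem_center_iff] at hnc
    push Not at hnc
    obtain ⟨q, hq⟩ := hnc
    have h2 : q * ⟨b, hbQ⟩ * q⁻¹ * ⟨b, hbQ⟩⁻¹ ∈ Subgroup.center Q := by
      rw [← hL1.1.2.2]
      exact Subgroup.commutator_mem_commutator (Subgroup.mem_top _) (Subgroup.mem_top _)
    have h3 : (q : G) * b * (q : G)⁻¹ * b⁻¹ ∈ (Subgroup.center Q).map Q.subtype := ⟨_, h2, rfl⟩
    refine ⟨q, q.2, ?_⟩
    rcases (hZall _).1 h3 with h4 | h4
    · exfalso
      apply hq
      apply Subtype.ext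
      change (q : G) * b = b * (q : G)
      calc (q : G) * b = ((q : G) * b * (q : G)⁻¹ * b⁻¹) * (b * q) := by group
        _ = b * q := by rw [h4, one_mul]
    · calc (q : G) * b * (q : G)⁻¹ = ((q : G) * b * (q : G)⁻¹ * b⁻¹) * b := by group
        _ = z * b := by rw [h4]
        _ = b * z := (hzcen b hbQ).symm
  have hbz : Commute b z := hzcen b hbQ
  apply Cfsg.Agent.Lib.LargeEx.eq_bot_of_centralizes hL1 hL2 hL3 hK hQK
  intro k hk x hx
  have key := Cfsg.Agent.Lib.LargeEx.four_group hK hbb hzz hbz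
    (fun k hk => by have := hQn b hbQ k hk; rwa [hbi] at this)
    (fun k hk => by have := hQn z hzQ k hk; rwa [hzi] at this) h1 (by
      intro k hk hkbz
      have h2 : Commute (q⁻¹ * k * q) b := by
        rw [← hq] at hkbz
        have h3 : k * (q * b * q⁻¹) = q * b * q⁻¹ * k := hkbz
        change q⁻¹ * k * q * b = b * (q⁻¹ * k * q)
        calc q⁻¹ * k * q * b = q⁻¹ * (k * (q * b * q⁻¹)) * q := by group
          _ = q⁻¹ * (q * b * q⁻¹ * k) * q := by rw [h3]
          _ = b * (q⁻¹ * k * q) := by group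
      have hk' : q⁻¹ * k * q ∈ K := by
        have := hQn q⁻¹ (Q.inv_mem hqQ) k hk; rwa [inv_inv] at this
      have h4 : q⁻¹ * k * q * z = z * (q⁻¹ * k * q) := h1 _ hk' h2
      have h5 := hzcen q hqQ
      have h6 : q * z * q⁻¹ = z := by rw [h5]; group
      change k * z = z * k
      calc k * z = k * (q * z * q⁻¹) := by rw [h6]
        _ = q * (q⁻¹ * k * q * z) * q⁻¹ := by group
        _ = q * (z * (q⁻¹ * k * q)) * q⁻¹ := by rw [h4]
        _ = (q * z * q⁻¹) * k := by group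
        _ = z * k := by rw [h6]) k hk
  rcases (hZall x).1 hx with rfl | rfl
  · exact Commute.one_right k
  · exact key

end Cfsg.Agent.S5421
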