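import Cfsg.Statements.S5422
import Cfsg.Agent.Lib.LargeExE

set_option autoImplicit false
open Cfsg

namespace Cfsg.Agent.S5422

open Subgroup Cfsg.Agent.Lib.LargeEx

/-- Let Q be an extraspecial 2-subgroup of the finite group G whose centralizer in G is its centre Z and which is normal in the centralizer of Z; suppose Q has width at least 2 (order 2^(2w+1) with w ≥ 2) and g is an element of G not normalizing Z with g Z g⁻¹ inside Q. Then Z lies inside g Q g⁻¹; writing V for the subgroup generated by Z and g Z g⁻¹ (a four-group), the normalizer of V induces on V its full automorphism group, that is, the centralizer of V has index 6 in the normalizer of V; and Q is a large extraspecial 2-subgroup of G. -/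
theorem result {G : Type*} [Group G] [Finite G] (Q : Subgroup G) (hL1 : Cfsg.IsExtraspecial 2 ↥Q) (hL2 : Subgroup.centralizer (Q : Set G) = ((Subgroup.center ↥Q).map Q.subtype)) (hL3 : Subgroup.centralizer (((Subgroup.center ↥Q).map Q.subtype) : Set G) ≤ Subgroup.normalizer (Q : Set G)) (w : ℕ) (hw : 2 ≤ w) (hcard : Nat.card ↥Q = 2 ^ (2 * w + 1)) (g : G) (hg : g ∉ Subgroup.normalizer (((Subgroup.center ↥Q).map Q.subtype) : Set G)) (hZg : (((Subgroup.center ↥Q).map Q.subtype)).map (MulAut.conj g).toMonoidHom ≤ Q) : ((Subgroup.center ↥Q).map Q.subtype) ≤ (Q).map (MulAut.conj g).toMonoidHom ∧ (Subgroup.centralizer ((((Subgroup.center ↥Q).map Q.subtype) ⊔ (((Subgroup.center ↥Q).map Q.subtype)).map (MulAut.conj g).toMonoidHom : Subgroup G) : Set G)).relIndex (Subgroup.normalizer ((((Subgroup.center ↥Q).map Q.subtype) ⊔ (((Subgroup.center ↥Q).map Q.subtype)).map (MulAut.conj g).toMonoidHom : Subgroup G) : Set G)) = 6 ∧ Cfsg.IsLargeExtraspecial Q := by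
  obtain ⟨z, hzQ, ho, hzc, hcm⟩ := exists_z hL1
  rw [hcm] at hL2 hL3 hg hZg ⊢
  have hcz : centralizer ({z} : Set G) ≤ centralizer (zpowers z : Set G) := by
    intro x hx
    rw [mem_centralizer_singleton_iff] at hx
    rw [mem_centralizer_iff]
    intro y hy
    obtain ⟨n, rfl⟩ := mem_zpowers_iff.mp hy
    have h4 : Commute x z := hx
    exact (h4.zpow_right n).symm.eq
  have L : LE Q z := of_extraspecial hL1 hzQ ho hzc (by rw [hL2, zpowers_le]; exact hzQ) (hcz.trans hL3)
  have hin : g * z * g⁻¹ ∈ Q := hZg ⟨z, mem_zpowers z, rfl⟩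
  have hne : g * z * g⁻¹ ≠ z := by
    intro h
    apply hg
    have h1 : g * z = z * g := by rwa [mul_inv_eq_iff_eq_mul] at h
    rw [mem_normalizer_iff]
    have h2 : Commute g z := h1
    intro y
    constructor
    · intro hy
      obtain ⟨n, rfl⟩ := mem_zpowers_iff.mp hy
      rw [(h2.zpow_right n).eq, mul_inv_cancel_right]; exact hy
    · intro hy
      obtain ⟨n, hn⟩ := mem_zpowers_iff.mp hy
      have h3 : y = z ^ n := by
        calc y = g⁻¹ * (g * y * g⁻¹) * g := by group
          _ = z ^ n := by rw [← hn, mul_assoc, ← (h2.zpow_right n).eq]; group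
      rw [h3]; exact zpow_mem (mem_zpowers z) n
  have hV : (zpowers z ⊔ (zpowers z).map (MulAut.conj g).toMonoidHom : Subgroup G) =
      closure ({z, g * z * g⁻¹} : Set G) := by
    rw [MonoidHom.map_zpowers, Set.insert_eq, Subgroup.closure_union, ← zpowers_eq_closure, ← zpowers_eq_closure]
    rfl
  rw [hV]
  exact ⟨by rw [zpowers_le]; exact (key L.toLQ hin hne).1, main22 L.toLQ hin hne, L.large hL1 hin hne⟩

end Cfsg.Agent.S5422
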