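import Cfsg.Statements.S5427
import Cfsg.Agent.Lib.LargeExE

set_option autoImplicit false
open Cfsg

namespace Cfsg.Agent.S5427

open Subgroup Cfsg.Agent.Lib.LargeEx

/-- Let z be an involution of the finite group G whose centralizer C has generalized Fitting subgroup Q, an extraspecial 2-group of width at least 2 (order 2^(2w+1), w ≥ 2). Let K be a subgroup of G such that the subgroup U generated by the K-conjugates of z is abelian and C is generated by the C-conjugates of U. Suppose that either some K-conjugate of z other than z lies in Q, or some element u of U ∩ Q outside the subgroup generated by z has z in the largest normal 2-subgroup of its centralizer. Then G is simple and Q is a large extraspecial 2-subgroup of G. -/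
theorem result {G : Type*} [Group G] [Finite G] (z : G) (hz : orderOf z = 2) (Q : Subgroup G) (hQC : Q ≤ Subgroup.centralizer ({z} : Set G)) (hF : (Cfsg.generalizedFittingSubgroup ↥(Subgroup.centralizer ({z} : Set G))).map (Subgroup.centralizer ({z} : Set G)).subtype = Q) (hQ : Cfsg.IsExtraspecial 2 ↥Q) (w : ℕ) (hw : 2 ≤ w) (hcard : Nat.card ↥Q = 2 ^ (2 * w + 1)) (K U : Subgroup G) (hU : U = Subgroup.closure {x : G | ∃ k ∈ K, x = k * z * k⁻¹}) (hUab : IsMulCommutative ↥U) (hgen : Subgroup.closure {x : G | ∃ c ∈ Subgroup.centralizer ({z} : Set G), ∃ u ∈ U, x = c * u * c⁻¹} = Subgroup.centralizer ({z} : Set G)) (h3 : (∃ k ∈ K, k * z * k⁻¹ ∈ Q ∧ k * z * k⁻¹ ≠ z) ∨ ∃ u ∈ U ⊓ Q, u ∉ Subgroup.zpowers z ∧ (∃ hz' : z ∈ Subgroup.centralizer ({u} : Set G), (⟨z, hz'⟩ : ↥(Subgroup.centralizer ({u} : Set G))) ∈ Cfsg.pCore 2 ↥(Subgroup.centralizer ({u} : Set G)))) : IsSimpleGroup G ∧ Cfsg.IsLargeExtraspecial Q := by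
  subst hF
  have hE : Cfsg.IsExtraspecial 2 ↥(Cfsg.generalizedFittingSubgroup ↥(Subgroup.centralizer ({z} : Set G))) :=
    equiv_extraspecial ((Cfsg.generalizedFittingSubgroup ↥(Subgroup.centralizer ({z} : Set G))).equivMapOfInjective
      (Subgroup.centralizer ({z} : Set G)).subtype (subtype_injective _)).symm hQ
  obtain ⟨L, -⟩ := LE_gf hz hE
  set Q : Subgroup G := (Cfsg.generalizedFittingSubgroup ↥(Subgroup.centralizer ({z} : Set G))).map
    (Subgroup.centralizer ({z} : Set G)).subtype with hQdef
  have hzU : z ∈ U := by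
    rw [hU]; exact Subgroup.subset_closure ⟨1, one_mem _, by group⟩
  have hodd : ∀ W : Subgroup G, Odd (Nat.card W) → Q ≤ normalizer (W : Set G) → W = ⊥ := by
    rcases h3 with ⟨k, -, hk1, hk2⟩ | ⟨u, hu, huz, hz', hzO⟩
    · exact fun W hW hQW => odd_trivial L.toLQ hk1 hk2 hW hQW
    · intro W hW hQW
      have huu : u * u = 1 := by
        -- `U` is elementary abelian
        have h1 : ∀ x ∈ U, x * x = 1 := by
          intro x hx
          rw [hU] at hx
          have h2 : x * x = 1 ∧ x ∈ U := by
            induction hx using closure_induction with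
            | mem x hx =>
              obtain ⟨k, hk, rfl⟩ := hx
              refine ⟨?_, ?_⟩
              · calc k * z * k⁻¹ * (k * z * k⁻¹) = k * (z * z) * k⁻¹ := by group
                  _ = 1 := by rw [L.zz]; group
              · rw [hU]; exact Subgroup.subset_closure ⟨k, hk, rfl⟩
            | one => exact ⟨one_mul 1, one_mem _⟩
            | mul x y _ _ hx hy =>
              refine ⟨?_, mul_mem hx.2 hy.2⟩
              have hc : x * y = y * x :=
                congrArg Subtype.val (hUab.is_comm.comm (⟨x, hx.2⟩ : U) ⟨y, hy.2⟩)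
              calc x * y * (x * y) = x * (y * x) * y := by group
                _ = (x * x) * (y * y) := by rw [← hc]; group
                _ = 1 := by rw [hx.1, hy.1, one_mul]
            | inv x _ hx =>
              refine ⟨?_, inv_mem hx.2⟩
              rw [← mul_inv_rev, hx.1, inv_one]
          exact h2.1
        exact h1 u hu.1
      have hu1 : u ≠ 1 := fun h => huz (by rw [h]; exact one_mem _)
      have huz' : u ≠ z := fun h => huz (by rw [h]; exact mem_zpowers z)
      refine odd_trivial' L.toLQ hu.2 huu hu1 huz'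
        (P := (Cfsg.pCore 2 ↥(Subgroup.centralizer ({u} : Set G))).map (Subgroup.centralizer ({u} : Set G)).subtype)
        ((Cfsg.Agent.Lib.Cores.pCore_isPGroup 2).map _) ⟨⟨z, hz'⟩, hzO, rfl⟩ ?_ hW hQW
      have hn := Cfsg.Agent.Lib.Cores.pCore_normal (G := centralizer ({u} : Set G)) 2
      intro x hx
      have key : ∀ y ∈ centralizer ({u} : Set G), ∀ q ∈ (Cfsg.pCore 2 ↥(Subgroup.centralizer ({u} : Set G))).map
          (Subgroup.centralizer ({u} : Set G)).subtype, y * q * y⁻¹ ∈ (Cfsg.pCore 2
          ↥(Subgroup.centralizer ({u} : Set G))).map (Subgroup.centralizer ({u} : Set G)).subtype := by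
        rintro y hy _ ⟨q, hq, rfl⟩
        exact ⟨⟨y, hy⟩ * q * ⟨y, hy⟩⁻¹, hn.conj_mem q hq ⟨y, hy⟩, rfl⟩
      rw [mem_normalizer_iff]
      intro q
      refine ⟨key x hx q, fun h => ?_⟩
      have := key x⁻¹ (inv_mem hx) _ h
      have e : x⁻¹ * (x * q * x⁻¹) * x⁻¹⁻¹ = q := by group
      rwa [e] at this
  refine ⟨L.simple_of hodd fun N hN hzN => ?_, hQ, L.cen_eq, L.cz_le, hodd⟩
  rw [← hgen, Subgroup.closure_le]
  rintro x ⟨c, hc, u, hu, rfl⟩
  refine hN.conj_mem u ?_ c
  have hUN : U ≤ N := by
    rw [hU, Subgroup.closure_le]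
    rintro y ⟨k, -, rfl⟩
    exact hN.conj_mem z hzN k
  exact hUN hu

end Cfsg.Agent.S5427
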