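import Cfsg.Statements.S5433
import Cfsg.Agent.Lib.ThreeT.LargeEx

set_option autoImplicit false
open Cfsg

namespace Cfsg.Agent.S5433

/-- Let Q be a large extraspecial 2-subgroup of the finite group G (extraspecial; centralizer equal to its centre; normal in the centralizer of its centre; normalizing no non-trivial subgroup of odd order), and L a normal subgroup of G containing Q. Then G is the product of L and the normalizer of Q. -/
theorem result {G : Type*} [Group G] [Finite G] (Q : Subgroup G) (hQ : Cfsg.IsLargeExtraspecial Q) (L : Subgroup G) [L.Normal] (hQL : Q ≤ L) : L ⊔ Subgroup.normalizer (Q : Set G) = ⊤ := by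
  haveI : Fact (Nat.Prime 2) := ⟨Nat.prime_two⟩
  obtain ⟨hE, hL2, hL3, _⟩ := hQ
  obtain ⟨z, hzQ, hz2, hZ, hZall⟩ := Cfsg.Agent.Lib.LargeEx.exists_z hE
  have hQp : IsPGroup 2 (Q.subgroupOf L) := hE.1.1.comap_subtype
  obtain ⟨S, hS⟩ := hQp.exists_le_sylow
  have h1 := Sylow.normalizer_sup_eq_top S
  rw [eq_top_iff, ← h1]
  apply sup_le _ le_sup_left
  refine le_trans ?_ le_sup_right
  -- the centre of S
  set T : Subgroup G := (S : Subgroup L).map L.subtype with hT
  have hQT : Q ≤ T := fun q hq => ⟨⟨q, hQL hq⟩, hS (by rw [Subgroup.mem_subgroupOf]; exact hq), rfl⟩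
  have hTp : IsPGroup 2 T := S.2.map _
  have hcT : ∀ c ∈ T, (∀ x ∈ T, x * c = c * x) → c = 1 ∨ c = z := by
    intro c _ hc
    rw [← hZall, ← hL2, Subgroup.mem_centralizer_iff]
    intro q hq
    exact hc q (hQT hq)
  have hTn : Nontrivial T := by
    rw [Subgroup.nontrivial_iff_exists_ne_one]
    exact ⟨z, hQT hzQ, by rintro rfl; simp at hz2⟩
  have hcn : Nontrivial (Subgroup.center T) := hTp.center_nontrivial
  obtain ⟨c, hc1⟩ := exists_ne (1 : Subgroup.center T)
  have hcz : ((c : T) : G) = z := by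
    rcases hcT _ (c : T).2 (fun x hx => congrArg Subtype.val (Subgroup.mem_center_iff.1 c.2 ⟨x, hx⟩)) with h | h
    · exact absurd (Subtype.ext (Subtype.ext h)) hc1
    · exact h
  have hzT : ∀ x ∈ T, x * z = z * x := by
    intro x hx
    rw [← hcz]
    exact congrArg Subtype.val (Subgroup.mem_center_iff.1 c.2 ⟨x, hx⟩)
  intro g hg
  apply hL3
  rw [Subgroup.mem_centralizer_iff]
  intro x hx
  have hgz : g * z * g⁻¹ = z := by
    have h3 : g * z * g⁻¹ ∈ T := (Subgroup.mem_normalizer_iff.1 hg z).1 (hQT hzQ)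
    rcases hcT _ h3 (by
      intro x hx
      have h4 : g⁻¹ * x * g ∈ T := by
        have := (Subgroup.mem_normalizer_iff.1 (Subgroup.inv_mem _ hg) x).1 hx
        rwa [inv_inv] at this
      have h5 := hzT _ h4
      calc x * (g * z * g⁻¹) = g * ((g⁻¹ * x * g) * z) * g⁻¹ := by group
        _ = g * (z * (g⁻¹ * x * g)) * g⁻¹ := by rw [h5]
        _ = g * z * g⁻¹ * x := by group) with h | h
    · exfalso
      have : z = 1 := by
        have := congrArg (fun t => g⁻¹ * t * g) h
        simpa [mul_assoc] using this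
      rw [this] at hz2; simp at hz2
    · exact h
  rcases (hZall x).1 hx with rfl | rfl
  · simp
  · calc x * g = (g * x * g⁻¹) * g := by rw [hgz]
      _ = g * x := by group

end Cfsg.Agent.S5433
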