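import Cfsg.Statements.S5434
import Cfsg.Agent.Lib.LargeExG
import Cfsg.Agent.Lib.Coprime

set_option autoImplicit false
open Cfsg

namespace Cfsg.Agent.S5434

open Subgroup Cfsg.Agent.Lib.LargeEx
open scoped commutatorElement

/-- Let Q be a large extraspecial 2-subgroup of the finite group G (extraspecial; centralizer equal to its centre; normal in the centralizer of its centre; normalizing no non-trivial subgroup of odd order), and A a non-trivial subgroup of odd order of the normalizer of Q. Then Q is the central product of the centralizer of A in Q and the commutator subgroup [Q, A] (they generate Q and commute elementwise), [Q, A] is extraspecial, and the centralizer of A in Q is either the centre of Q or extraspecial. -/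
theorem result {G : Type*} [Group G] [Finite G] (Q : Subgroup G) (hQ : Cfsg.IsLargeExtraspecial Q) (A : Subgroup G) (hA : A ≤ Subgroup.normalizer (Q : Set G)) (hAodd : Odd (Nat.card ↥A)) (hA1 : A ≠ ⊥) : (Q ⊓ Subgroup.centralizer (A : Set G)) ⊔ ⁅Q, A⁆ = Q ∧ (∀ x ∈ Q ⊓ Subgroup.centralizer (A : Set G), ∀ y ∈ ⁅Q, A⁆, x * y = y * x) ∧ Cfsg.IsExtraspecial 2 ↥⁅Q, A⁆ ∧ (Q ⊓ Subgroup.centralizer (A : Set G) = ((Subgroup.center ↥Q).map Q.subtype) ∨ Cfsg.IsExtraspecial 2 ↥(Q ⊓ Subgroup.centralizer (A : Set G))) := by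
  haveI : Fact (Nat.Prime 2) := ⟨Nat.prime_two⟩
  obtain ⟨z, -, ho, -, hcm⟩ := exists_z hQ.1
  have L := of_large hQ hcm ho
  rw [hcm]
  have hcop : (Nat.card A).Coprime (Nat.card Q) := by
    obtain ⟨n, hn⟩ := IsPGroup.iff_card.mp L.pg
    rw [hn]
    exact Nat.Coprime.pow_right n (Nat.coprime_two_right.mpr hAodd)
  have hnil : Group.IsNilpotent Q := L.pg.isNilpotent
  have hsolv : Group.IsSolvable A ∨ Group.IsSolvable Q := Or.inr inferInstance
  have h1 := Cfsg.Agent.Lib.Coprime.commutator_sup_centralizer hA hcop hsolv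
  have h2 := Cfsg.Agent.Lib.Coprime.commutator_commutator_eq hA hcop hsolv
  -- `A` centralizes `z`
  have hAz : ∀ a ∈ A, a * z = z * a := by
    intro a ha
    have hN := hA ha
    have h3 : a * z * a⁻¹ ∈ Q := (mem_normalizer_iff.mp hN z).mp L.zQ
    have h4 : ∀ y ∈ Q, (a * z * a⁻¹) * y = y * (a * z * a⁻¹) := by
      intro y hy
      have h5 : a⁻¹ * y * a ∈ Q := by
        have := (mem_normalizer_iff.mp (inv_mem hN) y).mp hy
        rwa [inv_inv] at this
      have h6 := L.zc _ h5
      calc a * z * a⁻¹ * y = a * (z * (a⁻¹ * y * a)) * a⁻¹ := by group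
        _ = y * (a * z * a⁻¹) := by rw [← h6]; group
    rcases L.cen' _ h3 h4 with h | h
    · exfalso
      apply L.z1
      calc z = a⁻¹ * (a * z * a⁻¹) * a := by group
        _ = 1 := by rw [h]; group
    · rwa [mul_inv_eq_iff_eq_mul] at h
  set C : Subgroup G := Q ⊓ centralizer (A : Set G) with hC
  set B : Subgroup G := ⁅Q, A⁆ with hB
  have hBQ : B ≤ Q := by rw [← h1]; exact le_sup_left
  have hCQ : C ≤ Q := inf_le_left
  have hzC : z ∈ C := ⟨L.zQ, mem_centralizer_iff.mpr fun a ha => hAz a ha⟩
  have hCB : C ⊔ B = Q := by rw [sup_comm]; exact h1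
  have hcomm : ⁅B, C⁆ = ⊥ := by
    apply commutator_commutator_eq_bot_of_rotate
    · have h3 : ⁅A, C⁆ = ⊥ := by
        rw [commutator_comm, commutator_eq_bot_iff_le_centralizer]
        exact inf_le_right
      rw [h3, commutator_bot_left]
    · rw [commutator_eq_bot_iff_le_centralizer]
      have h3 : ⁅C, Q⁆ ≤ zpowers z := by
        rw [commutator_le]
        intro x hx y hy
        rcases L.comm x (hCQ hx) y hy with h | h <;> rw [h]
        · exact one_mem _
        · exact mem_zpowers z
      refine h3.trans ?_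
      rw [zpowers_le, mem_centralizer_iff]
      exact fun a ha => hAz a ha
  have hcom : ∀ x ∈ C, ∀ y ∈ B, x * y = y * x := by
    intro x hx y hy
    rw [commutator_eq_bot_iff_le_centralizer] at hcomm
    exact mem_centralizer_iff.mp (hcomm hy) x hx
  -- commuting with `C` and `B`
  have hall : ∀ x : G, (∀ c ∈ C, x * c = c * x) → (∀ b ∈ B, x * b = b * x) → ∀ y ∈ Q, x * y = y * x := by
    intro x hxC hxB
    have h3 : C ⊔ B ≤ centralizer ({x} : Set G) := sup_le
      (fun c hc => mem_centralizer_singleton_iff.mpr (hxC c hc).symm)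
      (fun c hc => mem_centralizer_singleton_iff.mpr (hxB c hc).symm)
    rw [hCB] at h3
    exact fun y hy => (mem_centralizer_singleton_iff.mp (h3 hy)).symm
  have hBne : ∃ x ∈ B, ∃ y ∈ B, x * y ≠ y * x := by
    by_contra hcon
    push Not at hcon
    have h3 : ∀ x ∈ B, x ∈ centralizer (A : Set G) := by
      intro x hx
      rcases L.cen' x (hBQ hx) (hall x (fun c hc => (hcom c hc x hx).symm) (hcon x hx)) with h | h
      · rw [h]; exact one_mem _
      · rw [h]; exact hzC.2
    have h4 : B = ⊥ := by
      rw [← h2]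
      show ⁅B, A⁆ = ⊥
      rw [commutator_eq_bot_iff_le_centralizer]
      exact h3
    apply hA1
    rw [h4, sup_bot_eq] at hCB
    have h5 : A ≤ Q := by
      refine le_trans ?_ L.cQ
      rw [← hCB]
      intro a ha
      rw [mem_centralizer_iff]
      intro c hc
      exact (mem_centralizer_iff.mp hc.2 a ha).symm
    rw [eq_bot_iff_forall]
    intro a ha
    exact inf_eq_bot_of_odd L.pg hAodd ha (h5 ha)
  have hzB : z ∈ B := by
    obtain ⟨x, hx, y, hy, hxy⟩ := hBne
    rcases L.comm x (hBQ hx) y (hBQ hy) with h | h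
    · exact absurd (commutatorElement_eq_one_iff_mul_comm.mp h) hxy
    · rw [← h, commutatorElement_def]
      exact mul_mem (mul_mem (mul_mem hx hy) (inv_mem hx)) (inv_mem hy)
  refine ⟨hCB, hcom, ?_, ?_⟩
  · exact extraspecial_of (L.pg.to_le hBQ) hzB ho (fun x hx y hy => L.comm x (hBQ hx) y (hBQ hy))
      (fun x hx h => L.cen' x (hBQ hx) (hall x (fun c hc => (hcom c hc x hx).symm) h)) hBne
  · by_cases hCne : ∃ x ∈ C, ∃ y ∈ C, x * y ≠ y * x
    · right
      exact extraspecial_of (L.pg.to_le hCQ) hzC ho (fun x hx y hy => L.comm x (hCQ hx) y (hCQ hy))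
        (fun x hx h => L.cen' x (hCQ hx) (hall x h (hcom x hx))) hCne
    · left
      push Not at hCne
      apply le_antisymm
      · intro x hx
        rcases L.cen' x (hCQ hx) (hall x (hCne x hx) (hcom x hx)) with h | h <;> rw [h]
        · exact one_mem _
        · exact mem_zpowers z
      · rw [zpowers_le]; exact hzC

end Cfsg.Agent.S5434
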