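import Cfsg.Statements.S5437
import Cfsg.Agent.Lib.ThreeT.Basic

set_option autoImplicit false
open Cfsg

namespace Cfsg.Agent.S5437

/-- Let I be a set of involutions of the finite group G closed under conjugation, and H a subgroup of G. The following are equivalent: (1) for every member x of I lying in H, the conjugates of x lying in H form a single H-class and the centralizer of x lies in H; (2) for every g outside H, no member of I lies in both H and g H g⁻¹; (3) every member of I lying in H fixes exactly one coset in the action of G on the cosets of H. -/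
theorem result {G : Type*} [Group G] [Finite G] (I : Set G) (hI : ∀ x ∈ I, orderOf x = 2) (hIc : ∀ g : G, ∀ x ∈ I, g * x * g⁻¹ ∈ I) (H : Subgroup G) : ((∀ x ∈ I, x ∈ H → (∀ g : G, g * x * g⁻¹ ∈ H → ∃ h ∈ H, h * x * h⁻¹ = g * x * g⁻¹) ∧ Subgroup.centralizer ({x} : Set G) ≤ H) ↔ (∀ g : G, g ∉ H → ∀ x ∈ I, ¬ (x ∈ H ∧ x ∈ (H : Subgroup G).map (MulAut.conj g).toMonoidHom))) ∧ ((∀ g : G, g ∉ H → ∀ x ∈ I, ¬ (x ∈ H ∧ x ∈ (H : Subgroup G).map (MulAut.conj g).toMonoidHom)) ↔ ∀ x ∈ I, x ∈ H → ∃! c : G ⧸ H, x • c = c) := by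
  have h12 : (∀ x ∈ I, x ∈ H → (∀ g : G, g * x * g⁻¹ ∈ H → ∃ h ∈ H, h * x * h⁻¹ = g * x * g⁻¹) ∧ Subgroup.centralizer ({x} : Set G) ≤ H) → (∀ g : G, g ∉ H → ∀ x ∈ I, ¬ (x ∈ H ∧ x ∈ (H : Subgroup G).map (MulAut.conj g).toMonoidHom)) := by
    rintro h g hg x hx ⟨hxH, y, hy, hyx⟩
    apply hg
    have hyx' : g * y * g⁻¹ = x := hyx
    have e : g⁻¹ * x * g⁻¹⁻¹ = y := by rw [← hyx']; group
    obtain ⟨k, hk, hkx⟩ := (h x hx hxH).1 g⁻¹ (by rw [e]; exact hy)
    have h3 : g * k ∈ Subgroup.centralizer ({x} : Set G) := by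
      rw [Subgroup.mem_centralizer_singleton_iff]
      have h4 : k * x * k⁻¹ = g⁻¹ * x * g := by rw [hkx]; group
      calc g * k * x = g * (k * x * k⁻¹) * k := by group
        _ = x * (g * k) := by rw [h4]; group
    have h5 := (h x hx hxH).2 h3
    have e2 : g = g * k * k⁻¹ := by group
    rw [e2]; exact H.mul_mem h5 (H.inv_mem hk)
  have h23 : (∀ g : G, g ∉ H → ∀ x ∈ I, ¬ (x ∈ H ∧ x ∈ (H : Subgroup G).map (MulAut.conj g).toMonoidHom)) → ∀ x ∈ I, x ∈ H → ∃! c : G ⧸ H, x • c = c := by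
    intro h x hx hxH
    refine ⟨((1 : G) : G ⧸ H), ?_, ?_⟩
    · change ((x * 1 : G) : G ⧸ H) = ((1 : G) : G ⧸ H)
      rw [QuotientGroup.eq]
      simpa using hxH
    · intro c hc
      induction c using QuotientGroup.induction_on with | H g => ?_
      have h3 : ((x * g : G) : G ⧸ H) = (g : G ⧸ H) := hc
      rw [QuotientGroup.eq] at h3
      have h4 : g⁻¹ * x * g ∈ H := by
        have := H.inv_mem h3
        have e : ((x * g)⁻¹ * g)⁻¹ = g⁻¹ * x * g := by group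
        rwa [e] at this
      by_contra hne
      have hg : g ∉ H := by
        intro hg
        apply hne
        rw [QuotientGroup.eq]; simpa using hg
      exact h g hg x hx ⟨hxH, g⁻¹ * x * g, h4, by change g * (g⁻¹ * x * g) * g⁻¹ = x; group⟩
  have h32 : (∀ x ∈ I, x ∈ H → ∃! c : G ⧸ H, x • c = c) → (∀ g : G, g ∉ H → ∀ x ∈ I, ¬ (x ∈ H ∧ x ∈ (H : Subgroup G).map (MulAut.conj g).toMonoidHom)) := by
    rintro h g hg x hx ⟨hxH, y, hy, hyx⟩
    have hyx' : g * y * g⁻¹ = x := hyx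
    obtain ⟨c, _, hc⟩ := h x hx hxH
    have h1 := hc ((1 : G) : G ⧸ H) (by
      change ((x * 1 : G) : G ⧸ H) = ((1 : G) : G ⧸ H)
      rw [QuotientGroup.eq]
      simpa using hxH)
    have h2 := hc (g : G ⧸ H) (by
      change ((x * g : G) : G ⧸ H) = (g : G ⧸ H)
      rw [QuotientGroup.eq, ← hyx']
      have e : (g * y * g⁻¹ * g)⁻¹ * g = y⁻¹ := by group
      rw [e]; exact H.inv_mem hy)
    rw [← h1, eq_comm, QuotientGroup.eq] at h2
    apply hg; simpa using h2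
  have h21 : (∀ g : G, g ∉ H → ∀ x ∈ I, ¬ (x ∈ H ∧ x ∈ (H : Subgroup G).map (MulAut.conj g).toMonoidHom)) → (∀ x ∈ I, x ∈ H → (∀ g : G, g * x * g⁻¹ ∈ H → ∃ h ∈ H, h * x * h⁻¹ = g * x * g⁻¹) ∧ Subgroup.centralizer ({x} : Set G) ≤ H) := by
    intro h x hx hxH
    constructor
    · intro g hg
      by_cases hgH : g ∈ H
      · exact ⟨g, hgH, rfl⟩
      · exfalso
        refine h g⁻¹ (fun hh => hgH (by simpa using H.inv_mem hh)) x hx ⟨hxH, g * x * g⁻¹, hg, ?_⟩
        change g⁻¹ * (g * x * g⁻¹) * g⁻¹⁻¹ = x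
        group
    · intro g hg
      rw [Subgroup.mem_centralizer_singleton_iff] at hg
      by_contra hgH
      refine h g hgH x hx ⟨hxH, x, hxH, ?_⟩
      change g * x * g⁻¹ = x
      rw [hg]; group
  exact ⟨⟨h12, h21⟩, ⟨h23, h32⟩⟩

end Cfsg.Agent.S5437
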