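import Cfsg.Statements.S5438
import Cfsg.Agent.Lib.ThreeT.Basic

set_option autoImplicit false
open Cfsg

namespace Cfsg.Agent.S5438

/-- Let z be a 2-central involution of the finite group G (an involution central in some Sylow 2-subgroup) and H a subgroup containing z such that the coset H is the only coset of H fixed by z (in the action of G on the cosets of H). Then H has odd index in G, and for every 2-element x of H the conjugates of x lying in H form a single H-class. -/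
theorem result {G : Type*} [Group G] [Finite G] (z : G) (hz : Cfsg.IsTwoCentralInvolution z) (H : Subgroup G) (hzH : z ∈ H) (hfix : ∀ g : G, g⁻¹ * z * g ∈ H → g ∈ H) : Odd H.index ∧ ∀ x ∈ H, (∃ k : ℕ, orderOf x = 2 ^ k) → ∀ g : G, g * x * g⁻¹ ∈ H → ∃ h ∈ H, h * x * h⁻¹ = g * x * g⁻¹ := by
  haveI : Fact (Nat.Prime 2) := ⟨Nat.prime_two⟩
  obtain ⟨hz2, P, hzP, hPz⟩ := hz
  have hcen : ∀ g : G, g * z = z * g → g ∈ H := by
    intro g hg
    apply hfix
    have : g⁻¹ * z * g = z := by rw [mul_assoc, ← hg]; group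
    rw [this]; exact hzH
  have hPH : (P : Subgroup G) ≤ H := fun g hg => hcen g (hPz g hg)
  have hindex : Odd H.index := by
    have h1 : H.index ∣ (P : Subgroup G).index := Subgroup.index_dvd_of_le hPH
    have h2 : ¬ 2 ∣ (P : Subgroup G).index := P.not_dvd_index
    rw [← Nat.not_even_iff_odd, even_iff_two_dvd]
    exact fun h => h2 (h.trans h1)
  refine ⟨hindex, ?_⟩
  intro x hx hx2 g hgx
  -- 2-subgroups containing `z` are in `H`
  have h2H : ∀ S : Subgroup G, IsPGroup 2 S → z ∈ S → S ≤ H := by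
    intro S hS hzS
    have hcard : Nat.card (G ⧸ H) = H.index := rfl
    obtain ⟨c, hc⟩ := hS.nonempty_fixed_point_of_prime_not_dvd_card (G ⧸ H) (by
      rw [hcard, ← even_iff_two_dvd, Nat.not_even_iff_odd]; exact hindex)
    induction c using QuotientGroup.induction_on with | H k => ?_
    have hfixed : ∀ s ∈ S, k⁻¹ * s * k ∈ H := by
      intro s hs
      have h3 : ((s * k : G) : G ⧸ H) = (k : G ⧸ H) := hc ⟨s, hs⟩
      rw [QuotientGroup.eq] at h3
      have := H.inv_mem h3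
      have e : ((s * k)⁻¹ * k)⁻¹ = k⁻¹ * s * k := by group
      rwa [e] at this
    have hk := hfix k (hfixed z hzS)
    intro s hs
    have := hfixed s hs
    have e : s = k * (k⁻¹ * s * k) * k⁻¹ := by group
    rw [e]; exact H.mul_mem (H.mul_mem hk this) (H.inv_mem hk)
  -- move 2-elements of `H` into `P`
  have hmove : ∀ y ∈ H, IsPGroup 2 (Subgroup.zpowers y) → ∃ h ∈ H, h * y * h⁻¹ ∈ P := by
    intro y hy hy2
    have hPs : IsPGroup 2 ((P : Subgroup G).subgroupOf H) := P.2.comap_subtype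
    obtain ⟨T, hT⟩ := hPs.exists_le_sylow
    have hys : IsPGroup 2 (Subgroup.zpowers (⟨y, hy⟩ : H)) := by
      have h3 : (Subgroup.zpowers (⟨y, hy⟩ : H)) = (Subgroup.zpowers y).subgroupOf H := by
        rw [Subgroup.subgroupOf, ← Subgroup.map_injective (H.subtype_injective) |>.eq_iff]
        rw [Subgroup.map_comap_eq, MonoidHom.map_zpowers, Subgroup.range_subtype]
        rw [inf_eq_right.2]
        · rfl
        · rw [Subgroup.zpowers_le]; exact hy
      rw [h3]; exact hy2.comap_subtype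
    obtain ⟨T', hT'⟩ := hys.exists_le_sylow
    obtain ⟨h, hh⟩ := MulAction.exists_smul_eq H T' T
    refine ⟨h, h.2, ?_⟩
    have h4 : h * ⟨y, hy⟩ * h⁻¹ ∈ (T : Subgroup H) := by
      rw [← hh, Sylow.coe_subgroup_smul, Subgroup.mem_pointwise_smul_iff_inv_smul_mem, ← map_inv,
        MulAut.smul_def, MulAut.conj_apply, inv_inv]
      have : h⁻¹ * (h * ⟨y, hy⟩ * h⁻¹) * h = ⟨y, hy⟩ := by group
      rw [this]; exact hT' (Subgroup.mem_zpowers _)
    -- `T` is `P ∩ H`
    have h5 : (T : Subgroup H).map H.subtype = P := by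
      apply P.3 (T.2.map _)
      intro p hp
      exact ⟨⟨p, hPH hp⟩, hT (by rw [Subgroup.mem_subgroupOf]; exact hp), rfl⟩
    change (h : G) * y * (h : G)⁻¹ ∈ (P : Subgroup G)
    rw [← h5]
    exact ⟨_, h4, rfl⟩
  have hx2' : IsPGroup 2 (Subgroup.zpowers x) := by
    obtain ⟨k, hk⟩ := hx2
    exact IsPGroup.of_card (n := k) (by rw [Nat.card_zpowers, hk])
  have hgx2 : IsPGroup 2 (Subgroup.zpowers (g * x * g⁻¹)) := by
    obtain ⟨k, hk⟩ := hx2
    apply IsPGroup.of_card (n := k)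
    rw [Nat.card_zpowers, ← hk]
    have := orderOf_injective (MulAut.conj g).toMonoidHom (MulAut.conj g).injective x
    exact this
  obtain ⟨a, ha, haP⟩ := hmove x hx hx2'
  obtain ⟨b, hb, hbP⟩ := hmove _ hgx hgx2
  set x' := a * x * a⁻¹ with hx'
  set y := b * (g * x * g⁻¹) * b⁻¹ with hy
  set k := b * g * a⁻¹ with hk
  have hkx : k * x' * k⁻¹ = y := by rw [hk, hx', hy]; group
  have hzx : z * x' = x' * z := (hPz _ haP).symm
  have hzy : z * y = y * z := (hPz _ hbP).symm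
  have hz'y : (k * z * k⁻¹) * y = y * (k * z * k⁻¹) := by
    rw [← hkx]
    calc k * z * k⁻¹ * (k * x' * k⁻¹) = k * (z * x') * k⁻¹ := by group
      _ = k * (x' * z) * k⁻¹ := by rw [hzx]
      _ = k * x' * k⁻¹ * (k * z * k⁻¹) := by group
  set C := Subgroup.centralizer ({y} : Set G) with hC
  have hzC : z ∈ C := Subgroup.mem_centralizer_singleton_iff.2 hzy
  have hz'C : k * z * k⁻¹ ∈ C := Subgroup.mem_centralizer_singleton_iff.2 hz'y
  have hzp : ∀ w : G, ∀ hw : w ∈ C, orderOf w = 2 → IsPGroup 2 (Subgroup.zpowers (⟨w, hw⟩ : C)) := by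
    intro w hw hw2
    apply IsPGroup.of_card (n := 1)
    rw [Nat.card_zpowers, pow_one, ← Subgroup.orderOf_coe]; exact hw2
  have hz'2 : orderOf (k * z * k⁻¹) = 2 := by
    rw [← hz2]
    exact orderOf_injective (MulAut.conj k).toMonoidHom (MulAut.conj k).injective z
  obtain ⟨S1, hS1⟩ := (hzp z hzC hz2).exists_le_sylow
  obtain ⟨S2, hS2⟩ := (hzp _ hz'C hz'2).exists_le_sylow
  obtain ⟨c, hc⟩ := MulAction.exists_smul_eq C S2 S1
  have h6 : (c : G) * (k * z * k⁻¹) * (c : G)⁻¹ ∈ (S1 : Subgroup C).map C.subtype := by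
    refine ⟨c * ⟨_, hz'C⟩ * c⁻¹, ?_, rfl⟩
    change _ ∈ (S1 : Subgroup C)
    rw [← hc, Sylow.coe_subgroup_smul, Subgroup.mem_pointwise_smul_iff_inv_smul_mem, ← map_inv,
      MulAut.smul_def, MulAut.conj_apply, inv_inv]
    have : c⁻¹ * (c * ⟨_, hz'C⟩ * c⁻¹) * c = ⟨_, hz'C⟩ := by group
    rw [this]; exact hS2 (Subgroup.mem_zpowers _)
  have h7 := h2H _ (S1.2.map C.subtype) ⟨⟨z, hzC⟩, hS1 (Subgroup.mem_zpowers _), rfl⟩ h6
  have h8 : (c : G) * k ∈ H := by
    have h9 := hfix ((c : G) * k)⁻¹ (by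
      have e : ((c : G) * k)⁻¹⁻¹ * z * ((c : G) * k)⁻¹ = (c : G) * (k * z * k⁻¹) * (c : G)⁻¹ := by group
      rw [e]; exact h7)
    simpa using H.inv_mem h9
  refine ⟨b⁻¹ * ((c : G) * k) * a, H.mul_mem (H.mul_mem (H.inv_mem hb) h8) ha, ?_⟩
  have hcy : (c : G) * y * (c : G)⁻¹ = y := by
    rw [Subgroup.mem_centralizer_singleton_iff.1 c.2]; group
  have e1 : b⁻¹ * ((c : G) * k) * a * x * (b⁻¹ * ((c : G) * k) * a)⁻¹ =
      b⁻¹ * ((c : G) * (k * x' * k⁻¹) * (c : G)⁻¹) * b := by rw [hx']; group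
  rw [e1, hkx, hcy, hy]; group

end Cfsg.Agent.S5438
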