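import Cfsg.Statements.S5439
import Cfsg.Agent.Lib.ThreeT.Basic

set_option autoImplicit false
open Cfsg

namespace Cfsg.Agent.S5439

/-- Let I and J be two different conjugacy classes of involutions of the finite group G and H a subgroup such that every member of I ∪ J fixes exactly one coset in the action on the cosets of H, and such that for every a in I ∩ H and every b in (I ∪ J) ∩ H different from a and commuting with it, the centralizer of a b lies in H. Then H = G. -/
theorem result {G : Type*} [Group G] [Finite G] (I J : Set G) (a₀ b₀ : G) (ha₀ : orderOf a₀ = 2) (hb₀ : orderOf b₀ = 2) (hI : I = {x | IsConj a₀ x}) (hJ : J = {x | IsConj b₀ x}) (hIJ : I ≠ J) (H : Subgroup G) (hfix : ∀ x ∈ I ∪ J, ∃! c : G ⧸ H, x • c = c) (hcent : ∀ a ∈ I, a ∈ H → ∀ b ∈ I ∪ J, b ∈ H → a ≠ b → a * b = b * a → Subgroup.centralizer ({a * b} : Set G) ≤ H) : H = ⊤ := by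
  have hfixg : ∀ x ∈ I ∪ J, ∀ g k : G, g⁻¹ * x * g ∈ H → k⁻¹ * x * k ∈ H → g⁻¹ * k ∈ H := by
    intro x hx g k hg hk
    obtain ⟨c, _, hc⟩ := hfix x hx
    have key : ∀ g : G, g⁻¹ * x * g ∈ H → (g : G ⧸ H) = c := by
      intro g hg
      apply hc
      change ((x * g : G) : G ⧸ H) = (g : G ⧸ H)
      rw [QuotientGroup.eq]
      have e : (x * g)⁻¹ * g = (g⁻¹ * x * g)⁻¹ := by group
      rw [e]; exact H.inv_mem hg
    rw [← QuotientGroup.eq, key g hg, key k hk]
  have hconjI : ∀ g x : G, x ∈ I → g * x * g⁻¹ ∈ I := by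
    intro g x hx
    rw [hI] at hx ⊢
    exact (show IsConj a₀ x from hx).trans (isConj_iff.2 ⟨g, rfl⟩)
  have hconjJ : ∀ g x : G, x ∈ J → g * x * g⁻¹ ∈ J := by
    intro g x hx
    rw [hJ] at hx ⊢
    exact (show IsConj b₀ x from hx).trans (isConj_iff.2 ⟨g, rfl⟩)
  have hord : ∀ x y : G, IsConj x y → orderOf x = 2 → y * y = 1 ∧ y ≠ 1 := by
    intro x y hxy h2
    have h3 : orderOf y = 2 := by
      obtain ⟨g, rfl⟩ := isConj_iff.1 hxy
      rw [← h2]
      exact orderOf_injective (MulAut.conj g).toMonoidHom (MulAut.conj g).injective x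
    refine ⟨?_, ?_⟩
    · have := pow_orderOf_eq_one y
      rwa [h3, sq] at this
    · rintro rfl; simp at h3
  have hI2 : ∀ x ∈ I, x * x = 1 ∧ x ≠ 1 := fun x hx => hord a₀ x (by rw [hI] at hx; exact hx) ha₀
  have hJ2 : ∀ x ∈ J, x * x = 1 ∧ x ≠ 1 := fun x hx => hord b₀ x (by rw [hJ] at hx; exact hx) hb₀
  -- a member of `I` in `H`
  obtain ⟨a, haI, haH⟩ : ∃ a ∈ I, a ∈ H := by
    have ha0 : a₀ ∈ I := by rw [hI]; exact IsConj.refl a₀
    obtain ⟨c, hc, _⟩ := hfix a₀ (Or.inl ha0)
    induction c using QuotientGroup.induction_on with | H k => ?_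
    have h3 : ((a₀ * k : G) : G ⧸ H) = (k : G ⧸ H) := hc
    rw [QuotientGroup.eq] at h3
    refine ⟨k⁻¹ * a₀ * k, ?_, ?_⟩
    · have := hconjI k⁻¹ a₀ ha0; rwa [inv_inv] at this
    · have := H.inv_mem h3
      have e : ((a₀ * k)⁻¹ * k)⁻¹ = k⁻¹ * a₀ * k := by group
      rwa [e] at this
  have hCa : ∀ x ∈ I ∪ J, x ∈ H → ∀ g : G, g * x = x * g → g ∈ H := by
    intro x hx hxH g hg
    have := hfixg x hx 1 g (by simpa using hxH) (by rw [mul_assoc, ← hg]; simpa using hxH)
    simpa using this
  have hJH : ∀ b ∈ J, b ∈ H := by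
    intro b hb
    obtain ⟨haa, ha1⟩ := hI2 a haI
    obtain ⟨hbb, hb1⟩ := hJ2 b hb
    have hai : a⁻¹ = a := inv_eq_of_mul_eq_one_right haa
    have hbi : b⁻¹ = b := inv_eq_of_mul_eq_one_right hbb
    have hnot : a ∉ J := by
      intro haJ
      apply hIJ
      rw [hI] at haI
      rw [hJ] at haJ
      rw [hI, hJ]
      ext x
      have h1 : IsConj a₀ a := haI
      have h2 : IsConj b₀ a := haJ
      exact ⟨fun h => (h2.trans h1.symm).trans h, fun h => (h1.trans h2.symm).trans h⟩
    -- reflections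
    have hrefl : ∀ n : ℕ, (a * (a * b) ^ (2 * n) ∈ I) ∧ (a * (a * b) ^ (2 * n + 1) ∈ J) := by
      have hab : (a * b)⁻¹ = b * a := by rw [mul_inv_rev, hai, hbi]
      intro n
      induction n with
      | zero =>
        refine ⟨by simpa using haI, ?_⟩
        rw [mul_zero, zero_add, pow_one, ← mul_assoc, haa, one_mul]; exact hb
      | succ n ih =>
        have key : ∀ j : ℕ, (a * b)⁻¹ * (a * (a * b) ^ j) * (a * b)⁻¹⁻¹ = a * (a * b) ^ (j + 2) := by
          intro j
          rw [inv_inv, hab, pow_succ' (a * b) (j + 1), pow_succ (a * b) j]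
          calc b * a * (a * (a * b) ^ j) * (a * b) = b * (a * a) * ((a * b) ^ j * (a * b)) := by
                simp only [mul_assoc]
            _ = (a * a) * b * ((a * b) ^ j * (a * b)) := by rw [haa, mul_one, one_mul]
            _ = a * (a * b * ((a * b) ^ j * (a * b))) := by simp only [mul_assoc]
        have e1 : 2 * (n + 1) = 2 * n + 2 := by ring
        have e2 : 2 * (n + 1) + 1 = (2 * n + 1) + 2 := by ring
        rw [e1, ← key, show 2 * n + 2 + 1 = (2 * n + 1) + 2 by ring, ← key]
        exact ⟨hconjI _ _ ih.1, hconjJ _ _ ih.2⟩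
    have heven : Even (orderOf (a * b)) := by
      by_contra hodd
      rw [Nat.not_even_iff_odd] at hodd
      obtain ⟨k, hk⟩ := hodd
      apply hnot
      have h1 := (hrefl k).2
      rw [← hk, pow_orderOf_eq_one, mul_one] at h1
      exact h1
    obtain ⟨m, hm⟩ := heven
    have hpos : 0 < orderOf (a * b) := orderOf_pos _
    set t := (a * b) ^ m with ht
    have htt : t * t = 1 := by rw [ht, ← pow_add, ← hm]; exact pow_orderOf_eq_one _
    have hti : t⁻¹ = t := inv_eq_of_mul_eq_one_right htt
    have htne : t ≠ 1 := by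
      intro h1
      have h2 : orderOf (a * b) ∣ m := orderOf_dvd_of_pow_eq_one h1
      have := Nat.le_of_dvd (by omega) h2
      omega
    have hatIJ : a * t ∈ I ∪ J := by
      rcases Nat.even_or_odd m with ⟨j, hj⟩ | ⟨j, hj⟩
      · left; rw [ht, hj, ← two_mul]; exact (hrefl j).1
      · right; rw [ht, hj]; exact (hrefl j).2
    have hatt : (a * t) * (a * t) = 1 := by
      rcases hatIJ with h | h
      · exact (hI2 _ h).1
      · exact (hJ2 _ h).1
    have hata : a * t = t * a := by
      calc a * t = (a * t * (a * t)) * (a * t)⁻¹ := by group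
        _ = t * a := by rw [hatt, one_mul, mul_inv_rev, hti, hai]
    have hatH : a * t ∈ H := by
      apply hCa a (Or.inl haI) haH
      calc a * t * a = a * (t * a) := by group
        _ = a * (a * t) := by rw [hata]
    have hne : a ≠ a * t := by
      intro h
      apply htne
      exact (mul_left_cancel (h.symm.trans (mul_one a).symm))
    have hcent' := hcent a haI haH (a * t) hatIJ hatH hne (by
      calc a * (a * t) = a * (t * a) := by rw [hata]
        _ = a * t * a := by group)
    have e : a * (a * t) = t := by rw [← mul_assoc, haa, one_mul]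
    rw [e] at hcent'
    apply hcent'
    rw [Subgroup.mem_centralizer_singleton_iff]
    -- b commutes with t
    have h1 : t * (a * b) = (a * b) * t := by rw [ht, ← pow_succ, ← pow_succ']
    have h2 : a * (b * t) = a * (t * b) := by
      calc a * (b * t) = (a * b) * t := by group
        _ = t * (a * b) := h1.symm
        _ = (t * a) * b := by group
        _ = (a * t) * b := by rw [hata]
        _ = a * (t * b) := by group
    exact mul_left_cancel h2
  rw [eq_top_iff]
  intro g _
  have hb0 : b₀ ∈ J := by rw [hJ]; exact IsConj.refl b₀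
  have h1 := hfixg b₀ (Or.inr hb0) 1 g (by simpa using hJH b₀ hb0) (by
    have := hJH _ (hconjJ g⁻¹ b₀ hb0); rwa [inv_inv] at this)
  simpa using h1

end Cfsg.Agent.S5439
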