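import Cfsg.Statements.S5459
import Cfsg.Agent.Lib.ThreeT.Basic
import Cfsg.Agent.Lib.Components

set_option autoImplicit false
open Cfsg

namespace Cfsg.Agent.S5459

/-- Let G be a finite group with a quasisimple normal subgroup L and an involution d such that G is generated by L and d, the centre of L has odd order, and d inverts every element of the centre of L. If the commuting graph on the conjugacy class of the image of d in G modulo the centre of L is connected, then the commuting graph on the conjugacy class of d is connected. -/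
theorem result {G : Type*} [Group G] [Finite G] (L : Subgroup G) [L.Normal] (hL : Cfsg.IsQuasisimple ↥L) (d : G) (hd : orderOf d = 2) (hgen : L ⊔ Subgroup.zpowers d = ⊤) (hodd : Odd (Nat.card ↥(Subgroup.center ↥L))) (hinv : ∀ c ∈ (Subgroup.center ↥L).map L.subtype, d * c * d⁻¹ = c⁻¹) [hn : ((Subgroup.center ↥L).map L.subtype).Normal] (hconn : (Cfsg.commutingGraph (conjugatesOf (QuotientGroup.mk d : G ⧸ (Subgroup.center ↥L).map L.subtype))).Connected) : (Cfsg.commutingGraph (conjugatesOf d)).Connected := by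
  classical
  set Z : Subgroup G := (Subgroup.center L).map L.subtype with hZ
  have hdd : d * d = 1 := by
    have := pow_orderOf_eq_one d; rwa [hd, sq] at this
  have hdi : d⁻¹ = d := inv_eq_of_mul_eq_one_right hdd
  have hZL : Z ≤ L := Subgroup.map_subtype_le _
  have hZcomm : ∀ c ∈ Z, ∀ l ∈ L, c * l = l * c := by
    rintro _ ⟨c, hc, rfl⟩ l hl
    exact (congrArg Subtype.val (Subgroup.mem_center_iff.1 hc ⟨l, hl⟩)).symm
  -- every conjugate of `d` inverts `Z`
  have hG : ∀ g : G, (∀ c ∈ Z, g * c * g⁻¹ = c) ∨ (∀ c ∈ Z, g * c * g⁻¹ = c⁻¹) := by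
    intro g
    have hg : g ∈ L ⊔ Subgroup.zpowers d := by rw [hgen]; trivial
    obtain ⟨l, hl, y, hy, rfl⟩ := (Subgroup.mem_sup_of_normal_left).1 hg
    obtain ⟨k, rfl⟩ := Subgroup.mem_zpowers_iff.1 hy
    have hd2 : d ^ (2 : ℤ) = 1 := by
      have := hdd; rw [← sq] at this; exact_mod_cast this
    rcases Int.even_or_odd k with ⟨j, hj⟩ | ⟨j, hj⟩
    · left
      intro c hc
      have : d ^ k = 1 := by rw [hj, ← two_mul, zpow_mul, hd2, one_zpow]
      rw [this, mul_one, ← hZcomm c hc l hl]; group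
    · right
      intro c hc
      have : d ^ k = d := by rw [hj, zpow_add, zpow_mul, hd2, one_zpow, one_mul, zpow_one]
      rw [this]
      have e : l * d * c * (l * d)⁻¹ = l * (d * c * d⁻¹) * l⁻¹ := by group
      rw [e, hinv c hc, ← hZcomm _ (Z.inv_mem hc) l hl]; group
  have hcinv : ∀ e ∈ conjugatesOf d, ∀ c ∈ Z, e * c * e⁻¹ = c⁻¹ := by
    intro e he c hc
    obtain ⟨g, rfl⟩ := isConj_iff.1 (show IsConj d e from he)
    have hc' : g⁻¹ * c * g ∈ Z := by
      have := hn.conj_mem c hc g⁻¹; rwa [inv_inv] at this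
    have e1 : g * d * g⁻¹ * c * (g * d * g⁻¹)⁻¹ = g * (d * (g⁻¹ * c * g) * d⁻¹) * g⁻¹ := by group
    rw [e1, hinv _ hc']; group
  have he2 : ∀ e ∈ conjugatesOf d, e * e = 1 := by
    intro e he
    obtain ⟨g, rfl⟩ := isConj_iff.1 (show IsConj d e from he)
    calc g * d * g⁻¹ * (g * d * g⁻¹) = g * (d * d) * g⁻¹ := by group
      _ = 1 := by rw [hdd]; group
  have hconj : ∀ g : G, ∀ y ∈ conjugatesOf d, g * y * g⁻¹ ∈ conjugatesOf d := by
    intro g y hy
    exact (show IsConj d y from hy).trans (isConj_iff.2 ⟨g, rfl⟩)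
  have hZodd : Odd (Nat.card Z) := by
    have : Nat.card Z = Nat.card (Subgroup.center L) :=
      (Nat.card_congr ((Subgroup.center L).equivMapOfInjective _ L.subtype_injective).toEquiv).symm
    rw [this]; exact hodd
  -- the key adjustment
  have key : ∀ e ∈ conjugatesOf d, ∀ f ∈ conjugatesOf d, (e * f) * (e * f) ∈ Z →
      ∃ y ∈ Z, Commute e (y * f * y⁻¹) := by
    intro e he f hf hef
    set c := (e * f) * (e * f) with hc
    have hee := he2 e he
    have hff := he2 f hf
    have hei : e⁻¹ = e := inv_eq_of_mul_eq_one_right hee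
    have hfi : f⁻¹ = f := inv_eq_of_mul_eq_one_right hff
    -- fourth root
    obtain ⟨m, hm⟩ : Odd (orderOf c) := Odd.of_dvd_nat hZodd (Subgroup.orderOf_dvd_natCard Z hef)
    have hcm : c ^ (2 * m + 1) = 1 := by rw [← hm]; exact pow_orderOf_eq_one c
    set y := c ^ ((m + 1) * (m + 1)) with hy
    have hyZ : y ∈ Z := Z.pow_mem hef _
    have hy4 : y * y * (y * y) = c := by
      rw [hy, ← pow_add, ← pow_add]
      have e1 : (m + 1) * (m + 1) + (m + 1) * (m + 1) + ((m + 1) * (m + 1) + (m + 1) * (m + 1)) =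
          (2 * m + 1) * (2 * m + 3) + 1 := by ring
      rw [e1, pow_add, pow_mul, hcm, one_pow, one_mul, pow_one]
    refine ⟨y, hyZ, ?_⟩
    have hf' : y * f * y⁻¹ ∈ conjugatesOf d := hconj y f hf
    have hyf : y * f * y⁻¹ = y * y * f := by
      have h1 := hcinv f hf _ (Z.inv_mem hyZ)
      rw [inv_inv, hfi] at h1
      calc y * f * y⁻¹ = y * (f * y⁻¹ * f) * f⁻¹ := by group
        _ = y * y * f := by rw [h1, hfi]
    rw [Cfsg.Agent.Lib.ThreeT.comm_iff_of_sq hee (he2 _ hf'), hyf, sq]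
    have h2 : e * (y * y) * e = (y * y)⁻¹ := by
      have := hcinv e he _ (Z.mul_mem hyZ hyZ)
      rwa [hei] at this
    have h3 : f * (y * y) * f = (y * y)⁻¹ := by
      have := hcinv f hf _ (Z.mul_mem hyZ hyZ)
      rwa [hfi] at this
    have h4 : e * (y * y) = (y * y)⁻¹ * e := by
      rw [← h2]
      calc e * (y * y) = e * (y * y) * (e * e) := by rw [hee, mul_one]
        _ = e * (y * y) * e * e := by group
    have h5 : f * (y * y)⁻¹ = (y * y) * f := by
      have h6 := hcinv f hf _ (Z.inv_mem (Z.mul_mem hyZ hyZ))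
      rw [inv_inv] at h6
      calc f * (y * y)⁻¹ = (f * (y * y)⁻¹ * f⁻¹) * f := by group
        _ = (y * y) * f := by rw [h6]
    have h7 : (y * y)⁻¹ * e = e * (y * y) := h4.symm
    have h8 : e * (y * y)⁻¹ = (y * y) * e := by
      calc e * (y * y)⁻¹ = (y * y) * ((y * y)⁻¹ * e) * (y * y)⁻¹ := by group
        _ = (y * y) * (e * (y * y)) * (y * y)⁻¹ := by rw [h7]
        _ = (y * y) * e := by group
    calc e * (y * y * f) * (e * (y * y * f)) = (e * (y * y)) * f * (e * (y * y)) * f := by group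
      _ = ((y * y)⁻¹ * e) * f * ((y * y)⁻¹ * e) * f := by rw [h4]
      _ = (y * y)⁻¹ * e * (f * (y * y)⁻¹) * e * f := by group
      _ = (y * y)⁻¹ * e * ((y * y) * f) * e * f := by rw [h5]
      _ = (y * y)⁻¹ * (e * (y * y)) * f * e * f := by group
      _ = (y * y)⁻¹ * ((y * y)⁻¹ * e) * f * e * f := by rw [h4]
      _ = (y * y * (y * y))⁻¹ * (e * f * (e * f)) := by group
      _ = 1 := by rw [hy4, ← hc]; group
  -- reachability
  set Γ := Cfsg.commutingGraph (conjugatesOf d) with hΓ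
  have hdmem : d ∈ conjugatesOf d := IsConj.refl d
  let R : G → G → Prop := fun a b => ∃ (ha : a ∈ conjugatesOf d) (hb : b ∈ conjugatesOf d),
    Γ.Reachable ⟨a, ha⟩ ⟨b, hb⟩
  have Rcomm : ∀ a ∈ conjugatesOf d, ∀ b ∈ conjugatesOf d, Commute a b → R a b := by
    intro a ha b hb hab
    refine ⟨ha, hb, ?_⟩
    by_cases h : a = b
    · subst h; exact SimpleGraph.Reachable.refl _
    · apply SimpleGraph.Adj.reachable
      exact (SimpleGraph.fromRel_adj _ _ _).2 ⟨fun h' => h (congrArg Subtype.val h'), Or.inl hab⟩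
  have Rtrans : ∀ a b c : G, R a b → R b c → R a c := by
    rintro a b c ⟨ha, hb, h1⟩ ⟨hb', hc, h2⟩
    exact ⟨ha, hc, h1.trans h2⟩
  have Rsymm : ∀ a b : G, R a b → R b a := by
    rintro a b ⟨ha, hb, h1⟩
    exact ⟨hb, ha, h1.symm⟩
  have Rconj : ∀ g a b : G, R a b → R (g * a * g⁻¹) (g * b * g⁻¹) := by
    rintro g a b ⟨ha, hb, ⟨w⟩⟩
    have : ∀ (u v : conjugatesOf d), Γ.Walk u v → R (g * u * g⁻¹) (g * v * g⁻¹) := by
      intro u v w
      induction w with
      | nil => exact Rcomm _ (hconj g _ (Subtype.property _)) _ (hconj g _ (Subtype.property _)) (Commute.refl _)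
      | @cons u v w h p ih =>
        have hcm : Commute (u : G) (v : G) := by
          rcases (SimpleGraph.fromRel_adj _ _ _).1 h with ⟨_, h1 | h1⟩
          · exact h1
          · exact h1.symm
        refine Rtrans _ _ _ (Rcomm _ (hconj g _ u.2) _ (hconj g _ v.2) ?_) ih
        change g * u * g⁻¹ * (g * v * g⁻¹) = g * v * g⁻¹ * (g * u * g⁻¹)
        calc g * u * g⁻¹ * (g * v * g⁻¹) = g * (u * v) * g⁻¹ := by group
          _ = g * (v * u) * g⁻¹ := by rw [hcm.eq]
          _ = g * v * g⁻¹ * (g * u * g⁻¹) := by group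
    exact this _ _ w
  -- everything is reachable up to `Z`
  have hreach : ∀ e ∈ conjugatesOf d, ∃ y ∈ Z, R d (y * e * y⁻¹) := by
    set π : G → G ⧸ Z := QuotientGroup.mk with hπ
    have hlift : ∀ (u v : conjugatesOf (π d)), (Cfsg.commutingGraph (conjugatesOf (π d))).Walk u v →
        ∀ a ∈ conjugatesOf d, ∀ b ∈ conjugatesOf d, π a = u → π b = v → ∃ y ∈ Z, R a (y * b * y⁻¹) := by
      intro u v w
      induction w with
      | nil =>
        intro a ha b hb hau hbv
        have hab : π a = π b := hau.trans hbv.symm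
        obtain ⟨y, hy, hyc⟩ := key a ha b hb (by
          have h1 : a⁻¹ * b ∈ Z := QuotientGroup.eq.1 hab
          rw [inv_eq_of_mul_eq_one_right (he2 a ha)] at h1
          exact Z.mul_mem h1 h1)
        exact ⟨y, hy, Rcomm _ ha _ (hconj y b hb) hyc⟩
      | @cons u v w h p ih =>
        intro a ha b hb hau hbv
        -- a lift of `v`
        obtain ⟨g', hg'⟩ := isConj_iff.1 (show IsConj (π d) (v : G ⧸ Z) from v.2)
        obtain ⟨g, rfl⟩ := QuotientGroup.mk_surjective g'
        have hc : g * d * g⁻¹ ∈ conjugatesOf d := hconj g d hdmem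
        have hcv : π (g * d * g⁻¹) = v := hg'
        have hcm : Commute (u : G ⧸ Z) (v : G ⧸ Z) := by
          rcases (SimpleGraph.fromRel_adj _ _ _).1 h with ⟨_, h1 | h1⟩
          · exact h1
          · exact h1.symm
        obtain ⟨y, hy, hyc⟩ := key a ha _ hc (by
          rw [← QuotientGroup.eq_one_iff]
          change π (a * (g * d * g⁻¹) * (a * (g * d * g⁻¹))) = 1
          have e1 : π (a * (g * d * g⁻¹) * (a * (g * d * g⁻¹))) =
            (π a * π (g * d * g⁻¹)) * (π a * π (g * d * g⁻¹)) := rfl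
          have h1 : π a * π a = 1 := by
            change π (a * a) = 1
            rw [he2 a ha]; rfl
          have h2 : π (g * d * g⁻¹) * π (g * d * g⁻¹) = 1 := by
            change π (g * d * g⁻¹ * (g * d * g⁻¹)) = 1
            rw [he2 _ hc]; rfl
          rw [e1, hau, hcv] at *
          rw [mul_assoc, ← mul_assoc (v : G ⧸ Z), ← hcm.eq, mul_assoc (u : G ⧸ Z), h2, mul_one, h1])
        obtain ⟨y', hy', hyr⟩ := ih _ hc b hb hcv hbv
        have h3 := Rconj y _ _ hyr
        refine ⟨y * y', Z.mul_mem hy hy', ?_⟩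
        have e2 : y * y' * b * (y * y')⁻¹ = y * (y' * b * y'⁻¹) * y⁻¹ := by group
        rw [e2]
        exact Rtrans _ _ _ (Rcomm _ ha _ (hconj y _ hc) hyc) h3
    intro e he
    have hπe : π e ∈ conjugatesOf (π d) := by
      obtain ⟨g, rfl⟩ := isConj_iff.1 (show IsConj d e from he)
      exact isConj_iff.2 ⟨π g, rfl⟩
    obtain ⟨w⟩ := hconn.preconnected ⟨π d, IsConj.refl _⟩ ⟨π e, hπe⟩
    exact hlift _ _ w d hdmem e he rfl rfl
  -- the stabilizer
  let H : Subgroup G :=
    { carrier := {g | R d (g * d * g⁻¹)}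
      one_mem' := by
        change R d (1 * d * 1⁻¹)
        simpa using Rcomm d hdmem d hdmem (Commute.refl d)
      mul_mem' := by
        intro a b ha hb
        have h1 := Rconj a _ _ hb
        have e : a * b * d * (a * b)⁻¹ = a * (b * d * b⁻¹) * a⁻¹ := by group
        change R d (a * b * d * (a * b)⁻¹)
        rw [e]
        exact Rtrans _ _ _ ha h1
      inv_mem' := by
        intro a ha
        have h1 := Rconj a⁻¹ _ _ ha
        have e : a⁻¹ * (a * d * a⁻¹) * a⁻¹⁻¹ = d := by group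
        rw [e] at h1
        exact Rsymm _ _ h1 }
  have hHmem : ∀ g : G, g ∈ H ↔ R d (g * d * g⁻¹) := fun g => Iff.rfl
  have hdH : d ∈ H := by
    rw [hHmem]
    have e : d * d * d⁻¹ = d := by group
    rw [e]; exact Rcomm d hdmem d hdmem (Commute.refl d)
  have hGZ : ∀ g : G, ∃ y ∈ Z, y * g ∈ H := by
    intro g
    obtain ⟨y, hy, hr⟩ := hreach (g * d * g⁻¹) (hconj g d hdmem)
    refine ⟨y, hy, ?_⟩
    rw [hHmem]
    have e : y * g * d * (y * g)⁻¹ = y * (g * d * g⁻¹) * y⁻¹ := by group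
    rw [e]; exact hr
  have hLH : L ≤ H := by
    have hperf : ⁅(L : Subgroup G), L⁆ = L := by
      have := hL.1
      exact Subgroup.commutator_eq_self
    rw [← hperf, Subgroup.commutator_le]
    intro a ha b hb
    obtain ⟨y, hy, hya⟩ := hGZ a
    obtain ⟨y', hy', hyb⟩ := hGZ b
    have h1 : ∀ l ∈ L, y * l = l * y := hZcomm y hy
    have h2 : ∀ l ∈ L, y' * l = l * y' := hZcomm y' hy'
    have hyL := hZL hy
    have hyL' := hZL hy'
    have e : a * b * a⁻¹ * b⁻¹ = y * a * (y' * b) * (y * a)⁻¹ * (y' * b)⁻¹ := by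
      symm
      calc y * a * (y' * b) * (y * a)⁻¹ * (y' * b)⁻¹
          = y * (a * y') * b * a⁻¹ * y⁻¹ * b⁻¹ * y'⁻¹ := by group
        _ = y * (y' * a) * b * a⁻¹ * y⁻¹ * b⁻¹ * y'⁻¹ := by rw [h2 a ha]
        _ = y * (y' * (a * b * a⁻¹)) * y⁻¹ * b⁻¹ * y'⁻¹ := by group
        _ = y * (a * b * a⁻¹ * y') * y⁻¹ * b⁻¹ * y'⁻¹ := by
            rw [h2 _ (L.mul_mem (L.mul_mem ha hb) (L.inv_mem ha))]
        _ = (y * (a * b * a⁻¹)) * (y' * (y⁻¹ * b⁻¹)) * y'⁻¹ := by group
        _ = (a * b * a⁻¹ * y) * (y⁻¹ * b⁻¹ * y') * y'⁻¹ := by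
            rw [h1 _ (L.mul_mem (L.mul_mem ha hb) (L.inv_mem ha)),
              h2 _ (L.mul_mem (L.inv_mem hyL) (L.inv_mem hb))]
        _ = a * b * a⁻¹ * b⁻¹ := by group
    change a * b * a⁻¹ * b⁻¹ ∈ H
    rw [e]
    exact H.mul_mem (H.mul_mem (H.mul_mem hya hyb) (H.inv_mem hya)) (H.inv_mem hyb)
  have hHtop : H = ⊤ := by
    rw [eq_top_iff, ← hgen]
    exact sup_le hLH (by rw [Subgroup.zpowers_le]; exact hdH)
  have hall : ∀ e ∈ conjugatesOf d, R d e := by
    intro e he
    obtain ⟨g, rfl⟩ := isConj_iff.1 (show IsConj d e from he)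
    rw [← hHmem, hHtop]; trivial
  haveI : Nonempty (conjugatesOf d) := ⟨⟨d, hdmem⟩⟩
  refine ⟨fun u v => ?_⟩
  obtain ⟨_, _, h1⟩ := hall u u.2
  obtain ⟨_, _, h2⟩ := hall v v.2
  exact h1.symm.trans h2

end Cfsg.Agent.S5459
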