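import Cfsg.Statements.S5548
import Cfsg.Agent.S5393

set_option autoImplicit false
open Cfsg

namespace Cfsg.Agent.S5548

open Cfsg Cfsg.Agent.Lib.Golay Finset Cfsg.Agent.S5393
open scoped Pointwise

/-- stabiliser of a pair moves points of the complement -/
theorem move {p q x y : GolayPt} (hpq : p ≠ q) (hx : x ≠ p) (hx' : x ≠ q) (hy : y ≠ p) (hy' : y ≠ q) :
    ∃ g ∈ M24, g p = p ∧ g q = q ∧ g x = y :=
  exists_map_triple hpq hx.symm hx'.symm hpq hy.symm hy'.symm

theorem two_of_pair {W : Submodule (ZMod 2) (GolayPt → ZMod 2)}
    (hW : ∀ σ ∈ M24, ∀ w ∈ W, (fun p => w (σ.symm p)) ∈ W) {p q : GolayPt} (hpq : p ≠ q) (h : fam W {p, q}) :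
    ∀ s : Finset GolayPt, Even s.card → fam W s := by
  have hall : ∀ a b : GolayPt, a ≠ b → fam W {a, b} := by
    intro a b hab
    obtain ⟨g, hg, e1, e2⟩ := exists_map_pair hpq hab
    have := fam_smul hW hg h
    rw [smul_finset_insert, smul_finset_singleton] at this
    have e : ({g • p, g • q} : Finset GolayPt) = {a, b} := by
      rw [show g • p = a from e1, show g • q = b from e2]
    rw [e] at this
    exact this
  have h0 : fam W ∅ := by
    unfold fam
    have : ofSet (∅ : Finset GolayPt) = 0 := by ext p; simp [ofSet]
    rw [this]; exact W.zero_mem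
  intro s
  induction' hn : s.card using Nat.strong_induction_on with n ih generalizing s
  intro hev
  by_cases hs0 : s = ∅
  · rw [hs0]; exact h0
  · obtain ⟨a, ha⟩ := nonempty_iff_ne_empty.2 hs0
    have h1 : 1 < s.card := by
      rw [hn]
      rcases hev with ⟨k, hk⟩
      have : s.card ≠ 0 := by rw [Ne, card_eq_zero]; exact hs0
      omega
    obtain ⟨b, hb, hba⟩ := exists_mem_ne h1 a
    have hc : (s \ {a, b}).card = n - 2 := by
      rw [card_sdiff_of_subset, card_pair hba.symm, hn]
      intro x hx
      rw [mem_insert, mem_singleton] at hx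
      rcases hx with rfl | rfl <;> assumption
    have h2 := ih (n - 2) (by omega) (s \ {a, b}) hc (by
      rcases hev with ⟨k, hk⟩; exact ⟨k - 1, by omega⟩)
    have h3 := fam_symm h2 (hall a b hba.symm)
    have : symmDiff (s \ {a, b}) {a, b} = s := by
      ext x
      simp only [mem_symmDiff, mem_sdiff, mem_insert, mem_singleton]
      by_cases h1 : x = a
      · subst h1; simp [ha]
      · by_cases h2 : x = b
        · subst h2; simp [hb]
        · simp [h1, h2]
    rw [this] at h3
    exact h3

/-- from a set of the form pair + word to a pair -/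
theorem pair_mem {W : Submodule (ZMod 2) (GolayPt → ZMod 2)}
    (hW : ∀ σ ∈ M24, ∀ w ∈ W, (fun p => w (σ.symm p)) ∈ W) {p q : GolayPt} (hpq : p ≠ q) {c : Finset GolayPt}
    (hc : IsWord c) (h : fam W (symmDiff {p, q} c)) : ∃ p q : GolayPt, p ≠ q ∧ fam W {p, q} := by
  by_cases hc0 : c.card = 0
  · rw [card_eq_zero] at hc0
    subst hc0
    rw [← bot_eq_empty, symmDiff_bot] at h
    exact ⟨p, q, hpq, h⟩
  by_cases hc24 : c.card = 24
  · have hcu : c = univ := Finset.eq_univ_of_card _ (by rw [hc24, card_golayPt])
    -- choose a third point and move q to it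
    obtain ⟨r, hr⟩ : ∃ r : GolayPt, r ∉ ({p, q} : Finset GolayPt) := by
      by_contra hh
      push Not at hh
      have : (univ : Finset GolayPt).card ≤ ({p, q} : Finset GolayPt).card := card_le_card (fun x _ => hh x)
      rw [card_univ, card_golayPt, card_pair hpq] at this
      omega
    rw [mem_insert, mem_singleton, not_or] at hr
    obtain ⟨g, hg, e1, e2⟩ := exists_map_pair hpq (Ne.symm hr.1)
    have h1 := fam_smul hW hg h
    have hgs : g • symmDiff ({p, q} : Finset GolayPt) c = symmDiff {p, r} c := by
      have hu : g • (univ : Finset GolayPt) = univ := by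
        apply Finset.eq_univ_of_card
        rw [card_smul_finset, card_univ]
      rw [smul_symmDiff, hcu, hu, smul_finset_insert, smul_finset_singleton, show g • p = p from e1, show g • q = r from e2]
    rw [hgs] at h1
    have h2 := fam_symm h h1
    rw [symmDiff_symmDiff_symmDiff_comm, symmDiff_self, symmDiff_bot] at h2
    refine ⟨q, r, Ne.symm hr.2, ?_⟩
    have : symmDiff ({p, q} : Finset GolayPt) {p, r} = {q, r} := by
      ext x
      simp only [mem_symmDiff, mem_insert, mem_singleton]
      by_cases h1 : x = p
      · subst h1; simp [hpq, Ne.symm hr.1]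
      · by_cases h2 : x = q
        · subst h2; simp [h1, Ne.symm hr.2]
        · simp [h1, h2]
    rw [this] at h2
    exact h2
  -- a proper word: move it by an element fixing p and q
  · have hcard := hc.card
    have h8 : 8 ≤ c.card ∧ c.card ≤ 16 := by omega
    obtain ⟨x, hx, hx'⟩ : ∃ x ∈ c, x ∉ ({p, q} : Finset GolayPt) := by
      by_contra hh
      push Not at hh
      have := card_le_card (fun x hx => hh x hx : c ⊆ {p, q})
      rw [card_pair hpq] at this
      omega
    obtain ⟨y, hy⟩ : ∃ y : GolayPt, y ∉ c ∪ {p, q} := by
      by_contra hh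
      push Not at hh
      have h1 : (univ : Finset GolayPt).card ≤ (c ∪ {p, q}).card := card_le_card (fun x _ => hh x)
      have h2 := card_union_le c {p, q}
      rw [card_univ, card_golayPt] at h1
      rw [card_pair hpq] at h2
      omega
    rw [mem_insert, mem_singleton, not_or] at hx'
    rw [mem_union, mem_insert, mem_singleton, not_or, not_or] at hy
    obtain ⟨g, hg, e1, e2, e3⟩ := move hpq hx'.1 hx'.2 hy.2.1 hy.2.2
    have h1 := fam_smul hW hg h
    have hgs : g • symmDiff ({p, q} : Finset GolayPt) c = symmDiff {p, q} (g • c) := by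
      rw [smul_symmDiff, smul_finset_insert, smul_finset_singleton, show g • p = p from e1, show g • q = q from e2]
    rw [hgs] at h1
    have h2 := fam_symm h h1
    rw [symmDiff_symmDiff_symmDiff_comm, symmDiff_self, bot_symmDiff] at h2
    have hword : IsWord (symmDiff c (g • c)) := hc.symmDiff (hc.smul hg)
    have n0 : (symmDiff c (g • c)).card ≠ 0 := by
      intro h3
      rw [card_eq_zero, ← bot_eq_empty, symmDiff_eq_bot] at h3
      have : y ∈ g • c := by rw [← e3]; exact (smul_mem_smul_iff' g c x).2 hx
      rw [← h3] at this
      exact hy.1 this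
    have n24 : (symmDiff c (g • c)).card ≠ 24 := by
      intro h3
      have h4 : symmDiff c (g • c) = univ := Finset.eq_univ_of_card _ (by rw [h3, card_golayPt])
      have h5 : p ∈ symmDiff c (g • c) := by rw [h4]; exact mem_univ p
      have h6 : p ∈ g • c ↔ p ∈ c := by
        have := smul_mem_smul_iff' g c p
        rw [e1] at this; exact this
      rw [mem_symmDiff] at h5
      tauto
    have hall := S5393.main hW h2 hword n0 n24
    have h7 := fam_of_octads hall hc
    have h8 := fam_symm h h7
    rw [symmDiff_symmDiff_cancel_right] at h8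
    exact ⟨p, q, hpq, h8⟩

/-- a set outside the code yields, modulo the code, a pair -/
theorem exists_pair {W : Submodule (ZMod 2) (GolayPt → ZMod 2)}
    (hW : ∀ σ ∈ M24, ∀ w ∈ W, (fun p => w (σ.symm p)) ∈ W) {s : Finset GolayPt} (hs : fam W s) (hns : ¬ IsWord s) :
    ∃ p q : GolayPt, p ≠ q ∧ ∃ c, IsWord c ∧ fam W (symmDiff {p, q} c) := by
  obtain ⟨v, hv, hw⟩ := exists_leader s
  have hv0 : v.card ≠ 0 := by
    intro h
    rw [card_eq_zero] at h
    rw [h, ← bot_eq_empty, symmDiff_bot] at hw
    exact hns hw
  -- take p ∈ v and a point q outside v, and an element mapping v to v - p + q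
  obtain ⟨p, hp⟩ : v.Nonempty := by rw [← card_pos]; omega
  obtain ⟨q, hq⟩ : ∃ q : GolayPt, q ∉ v := by
    by_contra hh
    push Not at hh
    have h1 : (univ : Finset GolayPt).card ≤ v.card := card_le_card (fun x _ => hh x)
    rw [card_univ, card_golayPt] at h1
    omega
  have hpq : p ≠ q := by rintro rfl; exact hq hp
  have hq' : q ∉ v.erase p := fun h => hq (mem_of_mem_erase h)
  obtain ⟨g, hg, e, -, -⟩ := exists_map_sets (A := v) (B := ∅) (C := ∅) (A' := insert q (v.erase p)) (B' := ∅) (C' := ∅)
    (disjoint_empty_right _) (disjoint_empty_right _) (disjoint_empty_right _) (disjoint_empty_right _)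
    (disjoint_empty_right _) (disjoint_empty_right _) (by
      rw [card_insert_of_notMem hq', card_erase_of_mem hp]; omega) rfl rfl (by simp; omega)
  have h1 := fam_symm hs (fam_smul hW hg hs)
  refine ⟨p, q, hpq, symmDiff (symmDiff s v) (g • symmDiff s v), hw.symmDiff (hw.smul hg), ?_⟩
  have : symmDiff {p, q} (symmDiff (symmDiff s v) (g • symmDiff s v)) = symmDiff s (g • s) := by
    rw [smul_symmDiff, e, symmDiff_symmDiff_symmDiff_comm]
    have h2 : symmDiff v (insert q (v.erase p)) = {p, q} := by
      ext x
      simp only [mem_symmDiff, mem_insert, mem_erase, mem_singleton]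
      by_cases h1 : x = p
      · subst h1; simp [hp, hpq]
      · by_cases h2 : x = q
        · subst h2; simp [hq]
        · simp [h1, h2]
    rw [h2, symmDiff_comm, symmDiff_assoc, symmDiff_self, symmDiff_bot]
  rw [this]
  exact h1

theorem sum_eq_card (w : GolayPt → ZMod 2) : ∑ p, w p = ((support₂ w).card : ZMod 2) := by
  have h1 : ∀ p, w p = if p ∈ support₂ w then 1 else 0 := by
    intro p
    exact (congrFun (ofSet_supp w) p).symm
  rw [Finset.sum_congr rfl (fun p _ => h1 p), Finset.sum_ite_mem, univ_inter, sum_const, nsmul_eq_mul, mul_one]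

/-- For the automorphism group of the length-24 binary Golay code of the definitions (the Mathieu group of degree 24) acting on binary words of length 24 by permuting coordinates, the only invariant subspaces of the space of all words are: zero, the span of the all-ones word, the code itself, the even-weight words, and the whole space. (So the permutation module has a unique composition series.) -/
theorem result (W : Submodule (ZMod 2) (Cfsg.GolayPt → ZMod 2)) (hW : ∀ σ ∈ Cfsg.M24, ∀ w ∈ W, (fun p => w (σ.symm p)) ∈ W) : W = ⊥ ∨ W = Submodule.span (ZMod 2) {fun _ => (1 : ZMod 2)} ∨ W = Cfsg.golayCode ∨ (W : Set (Cfsg.GolayPt → ZMod 2)) = {w | ∑ p, w p = 0} ∨ W = ⊤ := by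
  by_cases hC : W ≤ Cfsg.golayCode
  · by_cases h : ∃ w ∈ W, (support₂ w).card ≠ 0 ∧ (support₂ w).card ≠ 24
    · right; right; left
      obtain ⟨w, hw, h0, h24⟩ := h
      have hall := S5393.main hW (fam_iff.1 hw) ((mem_golay_iff w).1 (hC hw)) h0 h24
      apply le_antisymm hC
      intro v hv
      rw [fam_iff]
      exact fam_of_octads hall ((mem_golay_iff v).1 hv)
    · push Not at h
      by_cases h1 : (fun _ => (1 : ZMod 2)) ∈ W
      · right; left
        apply le_antisymm
        · intro w hw
          rw [mem_span_one]
          by_cases h0 : (support₂ w).card = 0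
          · left
            apply support_inj
            rw [card_eq_zero.1 h0]; decide
          · right
            have h24 := h w hw h0
            rw [← ofSet_univ, ← ofSet_supp w]
            congr 1
            apply Finset.eq_univ_of_card
            rw [h24, card_golayPt]
        · rw [Submodule.span_singleton_le_iff_mem]; exact h1
      · left
        rw [eq_bot_iff]
        intro w hw
        rw [Submodule.mem_bot]
        by_cases h0 : (support₂ w).card = 0
        · apply support_inj
          rw [card_eq_zero.1 h0]; decide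
        · exfalso
          have h24 := h w hw h0
          apply h1
          have : w = fun _ => 1 := by
            rw [← ofSet_univ, ← ofSet_supp w]
            congr 1
            apply Finset.eq_univ_of_card
            rw [h24, card_golayPt]
          rw [← this]; exact hw
  · right; right; right
    obtain ⟨w, hw, hwC⟩ := SetLike.not_le_iff_exists.1 hC
    obtain ⟨p, q, hpq, c, hc, h1⟩ := exists_pair hW (fam_iff.1 hw) (fun h => hwC ((mem_golay_iff w).2 h))
    obtain ⟨p, q, hpq, h2⟩ := pair_mem hW hpq hc h1
    have hev := two_of_pair hW hpq h2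
    by_cases h3 : ∃ w ∈ W, ∑ p, w p ≠ 0
    · right
      obtain ⟨w, hw, hs⟩ := h3
      rw [eq_top_iff]
      intro v _
      by_cases hv : ∑ p, v p = 0
      · rw [fam_iff]; apply hev
        rw [sum_eq_card] at hv
        exact (ZMod.natCast_eq_zero_iff_even).1 hv
      · have h4 : ∑ p, (v + w) p = 0 := by
          simp only [Pi.add_apply, Finset.sum_add_distrib]
          generalize ∑ p, v p = a at *
          generalize ∑ p, w p = b at *
          revert a b; decide
        have h5 : v + w ∈ W := by
          rw [fam_iff]; apply hev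
          rw [sum_eq_card] at h4
          exact (ZMod.natCast_eq_zero_iff_even).1 h4
        have h6 := W.sub_mem h5 hw
        rwa [add_sub_cancel_right] at h6
    · left
      push Not at h3
      ext v
      constructor
      · intro hv; exact h3 v hv
      · intro hv
        rw [SetLike.mem_coe, fam_iff]; apply hev
        rw [Set.mem_setOf_eq, sum_eq_card] at hv
        exact (ZMod.natCast_eq_zero_iff_even).1 hv

end Cfsg.Agent.S5548
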