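import Cfsg.Statements.S5592
import Cfsg.Agent.Lib.Golay.LeechMono

set_option autoImplicit false
open Cfsg

namespace Cfsg.Agent.S5592

/-- In the Leech lattice (integer coordinates, sum of squares equal to 8 times the customary norm, so the shortest non-zero vectors have sum of squares 32): if two distinct vectors of sum of squares at most 64 are congruent modulo twice the lattice, then either they are negatives of each other, or both have sum of squares 64 and they are orthogonal. -/
theorem result (x y : Cfsg.GolayPt → ℤ) (hx : x ∈ Cfsg.leechLattice) (hy : y ∈ Cfsg.leechLattice) (hxy : x ≠ y) (hxn : Cfsg.sqNorm x ≤ 64) (hyn : Cfsg.sqNorm y ≤ 64) (hc : (∃ z ∈ Cfsg.leechLattice, x - y = 2 • z)) :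
    x = -y ∨ (Cfsg.sqNorm x = 64 ∧ Cfsg.sqNorm y = 64 ∧ Cfsg.dotInt x y = 0) := by
  open Cfsg.Agent.Lib.Golay in
  obtain ⟨z, hz, h⟩ := hc
  rw [two_smul_vec] at h
  rcases congr_cases hy hz hxn hyn h with h1 | h1 | h1
  · exact absurd h1 hxy
  · exact Or.inl h1
  · exact Or.inr ⟨h1.1, h1.2.1, h1.2.2.1⟩

end Cfsg.Agent.S5592
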