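import Cfsg.Statements.S5594
import Cfsg.Agent.Lib.Golay.LeechJ

set_option autoImplicit false
open Cfsg

namespace Cfsg.Agent.S5594

/-- The automorphism group of the Leech lattice contains the negation map, and the subgroup of order 2 it generates has no complement: the automorphism group is a non-split extension of its quotient by that subgroup (it is not the direct product of a group of order 2 with the first Conway group). -/
theorem result :
    ∃ n : ↥Cfsg.Co0, (∀ v : ↥Cfsg.leechLattice, ((n • v : ↥Cfsg.leechLattice) : Cfsg.GolayPt → ℤ) = -(v : Cfsg.GolayPt → ℤ)) ∧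
    ∀ K : Subgroup ↥Cfsg.Co0, ¬ (Subgroup.zpowers n).IsComplement' K := by
  open Cfsg.Agent.Lib.Golay in
  refine ⟨negEl, fun v => ?_, fun K hK => ?_⟩
  · rw [← app_coe, negEl_app' v.2]
  · obtain ⟨j, hj⟩ := exists_jEl
    obtain ⟨⟨a, k⟩, hak⟩ := hK.surjective j
    have hak' : (a : Co0) * k = j := hak
    have ha : (a : Co0) = 1 ∨ (a : Co0) = negEl := by
      obtain ⟨n, hn⟩ := Subgroup.mem_zpowers_iff.1 a.2
      rw [← mk_eq_one, ← hn, QuotientGroup.mk_zpow, mk_eq_one.2 (Or.inr rfl), one_zpow]
    have hk : negEl ∈ K := by
      have e : (k : Co0) * k = negEl := by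
        rw [← hj, ← hak']
        rcases ha with h | h <;> rw [h]
        · rw [one_mul]
        · have : negEl * (k : Co0) * (negEl * k) = negEl * negEl * (k * k) := by
            rw [mul_assoc, ← mul_assoc (k : Co0) negEl, ← negEl_comm]; group
          rw [this, negEl_sq, one_mul]
      rw [← e]; exact mul_mem k.2 k.2
    have := Subgroup.disjoint_def.1 hK.disjoint (Subgroup.mem_zpowers negEl) hk
    exact negEl_ne this

end Cfsg.Agent.S5594
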