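import Cfsg.Statements.S5599
import Cfsg.Agent.Lib.Golay.Stab
import Cfsg.Agent.Lib.Golay.Transport

set_option autoImplicit false
open scoped Pointwise
open Cfsg

namespace Cfsg.Agent.S5599

open Cfsg Cfsg.Agent.Lib.Golay
open scoped Pointwise

/-- In the automorphism group of the length-24 code, the two-point Mathieu group (permutations of the code's group fixing the extra point and the residue 0) has index 2 in the setwise stabiliser of that pair of points, and an element of the code's group interchanging the two points normalises the two-point group and induces on it, by conjugation, an automorphism that is not inner. -/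
theorem result (g : Equiv.Perm Cfsg.GolayPt) (hg : g ∈ Cfsg.M24) (h₁ : g none = some 0) (h₂ : g (some 0) = none) : Cfsg.Spor.M22.relIndex (Cfsg.M24 ⊓ MulAction.stabilizer (Equiv.Perm Cfsg.GolayPt) ({none, some 0} : Finset Cfsg.GolayPt)) = 2 ∧ (∀ x ∈ Cfsg.Spor.M22, g * x * g⁻¹ ∈ Cfsg.Spor.M22) ∧ ¬ ∃ h ∈ Cfsg.Spor.M22, ∀ x ∈ Cfsg.Spor.M22, g * x * g⁻¹ = h * x * h⁻¹ := by
  have hpq : (none : GolayPt) ≠ some 0 := by decide
  have hM22 : Spor.M22 = M24 ⊓ MulAction.stabilizer (Equiv.Perm GolayPt) (none : GolayPt) ⊓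
      MulAction.stabilizer (Equiv.Perm GolayPt) (some 0 : GolayPt) := rfl
  have hcard := card_M24_stab2 hpq
  have mem22 : ∀ x : Equiv.Perm GolayPt, x ∈ Spor.M22 ↔ x ∈ M24 ∧ x none = none ∧ x (some 0) = some 0 := by
    intro x
    constructor
    · rintro ⟨⟨h1, h2⟩, h3⟩; exact ⟨h1, h2, h3⟩
    · rintro ⟨h1, h2, h3⟩; exact ⟨⟨h1, h2⟩, h3⟩
  have memP : ∀ x : Equiv.Perm GolayPt, x ∈ M24 ⊓ MulAction.stabilizer (Equiv.Perm GolayPt) ({none, some 0} : Finset GolayPt) ↔
      x ∈ M24 ∧ ((x none = none ∧ x (some 0) = some 0) ∨ (x none = some 0 ∧ x (some 0) = none)) := by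
    intro x
    constructor
    · rintro ⟨h1, h2⟩
      refine ⟨h1, ?_⟩
      have h3 : x • ({none, some 0} : Finset GolayPt) = {none, some 0} := h2
      rw [Finset.smul_finset_insert, Finset.smul_finset_singleton] at h3
      have a1 : x none ∈ ({none, some 0} : Finset GolayPt) := by rw [← h3]; exact Finset.mem_insert_self _ _
      have a2 : x (some 0) ∈ ({none, some 0} : Finset GolayPt) := by
        rw [← h3]; exact Finset.mem_insert_of_mem (Finset.mem_singleton_self _)
      rw [Finset.mem_insert, Finset.mem_singleton] at a1 a2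
      have hne : x none ≠ x (some 0) := fun h => hpq (x.injective h)
      rcases a1 with a1 | a1 <;> rcases a2 with a2 | a2
      · exact absurd (a1.trans a2.symm) hne
      · exact Or.inl ⟨a1, a2⟩
      · exact Or.inr ⟨a1, a2⟩
      · exact absurd (a1.trans a2.symm) hne
    · rintro ⟨h1, h2⟩
      refine ⟨h1, ?_⟩
      show x • ({none, some 0} : Finset GolayPt) = {none, some 0}
      rw [Finset.smul_finset_insert, Finset.smul_finset_singleton]
      rcases h2 with ⟨a, b⟩ | ⟨a, b⟩
      · rw [show x • (none : GolayPt) = none from a, show x • (some 0 : GolayPt) = some 0 from b]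
      · rw [show x • (none : GolayPt) = some 0 from a, show x • (some 0 : GolayPt) = none from b, Finset.pair_comm]
  refine ⟨?_, ?_, ?_⟩
  · -- index two
    rw [Subgroup.relIndex, Subgroup.index_eq_two_iff]
    refine ⟨⟨g, (memP g).2 ⟨hg, Or.inr ⟨h₁, h₂⟩⟩⟩, ?_⟩
    rintro ⟨x, hx⟩
    rw [memP] at hx
    rw [Subgroup.mem_subgroupOf, Subgroup.mem_subgroupOf]
    show Xor (x * g ∈ Spor.M22) (x ∈ Spor.M22)
    rcases hx.2 with ⟨a, b⟩ | ⟨a, b⟩
    · right
      refine ⟨(mem22 x).2 ⟨hx.1, a, b⟩, ?_⟩
      intro h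
      have := ((mem22 _).1 h).2.1
      rw [Equiv.Perm.mul_apply, h₁, b] at this
      exact hpq this.symm
    · left
      refine ⟨(mem22 _).2 ⟨M24.mul_mem hx.1 hg, by rw [Equiv.Perm.mul_apply, h₁, b], by rw [Equiv.Perm.mul_apply, h₂, a]⟩, ?_⟩
      intro h
      have := ((mem22 _).1 h).2.1
      rw [a] at this
      exact hpq this.symm
  · intro x hx
    rw [mem22] at hx ⊢
    refine ⟨M24.mul_mem (M24.mul_mem hg hx.1) (M24.inv_mem hg), ?_, ?_⟩
    · rw [Equiv.Perm.mul_apply, Equiv.Perm.mul_apply]
      have : g⁻¹ none = some 0 := by rw [Equiv.Perm.inv_eq_iff_eq, h₂]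
      rw [this, hx.2.2, h₂]
    · rw [Equiv.Perm.mul_apply, Equiv.Perm.mul_apply]
      have : g⁻¹ (some 0) = none := by rw [Equiv.Perm.inv_eq_iff_eq, h₁]
      rw [this, hx.2.1, h₁]
  · rintro ⟨h, hh, hconj⟩
    rw [mem22] at hh
    -- k = h⁻¹ g centralises M22
    have hk : ∀ x ∈ Spor.M22, (h⁻¹ * g) * x = x * (h⁻¹ * g) := by
      intro x hx
      have h1 := hconj x hx
      have : g * x = h * x * h⁻¹ * g := by rw [← h1]; group
      calc (h⁻¹ * g) * x = h⁻¹ * (g * x) := by group
        _ = h⁻¹ * (h * x * h⁻¹ * g) := by rw [this]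
        _ = x * (h⁻¹ * g) := by group
    have hk24 : h⁻¹ * g ∈ M24 := M24.mul_mem (M24.inv_mem hh.1) hg
    -- it fixes every other point
    have hfix : ∀ x : GolayPt, x ≠ none → x ≠ some 0 → (h⁻¹ * g) x = x := by
      intro x hx hx0
      by_contra hne
      have hy0 : (h⁻¹ * g) x ≠ none := by
        intro h5
        have h6 : (h⁻¹ * g) (some 0) = none := by
          rw [Equiv.Perm.mul_apply, h₂, Equiv.Perm.inv_eq_iff_eq, hh.2.1]
        exact hx0 ((h⁻¹ * g).injective (h5.trans h6.symm))
      have hy1 : (h⁻¹ * g) x ≠ some 0 := by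
        intro h5
        have h6 : (h⁻¹ * g) none = some 0 := by
          rw [Equiv.Perm.mul_apply, h₁, Equiv.Perm.inv_eq_iff_eq, hh.2.2]
        exact hx ((h⁻¹ * g).injective (h5.trans h6.symm))
      -- a fourth point
      obtain ⟨z, hz⟩ : ∃ z : GolayPt, z ∉ ({none, some 0, x, (h⁻¹ * g) x} : Finset GolayPt) := by
        by_contra hcon
        push Not at hcon
        have h1 : (Finset.univ : Finset GolayPt).card ≤ ({none, some 0, x, (h⁻¹ * g) x} : Finset GolayPt).card :=
          Finset.card_le_card (fun y _ => hcon y)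
        have h2 := Finset.card_le_four (a := none) (b := some 0) (c := x) (d := (h⁻¹ * g) x)
        rw [Finset.card_univ, card_golayPt] at h1
        omega
      simp only [Finset.mem_insert, Finset.mem_singleton, not_or] at hz
      obtain ⟨z1, z2, z3, z4⟩ := hz
      -- an element of M22 fixing x and moving (h⁻¹ g) x to z
      obtain ⟨u, hu, hux, huy⟩ := exists_map_fix (n := 3) (by norm_num)
        (fun i => match i with | 0 => none | 1 => some 0 | _ => x) (by
          intro i hi j hj
          interval_cases i <;> interval_cases j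
          · exact hpq
          · exact hx.symm
          · exact hx0.symm) (a := (h⁻¹ * g) x) (b := z) (by
          intro i hi
          interval_cases i
          · exact hy0.symm
          · exact hy1.symm
          · exact Ne.symm hne) (by
          intro i hi
          interval_cases i
          · exact Ne.symm z1
          · exact Ne.symm z2
          · exact Ne.symm z3)
      have hu22 : u ∈ Spor.M22 := (mem22 u).2 ⟨hu, hux 0 (by norm_num), hux 1 (by norm_num)⟩
      have h7 := congrArg (fun f : Equiv.Perm GolayPt => f x) (hk u hu22)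
      simp only [Equiv.Perm.mul_apply] at h7
      rw [show u x = x from hux 2 (by norm_num)] at h7
      have h8 : u ((h⁻¹ * g) x) = z := huy
      rw [Equiv.Perm.mul_apply] at h8
      rw [h8] at h7
      exact z4 (by rw [Equiv.Perm.mul_apply]; exact h7.symm)
    -- hence it is trivial
    obtain ⟨k, hk1, a1, a2⟩ := exists_map_pair (p := (none : GolayPt)) (q := some 0) (p' := pt 21) (q' := pt 22) hpq (by decide)
    have hc : k * (h⁻¹ * g) * k⁻¹ ∈ chain 7 := by
      refine ⟨M24.mul_mem (M24.mul_mem hk1 hk24) (M24.inv_mem hk1), ?_⟩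
      intro x hx
      have h21 : x ≠ pt 21 := by rintro rfl; exact absurd hx (by decide +kernel)
      have h22 : x ≠ pt 22 := by rintro rfl; exact absurd hx (by decide +kernel)
      have hkx : (h⁻¹ * g) (k.symm x) = k.symm x := by
        apply hfix
        · intro h; apply h21; rw [← a1, ← h, Equiv.apply_symm_apply]
        · intro h; apply h22; rw [← a2, ← h, Equiv.apply_symm_apply]
      rw [Equiv.Perm.mul_apply, Equiv.Perm.mul_apply]
      show k ((h⁻¹ * g) (k.symm x)) = x
      rw [hkx, Equiv.apply_symm_apply]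
    rw [chain_seven, Subgroup.mem_bot] at hc
    have h9 : h⁻¹ * g = 1 := by
      have : h⁻¹ * g = k⁻¹ * (k * (h⁻¹ * g) * k⁻¹) * k := by group
      rw [this, hc]; group
    have h10 : (h⁻¹ * g) none = some 0 := by
      rw [Equiv.Perm.mul_apply, h₁, Equiv.Perm.inv_eq_iff_eq, hh.2.2]
    rw [h9] at h10
    exact hpq h10

end Cfsg.Agent.S5599
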