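import Cfsg.Statements.S5600
import Cfsg.Agent.Lib.Golay.Restr
import Cfsg.Agent.Lib.Golay.Stab

set_option autoImplicit false
open scoped Pointwise
open Cfsg

namespace Cfsg.Agent.S5600

open Cfsg Cfsg.Agent.Lib.Golay
open scoped Pointwise

theorem seqset {x : ℕ → GolayPt} {F : ℕ} {E : Finset GolayPt} (hx : ∀ p ∈ E, ∃ i < 6, x i = p) (hE : E.card = 6)
    {g : Equiv.Perm GolayPt} (hg : ∀ i < 6, g (x i) ∈ st F) (hF : pc F = 6) : g • E = st F := by
  apply Finset.eq_of_subset_of_card_le
  · intro p hp
    rw [mem_smul_iff] at hp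
    obtain ⟨i, hi, e⟩ := hx _ hp
    rw [Equiv.eq_symm_apply] at e
    rw [← e]; exact hg i hi
  · rw [card_st, hF, Finset.card_smul_finset, hE]

theorem in_case {E : Finset GolayPt} (hE : E.card = 6) {o : Finset GolayPt} (ho : o ∈ octads) (hEo : E ⊆ o) :
    {g | g ∈ M24 ∧ ∀ p ∈ E, g p = p}.ncard = 16 := by
  obtain ⟨x, hx1, hx2, hx3⟩ := exists_enum hE
  obtain ⟨g, hg, hgx, hgb, -⟩ := six_in (x := x) (y := fun i => pt (bpt i)) (fun i hi j hj => hx2 i (by omega) j hj)
    (by decide +kernel) ho oct0_mem (fun i hi => hEo (hx1 i (by omega))) (by decide +kernel)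
    (hEo (hx1 5 (by norm_num))) (b := pt 5) (by decide +kernel) (fun i hi => hx2 5 (by norm_num) i hi)
    (by decide +kernel)
  rw [ncard_fix_conj hg (F := 0x80002f) (seqset hx3 hE (by
    intro i hi
    by_cases h : i = 5
    · subst h; rw [hgb]; decide +kernel
    · rw [hgx i (by omega)]
      have hb : ∀ i < 5, pt (bpt i) ∈ st 0x80002f := by decide +kernel
      exact hb i (by omega)) (by decide))]
  exact ncard_fixes (by decide) (by decide +kernel) (by decide +kernel)

theorem out_case {E : Finset GolayPt} (hE : E.card = 6) (hno : ¬ ∃ o ∈ octads, E ⊆ o) :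
    {g | g ∈ M24 ∧ ∀ p ∈ E, g p = p}.ncard = 3 := by
  obtain ⟨x, hx1, hx2, hx3⟩ := exists_enum hE
  have hc : ((Finset.range 5).image x).card = 5 := by
    rw [Finset.card_image_of_injOn, Finset.card_range]
    intro i hi j hj hij
    simp only [Finset.coe_range, Set.mem_Iio] at hi hj
    by_contra hne
    rcases Nat.lt_or_gt_of_ne hne with h | h
    · exact hx2 j (by omega) i h hij
    · exact hx2 i (by omega) j h hij.symm
  obtain ⟨o, ⟨ho1, ho2⟩, -⟩ := (steiner.2 ((Finset.range 5).image x) hc)
  have h5 : x 5 ∉ o := by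
    intro h
    apply hno
    refine ⟨o, ho1, ?_⟩
    intro p hp
    obtain ⟨i, hi, rfl⟩ := hx3 p hp
    by_cases h5 : i = 5
    · subst h5; exact h
    · exact ho2 (Finset.mem_image_of_mem x (Finset.mem_range.2 (by omega)))
  obtain ⟨g, hg, hgx, hgb, -⟩ := six_out (x := x) (y := fun i => pt (bpt i)) (fun i hi j hj => hx2 i (by omega) j hj)
    (by decide +kernel) ho1 oct0_mem (fun i hi => ho2 (Finset.mem_image_of_mem x (Finset.mem_range.2 hi)))
    (by decide +kernel) h5 (b := pt 4) (by decide +kernel)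
  rw [ncard_fix_conj hg (F := bmask 6) (seqset hx3 hE (by
    intro i hi
    by_cases h : i = 5
    · subst h; rw [hgb]; decide +kernel
    · rw [hgx i (by omega)]
      have hb : ∀ i < 5, pt (bpt i) ∈ st (bmask 6) := by decide +kernel
      exact hb i (by omega)) (by decide +kernel))]
  exact ncard_fixes (by decide) (by decide +kernel) (by decide +kernel)

theorem card_sub (E : Finset GolayPt) : Nat.card {g : Equiv.Perm GolayPt // g ∈ M24 ∧ ∀ p ∈ E, g p = p} =
    {g | g ∈ M24 ∧ ∀ p ∈ E, g p = p}.ncard := Nat.card_coe_set_eq _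

/-- Although the group of the length-24 code is only 5-transitive on the 24 points, it induces the full symmetric group on every 6-element subset: every permutation of a 6-set E is the restriction of an element of the group mapping E to itself. The pointwise stabiliser of E has order 16 when E lies in an octad and order 3 otherwise; in the latter case the setwise stabiliser of E has order 2160. -/
theorem result (E : Finset Cfsg.GolayPt) (hE : E.card = 6) : (∀ σ : Equiv.Perm ↥E, ∃ g ∈ Cfsg.M24, ∀ p : ↥E, g p = σ p) ∧ ((∃ o ∈ Cfsg.octads, E ⊆ o) → Nat.card {g : Equiv.Perm Cfsg.GolayPt // g ∈ Cfsg.M24 ∧ ∀ p ∈ E, g p = p} = 16) ∧ ((¬ ∃ o ∈ Cfsg.octads, E ⊆ o) → Nat.card {g : Equiv.Perm Cfsg.GolayPt // g ∈ Cfsg.M24 ∧ ∀ p ∈ E, g p = p} = 3 ∧ Nat.card ↥(MulAction.stabilizer Cfsg.M24 E) = 2160) := by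
  refine ⟨fun σ => six_perm hE σ, ?_, ?_⟩
  · rintro ⟨o, ho, hEo⟩
    rw [card_sub, in_case hE ho hEo]
  · intro hno
    rw [card_sub, out_case hE hno]
    refine ⟨rfl, ?_⟩
    rw [card_inf_stab]
    have hinv : ∀ g ∈ M24 ⊓ MulAction.stabilizer (Equiv.Perm GolayPt) E, ∀ x ∈ E, g • x ∈ E := by
      intro g hg x hx
      have := (smul_mem_smul_iff' g E x).2 hx
      rw [show g • E = E from hg.2] at this
      exact this
    have hs : Function.Surjective (restrHom (M24 ⊓ MulAction.stabilizer (Equiv.Perm GolayPt) E) E hinv) := by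
      intro σ
      obtain ⟨g, hg, h⟩ := six_perm hE σ
      have hgE : g • E = E := by
        apply Finset.eq_of_subset_of_card_le
        · intro p hp
          rw [mem_smul_iff] at hp
          have := h ⟨_, hp⟩
          rw [Equiv.apply_symm_apply] at this
          rw [this]; exact (σ _).2
        · rw [Finset.card_smul_finset]
      refine ⟨⟨g, hg, hgE⟩, Equiv.ext fun x => Subtype.ext (h x)⟩
    have h1 := card_eq_range_mul_ker (restrHom (M24 ⊓ MulAction.stabilizer (Equiv.Perm GolayPt) E) E hinv)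
    rw [MonoidHom.range_eq_top.2 hs, card_ker_restrHom, Subgroup.card_top, Nat.card_perm,
      Nat.card_eq_fintype_card (α := ↥E), Fintype.card_coe, hE] at h1
    have h2 : {g | g ∈ M24 ⊓ MulAction.stabilizer (Equiv.Perm GolayPt) E ∧ ∀ x ∈ E, g • x = x} =
        {g | g ∈ M24 ∧ ∀ p ∈ E, g p = p} := by
      ext g
      constructor
      · rintro ⟨h1, h2⟩; exact ⟨h1.1, h2⟩
      · rintro ⟨h1, h2⟩
        refine ⟨⟨h1, ?_⟩, h2⟩
        show g • E = E
        apply Finset.eq_of_subset_of_card_le
        · intro p hp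
          rw [mem_smul_iff] at hp
          have := h2 _ hp
          rw [Equiv.apply_symm_apply] at this
          rw [this]; exact hp
        · rw [Finset.card_smul_finset]
    rw [h2, out_case hE hno] at h1
    rw [h1]; decide

end Cfsg.Agent.S5600
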