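import Cfsg.Statements.S5601
import Cfsg.Agent.Lib.Golay.FixCount

set_option autoImplicit false
open scoped Pointwise
open Cfsg

namespace Cfsg.Agent.S5601

open Cfsg Cfsg.Agent.Lib.Golay

theorem exists_gen {X : Subgroup ↥M24} (hX : Nat.card X = 3) :
    ∃ x : ↥M24, orderOf x = 3 ∧ X = Subgroup.zpowers x := by
  have : Fact (Nat.Prime 3) := ⟨by norm_num⟩
  have hc := isCyclic_of_prime_card hX
  obtain ⟨x, hx⟩ := hc.exists_generator
  have hz : Subgroup.zpowers (x : ↥M24) = X := by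
    apply le_antisymm
    · rw [Subgroup.zpowers_le]; exact x.2
    · intro y hy
      obtain ⟨n, hn⟩ := hx ⟨y, hy⟩
      refine ⟨n, ?_⟩
      have := congrArg Subtype.val hn
      simpa using this
  refine ⟨x, ?_, hz.symm⟩
  rw [← Nat.card_zpowers, hz, hX]

theorem fixset_zpowers (x : ↥M24) : {p : GolayPt | ∀ y ∈ Subgroup.zpowers x, ((y : ↥M24) : Equiv.Perm GolayPt) p = p} =
    {p | (x : Equiv.Perm GolayPt) p = p} := by
  ext p
  constructor
  · intro h; exact h x (Subgroup.mem_zpowers x)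
  · rintro h _ ⟨n, rfl⟩
    have h1 : (x : Equiv.Perm GolayPt) ∈ MulAction.stabilizer (Equiv.Perm GolayPt) p := h
    have h2 := Subgroup.zpow_mem _ h1 n
    exact h2

theorem ncard_fix (x : ↥M24) : {p : GolayPt | ∀ y ∈ Subgroup.zpowers x, ((y : ↥M24) : Equiv.Perm GolayPt) p = p}.ncard =
    nfix x := by
  rw [fixset_zpowers, nfix, ← Set.ncard_coe_finset]
  congr 1
  ext p
  simp

theorem cls (x : ↥M24) (hx : orderOf x = 3) : ∃ k ∈ M24, k * (x : Equiv.Perm GolayPt) * k⁻¹ = pm cW1 ∨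
    k * (x : Equiv.Perm GolayPt) * k⁻¹ = pm cW2 := by
  have h1 : orderOf (x : Equiv.Perm GolayPt) = 3 := by rw [Subgroup.orderOf_coe, hx]
  have h := orderOf_eq_prime_iff.1 h1
  exact three_class x.2 (by rw [← h.1, pow_succ, sq]) h.2

theorem ord1 : orderOf (pm cW1) = 3 := by
  apply orderOf_eq_prime
  · rw [pow_succ, sq]; exact (cube_iff reps_valid.2.2.1).2 (by decide +kernel)
  · intro h
    have := nfix_reps.2.2.1
    rw [h] at this
    revert this
    decide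

theorem ord2 : orderOf (pm cW2) = 3 := by
  apply orderOf_eq_prime
  · rw [pow_succ, sq]; exact (cube_iff reps_valid.2.2.2).2 (by decide +kernel)
  · intro h
    have := nfix_reps.2.2.2
    rw [h] at this
    revert this
    decide

/-- The group of the length-24 code has exactly two conjugacy classes of subgroups of order 3: a subgroup of order 3 fixes either exactly 6 of the 24 points or none of them, both cases occur, and two subgroups of order 3 with the same number of fixed points are conjugate. -/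
theorem result : (∀ X : Subgroup ↥Cfsg.M24, Nat.card X = 3 → {p : Cfsg.GolayPt | ∀ x ∈ X, ((x : ↥Cfsg.M24) : Equiv.Perm Cfsg.GolayPt) p = p}.ncard = 6 ∨ {p : Cfsg.GolayPt | ∀ x ∈ X, ((x : ↥Cfsg.M24) : Equiv.Perm Cfsg.GolayPt) p = p}.ncard = 0) ∧ (∃ X : Subgroup ↥Cfsg.M24, Nat.card X = 3 ∧ {p : Cfsg.GolayPt | ∀ x ∈ X, ((x : ↥Cfsg.M24) : Equiv.Perm Cfsg.GolayPt) p = p}.ncard = 6) ∧ (∃ X : Subgroup ↥Cfsg.M24, Nat.card X = 3 ∧ {p : Cfsg.GolayPt | ∀ x ∈ X, ((x : ↥Cfsg.M24) : Equiv.Perm Cfsg.GolayPt) p = p}.ncard = 0) ∧ ∀ X Y : Subgroup ↥Cfsg.M24, Nat.card X = 3 → Nat.card Y = 3 → {p : Cfsg.GolayPt | ∀ x ∈ X, ((x : ↥Cfsg.M24) : Equiv.Perm Cfsg.GolayPt) p = p}.ncard = {p : Cfsg.GolayPt | ∀ x ∈ Y, ((x : ↥Cfsg.M24) : Equiv.Perm Cfsg.GolayPt) p = p}.ncard → ∃ k : ↥Cfsg.M24, MulAut.conj k • X = Y := by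
  refine ⟨?_, ?_, ?_, ?_⟩
  · intro X hX
    obtain ⟨x, hx, rfl⟩ := exists_gen hX
    rw [ncard_fix]
    obtain ⟨k, hk, e | e⟩ := cls x hx
    · left; rw [← nfix_conj k, e]; exact nfix_reps.2.2.1
    · right; rw [← nfix_conj k, e]; exact nfix_reps.2.2.2
  · refine ⟨Subgroup.zpowers ⟨pm cW1, pm_mem_M24 reps_pres.2.2.1⟩, ?_, ?_⟩
    · rw [Nat.card_zpowers, Subgroup.orderOf_mk, ord1]
    · rw [ncard_fix]; exact nfix_reps.2.2.1
  · refine ⟨Subgroup.zpowers ⟨pm cW2, pm_mem_M24 reps_pres.2.2.2⟩, ?_, ?_⟩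
    · rw [Nat.card_zpowers, Subgroup.orderOf_mk, ord2]
    · rw [ncard_fix]; exact nfix_reps.2.2.2
  · intro X Y hX hY h
    obtain ⟨x, hx, rfl⟩ := exists_gen hX
    obtain ⟨y, hy, rfl⟩ := exists_gen hY
    rw [ncard_fix, ncard_fix] at h
    obtain ⟨k, hk, e⟩ := cls x hx
    obtain ⟨l, hl, e'⟩ := cls y hy
    have n1 := nfix_conj k (x : Equiv.Perm GolayPt)
    have n2 := nfix_conj l (y : Equiv.Perm GolayPt)
    have key : k * (x : Equiv.Perm GolayPt) * k⁻¹ = l * (y : Equiv.Perm GolayPt) * l⁻¹ := by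
      rcases e with e | e <;> rcases e' with e' | e'
      · rw [e, e']
      · exfalso
        rw [e, nfix_reps.2.2.1] at n1
        rw [e', nfix_reps.2.2.2] at n2
        omega
      · exfalso
        rw [e, nfix_reps.2.2.2] at n1
        rw [e', nfix_reps.2.2.1] at n2
        omega
      · rw [e, e']
    refine ⟨⟨l⁻¹ * k, Cfsg.M24.mul_mem (Cfsg.M24.inv_mem hl) hk⟩, ?_⟩
    rw [Subgroup.pointwise_smul_def]
    show (Subgroup.zpowers x).map (MulAut.conj (⟨l⁻¹ * k, _⟩ : ↥M24)).toMonoidHom = _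
    rw [MonoidHom.map_zpowers]
    congr 1
    apply Subtype.ext
    show l⁻¹ * k * (x : Equiv.Perm GolayPt) * (l⁻¹ * k)⁻¹ = y
    have : l⁻¹ * k * (x : Equiv.Perm GolayPt) * (l⁻¹ * k)⁻¹ = l⁻¹ * (k * x * k⁻¹) * l := by group
    rw [this, key]; group

end Cfsg.Agent.S5601
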