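import Cfsg.Statements.S5604
import Cfsg.Agent.Lib.Golay.FixCount
import Cfsg.Agent.Lib.Golay.Search4

set_option autoImplicit false
open scoped Pointwise
open Cfsg

namespace Cfsg.Agent.S5604

open Cfsg.Agent.Lib.Golay

section transport
variable {G : Type*} [Group G] {S S0 : Subgroup G} {g : G}

theorem norm_transport (h : ∀ x, x ∈ S ↔ g⁻¹ * x * g ∈ S0) (n : G) :
    n ∈ Subgroup.normalizer (S : Set G) ↔ g⁻¹ * n * g ∈ Subgroup.normalizer (S0 : Set G) := by
  rw [Subgroup.mem_normalizer_iff, Subgroup.mem_normalizer_iff]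
  constructor
  · intro H x
    have := H (g * x * g⁻¹)
    rw [h, h] at this
    have e1 : g⁻¹ * (g * x * g⁻¹) * g = x := by group
    have e2 : g⁻¹ * (n * (g * x * g⁻¹) * n⁻¹) * g = g⁻¹ * n * g * x * (g⁻¹ * n * g)⁻¹ := by group
    rw [e1, e2] at this
    exact this
  · intro H x
    have := H (g⁻¹ * x * g)
    have e2 : g⁻¹ * n * g * (g⁻¹ * x * g) * (g⁻¹ * n * g)⁻¹ = g⁻¹ * (n * x * n⁻¹) * g := by group
    rw [e2, ← h, ← h] at this
    exact this

theorem cent_transport (h : ∀ x, x ∈ S ↔ g⁻¹ * x * g ∈ S0) (n : G) :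
    n ∈ Subgroup.centralizer (S : Set G) ↔ g⁻¹ * n * g ∈ Subgroup.centralizer (S0 : Set G) := by
  rw [Subgroup.mem_centralizer_iff, Subgroup.mem_centralizer_iff]
  constructor
  · intro H x hx
    have e1 : g⁻¹ * (g * x * g⁻¹) * g = x := by group
    have := H (g * x * g⁻¹) ((h _).2 (by rw [e1]; exact hx))
    calc x * (g⁻¹ * n * g) = g⁻¹ * (g * x * g⁻¹ * n) * g := by group
      _ = g⁻¹ * (n * (g * x * g⁻¹)) * g := by rw [this]
      _ = _ := by group
  · intro H x hx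
    have := H (g⁻¹ * x * g) ((h _).1 hx)
    calc x * n = g * (g⁻¹ * x * g * (g⁻¹ * n * g)) * g⁻¹ := by group
      _ = g * (g⁻¹ * n * g * (g⁻¹ * x * g)) * g⁻¹ := by rw [this]
      _ = _ := by group

theorem card_transport {A B : Subgroup G} (h : ∀ x, x ∈ A ↔ g⁻¹ * x * g ∈ B) : Nat.card A = Nat.card B := by
  refine Nat.card_congr ⟨fun x => ⟨g⁻¹ * x.1 * g, (h _).1 x.2⟩, fun x => ⟨g * x.1 * g⁻¹, (h _).2 ?_⟩, ?_, ?_⟩
  · have e1 : g⁻¹ * (g * x.1 * g⁻¹) * g = x.1 := by group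
    rw [e1]; exact x.2
  · intro x; apply Subtype.ext; show g * (g⁻¹ * x.1 * g) * g⁻¹ = x.1; group
  · intro x; apply Subtype.ext; show g⁻¹ * (g * x.1 * g⁻¹) * g = x.1; group

end transport

def pwX (i : ℕ) : ℕ := [0xbdab49ca307b9ac5a928398a418820, 0x2ea86b0b67b8c43c26aa4ae988c41, 0x9eaa312eb7ba49a59b0430132c462, 0x152b0924077b99342cd65102db9623, 0x1a2b664c347b88d51e4b8244605cb1, 0x8aaab234487b92685187b4c72082e5, 0x2c2a74986a7ba72b20945b62c10417].getD i 0

def cX : ℕ := pwX 1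

theorem pwX_ok : pwOK 7 pwX = true := by decide +kernel

theorem cX_pres : pres cX = true := by decide +kernel

theorem pwX_spec : ∀ j < 7, valid (pwX j) = true ∧ pm (pwX j) = pm cX ^ j := (pwOK_spec (by norm_num) pwX_ok).1

theorem cX_pow : pm cX ^ 7 = 1 := (pwOK_spec (by norm_num) pwX_ok).2

theorem cX_ne : pm cX ≠ 1 := by
  intro h
  have h1 : pm cX (pt 23) = pt 0 := (app_iff (pres_valid cX_pres) (by norm_num) (by norm_num)).2 (by decide +kernel)
  rw [h] at h1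
  exact absurd h1 (by decide)

theorem orderOf_cX : orderOf (pm cX) = 7 := by
  haveI : Fact (Nat.Prime 7) := ⟨by norm_num⟩
  exact orderOf_eq_prime cX_pow cX_ne

theorem cX_mem : pm cX ∈ M24 := pm_mem_M24 cX_pres

def SN : Set (Equiv.Perm GolayPt) := {g | g ∈ M24 ∧ ∃ k, 0 < k ∧ k < 7 ∧ g * pm cX = pm cX ^ k * g}

def SC' : Set (Equiv.Perm GolayPt) := {g | g ∈ M24 ∧ g * pm cX = pm cX * g}

def testN (c : ℕ) : Bool := [1, 2, 3, 4, 5, 6].any (fun k => comp c cX == comp (pwX k) c)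

def cutN (k : ℕ) (f : ℕ → ℕ) : Bool := [1, 2, 3, 4, 5, 6].any (fun j => cutG cX (pwX j) k f)

def testC' (c : ℕ) : Bool := comp c cX == comp cX c

def listN : List ℕ := srch4 testN cutN 7 idc

def listC' : List ℕ := srch4 testC' (cutG cX cX) 7 idc

theorem mem_six {k : ℕ} : k ∈ [1, 2, 3, 4, 5, 6] ↔ 0 < k ∧ k < 7 := by
  constructor
  · intro h
    simp only [List.mem_cons, List.not_mem_nil, or_false] at h
    omega
  · rintro ⟨h1, h2⟩
    interval_cases k <;> simp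

theorem testN_iff {c : ℕ} (hc : valid c = true) (hm : pm c ∈ M24) : pm c ∈ SN ↔ testN c = true := by
  unfold testN
  rw [List.any_eq_true]
  constructor
  · rintro ⟨_, k, h1, h2, h3⟩
    refine ⟨k, mem_six.2 ⟨h1, h2⟩, ?_⟩
    rw [beq_iff_eq, ← conj_iff hc (pres_valid cX_pres) (pwX_spec k h2).1, (pwX_spec k h2).2]
    exact h3
  · rintro ⟨k, hk, h⟩
    obtain ⟨h1, h2⟩ := mem_six.1 hk
    rw [beq_iff_eq, ← conj_iff hc (pres_valid cX_pres) (pwX_spec k h2).1, (pwX_spec k h2).2] at h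
    exact ⟨hm, k, h1, h2, h⟩

theorem testC_iff {c : ℕ} (hc : valid c = true) (hm : pm c ∈ M24) : pm c ∈ SC' ↔ testC' c = true := by
  unfold testC'
  rw [beq_iff_eq, ← conj_iff hc (pres_valid cX_pres) (pres_valid cX_pres)]
  exact ⟨fun h => h.2, fun h => ⟨hm, h⟩⟩

theorem cutN_spec : ∀ g ∈ SN, ∀ k < 7, ∀ f : ℕ → ℕ, (∀ i < 24, f i < 24) →
    (∀ i < 24, known k i = true → pt (f i) = g (pt i)) → cutN k f = true := by
  rintro g ⟨_, j, h1, h2, h3⟩ k hk f hf h
  unfold cutN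
  rw [List.any_eq_true]
  refine ⟨j, mem_six.2 ⟨h1, h2⟩, cutG_spec (pres_valid cX_pres) (pwX_spec j h2).1 ?_ hk hf h⟩
  rw [(pwX_spec j h2).2]; exact h3

theorem cutC_spec : ∀ g ∈ SC', ∀ k < 7, ∀ f : ℕ → ℕ, (∀ i < 24, f i < 24) →
    (∀ i < 24, known k i = true → pt (f i) = g (pt i)) → cutG cX cX k f = true := by
  rintro g ⟨_, h1⟩ k hk f hf h
  exact cutG_spec (pres_valid cX_pres) (pres_valid cX_pres) h1 hk hf h

theorem okT_X : okT 0x2f250 = true := by decide +kernel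

def chkN (L : List ℕ) : Bool := L.length == 126 && nodupB L && L.all (fun c => sameT c 0x2f250 0x2f250)

theorem listN_ok : chkN listN = true := by decide +kernel

def chkC (L : List ℕ) : Bool := L.length == 42 && nodupB L

theorem listC_ok : chkC listC' = true := by decide +kernel

theorem ncard_SN : SN.ncard = 126 := by
  have h := listN_ok
  unfold chkN at h
  simp only [Bool.and_eq_true, beq_iff_eq] at h
  rw [← h.1.1]
  exact ncard_srch4 (fun _ hg => hg.1) (fun _ hc hm => testN_iff hc hm) cutN_spec (nodupB_spec h.1.2)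

theorem ncard_SC : SC'.ncard = 42 := by
  have h := listC_ok
  unfold chkC at h
  simp only [Bool.and_eq_true, beq_iff_eq] at h
  rw [← h.1]
  exact ncard_srch4 (fun _ hg => hg.1) (fun _ hc hm => testC_iff hc hm) cutC_spec (nodupB_spec h.2)

theorem SN_trio {g : Equiv.Perm GolayPt} (hg : g ∈ SN) : g • decT 0x2f250 = decT 0x2f250 := by
  have h := listN_ok
  unfold chkN at h
  simp only [Bool.and_eq_true, beq_iff_eq, List.all_eq_true] at h
  have h1 := h.2 _ ((mem_srch4_iff (fun _ hg => hg.1) (fun _ hc hm => testN_iff hc hm) cutN_spec g).1 hg)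
  have h2 := sameT_spec ((pres_iff (valid_codeOf g)).2 (by rw [pm_codeOf]; exact hg.1)) okT_X okT_X h1
  rwa [pm_codeOf] at h2

theorem mem_norm {G : Type*} [Group G] [Finite G] {T g : G} (hT : T ≠ 1) (hord : orderOf T = 7) :
    g ∈ Subgroup.normalizer ((Subgroup.zpowers T : Subgroup G) : Set G) →
      ∃ k, 0 < k ∧ k < 7 ∧ g * T = T ^ k * g := by
  intro hg
  have hfin : IsOfFinOrder T := isOfFinOrder_of_finite T
  rw [Subgroup.mem_normalizer_iff] at hg
  have h1 := (hg T).1 (Subgroup.mem_zpowers T)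
  classical
  rw [← hfin.mem_powers_iff_mem_zpowers, hfin.mem_powers_iff_mem_range_orderOf, Finset.mem_image] at h1
  obtain ⟨k, hk, e⟩ := h1
  rw [Finset.mem_range, hord] at hk
  have e' : g * T = T ^ k * g := by rw [e]; group
  refine ⟨k, ?_, hk, e'⟩
  rcases Nat.eq_zero_or_pos k with h0 | h0
  · exfalso
    rw [h0, pow_zero, one_mul, mul_eq_left] at e'
    exact hT e'
  · exact h0

/-- the standard element -/
noncomputable def tX : M24 := ⟨pm cX, cX_mem⟩

theorem tX_ne : tX ≠ 1 := fun h => cX_ne (congrArg Subtype.val h)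

theorem orderOf_tX : orderOf tX = 7 := by
  rw [← orderOf_cX]; exact Subgroup.orderOf_mk _ _

theorem card_norm : Nat.card ↥(Subgroup.normalizer ((Subgroup.zpowers tX : Subgroup M24) : Set M24)) = 126 := by
  rw [← ncard_SN]
  exact card_normalizer_zpowers M24 cX_mem (by norm_num) orderOf_cX

theorem mem_cent {g : M24} : g ∈ Subgroup.centralizer ((Subgroup.zpowers tX : Subgroup M24) : Set M24) ↔
    (g : Equiv.Perm GolayPt) ∈ SC' := by
  rw [Subgroup.mem_centralizer_iff]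
  constructor
  · intro h
    exact ⟨g.2, (congrArg Subtype.val (h tX (Subgroup.mem_zpowers _))).symm⟩
  · rintro ⟨_, h⟩ x hx
    obtain ⟨k, rfl⟩ := Subgroup.mem_zpowers_iff.1 hx
    have hc : Commute tX g := Subtype.ext h.symm
    exact (hc.zpow_left k).eq

theorem card_cent : Nat.card ↥(Subgroup.centralizer ((Subgroup.zpowers tX : Subgroup M24) : Set M24)) = 42 := by
  rw [← ncard_SC, ← Nat.card_coe_set_eq]
  exact Nat.card_congr ⟨fun g => ⟨((g : M24) : Equiv.Perm GolayPt), mem_cent.1 g.2⟩,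
    fun g => ⟨⟨g.1, g.2.1⟩, mem_cent.2 g.2⟩, fun g => rfl, fun g => rfl⟩

theorem noncomm : ∃ x ∈ SC', ∃ y ∈ SC', x * y ≠ y * x := by
  have h : (pres 0xbb1f3a4232ab916218ed4a8ab18820 && testC' 0xbb1f3a4232ab916218ed4a8ab18820 && pres 0xb5dc29c9457d5ac0452309a04450eb && testC' 0xb5dc29c9457d5ac0452309a04450eb &&
    !(comp 0xbb1f3a4232ab916218ed4a8ab18820 0xb5dc29c9457d5ac0452309a04450eb == comp 0xb5dc29c9457d5ac0452309a04450eb 0xbb1f3a4232ab916218ed4a8ab18820)) = true := by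
    decide +kernel
  simp only [Bool.and_eq_true] at h
  obtain ⟨⟨⟨⟨h1, h2⟩, h3⟩, h4⟩, h5⟩ := h
  refine ⟨pm 0xbb1f3a4232ab916218ed4a8ab18820, (testC_iff (pres_valid h1) (pm_mem_M24 h1)).2 h2, pm 0xb5dc29c9457d5ac0452309a04450eb,
    (testC_iff (pres_valid h3) (pm_mem_M24 h3)).2 h4, fun h => ?_⟩
  rw [commute_pm (pres_valid h1) (pres_valid h3)] at h
  rw [h] at h5
  simp at h5

/-- For a subgroup S of order 7 of the group of the length-24 code (a Sylow 7-subgroup): the normaliser of S has order 126, the centraliser of S has order 42 and is non-abelian, and the whole normaliser leaves some trio invariant. (These are the orders of a Frobenius group of order 21 times a symmetric group of degree 3; the isomorphism type itself is not asserted here.) -/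
theorem result (S : Subgroup ↥Cfsg.M24) (hS : Nat.card S = 7) : Nat.card ↥(Subgroup.normalizer (S : Set ↥Cfsg.M24)) = 126 ∧ Nat.card ↥(Subgroup.centralizer (S : Set ↥Cfsg.M24)) = 42 ∧ (∃ x ∈ Subgroup.centralizer (S : Set ↥Cfsg.M24), ∃ y ∈ Subgroup.centralizer (S : Set ↥Cfsg.M24), x * y ≠ y * x) ∧ ∃ T ∈ Cfsg.trios, ∀ n ∈ Subgroup.normalizer (S : Set ↥Cfsg.M24), ((n : ↥Cfsg.M24) : Equiv.Perm Cfsg.GolayPt) • T = T := by
  open Cfsg.Agent.Lib.Golay in
  haveI : Fact (Nat.Prime 7) := ⟨by norm_num⟩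
  have hfac : (Nat.card M24).factorization 7 = 1 := by
    have hp : Nat.Prime 7 := by norm_num
    have h1 : (Nat.card M24).factorization 7 < 2 := by
      by_contra h
      have := (hp.pow_dvd_iff_le_factorization Nat.card_pos.ne').2 (not_lt.1 h)
      rw [card_M24] at this
      revert this; norm_num
    have h2 : 1 ≤ (Nat.card M24).factorization 7 := by
      rw [← hp.pow_dvd_iff_le_factorization Nat.card_pos.ne', card_M24]; norm_num
    omega
  let P : Sylow 7 M24 := Sylow.ofCard S (by rw [hS, hfac, pow_one])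
  let Q : Sylow 7 M24 := Sylow.ofCard (Subgroup.zpowers tX) (by rw [Nat.card_zpowers, orderOf_tX, hfac, pow_one])
  obtain ⟨g, hg⟩ := MulAction.exists_smul_eq M24 Q P
  have hiff : ∀ x, x ∈ S ↔ g⁻¹ * x * g ∈ Subgroup.zpowers tX := by
    intro x
    have h1 : S = MulAut.conj g • (Subgroup.zpowers tX) := by
      have := congrArg (fun R : Sylow 7 M24 => (R : Subgroup M24)) hg
      exact this.symm
    rw [h1, Subgroup.mem_pointwise_smul_iff_inv_smul_mem]
    have : (MulAut.conj g)⁻¹ • x = g⁻¹ * x * g := by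
      rw [← map_inv]; show g⁻¹ * x * g⁻¹⁻¹ = _; rw [inv_inv]
    rw [this]
  have hN := norm_transport hiff
  have hC := cent_transport hiff
  refine ⟨?_, ?_, ?_, ?_⟩
  · rw [card_transport hN, card_norm]
  · rw [card_transport hC, card_cent]
  · obtain ⟨x, hx, y, hy, hxy⟩ := noncomm
    have ex : g⁻¹ * (g * (⟨x, hx.1⟩ : M24) * g⁻¹) * g = ⟨x, hx.1⟩ := by group
    have ey : g⁻¹ * (g * (⟨y, hy.1⟩ : M24) * g⁻¹) * g = ⟨y, hy.1⟩ := by group
    refine ⟨g * (⟨x, hx.1⟩ : M24) * g⁻¹, (hC _).2 (by rw [ex]; exact mem_cent.2 hx),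
      g * (⟨y, hy.1⟩ : M24) * g⁻¹, (hC _).2 (by rw [ey]; exact mem_cent.2 hy), fun h => hxy ?_⟩
    have h1 : g⁻¹ * (g * (⟨x, hx.1⟩ : M24) * g⁻¹ * (g * (⟨y, hy.1⟩ : M24) * g⁻¹)) * g =
        g⁻¹ * (g * (⟨y, hy.1⟩ : M24) * g⁻¹ * (g * (⟨x, hx.1⟩ : M24) * g⁻¹)) * g := by rw [h]
    have h2 : (⟨x, hx.1⟩ : M24) * ⟨y, hy.1⟩ = ⟨y, hy.1⟩ * ⟨x, hx.1⟩ := by
      calc (⟨x, hx.1⟩ : M24) * ⟨y, hy.1⟩ = g⁻¹ * (g * (⟨x, hx.1⟩ : M24) * g⁻¹ * (g * (⟨y, hy.1⟩ : M24) * g⁻¹)) * g := by group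
        _ = _ := h1
        _ = _ := by group
    exact congrArg Subtype.val h2
  · refine ⟨(g : Equiv.Perm GolayPt) • decT 0x2f250, smul_mem_trios g.2 (trio_mem (okT_spec okT_X).1 (okT_spec okT_X).2.1 (okT_spec okT_X).2.2.1), ?_⟩
    intro n hn
    obtain ⟨k, h1, h2, h3⟩ := mem_norm tX_ne orderOf_tX ((hN n).1 hn)
    have h4 : ((g⁻¹ * n * g : M24) : Equiv.Perm GolayPt) ∈ SN := ⟨(g⁻¹ * n * g).2, k, h1, h2, congrArg Subtype.val h3⟩
    have h5 := SN_trio h4
    have h6 : (n : Equiv.Perm GolayPt) * (g : Equiv.Perm GolayPt) =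
        (g : Equiv.Perm GolayPt) * ((g⁻¹ * n * g : M24) : Equiv.Perm GolayPt) := by
      simp only [Subgroup.coe_mul, Subgroup.coe_inv]; group
    rw [← mul_smul, h6, mul_smul, h5]

end Cfsg.Agent.S5604
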