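import Cfsg.Statements.S5607
import Cfsg.Agent.Lib.Golay.FixCount
import Cfsg.Agent.Lib.Golay.Search4

set_option autoImplicit false
open scoped Pointwise
open Cfsg

namespace Cfsg.Agent.S5607

open Cfsg.Agent.Lib.Golay

def SF : Set (Equiv.Perm GolayPt) := {g | g ∈ M24 ∧ g * pm cI2 = pm cI2 * g ∧ g (pt 23) = pt 23}

def testF (c : ℕ) : Bool := comp c cI2 == comp cI2 c && img c 23 == 23

def cutF (k : ℕ) (f : ℕ → ℕ) : Bool := f 23 == 23 && cutG cI2 cI2 k f

def listF : List ℕ := srch4 testF cutF 7 idc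

def tF : List ℕ := [0x586b526613a1ae2d5948be4234097, 0x924f655d648e133514742e2d2dc02, 0x1422b38d850589243669a56ef33941, 0x1c5a5301482092b605d6bce1579e54, 0x209651b1c7bd8344b5469c4127d510, 0x2b9a3a812b2094890636b9e06a4d8f, 0x34d1674ae1a258a7c415394626c08b, 0x3a08f485d799ab1a2d5010d802d9b2, 0x41c6c0c5775164223cd44c1c09d9b5, 0x48e00785b261a8572ec412a67ba2b1, 0x51632852a6bd9e40b5091880b3cd8e, 0x5b0a942a816827595c6f71ec28c086, 0x62ce28d60d7a8c9a389240cb60dc13, 0x6810471c5499aea2ac3593d8382636, 0x7140c83569449e411cd7b06b19d06a, 0x7b97043051bd9559342699c0925065, 0x809839192073c27a96335a157a36c4, 0x8d0362c2f26186f52c0223a676a2a9, 0x92196a2ee47aaa38b813324b068827, 0x999e943a82035759586551ee18920c, 0xa26d225d0a34e300b2ad0096e3bca3, 0xac9330d0d72a8e2239711c1e0659a8, 0xb002f641513a2f35d5c221a492d06d, 0xbdab49ca307b9ac5a928398a418820]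

theorem testF_iff {c : ℕ} (hc : valid c = true) (hm : pm c ∈ M24) : pm c ∈ SF ↔ testF c = true := by
  unfold testF
  simp only [Bool.and_eq_true, beq_iff_eq]
  rw [← conj_iff hc reps_valid.2.1 reps_valid.2.1, ← app_iff hc (by norm_num : 23 < 24) (by norm_num : 23 < 24)]
  exact ⟨fun h => h.2, fun h => ⟨hm, h⟩⟩

theorem cutF_spec : ∀ g ∈ SF, ∀ k < 7, ∀ f : ℕ → ℕ, (∀ i < 24, f i < 24) →
    (∀ i < 24, known k i = true → pt (f i) = g (pt i)) → cutF k f = true := by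
  rintro g ⟨_, h1, h2⟩ k hk f hf h
  unfold cutF
  rw [Bool.and_eq_true, beq_iff_eq]
  exact ⟨pt_inj (hf 23 (by norm_num)) (by norm_num) ((h 23 (by norm_num) (by unfold known; simp)).trans h2),
    cutG_spec reps_valid.2.1 reps_valid.2.1 h1 hk hf h⟩

theorem mem_SF (g : Equiv.Perm GolayPt) : g ∈ SF ↔ codeOf g ∈ listF :=
  mem_srch4_iff (fun _ hg => hg.1) (fun _ hc hm => testF_iff hc hm) cutF_spec g

def chkF (L : List ℕ) : Bool := L.length == 320 && nodupB L && L.all (fun c => sameS c 0xc02001 0xc02001)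

theorem listF_ok : chkF listF = true := by decide +kernel

theorem ncard_SF : SF.ncard = 320 := by
  have h := listF_ok
  unfold chkF at h
  simp only [Bool.and_eq_true, beq_iff_eq] at h
  rw [← h.1.1]
  exact ncard_srch4 (fun _ hg => hg.1) (fun _ hc hm => testF_iff hc hm) cutF_spec (nodupB_spec h.1.2)

theorem tF_ok : tF.all (fun c => pres c && comp c cI2 == comp cI2 c && sameS c 0xc02001 0xc02001) = true := by
  decide +kernel

theorem tF_covers : ∀ i < 24, ∃ c ∈ tF, img c 23 = i := by decide +kernel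

theorem okS_F : okS 0xc02001 = true := by decide +kernel

theorem SF_sext {g : Equiv.Perm GolayPt} (hg : g ∈ SF) : g • decS 0xc02001 = decS 0xc02001 := by
  have h := listF_ok
  unfold chkF at h
  simp only [Bool.and_eq_true, beq_iff_eq, List.all_eq_true] at h
  have h1 := h.2 _ ((mem_SF g).1 hg)
  have h2 := sameS_spec ((pres_iff (valid_codeOf g)).2 (by rw [pm_codeOf]; exact hg.1)) okS_F okS_F h1
  rwa [pm_codeOf] at h2

theorem exists_tF (p : GolayPt) : ∃ g ∈ M24, g * pm cI2 = pm cI2 * g ∧ g (pt 23) = p ∧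
    g • decS 0xc02001 = decS 0xc02001 := by
  obtain ⟨c, hc, e⟩ := tF_covers _ (ix_lt p)
  have h := List.all_eq_true.1 tF_ok c hc
  simp only [Bool.and_eq_true, beq_iff_eq] at h
  have hv := pres_valid h.1.1
  refine ⟨pm c, pm_mem_M24 h.1.1, (conj_iff hv reps_valid.2.1 reps_valid.2.1).2 h.1.2, ?_,
    sameS_spec h.1.1 okS_F okS_F h.2⟩
  rw [pm_pt hv (by norm_num), e, pt_ix]

/-- the centraliser -/
def CF : Subgroup (Equiv.Perm GolayPt) := M24 ⊓ Subgroup.centralizer {pm cI2}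

theorem mem_CF {g : Equiv.Perm GolayPt} : g ∈ CF ↔ g ∈ M24 ∧ g * pm cI2 = pm cI2 * g := by
  unfold CF
  rw [Subgroup.mem_inf, Subgroup.mem_centralizer_singleton_iff]

theorem card_CF : Nat.card CF = 7680 := by
  have h := card_eq_orbit_mul CF (pt 23)
  have h24 : (Set.univ : Set GolayPt).ncard = 24 := by
    rw [Set.ncard_univ, Nat.card_eq_fintype_card, card_golayPt]
  rw [orbit_eq_of_forall CF (pt 23) Set.univ (fun g hg => Set.mem_univ _) (fun y _ => by
    obtain ⟨g, hg, h1, h2, _⟩ := exists_tF y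
    exact ⟨g, mem_CF.2 ⟨hg, h1⟩, h2⟩), h24] at h
  have h2 : Nat.card ↥(CF ⊓ MulAction.stabilizer (Equiv.Perm GolayPt) (pt 23)) = 320 := by
    rw [← ncard_SF, ← Nat.card_coe_set_eq]
    refine Nat.card_congr (Equiv.subtypeEquivRight ?_)
    intro g
    constructor
    · rintro ⟨h1, h2⟩
      exact ⟨(mem_CF.1 h1).1, (mem_CF.1 h1).2, h2⟩
    · rintro ⟨h1, h2, h3⟩
      exact ⟨mem_CF.2 ⟨h1, h2⟩, h3⟩
  rw [h2] at h
  omega

theorem CF_sext {g : Equiv.Perm GolayPt} (hg : g ∈ CF) : g • decS 0xc02001 = decS 0xc02001 := by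
  obtain ⟨k, hk, h1, h2, h3⟩ := exists_tF (g (pt 23))
  have hkC : k ∈ CF := mem_CF.2 ⟨hk, h1⟩
  have h4 : k⁻¹ * g ∈ CF := CF.mul_mem (CF.inv_mem hkC) hg
  have h5 : k⁻¹ * g ∈ SF := by
    refine ⟨(mem_CF.1 h4).1, (mem_CF.1 h4).2, ?_⟩
    show k.symm (g (pt 23)) = pt 23
    rw [Equiv.symm_apply_eq, h2]
  have h6 := SF_sext h5
  have h7 : g = k * (k⁻¹ * g) := by group
  rw [h7, mul_smul, h6, h3]

theorem CF_trans (p q : GolayPt) : ∃ g ∈ CF, g p = q := by
  obtain ⟨k, hk, h1, h2, _⟩ := exists_tF p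
  obtain ⟨l, hl, h3, h4, _⟩ := exists_tF q
  refine ⟨l * k⁻¹, CF.mul_mem (mem_CF.2 ⟨hl, h3⟩) (CF.inv_mem (mem_CF.2 ⟨hk, h1⟩)), ?_⟩
  show l (k.symm p) = q
  rw [← h2, Equiv.symm_apply_apply, h4]

/-- For a fixed-point-free involution t of the group of the length-24 code: its centraliser in that group has order 7680, is transitive on the 24 points, and is contained, together with t, in the stabiliser of some sextet. -/
theorem result (t : Equiv.Perm Cfsg.GolayPt) (ht : t ∈ Cfsg.M24) (h₂ : orderOf t = 2) (h₀ : ∀ p, t p ≠ p) : Nat.card {c : Equiv.Perm Cfsg.GolayPt // c ∈ Cfsg.M24 ∧ c * t = t * c} = 7680 ∧ (∀ p q : Cfsg.GolayPt, ∃ c ∈ Cfsg.M24, c * t = t * c ∧ c p = q) ∧ ∃ S ∈ Cfsg.sextets, t • S = S ∧ ∀ c ∈ Cfsg.M24, c * t = t * c → c • S = S := by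
  open Cfsg.Agent.Lib.Golay in
  obtain ⟨k, hk, e⟩ := inv_zero ht h₂ h₀
  have et : t = k⁻¹ * pm cI2 * k := by rw [← e]; group
  have hiff : ∀ c : Equiv.Perm GolayPt, (c ∈ M24 ∧ c * t = t * c) ↔ k * c * k⁻¹ ∈ CF := by
    intro c
    rw [mem_CF]
    constructor
    · rintro ⟨h1, h2⟩
      refine ⟨conj_mem hk h1, ?_⟩
      rw [← e]
      calc k * c * k⁻¹ * (k * t * k⁻¹) = k * (c * t) * k⁻¹ := by group
        _ = k * (t * c) * k⁻¹ := by rw [h2]
        _ = _ := by group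
    · rintro ⟨h1, h2⟩
      constructor
      · have : c = k⁻¹ * (k * c * k⁻¹) * k := by group
        rw [this]
        exact M24.mul_mem (M24.mul_mem (M24.inv_mem hk) h1) hk
      · rw [← e] at h2
        calc c * t = k⁻¹ * (k * c * k⁻¹ * (k * t * k⁻¹)) * k := by group
          _ = k⁻¹ * (k * t * k⁻¹ * (k * c * k⁻¹)) * k := by rw [h2]
          _ = _ := by group
  refine ⟨?_, ?_, ?_⟩
  · rw [← card_CF]
    refine Nat.card_congr ⟨fun c => ⟨k * c.1 * k⁻¹, (hiff c.1).1 c.2⟩, fun c => ⟨k⁻¹ * c.1 * k, (hiff _).2 ?_⟩, ?_, ?_⟩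
    · have : k * (k⁻¹ * c.1 * k) * k⁻¹ = c.1 := by group
      rw [this]; exact c.2
    · intro c; apply Subtype.ext; show k⁻¹ * (k * c.1 * k⁻¹) * k = c.1; group
    · intro c; apply Subtype.ext; show k * (k⁻¹ * c.1 * k) * k⁻¹ = c.1; group
  · intro p q
    obtain ⟨g, hg, h⟩ := CF_trans (k p) (k q)
    have h1 : k * (k⁻¹ * g * k) * k⁻¹ = g := by group
    have h2 := (hiff (k⁻¹ * g * k)).2 (by rw [h1]; exact hg)
    refine ⟨k⁻¹ * g * k, h2.1, h2.2, ?_⟩
    show k.symm (g (k p)) = q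
    rw [h, Equiv.symm_apply_apply]
  · have hall : ∀ c ∈ M24, c * t = t * c → c • (k⁻¹ • decS 0xc02001) = k⁻¹ • decS 0xc02001 := by
      intro c hc h
      have h1 := CF_sext ((hiff c).1 ⟨hc, h⟩)
      rw [← smul_left_cancel_iff k, smul_inv_smul, ← mul_smul, ← mul_smul]
      exact h1
    refine ⟨k⁻¹ • decS 0xc02001, smul_mem_sextets (M24.inv_mem hk) ?_, hall t ht rfl, hall⟩
    exact sext_mem (okS_spec okS_F).2.1

end Cfsg.Agent.S5607
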