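import Cfsg.Statements.S5608
import Cfsg.Agent.Lib.Golay.FixCount

set_option autoImplicit false
open scoped Pointwise
open Cfsg

namespace Cfsg.Agent.S5608

open Cfsg.Agent.Lib.Golay

/-- the image pattern `(23 0)(1 2 3 ...)` -/
def SE : Set (Equiv.Perm GolayPt) := {g | g ∈ M24 ∧ (g * g * g) * (g * g * g) = 1 ∧ nfix (g * g * g) = 0 ∧
  g (pt 23) = pt 0 ∧ g (pt 0) = pt 23 ∧ g (pt 1) = pt 2 ∧ g (pt 2) = pt 3}

def c3 (c : ℕ) : ℕ := comp (comp c c) c

def testE (c : ℕ) : Bool := comp (c3 c) (c3 c) == idc && pc (bitsAux (fun i => img (c3 c) i == i) 24) == 0 &&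
  img c 23 == 0 && img c 0 == 23 && img c 1 == 2 && img c 2 == 3

theorem pm_c3 {c : ℕ} (hc : valid c = true) : pm (c3 c) = pm c * pm c * pm c := by
  unfold c3
  rw [pm_comp (valid_comp hc hc) hc, pm_comp hc hc]

theorem valid_c3 {c : ℕ} (hc : valid c = true) : valid (c3 c) = true := valid_comp (valid_comp hc hc) hc

theorem nfix_pm' {c : ℕ} (hc : valid c = true) : nfix (pm c) = pc (bitsAux (fun i => img c i == i) 24) := by
  unfold nfix
  rw [fixset_pm hc, card_st]

theorem mem_SE (g : Equiv.Perm GolayPt) : g ∈ SE ↔ codeOf g ∈ srch testE (cutL [[0], [23], [2], [3]]) 7 idc := by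
  apply mem_srch_iff (fun g hg => hg.1)
  · intro c hc hm
    unfold testE
    simp only [Bool.and_eq_true, beq_iff_eq]
    rw [← sq_iff (valid_c3 hc), ← nfix_pm' (valid_c3 hc), pm_c3 hc, ← app_iff hc (by norm_num : 23 < 24) (by norm_num : 0 < 24),
      ← app_iff hc (by norm_num : 0 < 24) (by norm_num : 23 < 24),
      ← app_iff hc (by norm_num : 1 < 24) (by norm_num : 2 < 24),
      ← app_iff hc (by norm_num : 2 < 24) (by norm_num : 3 < 24)]
    constructor
    · rintro ⟨_, h1, h2, h3, h4, h5, h6⟩; exact ⟨⟨⟨⟨⟨h1, h2⟩, h3⟩, h4⟩, h5⟩, h6⟩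
    · rintro ⟨⟨⟨⟨⟨h1, h2⟩, h3⟩, h4⟩, h5⟩, h6⟩; exact ⟨hm, h1, h2, h3, h4, h5, h6⟩
  · rintro g ⟨_, h1, h2, h3, h4, h5, h6⟩
    exact cutL_four h3 h4 h5 h6 (by norm_num) (by norm_num) (by norm_num) (by norm_num)

theorem list_nil : srch testE (cutL [[0], [23], [2], [3]]) 7 idc = [] := by decide +kernel

theorem SE_empty (g : Equiv.Perm GolayPt) : g ∉ SE := by
  intro h
  have := (mem_SE g).1 h
  rw [list_nil] at this
  exact List.not_mem_nil this

/-- If an element of order 3 and an involution of the group of the length-24 code commute, then either the element of order 3 has exactly 6 fixed points and the involution exactly 8, or both are fixed-point-free. -/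
theorem result (x s : Equiv.Perm Cfsg.GolayPt) (hx : x ∈ Cfsg.M24) (hs : s ∈ Cfsg.M24) (h₃ : orderOf x = 3) (h₂ : orderOf s = 2) (hc : Commute x s) : ((Finset.univ.filter fun p => x p = p).card = 6 ∧ (Finset.univ.filter fun p => s p = p).card = 8) ∨ ((Finset.univ.filter fun p => x p = p).card = 0 ∧ (Finset.univ.filter fun p => s p = p).card = 0) := by
  open Cfsg.Agent.Lib.Golay in
  have hs2 : s * s = 1 := by rw [← pow_two, ← h₂, pow_orderOf_eq_one]
  have hx3 : x * x * x = 1 := by
    have := pow_orderOf_eq_one x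
    rw [h₃] at this
    rw [← this]; rfl
  have hx1 : x ≠ 1 := by rintro rfl; rw [orderOf_one] at h₃; omega
  have hs1 : s ≠ 1 := by rintro rfl; rw [orderOf_one] at h₂; omega
  have hcx : ∀ p, x (s p) = s (x p) := fun p => congrArg (fun f : Equiv.Perm GolayPt => f p) hc.eq
  have nx : nfix x = 6 ∨ nfix x = 0 := by
    obtain ⟨k, -, h | h⟩ := three_class hx hx3 hx1
    · left; rw [← nfix_conj k, h]; exact nfix_reps.2.2.1
    · right; rw [← nfix_conj k, h]; exact nfix_reps.2.2.2
  have ns : nfix s = 8 ∨ nfix s = 0 := by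
    obtain ⟨k, -, h | h⟩ := inv_class hs hs2 hs1
    · left; rw [← nfix_conj k, h]; exact nfix_reps.1
    · right; rw [← nfix_conj k, h]; exact nfix_reps.2.1
  rcases nx with nx | nx <;> rcases ns with ns | ns
  · exact Or.inl ⟨nx, ns⟩
  · exfalso
    rw [nfix_zero] at ns
    obtain ⟨p, hp⟩ : ∃ p, x p = p := by
      have : 0 < nfix x := by omega
      obtain ⟨p, hp⟩ := Finset.card_pos.1 this
      exact ⟨p, (Finset.mem_filter.1 hp).2⟩
    obtain ⟨q, hq⟩ : ∃ q, x q ≠ q := by
      by_contra h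
      push Not at h
      exact hx1 (Equiv.ext h)
    have hss : ∀ a, s (s a) = a := fun a => app_of_sq hs2 rfl
    have hxx : ∀ a, x (x (x a)) = a := fun a => app_of_cube hx3 rfl rfl
    have hxp : x (s p) = s p := by rw [hcx, hp]
    have hq2 : x (x q) ≠ q := by
      intro h
      apply hq
      have := hxx q
      rw [h] at this
      exact this
    have hq3 : x (x q) ≠ x q := fun h => hq (x.injective h)
    have hsq1 : s (x q) ≠ q := by
      intro h
      have h1 : s q = x q := by rw [← h, hss, h]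
      have h2 : x (x q) = q := by rw [← h1, hcx, h]
      exact hq2 h2
    -- the orbit
    let y := x * s
    have hy : ∀ a, y a = x (s a) := fun a => rfl
    have hyyy : y * y * y = s := by
      apply Equiv.ext
      intro a
      show (y (y (y a))) = s a
      simp only [hy, hcx, hss, hxx]
    have e1 : y q = s (x q) := hcx q
    have e2 : y (s (x q)) = x (x q) := by rw [hy, hss]
    have hnd : [p, s p, q, s (x q), x (x q)].Nodup := by
      simp only [List.nodup_cons, List.mem_cons, List.not_mem_nil, or_false, not_or, List.nodup_nil, and_true,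
        not_false_eq_true]
      have n1 : x (s (x q)) ≠ s (x q) := by rw [hcx]; exact fun h => hq3 (s.injective h)
      have n2 : x (x (x q)) ≠ x (x q) := by rw [hxx]; exact Ne.symm hq2
      have hne : ∀ a b, x a = a → x b ≠ b → a ≠ b := by
        rintro a b ha hb rfl; exact hb ha
      refine ⟨⟨Ne.symm (ns p), hne _ _ hp hq, hne _ _ hp n1, hne _ _ hp n2⟩,
        ⟨hne _ _ hxp hq, hne _ _ hxp n1, hne _ _ hxp n2⟩, ⟨Ne.symm hsq1, Ne.symm hq2⟩, ?_⟩
      intro h
      have h1 : x q = s (x (x q)) := by rw [← h, hss]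
      rw [← hcx, h, hxx] at h1
      exact hq h1
    obtain ⟨k, hk, a1, a2, a3, a4, a5⟩ := exists_map_five (a' := pt 23) (b' := pt 0) (c' := pt 1) (d' := pt 2)
      (e' := pt 3) hnd (by decide)
    refine SE_empty (k * y * k⁻¹) ⟨conj_mem hk (M24.mul_mem hx hs), ?_, ?_, ?_, ?_, ?_, ?_⟩
    · have : k * y * k⁻¹ * (k * y * k⁻¹) * (k * y * k⁻¹) = k * (y * y * y) * k⁻¹ := by group
      rw [this, hyyy]
      have : k * s * k⁻¹ * (k * s * k⁻¹) = k * (s * s) * k⁻¹ := by group
      rw [this, hs2]; group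
    · have : k * y * k⁻¹ * (k * y * k⁻¹) * (k * y * k⁻¹) = k * (y * y * y) * k⁻¹ := by group
      rw [this, hyyy, nfix_conj, nfix_zero]; exact ns
    · exact conj_app (by rw [hy, hxp]) a1 a2
    · exact conj_app (by rw [hy, hss, hp]) a2 a1
    · exact conj_app e1 a3 a4
    · exact conj_app e2 a4 a5
  · exfalso
    rw [nfix_zero] at nx
    have hmap : ∀ a : GolayPt, s a = a ↔ s (x a) = x a := by
      intro a
      rw [← hcx]
      exact ⟨fun h => by rw [h], fun h => x.injective h⟩
    let σ : Equiv.Perm {a : GolayPt // s a = a} := x.subtypePerm (fun a => (hmap a).symm)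
    have hσ : σ ^ 3 ^ 1 = 1 := by
      apply Equiv.ext
      intro a
      apply Subtype.ext
      show x (x (x a)) = a
      exact app_of_cube hx3 rfl rfl
    have hcard : Fintype.card {a : GolayPt // s a = a} = 8 := by
      rw [Fintype.card_subtype]; exact ns
    haveI : Fact (Nat.Prime 3) := ⟨Nat.prime_three⟩
    obtain ⟨a, ha⟩ := Equiv.Perm.exists_fixed_point_of_prime (p := 3) (n := 1) (by rw [hcard]; norm_num) hσ
    exact nx a (congrArg Subtype.val ha)
  · exact Or.inr ⟨nx, ns⟩

end Cfsg.Agent.S5608
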