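import Cfsg.Statements.S5609
import Cfsg.Agent.Lib.Golay.OctOrb
import Cfsg.Agent.Lib.Golay.Sextet

set_option autoImplicit false
open scoped Pointwise
open Cfsg

namespace Cfsg.Agent.S5609

open Cfsg Cfsg.Agent.Lib.Golay Finset
open scoped Pointwise

theorem adj_iff {a b : ↥octads} : (blockGraph octads).Adj a b ↔ Disjoint (a : Finset GolayPt) (b : Finset GolayPt) := by
  unfold blockGraph
  rw [SimpleGraph.fromRel_adj]
  constructor
  · rintro ⟨_, h | h⟩
    · exact h
    · exact h.symm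
  · intro h
    refine ⟨?_, Or.inl h⟩
    rintro rfl
    have h1 := (mem_octads.1 a.2).2
    rw [disjoint_self] at h
    rw [h] at h1
    exact absurd h1 (by decide)

theorem pair_std {o o' : Finset GolayPt} (ho : o ∈ octads) (ho' : o' ∈ octads) {w : ℕ} (hw : st w ∈ octads)
    (h : (o ∩ o').card = (st oct0 ∩ st w).card) : ∃ g ∈ M24, g • o = st oct0 ∧ g • o' = st w := by
  obtain ⟨k, hk, e⟩ := octads_transitive ho oct0_mem
  have h1 : (st oct0 ∩ k • o').card = (st oct0 ∩ st w).card := by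
    rw [← e, card_smul_inter, h, e]
  obtain ⟨g, hg, e1, e2⟩ := oct_rel oct0_mem (smul_mem_octads hk ho') hw h1
  exact ⟨g * k, M24.mul_mem hg hk, by rw [mul_smul, e, e1], by rw [mul_smul, e2]⟩

theorem oc {w : ℕ} (h : (inCode w && pc w == 8 && Nat.blt w 16777216) = true) : st w ∈ octads := by
  simp only [Bool.and_eq_true, beq_iff_eq, Nat.blt_eq] at h
  rw [mem_octads, IsWord, card_st, mk_st (by omega)]
  exact h.1

theorem common {o o' : Finset GolayPt} (ho : o ∈ octads) (ho' : o' ∈ octads) (h : (o ∩ o').card = 4) :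
    ∃ c ∈ octads, Disjoint o c ∧ Disjoint c o' := by
  obtain ⟨g, hg, e1, e2⟩ := pair_std ho ho' (w := 0x149f) (oc (by decide +kernel)) (by rw [h, ← st_and, card_st]; decide +kernel)
  refine ⟨g⁻¹ • st 0x3da100, smul_mem_octads (M24.inv_mem hg) (oc (by decide +kernel)), ?_, ?_⟩
  · have : o = g⁻¹ • st oct0 := by rw [← e1, inv_smul_smul]
    rw [this, Finset.disjoint_iff_inter_eq_empty, ← smul_inter', smul_finset_eq_empty, ← st_and, ← st_zero]
    congr 1
  · have : o' = g⁻¹ • st 0x149f := by rw [← e2, inv_smul_smul]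
    rw [this, Finset.disjoint_iff_inter_eq_empty, ← smul_inter', smul_finset_eq_empty, ← st_and, ← st_zero]
    congr 1

theorem path3 {o o' : Finset GolayPt} (ho : o ∈ octads) (ho' : o' ∈ octads) (h : (o ∩ o').card = 2) :
    ∃ c ∈ octads, ∃ d ∈ octads, Disjoint o c ∧ Disjoint c d ∧ Disjoint d o' := by
  obtain ⟨g, hg, e1, e2⟩ := pair_std ho ho' (w := 0x3da1) (oc (by decide +kernel)) (by rw [h, ← st_and, card_st]; decide +kernel)
  refine ⟨g⁻¹ • st 0x527c0, smul_mem_octads (M24.inv_mem hg) (oc (by decide +kernel)),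
    g⁻¹ • st 0x68401e, smul_mem_octads (M24.inv_mem hg) (oc (by decide +kernel)), ?_, ?_, ?_⟩
  · have : o = g⁻¹ • st oct0 := by rw [← e1, inv_smul_smul]
    rw [this, Finset.disjoint_iff_inter_eq_empty, ← smul_inter', smul_finset_eq_empty, ← st_and, ← st_zero]
    congr 1
  · rw [Finset.disjoint_iff_inter_eq_empty, ← smul_inter', smul_finset_eq_empty, ← st_and, ← st_zero]
    congr 1
  · have : o' = g⁻¹ • st 0x3da1 := by rw [← e2, inv_smul_smul]
    rw [this, Finset.disjoint_iff_inter_eq_empty, ← smul_inter', smul_finset_eq_empty, ← st_and, ← st_zero]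
    congr 1

theorem no_common {o o' c : Finset GolayPt} (ho : o ∈ octads) (ho' : o' ∈ octads) (hc : c ∈ octads) (h : (o ∩ o').card = 2)
    (h1 : Disjoint o c) (h2 : Disjoint c o') : False := by
  have h3 := third_octad ho hc h1
  have h4 := octad_inter h3 ho'
  have h5 : ((o ∪ c)ᶜ ∩ o').card + (o ∩ o').card = o'.card := by
    rw [← card_union_of_disjoint]
    · congr 1
      ext x
      have := fun h : x ∈ c => disjoint_left.1 h2 h
      simp only [mem_inter, mem_union, mem_compl]; tauto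
    · rw [disjoint_left]
      intro x hx hx'
      simp only [mem_inter, mem_union, mem_compl] at hx hx'
      tauto
  rw [(mem_octads.1 ho').2, h] at h5
  omega

theorem reach (a b : ↥octads) : (blockGraph octads).Reachable a b := by
  rcases octad_inter a.2 b.2 with h | h | h | h
  · exact (adj_iff.2 (disjoint_iff_inter_eq_empty.2 (card_eq_zero.1 h))).reachable
  · obtain ⟨c, hc, d, hd, h1, h2, h3⟩ := path3 a.2 b.2 h
    exact ((adj_iff (b := ⟨c, hc⟩)).2 h1).reachable.trans (((adj_iff (a := ⟨c, hc⟩) (b := ⟨d, hd⟩)).2 h2).reachable.trans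
      ((adj_iff (a := ⟨d, hd⟩)).2 h3).reachable)
  · obtain ⟨c, hc, h1, h2⟩ := common a.2 b.2 h
    exact ((adj_iff (b := ⟨c, hc⟩)).2 h1).reachable.trans ((adj_iff (a := ⟨c, hc⟩)).2 h2).reachable
  · have : a = b := Subtype.ext (eq_of_inter_card (mem_octads.1 a.2).2 (mem_octads.1 b.2).2 h)
    rw [this]

theorem conn : (blockGraph octads).Connected := by
  rw [SimpleGraph.connected_iff]
  exact ⟨fun a b => reach a b, ⟨⟨st oct0, oct0_mem⟩⟩⟩

theorem dist_vals (a b : ↥octads) (hne : a ≠ b) :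
    ((a : Finset GolayPt) ∩ b).card = 0 ∧ (blockGraph octads).dist a b = 1 ∨
    ((a : Finset GolayPt) ∩ b).card = 4 ∧ (blockGraph octads).dist a b = 2 ∨
    ((a : Finset GolayPt) ∩ b).card = 2 ∧ (blockGraph octads).dist a b = 3 := by
  have h0 : (blockGraph octads).dist a b ≠ 0 := by
    intro h
    rw [conn.dist_eq_zero_iff] at h
    exact hne h
  have h1 : (blockGraph octads).dist a b = 1 ↔ ((a : Finset GolayPt) ∩ b).card = 0 := by
    rw [SimpleGraph.dist_eq_one_iff_adj, adj_iff, disjoint_iff_inter_eq_empty, card_eq_zero]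
  rcases octad_inter a.2 b.2 with h | h | h | h
  · left; exact ⟨h, h1.2 h⟩
  · right; right
    refine ⟨h, ?_⟩
    obtain ⟨c, hc, d, hd, h2, h3, h4⟩ := path3 a.2 b.2 h
    have le3 := SimpleGraph.dist_le (SimpleGraph.Walk.cons ((adj_iff (b := ⟨c, hc⟩)).2 h2) (SimpleGraph.Walk.cons
      ((adj_iff (a := ⟨c, hc⟩) (b := ⟨d, hd⟩)).2 h3) (SimpleGraph.Walk.cons ((adj_iff (a := ⟨d, hd⟩)).2 h4) SimpleGraph.Walk.nil)))
    simp only [SimpleGraph.Walk.length_cons, SimpleGraph.Walk.length_nil] at le3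
    have n1 : (blockGraph octads).dist a b ≠ 1 := by rw [Ne, h1, h]; norm_num
    have n2 : (blockGraph octads).dist a b ≠ 2 := by
      intro h5
      obtain ⟨p, hp⟩ := conn.exists_walk_length_eq_dist a b
      rw [h5] at hp
      match p, hp with
      | SimpleGraph.Walk.cons (v := v) e1 (SimpleGraph.Walk.cons e2 SimpleGraph.Walk.nil), _ =>
        exact no_common a.2 b.2 v.2 h (adj_iff.1 e1) (adj_iff.1 e2)
    omega
  · right; left
    refine ⟨h, ?_⟩
    obtain ⟨c, hc, h2, h3⟩ := common a.2 b.2 h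
    have le2 := SimpleGraph.dist_le (SimpleGraph.Walk.cons ((adj_iff (b := ⟨c, hc⟩)).2 h2) (SimpleGraph.Walk.cons
      ((adj_iff (a := ⟨c, hc⟩)).2 h3) SimpleGraph.Walk.nil))
    simp only [SimpleGraph.Walk.length_cons, SimpleGraph.Walk.length_nil] at le2
    have n1 : (blockGraph octads).dist a b ≠ 1 := by rw [Ne, h1, h]; norm_num
    omega
  · exact absurd (Subtype.ext (eq_of_inter_card (mem_octads.1 a.2).2 (mem_octads.1 b.2).2 h)) hne

/-- In the graph on the 759 octads of the length-24 code in which two octads are adjacent when they are disjoint, the graph is connected (of diameter 3) and two distinct octads are at distance 1, 2 or 3 exactly when they meet in 0, 4 or 2 points respectively. -/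
theorem result (o o' : Finset Cfsg.GolayPt) (ho : o ∈ Cfsg.octads) (ho' : o' ∈ Cfsg.octads) (hne : o ≠ o') : (Cfsg.blockGraph Cfsg.octads).Connected ∧ ((Cfsg.blockGraph Cfsg.octads).dist ⟨o, ho⟩ ⟨o', ho'⟩ = 1 ↔ (o ∩ o').card = 0) ∧ ((Cfsg.blockGraph Cfsg.octads).dist ⟨o, ho⟩ ⟨o', ho'⟩ = 2 ↔ (o ∩ o').card = 4) ∧ ((Cfsg.blockGraph Cfsg.octads).dist ⟨o, ho⟩ ⟨o', ho'⟩ = 3 ↔ (o ∩ o').card = 2) := by
  refine ⟨conn, ?_⟩
  have h : ((o ∩ o').card = 0 ∧ (Cfsg.blockGraph Cfsg.octads).dist ⟨o, ho⟩ ⟨o', ho'⟩ = 1 ∨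
    (o ∩ o').card = 4 ∧ (Cfsg.blockGraph Cfsg.octads).dist ⟨o, ho⟩ ⟨o', ho'⟩ = 2 ∨
    (o ∩ o').card = 2 ∧ (Cfsg.blockGraph Cfsg.octads).dist ⟨o, ho⟩ ⟨o', ho'⟩ = 3) :=
    dist_vals ⟨o, ho⟩ ⟨o', ho'⟩ (fun h => hne (congrArg Subtype.val h))
  omega

end Cfsg.Agent.S5609
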