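import Cfsg.Statements.S5610
import Cfsg.Agent.Lib.Golay.OrbUse

set_option autoImplicit false
open scoped Pointwise
open Cfsg

namespace Cfsg.Agent.S5610

theorem fcase3 {n : ℕ} (h : n < 3) : n = 0 ∨ n = 1 ∨ n = 2 := by omega
open Cfsg Cfsg.Agent.Lib.Golay in
theorem three {Y Z : Type} [Nonempty Y] [MulAction (Equiv.Perm GolayPt) Y] [MulAction (Equiv.Perm GolayPt) Z] {s : Z}
    {X : Set Y} {cnt : ℕ → ℕ}
    (h : OrbRes (M24 ⊓ MulAction.stabilizer (Equiv.Perm GolayPt) s) X 3 cnt) (hpos : ∀ k < 3, 0 < cnt k) :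
    ∃ X₁ ∈ X, ∃ X₂ ∈ X, ∃ X₃ ∈ X, (MulAction.orbit ↥(MulAction.stabilizer Cfsg.M24 s) X₁).ncard = cnt 0 ∧ (MulAction.orbit ↥(MulAction.stabilizer Cfsg.M24 s) X₂).ncard = cnt 1 ∧ (MulAction.orbit ↥(MulAction.stabilizer Cfsg.M24 s) X₃).ncard = cnt 2 ∧ X = MulAction.orbit ↥(MulAction.stabilizer Cfsg.M24 s) X₁ ∪ MulAction.orbit ↥(MulAction.stabilizer Cfsg.M24 s) X₂ ∪ MulAction.orbit ↥(MulAction.stabilizer Cfsg.M24 s) X₃ := by
  obtain ⟨f, x, hx, hf, ho⟩ := h.orbits hpos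
  obtain ⟨a0, b0, c0, d0⟩ := hx 0 (by norm_num)
  obtain ⟨a1, b1, c1, d1⟩ := hx 1 (by norm_num)
  obtain ⟨a2, b2, c2, d2⟩ := hx 2 (by norm_num)
  refine ⟨x 0, a0, x 1, a1, x 2, a2, d0, d1, d2, ?_⟩
  rw [c0, c1, c2]
  ext y
  simp only [Set.mem_union, Set.mem_setOf_eq]
  constructor
  · intro hy
    rcases fcase3 (hf y hy) with h | h | h
    · exact Or.inl (Or.inl ⟨hy, h⟩)
    · exact Or.inl (Or.inr ⟨hy, h⟩)
    · exact Or.inr ⟨hy, h⟩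
  · rintro ((h | h) | h) <;> exact h.1

/-- The stabiliser of an octad in the group of the length-24 code has exactly three orbits on the 3795 trios, of sizes 15, 420 and 3360, and exactly three orbits on the 1771 sextets, of sizes 35, 840 and 896. -/
theorem result (o : Finset Cfsg.GolayPt) (ho : o ∈ Cfsg.octads) : (∃ X₁ ∈ Cfsg.trios, ∃ X₂ ∈ Cfsg.trios, ∃ X₃ ∈ Cfsg.trios, (MulAction.orbit ↥(MulAction.stabilizer Cfsg.M24 o) X₁).ncard = 15 ∧ (MulAction.orbit ↥(MulAction.stabilizer Cfsg.M24 o) X₂).ncard = 420 ∧ (MulAction.orbit ↥(MulAction.stabilizer Cfsg.M24 o) X₃).ncard = 3360 ∧ Cfsg.trios = MulAction.orbit ↥(MulAction.stabilizer Cfsg.M24 o) X₁ ∪ MulAction.orbit ↥(MulAction.stabilizer Cfsg.M24 o) X₂ ∪ MulAction.orbit ↥(MulAction.stabilizer Cfsg.M24 o) X₃) ∧ (∃ Y₁ ∈ Cfsg.sextets, ∃ Y₂ ∈ Cfsg.sextets, ∃ Y₃ ∈ Cfsg.sextets, (MulAction.orbit ↥(MulAction.stabilizer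 Cfsg.M24 o) Y₁).ncard = 35 ∧ (MulAction.orbit ↥(MulAction.stabilizer Cfsg.M24 o) Y₂).ncard = 840 ∧ (MulAction.orbit ↥(MulAction.stabilizer Cfsg.M24 o) Y₃).ncard = 896 ∧ Cfsg.sextets = MulAction.orbit ↥(MulAction.stabilizer Cfsg.M24 o) Y₁ ∪ MulAction.orbit ↥(MulAction.stabilizer Cfsg.M24 o) Y₂ ∪ MulAction.orbit ↥(MulAction.stabilizer Cfsg.M24 o) Y₃) := by
  open Cfsg.Agent.Lib.Golay in
  exact ⟨three (resO ho).1 (by decide), three (resO ho).2 (by decide)⟩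

end Cfsg.Agent.S5610
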