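import Cfsg.Statements.S5611
import Cfsg.Agent.S5610

set_option autoImplicit false
open scoped Pointwise
open Cfsg

namespace Cfsg.Agent.S5611

theorem fcase4 {n : ℕ} (h : n < 4) : n = 0 ∨ n = 1 ∨ n = 2 ∨ n = 3 := by omega
open Cfsg Cfsg.Agent.Lib.Golay in
theorem four {Y Z : Type} [Nonempty Y] [MulAction (Equiv.Perm GolayPt) Y] [MulAction (Equiv.Perm GolayPt) Z] {s : Z}
    {X : Set Y} {cnt : ℕ → ℕ}
    (h : OrbRes (M24 ⊓ MulAction.stabilizer (Equiv.Perm GolayPt) s) X 4 cnt) (hpos : ∀ k < 4, 0 < cnt k) :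
    ∃ X₁ ∈ X, ∃ X₂ ∈ X, ∃ X₃ ∈ X, ∃ X₄ ∈ X, (MulAction.orbit ↥(MulAction.stabilizer Cfsg.M24 s) X₁).ncard = cnt 0 ∧ (MulAction.orbit ↥(MulAction.stabilizer Cfsg.M24 s) X₂).ncard = cnt 1 ∧ (MulAction.orbit ↥(MulAction.stabilizer Cfsg.M24 s) X₃).ncard = cnt 2 ∧ (MulAction.orbit ↥(MulAction.stabilizer Cfsg.M24 s) X₄).ncard = cnt 3 ∧ X = MulAction.orbit ↥(MulAction.stabilizer Cfsg.M24 s) X₁ ∪ MulAction.orbit ↥(MulAction.stabilizer Cfsg.M24 s) X₂ ∪ MulAction.orbit ↥(MulAction.stabilizer Cfsg.M24 s) X₃ ∪ MulAction.orbit ↥(MulAction.stabilizer Cfsg.M24 s) X₄ := by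
  obtain ⟨f, x, hx, hf, ho⟩ := h.orbits hpos
  obtain ⟨a0, b0, c0, d0⟩ := hx 0 (by norm_num)
  obtain ⟨a1, b1, c1, d1⟩ := hx 1 (by norm_num)
  obtain ⟨a2, b2, c2, d2⟩ := hx 2 (by norm_num)
  obtain ⟨a3, b3, c3, d3⟩ := hx 3 (by norm_num)
  refine ⟨x 0, a0, x 1, a1, x 2, a2, x 3, a3, d0, d1, d2, d3, ?_⟩
  rw [c0, c1, c2, c3]
  ext y
  simp only [Set.mem_union, Set.mem_setOf_eq]
  constructor
  · intro hy
    rcases fcase4 (hf y hy) with h | h | h | h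
    · exact Or.inl (Or.inl (Or.inl ⟨hy, h⟩))
    · exact Or.inl (Or.inl (Or.inr ⟨hy, h⟩))
    · exact Or.inl (Or.inr ⟨hy, h⟩)
    · exact Or.inr ⟨hy, h⟩
  · rintro (((h | h) | h) | h) <;> exact h.1

/-- The stabiliser of a sextet in the group of the length-24 code has exactly three orbits on the 759 octads, of sizes 15, 360 and 384, and exactly four orbits on the 3795 trios, of sizes 15, 180, 720 and 2880. -/
theorem result (S : Finset (Finset Cfsg.GolayPt)) (hS : S ∈ Cfsg.sextets) : (∃ X₁ ∈ Cfsg.octads, ∃ X₂ ∈ Cfsg.octads, ∃ X₃ ∈ Cfsg.octads, (MulAction.orbit ↥(MulAction.stabilizer Cfsg.M24 S) X₁).ncard = 15 ∧ (MulAction.orbit ↥(MulAction.stabilizer Cfsg.M24 S) X₂).ncard = 360 ∧ (MulAction.orbit ↥(MulAction.stabilizer Cfsg.M24 S) X₃).ncard = 384 ∧ Cfsg.octads = MulAction.orbit ↥(MulAction.stabilizer Cfsg.M24 S) X₁ ∪ MulAction.orbit ↥(MulAction.stabilizer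 Cfsg.M24 S) X₂ ∪ MulAction.orbit ↥(MulAction.stabilizer Cfsg.M24 S) X₃) ∧ (∃ Y₁ ∈ Cfsg.trios, ∃ Y₂ ∈ Cfsg.trios, ∃ Y₃ ∈ Cfsg.trios, ∃ Y₄ ∈ Cfsg.trios, (MulAction.orbit ↥(MulAction.stabilizer Cfsg.M24 S) Y₁).ncard = 15 ∧ (MulAction.orbit ↥(MulAction.stabilizer Cfsg.M24 S) Y₂).ncard = 180 ∧ (MulAction.orbit ↥(MulAction.stabilizer Cfsg.M24 S) Y₃).ncard = 720 ∧ (MulAction.orbit ↥(MulAction.stabilizer Cfsg.M24 S) Y₄).ncard = 2880 ∧ Cfsg.trios = MulAction.orbit ↥(MulAction.stabilizer Cfsg.M24 S) Y₁ ∪ MulAction.orbit ↥(MulAction.stabilizer Cfsg.M24 S) Y₂ ∪ MulAction.orbit ↥(MulAction.stabilizer Cfsg.M24 S) Y₃ ∪ MulAction.orbit ↥(MulAction.stabilizer Cfsg.M24 S) Y₄) := by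
  open Cfsg.Agent.Lib.Golay in
  exact ⟨S5610.three (resS hS).2.2 (by decide), four (resS hS).2.1 (by decide)⟩

end Cfsg.Agent.S5611
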