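import Cfsg.Statements.S5613
import Cfsg.Agent.Lib.Golay.OctOrb
import Cfsg.Agent.Lib.Golay.Stab

set_option autoImplicit false
open scoped Pointwise
open Cfsg

namespace Cfsg.Agent.S5613

open Cfsg Cfsg.Agent.Lib.Golay
open scoped Pointwise

theorem card_joint {o o' : Finset GolayPt} (ho : o ∈ octads) (ho' : o' ∈ octads) {i n : ℕ} (hi : (o ∩ o').card = i)
    (hn : {a | a ∈ octads ∧ (a ∩ o).card = i}.ncard = n) :
    n * Nat.card ↥(MulAction.stabilizer M24 o ⊓ MulAction.stabilizer M24 o') = 322560 := by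
  have h := card_eq_orbit_mul (M24 ⊓ MulAction.stabilizer (Equiv.Perm GolayPt) o) o'
  rw [card_M24_stab_octad ho, orbit_eq_of_forall _ o' {a | a ∈ octads ∧ (a ∩ o).card = i} (fun g hg => ?_) (fun y hy => ?_), hn] at h
  · rw [stabilizer_subgroup_eq, stabilizer_subgroup_eq, subgroupOf_inf, card_subgroupOf, ← inf_assoc]
    exact h.symm
  · refine ⟨smul_mem_octads hg.1 ho', ?_⟩
    have h1 : g • o = o := hg.2
    have h2 := card_smul_inter g o' o
    rw [h1] at h2
    rw [h2, Finset.inter_comm, hi]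
  · obtain ⟨hy1, hy2⟩ := hy
    obtain ⟨g, hg, h1, h2⟩ := oct_rel ho ho' hy1 (by rw [hi, Finset.inter_comm, hy2])
    exact ⟨g, ⟨hg, h1⟩, h2⟩

/-- In the group of the length-24 code, the joint stabiliser of two octads has order 10752, 1152 or 720 according as the octads meet in 0, 4 or 2 points. -/
theorem result (o o' : Finset Cfsg.GolayPt) (ho : o ∈ Cfsg.octads) (ho' : o' ∈ Cfsg.octads) : ((o ∩ o').card = 0 → Nat.card ↥(MulAction.stabilizer Cfsg.M24 o ⊓ MulAction.stabilizer Cfsg.M24 o') = 10752) ∧ ((o ∩ o').card = 4 → Nat.card ↥(MulAction.stabilizer Cfsg.M24 o ⊓ MulAction.stabilizer Cfsg.M24 o') = 1152) ∧ ((o ∩ o').card = 2 → Nat.card ↥(MulAction.stabilizer Cfsg.M24 o ⊓ MulAction.stabilizer Cfsg.M24 o') = 720) := by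
  obtain ⟨c8, c4, c2, c0⟩ := ncard_oct_rel ho
  refine ⟨fun h => ?_, fun h => ?_, fun h => ?_⟩
  · have := card_joint ho ho' h c0
    omega
  · have := card_joint ho ho' h c4
    omega
  · have := card_joint ho ho' h c2
    omega

end Cfsg.Agent.S5613
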