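import Cfsg.Statements.S5614
import Cfsg.Agent.Lib.Golay.Restr
import Cfsg.Agent.S5613

set_option autoImplicit false
open scoped Pointwise
open Cfsg

namespace Cfsg.Agent.S5614

open Cfsg Cfsg.Agent.Lib.Golay
open scoped Pointwise

theorem dat : allB (fun c => !(pc (comb c) == 8) || !(comb c &&& oct0 == oct0 ^^^ 0x80002f) ||
    list48.all (fun k => k == idc || !(fixesB k 0x80002f) || !(act k (comb c) == comb c))) 0 12 = true := by decide +kernel

theorem inj {o o' : Finset GolayPt} (ho : o ∈ octads) (ho' : o' ∈ octads) (h2 : (o ∩ o').card = 2)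
    {g : Equiv.Perm GolayPt} (hg : g ∈ M24) (hgo' : g • o' = o') (hfix : ∀ x ∈ o \ o', g x = x) : g = 1 := by
  have hE : (o \ o').card = 6 := by
    have := Finset.card_sdiff_add_card_inter o o'
    rw [h2, (mem_octads.1 ho).2] at this
    omega
  obtain ⟨x, hx1, hx2, hx3⟩ := exists_enum hE
  have hxo : ∀ i < 6, x i ∈ o := fun i hi => (Finset.mem_sdiff.1 (hx1 i hi)).1
  obtain ⟨k, hk, hkx, hk5, hko⟩ := six_in (x := x) (y := fun i => pt (bpt i)) (fun i hi j hj => hx2 i (by omega) j hj)
    (by decide +kernel) ho oct0_mem (fun i hi => hxo i (by omega)) (by decide +kernel)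
    (hxo 5 (by norm_num)) (b := pt 5) (by decide +kernel) (fun i hi => hx2 5 (by norm_num) i hi)
    (by decide +kernel)
  have hEk : k • (o \ o') = st 0x80002f := by
    apply Finset.eq_of_subset_of_card_le
    · intro p hp
      rw [mem_smul_iff] at hp
      obtain ⟨i, hi, e⟩ := hx3 _ hp
      rw [Equiv.eq_symm_apply] at e
      rw [← e]
      by_cases h : i = 5
      · subst h; rw [hk5]; decide +kernel
      · rw [hkx i (by omega)]
        have hb : ∀ i < 5, pt (bpt i) ∈ st 0x80002f := by decide +kernel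
        exact hb i (by omega)
    · rw [card_st, Finset.card_smul_finset, hE]; decide
  have hc5 : k * g * k⁻¹ ∈ chain 5 := by
    refine ⟨M24.mul_mem (M24.mul_mem hk hg) (M24.inv_mem hk), ?_⟩
    intro p hp
    have hp' : p ∈ k • (o \ o') := by
      rw [hEk]; revert hp; revert p; decide +kernel
    rw [mem_smul_iff] at hp'
    rw [Equiv.Perm.mul_apply, Equiv.Perm.mul_apply]
    show k (g (k.symm p)) = p
    rw [hfix _ hp', Equiv.apply_symm_apply]
  obtain ⟨c, hc, hcv, e⟩ := mem_chain5 hc5
  obtain ⟨w, hw, e'⟩ := exists_comb (s := k • o') (mem_octads.1 (smul_mem_octads hk ho')).1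
  have h3 := of_allB dat (i := w) (Nat.zero_le _) (by simpa using hw)
  simp only [Bool.or_eq_true, Bool.not_eq_true', beq_eq_false_iff_ne, ne_eq, List.all_eq_true,
    beq_iff_eq] at h3
  have a1 : pc (comb w) = 8 := by rw [← card_st, ← e', Finset.card_smul_finset]; exact (mem_octads.1 ho').2
  have a2 : comb w &&& oct0 = oct0 ^^^ 0x80002f := by
    apply st_inj (lt_of_le_of_lt Nat.and_le_left (comb_lt w)) (by decide)
    rw [st_and, ← e', ← hko, ← smul_inter']
    have h4 : o' ∩ o = o \ (o \ o') := by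
      rw [sdiff_sdiff_right_self, Finset.inter_comm]; rfl
    rw [h4, Finset.smul_finset_sdiff, hEk, hko]
    decide +kernel
  have a3 : fixesB c 0x80002f = true := by
    rw [fixesB_iff hcv, ← e]
    intro p hp
    rw [← hEk, mem_smul_iff] at hp
    rw [Equiv.Perm.mul_apply, Equiv.Perm.mul_apply]
    show k (g (k.symm p)) = p
    rw [hfix _ hp, Equiv.apply_symm_apply]
  have a4 : act c (comb w) = comb w := by
    apply st_inj (act_lt hcv _) (comb_lt w)
    rw [← pm_smul_st hcv, ← e, ← e', mul_smul, mul_smul, inv_smul_smul, hgo']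
  rcases h3 with (h3 | h3) | h3
  · exact absurd a1 h3
  · exact absurd a2 h3
  · rcases h3 c hc with (h3 | h3) | h3
    · have h5 : k * g * k⁻¹ = 1 := by rw [e, h3, pm_idc]
      have : g = k⁻¹ * (k * g * k⁻¹) * k := by group
      rw [this, h5]; group
    · rw [a3] at h3; exact absurd h3 (by simp)
    · exact absurd a4 h3

/-- In the group of the length-24 code, the joint stabiliser of two octads meeting in exactly two points is isomorphic to the symmetric group of degree 6. -/
theorem result (o o' : Finset Cfsg.GolayPt) (ho : o ∈ Cfsg.octads) (ho' : o' ∈ Cfsg.octads) (h₂ : (o ∩ o').card = 2) : Nonempty (↥(MulAction.stabilizer Cfsg.M24 o ⊓ MulAction.stabilizer Cfsg.M24 o') ≃* Equiv.Perm (Fin 6)) := by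
  have hE : (o \ o').card = 6 := by
    have := Finset.card_sdiff_add_card_inter o o'
    rw [h₂, (mem_octads.1 ho).2] at this
    omega
  have hinv : ∀ g ∈ MulAction.stabilizer Cfsg.M24 o ⊓ MulAction.stabilizer Cfsg.M24 o', ∀ x ∈ o \ o', g • x ∈ o \ o' := by
    rintro g ⟨h1, h2⟩ x hx
    have e1 : (g : Equiv.Perm GolayPt) • o = o := h1
    have e2 : (g : Equiv.Perm GolayPt) • o' = o' := h2
    have e3 : (g : Equiv.Perm GolayPt) • (o \ o') = o \ o' := by rw [Finset.smul_finset_sdiff, e1, e2]
    have := (smul_mem_smul_iff' (g : Equiv.Perm GolayPt) (o \ o') x).2 hx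
    rw [e3] at this
    exact this
  have hinj : ∀ g ∈ MulAction.stabilizer Cfsg.M24 o ⊓ MulAction.stabilizer Cfsg.M24 o', (∀ x ∈ o \ o', g • x = x) → g = 1 := by
    rintro g ⟨h1, h2⟩ h
    exact Subtype.ext (inj ho ho' h₂ g.2 h2 h)
  apply equiv_perm_of _ (o \ o') hinv hE hinj
  apply restrHom_surjective _ _ hinv hE (k := 1) _ (by norm_num)
  · rw [(S5613.result o o' ho ho').2.2 h₂]; decide
  · rw [Set.ncard_eq_one]
    refine ⟨1, ?_⟩
    ext g
    constructor
    · rintro ⟨h1, h2⟩; exact hinj g h1 h2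
    · rintro rfl; exact ⟨Subgroup.one_mem _, fun x _ => one_smul _ x⟩

end Cfsg.Agent.S5614
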