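import Cfsg.Statements.S5615
import Cfsg.Agent.Lib.Golay.OctStab

set_option autoImplicit false
open scoped Pointwise
open Cfsg

namespace Cfsg.Agent.S5615

open Cfsg Cfsg.Agent.Lib.Golay Finset
open scoped Pointwise

theorem sext_map {S S' : Finset (Finset GolayPt)} (hS : S ∈ sextets) (hS' : S' ∈ sextets)
    (x : Fin 4 ↪ ↥S) (y : Fin 4 ↪ ↥S') : ∃ g ∈ M24, ∀ i, g • (x i : Finset GolayPt) = y i := by
  obtain ⟨k, hk, e⟩ := sextets_transitive hS hS'
  have hm : ∀ i, k • (x i : Finset GolayPt) ∈ S' := by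
    intro i; rw [← e]; exact smul_mem_smul_finset (x i).2
  let z : Fin 4 ↪ ↥S' := ⟨fun i => ⟨k • (x i : Finset GolayPt), hm i⟩, by
    intro i j h
    have h1 := congrArg Subtype.val h
    exact x.injective (Subtype.ext (smul_left_cancel _ h1))⟩
  obtain ⟨σ, hσ⟩ := Equiv.Perm.exists_smul_eq_embedding z y
  obtain ⟨g, hg, hgσ⟩ := sextet_perm hS' σ
  refine ⟨(g : Equiv.Perm GolayPt) * k, M24.mul_mem g.2 hk, fun i => ?_⟩
  rw [mul_smul, ← hσ]
  exact hgσ (z i)

theorem sext_map4 {S S' : Finset (Finset GolayPt)} (hS : S ∈ sextets) (hS' : S' ∈ sextets)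
    {t t' : Fin 4 → Finset GolayPt} (ht : ∀ i, t i ∈ S) (hi : Function.Injective t) (ht' : ∀ i, t' i ∈ S')
    (hi' : Function.Injective t') : ∃ g ∈ M24, ∀ i, g • t i = t' i :=
  sext_map hS hS' ⟨fun i => ⟨t i, ht i⟩, fun i j h => hi (congrArg Subtype.val h)⟩
    ⟨fun i => ⟨t' i, ht' i⟩, fun i j h => hi' (congrArg Subtype.val h)⟩

theorem sdiff_mem_sext {t u : Finset GolayPt} (hu : u ∈ octads) (h : t ⊆ u) : u \ t ∈ sext t := by
  unfold sext
  rw [mem_insert]
  right
  rw [mem_image]
  refine ⟨u, ?_, rfl⟩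
  rw [mem_filter]
  refine ⟨?_, h⟩
  simpa [Lib.Steiner.blk] using hu

/-- the octads of a trio other than a given one -/
theorem third {o : Finset GolayPt} (ho : o ∈ octads) {T : Finset (Finset GolayPt)} (hT : T ∈ trios) (ho' : o ∈ T) :
    ∃ a a' : Finset GolayPt, a ∈ octads ∧ a' ∈ octads ∧
      Disjoint o a ∧ Disjoint o a' ∧ Disjoint a a' ∧ a ∪ a' = oᶜ ∧ T = trio a a' := by
  obtain ⟨a, ha⟩ : (T.erase o).Nonempty := by
    rw [← card_pos, card_erase_of_mem ho', hT.1]; norm_num
  rw [mem_erase] at ha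
  have hTe := trio_eq hT ho' ha.2 ha.1.symm
  have haO := hT.2.1 a ha.2
  have hd : Disjoint o a := hT.2.2 o ho' a ha.2 ha.1.symm
  have h3 := third_octad ho haO hd
  have hne3 := (trio_ne ho haO hd).2.2
  have hc : (o ∪ a)ᶜ ∈ T := by rw [hTe]; unfold trio; simp
  refine ⟨a, (o ∪ a)ᶜ, haO, h3, hd, ?_, ?_, ?_, trio_eq hT ha.2 hc hne3⟩
  · rw [disjoint_left]; intro x hx hx'; rw [mem_compl, mem_union] at hx'; exact hx' (Or.inl hx)
  · rw [disjoint_left]; intro x hx hx'; rw [mem_compl, mem_union] at hx'; exact hx' (Or.inr hx)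
  · ext x
    have := fun h : x ∈ o => disjoint_left.1 hd h
    simp only [mem_union, mem_compl]; tauto

/-- the configuration of two trios sharing an octad -/
theorem config {o : Finset GolayPt} (ho : o ∈ octads) {T1 T2 : Finset (Finset GolayPt)} (h1 : T1 ∈ trios) (h2 : T2 ∈ trios)
    (o1 : o ∈ T1) (o2 : o ∈ T2) (hne : T1 ≠ T2) : ∃ S ∈ sextets, ∃ t : Fin 4 → Finset GolayPt, (∀ i, t i ∈ S) ∧
      Function.Injective t ∧ T1 = trio (t 0 ∪ t 1) (t 2 ∪ t 3) ∧ T2 = trio (t 0 ∪ t 2) (t 1 ∪ t 3) ∧
      o = (t 0 ∪ t 1 ∪ (t 2 ∪ t 3))ᶜ := by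
  obtain ⟨a, a', ha, ha', da, da', daa, ua, Ta⟩ := third ho h1 o1
  obtain ⟨b, b', hb, hb', db, db', dbb, ub, Tb⟩ := third ho h2 o2
  have hoc := (mem_octads.1 ho).2
  have key : ∀ {u u' v : Finset GolayPt}, u ∈ octads → u' ∈ octads → v ∈ octads → Disjoint u u' → u ∪ u' = oᶜ → Disjoint o v →
      (u ∩ v).card = 4 ∨ u = v ∨ u' = v := by
    intro u u' v hu hu' hv d1 d2 d3
    have h4 : (u ∩ v).card + (u' ∩ v).card = 8 := by
      rw [← card_union_of_disjoint (Disjoint.mono inter_subset_left inter_subset_left d1), ← union_inter_distrib_right, d2,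
        ← (mem_octads.1 hv).2]
      congr 1
      ext x
      have := fun h : x ∈ o => disjoint_left.1 d3 h
      simp only [mem_inter, mem_compl]; tauto
    have c1 := octad_inter hu hv
    have c2 := octad_inter hu' hv
    have e8 : ∀ {p q : Finset GolayPt}, p ∈ octads → q ∈ octads → (p ∩ q).card = 8 → p = q := by
      intro p q hp hq h
      exact eq_of_inter_card (mem_octads.1 hp).2 (mem_octads.1 hq).2 h
    rcases c1 with c | c | c | c
    · right; right; exact e8 hu' hv (by omega)
    · exfalso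
      rcases c2 with d | d | d | d <;> omega
    · left; exact c
    · right; left; exact e8 hu hv c
  have ca := (mem_octads.1 ha).2
  have ca' := (mem_octads.1 ha').2
  have cb := (mem_octads.1 hb).2
  have cb' := (mem_octads.1 hb').2
  -- trios containing a common second octad are equal
  have hnab : ∀ u ∈ T1, u ∈ T2 → u ≠ o → False := by
    intro u hu1 hu2 huo
    exact hne ((trio_eq h1 o1 hu1 huo.symm).trans (trio_eq h2 o2 hu2 huo.symm).symm)
  have a1 : a ∈ T1 := by rw [Ta]; unfold trio; simp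
  have a1' : a' ∈ T1 := by rw [Ta]; unfold trio; simp
  have b1 : b ∈ T2 := by rw [Tb]; unfold trio; simp
  have b1' : b' ∈ T2 := by rw [Tb]; unfold trio; simp
  have neo : ∀ {u : Finset GolayPt}, u ∈ octads → Disjoint o u → u ≠ o := by
    rintro u hu hd rfl
    rw [disjoint_self] at hd
    rw [hd] at hoc
    exact absurd hoc (by decide)
  have i1 : (a ∩ b).card = 4 := by
    rcases key ha ha' hb daa ua db with h | h | h
    · exact h
    · exact (hnab b (h ▸ a1) b1 (neo hb db)).elim
    · exact (hnab b (h ▸ a1') b1 (neo hb db)).elim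
  have i2 : (a ∩ b').card = 4 := by
    rcases key ha ha' hb' daa ua db' with h | h | h
    · exact h
    · exact (hnab b' (h ▸ a1) b1' (neo hb' db')).elim
    · exact (hnab b' (h ▸ a1') b1' (neo hb' db')).elim
  have i3 : (a' ∩ b).card = 4 := by
    rcases key ha' ha hb daa.symm (by rw [union_comm]; exact ua) db with h | h | h
    · exact h
    · exact (hnab b (h ▸ a1') b1 (neo hb db)).elim
    · exact (hnab b (h ▸ a1) b1 (neo hb db)).elim
  have i4 : (a' ∩ b').card = 4 := by
    rcases key ha' ha hb' daa.symm (by rw [union_comm]; exact ua) db' with h | h | h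
    · exact h
    · exact (hnab b' (h ▸ a1') b1' (neo hb' db')).elim
    · exact (hnab b' (h ▸ a1) b1' (neo hb' db')).elim
  have memc : ∀ x, x ∉ o ↔ x ∈ a ∨ x ∈ a' := by
    intro x; rw [← mem_union, ua, mem_compl]
  have memc' : ∀ x, x ∉ o ↔ x ∈ b ∨ x ∈ b' := by
    intro x; rw [← mem_union, ub, mem_compl]
  have dab : ∀ x, x ∈ a → x ∉ a' := fun x => fun h => disjoint_left.1 daa h
  have dbb' : ∀ x, x ∈ b → x ∉ b' := fun x => fun h => disjoint_left.1 dbb h
  have s2 : a ∩ b' = a \ (a ∩ b) := by
    ext x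
    have := memc x; have := memc' x; have := dab x; have := dbb' x
    simp only [mem_inter, mem_sdiff]; tauto
  have s3 : a' ∩ b = b \ (a ∩ b) := by
    ext x
    have := memc x; have := memc' x; have := dab x; have := dbb' x
    simp only [mem_inter, mem_sdiff]; tauto
  have s4 : a' ∩ b' = b' \ (a ∩ b') := by
    ext x
    have := memc x; have := memc' x; have := dab x; have := dbb' x
    simp only [mem_inter, mem_sdiff]; tauto
  have hS := sext_mem i1
  have m2 : a ∩ b' ∈ sext (a ∩ b) := by rw [s2]; exact sdiff_mem_sext ha inter_subset_left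
  have m3 : a' ∩ b ∈ sext (a ∩ b) := by rw [s3]; exact sdiff_mem_sext hb inter_subset_right
  have m4 : a' ∩ b' ∈ sext (a ∩ b) := by
    rw [sextet_eq hS m2, s4]; exact sdiff_mem_sext hb' inter_subset_right
  refine ⟨sext (a ∩ b), hS, ![a ∩ b, a ∩ b', a' ∩ b, a' ∩ b'], ?_, ?_, ?_, ?_, ?_⟩
  · intro i
    fin_cases i
    · exact mem_sext_self _
    · exact m2
    · exact m3
    · exact m4
  · have dne : ∀ {u v : Finset GolayPt}, u.card = 4 → Disjoint u v → u ≠ v := by
      rintro u v hu hd rfl
      rw [disjoint_self] at hd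
      rw [hd] at hu
      exact absurd hu (by decide)
    have n12 := dne i1 (Disjoint.mono inter_subset_right inter_subset_right dbb : Disjoint (a ∩ b) (a ∩ b'))
    have n13 := dne i1 (Disjoint.mono inter_subset_left inter_subset_left daa : Disjoint (a ∩ b) (a' ∩ b))
    have n14 := dne i1 (Disjoint.mono inter_subset_left inter_subset_left daa : Disjoint (a ∩ b) (a' ∩ b'))
    have n23 := dne i2 (Disjoint.mono inter_subset_left inter_subset_left daa : Disjoint (a ∩ b') (a' ∩ b))
    have n24 := dne i2 (Disjoint.mono inter_subset_left inter_subset_left daa : Disjoint (a ∩ b') (a' ∩ b'))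
    have n34 := dne i3 (Disjoint.mono inter_subset_right inter_subset_right dbb : Disjoint (a' ∩ b) (a' ∩ b'))
    intro i j h
    fin_cases i <;> fin_cases j
    · rfl
    · exact absurd h n12
    · exact absurd h n13
    · exact absurd h n14
    · exact absurd h n12.symm
    · rfl
    · exact absurd h n23
    · exact absurd h n24
    · exact absurd h n13.symm
    · exact absurd h n23.symm
    · rfl
    · exact absurd h n34
    · exact absurd h n14.symm
    · exact absurd h n24.symm
    · exact absurd h n34.symm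
    · rfl
  · show T1 = trio (a ∩ b ∪ a ∩ b') (a' ∩ b ∪ a' ∩ b')
    have e1 : a ∩ b ∪ a ∩ b' = a := by
      ext x
      have := memc x; have := memc' x; have := dab x; have := dbb' x
      simp only [mem_inter, mem_union]; tauto
    have e2 : a' ∩ b ∪ a' ∩ b' = a' := by
      ext x
      have := memc x; have := memc' x; have := dab x; have := dbb' x
      simp only [mem_inter, mem_union]; tauto
    rw [e1, e2]; exact Ta
  · show T2 = trio (a ∩ b ∪ a' ∩ b) (a ∩ b' ∪ a' ∩ b')
    have e1 : a ∩ b ∪ a' ∩ b = b := by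
      ext x
      have := memc x; have := memc' x; have := dab x; have := dbb' x
      simp only [mem_inter, mem_union]; tauto
    have e2 : a ∩ b' ∪ a' ∩ b' = b' := by
      ext x
      have := memc x; have := memc' x; have := dab x; have := dbb' x
      simp only [mem_inter, mem_union]; tauto
    rw [e1, e2]; exact Tb
  · show o = (a ∩ b ∪ a ∩ b' ∪ (a' ∩ b ∪ a' ∩ b'))ᶜ
    ext x
    have := memc x; have := memc' x; have := dab x; have := dbb' x
    simp only [mem_inter, mem_union, mem_compl]; tauto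

theorem fixes_trio {o : Finset GolayPt} (ho : o ∈ octads) {g : Equiv.Perm GolayPt} (hg : g ∈ M24) (hgo : g • o = o)
    (h : ∀ p ∈ o, g p = p) {T : Finset (Finset GolayPt)} (hT : T ∈ trios) (hoT : o ∈ T) : g • T = T := by
  obtain ⟨a, a', ha, ha', da, da', daa, ua, Ta⟩ := third ho hT hoT
  have hT2 : T = trio o a := by
    apply trio_eq hT hoT
    · rw [Ta]; unfold trio; simp
    · rintro rfl
      have := (mem_octads.1 ho).2
      rw [disjoint_self] at da
      rw [da] at this
      exact absurd this (by decide)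
  rw [hT2, smul_trio, hgo]
  rcases fixOct_disj ho hg h ha da with e | e
  · rw [e]
  · rw [e]
    symm
    apply trio_eq (trio_mem ho ha da)
    · unfold trio; simp
    · unfold trio; simp
    · exact (trio_ne ho ha da).2.1

/-- An octad of the length-24 code lies in exactly 15 trios; the stabiliser of the octad in the code's group acts doubly transitively on these 15 trios, and the kernel of this action is the pointwise stabiliser of the octad. -/
theorem result (o : Finset Cfsg.GolayPt) (ho : o ∈ Cfsg.octads) : {T : Finset (Finset Cfsg.GolayPt) | T ∈ Cfsg.trios ∧ o ∈ T}.ncard = 15 ∧ (∀ T₁ T₂ T₁' T₂' : Finset (Finset Cfsg.GolayPt), T₁ ∈ Cfsg.trios → T₂ ∈ Cfsg.trios → T₁' ∈ Cfsg.trios → T₂' ∈ Cfsg.trios → o ∈ T₁ → o ∈ T₂ → o ∈ T₁' → o ∈ T₂' → T₁ ≠ T₂ → T₁' ≠ T₂' → ∃ g ∈ Cfsg.M24, g • o = o ∧ g • T₁ = T₁' ∧ g • T₂ = T₂') ∧ ∀ g ∈ Cfsg.M24, g • o = o → ((∀ T ∈ Cfsg.trios, o ∈ T → g • T = T) ↔ ∀ p ∈ o, g p = p) := by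
  refine ⟨ncard_trios_through ho, ?_, ?_⟩
  · intro T₁ T₂ T₁' T₂' h1 h2 h1' h2' o1 o2 o1' o2' hne hne'
    obtain ⟨S, hS, t, ht, hi, e1, e2, e3⟩ := config ho h1 h2 o1 o2 hne
    obtain ⟨S', hS', t', ht', hi', e1', e2', e3'⟩ := config ho h1' h2' o1' o2' hne'
    obtain ⟨g, hg, hgt⟩ := sext_map4 hS hS' ht hi ht' hi'
    refine ⟨g, hg, ?_, ?_, ?_⟩
    · nth_rewrite 1 [e3]
      rw [smul_compl', smul_finset_union, smul_finset_union, smul_finset_union, hgt, hgt, hgt, hgt, ← e3']
    · rw [e1, smul_trio, smul_finset_union, smul_finset_union, hgt, hgt, hgt, hgt, ← e1']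
    · rw [e2, smul_trio, smul_finset_union, smul_finset_union, hgt, hgt, hgt, hgt, ← e2']
  · intro g hg hgo
    constructor
    · intro h
      obtain ⟨k, hk, e⟩ := octads_transitive oct0_mem ho
      subst e
      have h1 : (k⁻¹ * g * k) ∈ M24 := M24.mul_mem (M24.mul_mem (M24.inv_mem hk) hg) hk
      have hgo1 : (k⁻¹ * g * k) • st oct0 = st oct0 := by
        rw [mul_smul, mul_smul, hgo, inv_smul_smul]
      have h2 : ∀ T ∈ trios, st oct0 ∈ T → (k⁻¹ * g * k) • T = T := by
        intro T hT hoT
        have := h (k • T) (smul_mem_trios hk hT) (smul_mem_smul_finset hoT)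
        rw [mul_smul, mul_smul, this, inv_smul_smul]
      have h4 : pt 4 ∉ st oct0 := by decide +kernel
      have hg4 : (k⁻¹ * g * k) (pt 4) ∉ st oct0 := by
        intro h5
        apply h4
        have h6 := smul_mem_smul_iff' (k⁻¹ * g * k) (st oct0) (pt 4)
        rw [hgo1] at h6
        exact h6.1 h5
      obtain ⟨e, he, e1, e2⟩ := fixOct_trans0 h4 hg4
      have heo : e • st oct0 = st oct0 := by
        apply Finset.eq_of_subset_of_card_le
        · intro p hp
          rw [mem_smul_iff] at hp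
          have := e1 _ hp
          rw [Equiv.apply_symm_apply] at this
          rw [this]; exact hp
        · rw [Finset.card_smul_finset]
      have h5 : e⁻¹ * (k⁻¹ * g * k) = 1 := by
        apply eq_one_of_dis4 (M24.mul_mem (M24.inv_mem he) h1)
        · rw [Equiv.Perm.mul_apply, ← e2]; exact e.symm_apply_apply _
        · intro a ha hda ha4
          have hT := trio_mem oct0_mem ha hda
          have hoT : st oct0 ∈ trio (st oct0) a := by unfold trio; simp
          have f1 := h2 _ hT hoT
          have f2 : e • trio (st oct0) a = trio (st oct0) a := fixes_trio oct0_mem he heo e1 hT hoT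
          have f3 : (e⁻¹ * (k⁻¹ * g * k)) • trio (st oct0) a = trio (st oct0) a := by
            rw [mul_smul, f1, inv_smul_eq_iff, f2]
          have f4 : (e⁻¹ * (k⁻¹ * g * k)) (pt 4) = pt 4 := by
            rw [Equiv.Perm.mul_apply, ← e2]; exact e.symm_apply_apply _
          have f5 : (e⁻¹ * (k⁻¹ * g * k)) • a ∈ trio (st oct0) a := by
            rw [← f3]
            apply smul_mem_smul_finset
            unfold trio; simp
          have f6 : pt 4 ∈ (e⁻¹ * (k⁻¹ * g * k)) • a := by
            have := (smul_mem_smul_iff' (e⁻¹ * (k⁻¹ * g * k)) a (pt 4)).2 ha4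
            rw [f4] at this
            exact this
          unfold trio at f5
          simp only [mem_insert, mem_singleton] at f5
          rcases f5 with f5 | f5 | f5
          · rw [f5] at f6; exact absurd f6 h4
          · exact f5
          · rw [f5, mem_compl, mem_union] at f6
            exact absurd (Or.inr ha4) f6
      have h6 : g = k * e * k⁻¹ := by
        have : g = k * (e * (e⁻¹ * (k⁻¹ * g * k))) * k⁻¹ := by group
        rw [this, h5]; group
      intro p hp
      rw [mem_smul_iff] at hp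
      rw [h6, Equiv.Perm.mul_apply, Equiv.Perm.mul_apply]
      show k (e (k.symm p)) = p
      rw [e1 _ hp, Equiv.apply_symm_apply]
    · intro h T hT hoT
      exact fixes_trio ho hg hgo h hT hoT

end Cfsg.Agent.S5615
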