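import Cfsg.Statements.S5616
import Cfsg.Agent.Lib.Golay.OrbUse

set_option autoImplicit false
open scoped Pointwise
open Cfsg

namespace Cfsg.Agent.S5616

open Cfsg Cfsg.Agent.Lib.Golay Finset
open scoped Pointwise

/-- number of tetrads of `S` meeting `Y` -/
theorem tr_sum {S : Finset (Finset GolayPt)} (hS : S ∈ sextets) (Y : Finset GolayPt) : ∑ t ∈ S, (t ∩ Y).card = Y.card := by
  have hun : S.biUnion (fun t => t) = univ := by
    apply Finset.eq_of_subset_of_card_le (subset_univ _)
    rw [card_biUnion (fun t ht u hu htu => sextet_disjoint hS ht hu htu), show (univ : Finset GolayPt).card = 24 by decide]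
    rw [show ∑ t ∈ S, t.card = ∑ t ∈ S, 4 from sum_congr rfl (fun t ht => hS.2.1 t ht), sum_const, hS.1]
    norm_num
  rw [← card_biUnion]
  · congr 1
    ext p
    rw [mem_biUnion]
    constructor
    · rintro ⟨t, _, h⟩; exact (mem_inter.1 h).2
    · intro hp
      have := mem_univ p
      rw [← hun, mem_biUnion] at this
      obtain ⟨t, ht, h⟩ := this
      exact ⟨t, ht, mem_inter.2 ⟨h, hp⟩⟩
  · intro t ht u hu htu
    exact Disjoint.mono inter_subset_left inter_subset_left (sextet_disjoint hS ht hu htu)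

theorem filter_eq {S : Finset (Finset GolayPt)} (Y : Finset GolayPt) :
    (S.filter fun t => (t ∩ Y).Nonempty) = S.filter fun t => 0 < (t ∩ Y).card := by
  apply filter_congr
  intro t _
  rw [card_pos]

theorem exists_big {S : Finset (Finset GolayPt)} (hS : S ∈ sextets) {Y : Finset GolayPt} (hY : Y.card = 3) :
    let n := (S.filter fun t => (t ∩ Y).Nonempty).card
    (n = 1 ∧ ∃ t ∈ S, (t ∩ Y).card = 3) ∨ (n = 2 ∧ ∃ t ∈ S, (t ∩ Y).card = 2) ∨
    (n = 3 ∧ ∀ t ∈ S, (t ∩ Y).card ≤ 1) := by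
  intro n
  have h1 := tr_sum hS Y
  rw [hY] at h1
  have hle : ∀ t ∈ S, (t ∩ Y).card ≤ 3 := fun t _ => by rw [← hY]; exact card_le_card inter_subset_right
  have h2 : ∑ t ∈ (S.filter fun t => (t ∩ Y).Nonempty), (t ∩ Y).card = 3 := by
    rw [← h1]
    apply sum_filter_of_ne
    intro t _ h
    rw [← card_pos]; omega
  by_cases h3 : ∃ t ∈ S, (t ∩ Y).card = 3
  · left
    refine ⟨?_, h3⟩
    obtain ⟨t, ht, h⟩ := h3
    have htm : t ∈ (S.filter fun t => (t ∩ Y).Nonempty) := by
      rw [mem_filter, ← card_pos]; exact ⟨ht, by omega⟩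
    have h4 : (t ∩ Y).card + _ = _ := add_sum_erase _ (fun t => (t ∩ Y).card) htm
    rw [h2, h] at h4
    have h5 : ((S.filter fun t => (t ∩ Y).Nonempty).erase t).card ≤ ∑ u ∈ (S.filter fun t => (t ∩ Y).Nonempty).erase t, (u ∩ Y).card := by
      rw [card_eq_sum_ones]
      apply sum_le_sum
      intro u hu
      have := (mem_filter.1 (mem_of_mem_erase hu)).2
      rw [← card_pos] at this; exact this
    rw [card_erase_of_mem htm] at h5
    have : 0 < n := card_pos.2 ⟨t, htm⟩
    omega
  · right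
    by_cases h2' : ∃ t ∈ S, (t ∩ Y).card = 2
    · left
      refine ⟨?_, h2'⟩
      obtain ⟨t, ht, h⟩ := h2'
      have htm : t ∈ (S.filter fun t => (t ∩ Y).Nonempty) := by
        rw [mem_filter, ← card_pos]; exact ⟨ht, by omega⟩
      have h4 : (t ∩ Y).card + _ = _ := add_sum_erase _ (fun t => (t ∩ Y).card) htm
      rw [h2, h] at h4
      have h5 : ((S.filter fun t => (t ∩ Y).Nonempty).erase t).card ≤ ∑ u ∈ (S.filter fun t => (t ∩ Y).Nonempty).erase t, (u ∩ Y).card := by
        rw [card_eq_sum_ones]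
        apply sum_le_sum
        intro u hu
        have := (mem_filter.1 (mem_of_mem_erase hu)).2
        rw [← card_pos] at this; exact this
      have h6 : ((S.filter fun t => (t ∩ Y).Nonempty).erase t).Nonempty := by
        rw [nonempty_iff_ne_empty]
        intro h7
        rw [h7, sum_empty] at h4
        omega
      rw [← card_pos, card_erase_of_mem htm] at h6
      rw [card_erase_of_mem htm] at h5
      omega
    · right
      have h4 : ∀ t ∈ S, (t ∩ Y).card ≤ 1 := by
        intro t ht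
        have := hle t ht
        by_contra h
        have : (t ∩ Y).card = 2 ∨ (t ∩ Y).card = 3 := by omega
        rcases this with h | h
        · exact h2' ⟨t, ht, h⟩
        · exact h3 ⟨t, ht, h⟩
      refine ⟨?_, h4⟩
      have h5 : ∑ t ∈ (S.filter fun t => (t ∩ Y).Nonempty), (t ∩ Y).card = ∑ t ∈ (S.filter fun t => (t ∩ Y).Nonempty), 1 := by
        apply sum_congr rfl
        intro u hu
        have h7 := (mem_filter.1 hu).2
        rw [← card_pos] at h7
        have := h4 u (mem_filter.1 hu).1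
        omega
      rw [h2, ← card_eq_sum_ones] at h5
      exact h5.symm

theorem ncard_big (Y : Finset GolayPt) (hY : Y.card = 3) {i : ℕ} (hi2 : 2 ≤ i) (hi4 : i ≤ 4) :
    {S : Finset (Finset GolayPt) | S ∈ sextets ∧ ∃ t ∈ S, (t ∩ Y).card = i}.ncard =
      Y.card.choose i * (24 - Y.card).choose (4 - i) := by
  rw [← ncard_kinter Y hi4]
  have : {S : Finset (Finset GolayPt) | S ∈ sextets ∧ ∃ t ∈ S, (t ∩ Y).card = i} =
      sext '' {y : Finset GolayPt | y.card = 4 ∧ (y ∩ Y).card = i} := by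
    ext S
    constructor
    · rintro ⟨hS, t, ht, h⟩
      exact ⟨t, ⟨hS.2.1 t ht, h⟩, (sextet_eq hS ht).symm⟩
    · rintro ⟨t, ⟨h1, h2⟩, rfl⟩
      exact ⟨sext_mem h1, t, mem_sext_self t, h2⟩
  rw [this]
  apply Set.ncard_image_of_injOn
  rintro t ⟨h1, h2⟩ u ⟨h3, h4⟩ h
  by_contra hne
  have hd := sextet_disjoint (sext_mem h1) (mem_sext_self t) (h ▸ mem_sext_self u) hne
  have h5 : ((t ∩ Y) ∪ (u ∩ Y)).card ≤ Y.card := card_le_card (union_subset inter_subset_right inter_subset_right)
  rw [card_union_of_disjoint (Disjoint.mono inter_subset_left inter_subset_left hd), h2, h4, hY] at h5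
  omega

theorem trans_big {Y : Finset GolayPt} (hY : Y.card = 3) {S S' : Finset (Finset GolayPt)} (hS : S ∈ sextets) (hS' : S' ∈ sextets)
    {i : ℕ} (hi : 2 ≤ i) {t t' : Finset GolayPt} (ht : t ∈ S) (ht' : t' ∈ S') (h : (t ∩ Y).card = i) (h' : (t' ∩ Y).card = i) :
    ∃ g ∈ M24, g • Y = Y ∧ g • S = S' := by
  have c1 := hS.2.1 t ht
  have c2 := hS'.2.1 t' ht'
  obtain ⟨g, hg, e1, e2⟩ := pair_trans (s := Y) (s' := Y) (y := t) (z := t') rfl (by rw [c1, c2]) (by rw [h, h']) (by
    have := card_union_add_card_inter Y t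
    rw [hY, c1, inter_comm, h] at this
    omega)
  refine ⟨g, hg, e1, ?_⟩
  rw [sextet_eq hS ht, sextet_eq hS' ht', smul_sext hg c1, e2]

/-- the sextet with the three points in different tetrads -/
theorem trans_small {Y : Finset GolayPt} (hY : Y.card = 3) {S S' : Finset (Finset GolayPt)} (hS : S ∈ sextets) (hS' : S' ∈ sextets)
    (h : ∀ t ∈ S, (t ∩ Y).card ≤ 1) (h' : ∀ t ∈ S', (t ∩ Y).card ≤ 1) :
    ∃ g ∈ M24, g • Y = Y ∧ g • S = S' := by
  obtain ⟨a, b, c, hab, hac, hbc, rfl⟩ := card_eq_three.1 hY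
  have tet : ∀ {S : Finset (Finset GolayPt)}, S ∈ sextets → ∀ p : GolayPt, ∃ t ∈ S, p ∈ t := by
    intro S hS p
    have hun : S.biUnion (fun t => t) = univ := by
      apply Finset.eq_of_subset_of_card_le (subset_univ _)
      rw [card_biUnion (fun t ht u hu htu => sextet_disjoint hS ht hu htu), show (univ : Finset GolayPt).card = 24 by decide]
      rw [show ∑ t ∈ S, t.card = ∑ t ∈ S, 4 from sum_congr rfl (fun t ht => hS.2.1 t ht), sum_const, hS.1]
      norm_num
    have := mem_univ p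
    rw [← hun, mem_biUnion] at this
    exact this
  have main : ∀ {S : Finset (Finset GolayPt)}, S ∈ sextets → (∀ t ∈ S, (t ∩ {a, b, c}).card ≤ 1) →
      ∃ t o : Finset GolayPt, t ∈ S ∧ o ∈ octads ∧ t ⊆ o ∧ a ∈ t ∧ b ∉ t ∧ b ∈ o ∧ c ∉ o := by
    intro S hS h
    obtain ⟨t, ht, hat⟩ := tet hS a
    obtain ⟨u, hu, hbu⟩ := tet hS b
    have two : ∀ v ∈ S, ∀ p q : GolayPt, p ∈ ({a, b, c} : Finset GolayPt) → q ∈ ({a, b, c} : Finset GolayPt) → p ≠ q → p ∈ v → q ∉ v := by
      intro v hv p q hp hq hpq hpv hqv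
      have h1 : ({p, q} : Finset GolayPt) ⊆ v ∩ {a, b, c} := by
        intro x hx
        rw [mem_insert, mem_singleton] at hx
        rcases hx with rfl | rfl
        · exact mem_inter.2 ⟨hpv, hp⟩
        · exact mem_inter.2 ⟨hqv, hq⟩
      have h2 := card_le_card h1
      rw [card_pair hpq] at h2
      have := h v hv
      omega
    have hbt : b ∉ t := two t ht a b (by simp) (by simp) hab hat
    have hct : c ∉ t := two t ht a c (by simp) (by simp) hac hat
    have hcu : c ∉ u := two u hu b c (by simp) (by simp) hbc hbu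
    have hne : t ≠ u := by rintro rfl; exact hbt hbu
    refine ⟨t, t ∪ u, ht, hS.2.2 t ht u hu hne, subset_union_left, hat, hbt, mem_union_right _ hbu, ?_⟩
    rw [mem_union, not_or]; exact ⟨hct, hcu⟩
  obtain ⟨t, o, ht, ho, hto, hat, hbt, hbo, hco⟩ := main hS h
  obtain ⟨t', o', ht', ho', hto', hat', hbt', hbo', hco'⟩ := main hS' h'
  have c1 := hS.2.1 t ht
  have c2 := hS'.2.1 t' ht'
  obtain ⟨g, hg, e1, e2, e3, e4, -⟩ := exists_map_sets_out (A := {a}) (B := t.erase a) (C := {b}) (A' := {a}) (B' := t'.erase a) (C' := {b})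
    (a := c) (b := c) (o := o) (o' := o')
    (disjoint_singleton_left.2 (notMem_erase a t)) (disjoint_singleton.2 hab)
    (disjoint_singleton_right.2 (fun h => hbt (mem_of_mem_erase h)))
    (disjoint_singleton_left.2 (notMem_erase a t')) (disjoint_singleton.2 hab)
    (disjoint_singleton_right.2 (fun h => hbt' (mem_of_mem_erase h)))
    rfl (by rw [card_erase_of_mem hat, card_erase_of_mem hat', c1, c2]) rfl
    (by rw [card_erase_of_mem hat, c1, card_singleton, card_singleton]) ho ho'
    (singleton_subset_iff.2 (hto hat)) ((erase_subset _ _).trans hto) (singleton_subset_iff.2 hbo)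
    (singleton_subset_iff.2 (hto' hat')) ((erase_subset _ _).trans hto') (singleton_subset_iff.2 hbo') hco hco'
  have hga : g a = a := by
    rw [smul_finset_singleton, singleton_inj] at e1; exact e1
  have hgb : g b = b := by
    rw [smul_finset_singleton, singleton_inj] at e3; exact e3
  refine ⟨g, hg, ?_, ?_⟩
  · rw [smul_finset_insert, smul_finset_insert, smul_finset_singleton]
    show {g a, g b, g c} = _
    rw [hga, hgb, e4]
  · have hgt : g • t = t' := smul_erase' g hat hat' e2 hga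
    rw [sextet_eq hS ht, sextet_eq hS' ht', smul_sext hg c1, hgt]

/-- Let Y be a set of 3 of the 24 points. The sextets of the length-24 code whose tetrads meeting Y number 1, 2 or 3 are respectively 21, 630 and 1120 in number, and two sextets with the same number of tetrads meeting Y are conjugate under the setwise stabiliser of Y in the code's group. -/
theorem result (Y : Finset Cfsg.GolayPt) (hY : Y.card = 3) : {S : Finset (Finset Cfsg.GolayPt) | S ∈ Cfsg.sextets ∧ (S.filter fun t => (t ∩ Y).Nonempty).card = 1}.ncard = 21 ∧ {S : Finset (Finset Cfsg.GolayPt) | S ∈ Cfsg.sextets ∧ (S.filter fun t => (t ∩ Y).Nonempty).card = 2}.ncard = 630 ∧ {S : Finset (Finset Cfsg.GolayPt) | S ∈ Cfsg.sextets ∧ (S.filter fun t => (t ∩ Y).Nonempty).card = 3}.ncard = 1120 ∧ ∀ S S' : Finset (Finset Cfsg.GolayPt), S ∈ Cfsg.sextets → S' ∈ Cfsg.sextets → (S.filter fun t => (t ∩ Y).Nonempty).card = (S'.filter fun t => (t ∩ Y).Nonempty).card → ∃ g ∈ Cfsg.M24, g • Y = Y ∧ g • S = S' := by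
  open Cfsg in
  have key : ∀ S ∈ Cfsg.sextets, ((S.filter fun t => (t ∩ Y).Nonempty).card = 1 ↔ ∃ t ∈ S, (t ∩ Y).card = 3) ∧
      ((S.filter fun t => (t ∩ Y).Nonempty).card = 2 ↔ ∃ t ∈ S, (t ∩ Y).card = 2) := by
    intro S hS
    rcases exists_big hS hY with ⟨h1, t, ht, h2⟩ | ⟨h1, t, ht, h2⟩ | ⟨h1, h2⟩
    · refine ⟨⟨fun _ => ⟨t, ht, h2⟩, fun _ => h1⟩, ⟨fun h => by omega, ?_⟩⟩
      rintro ⟨u, hu, h3⟩
      exfalso
      have hne : t ≠ u := by rintro rfl; omega
      have hd := sextet_disjoint hS ht hu hne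
      have h5 : ((t ∩ Y) ∪ (u ∩ Y)).card ≤ Y.card := card_le_card (union_subset inter_subset_right inter_subset_right)
      rw [card_union_of_disjoint (Disjoint.mono inter_subset_left inter_subset_left hd), h2, h3, hY] at h5
      omega
    · refine ⟨⟨fun h => by omega, ?_⟩, ⟨fun _ => ⟨t, ht, h2⟩, fun _ => h1⟩⟩
      rintro ⟨u, hu, h3⟩
      exfalso
      have hne : t ≠ u := by rintro rfl; omega
      have hd := sextet_disjoint hS ht hu hne
      have h5 : ((t ∩ Y) ∪ (u ∩ Y)).card ≤ Y.card := card_le_card (union_subset inter_subset_right inter_subset_right)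
      rw [card_union_of_disjoint (Disjoint.mono inter_subset_left inter_subset_left hd), h2, h3, hY] at h5
      omega
    · refine ⟨⟨fun h => by omega, ?_⟩, ⟨fun h => by omega, ?_⟩⟩
      · rintro ⟨u, hu, h3⟩; have := h2 u hu; omega
      · rintro ⟨u, hu, h3⟩; have := h2 u hu; omega
  have n1 : {S : Finset (Finset Cfsg.GolayPt) | S ∈ Cfsg.sextets ∧ (S.filter fun t => (t ∩ Y).Nonempty).card = 1}.ncard = 21 := by
    have : {S : Finset (Finset Cfsg.GolayPt) | S ∈ Cfsg.sextets ∧ (S.filter fun t => (t ∩ Y).Nonempty).card = 1} =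
        {S : Finset (Finset GolayPt) | S ∈ sextets ∧ ∃ t ∈ S, (t ∩ Y).card = 3} := by
      ext S
      exact and_congr_right (fun hS => (key S hS).1)
    rw [this, ncard_big Y hY (by norm_num) (by norm_num), hY]; decide
  have n2 : {S : Finset (Finset Cfsg.GolayPt) | S ∈ Cfsg.sextets ∧ (S.filter fun t => (t ∩ Y).Nonempty).card = 2}.ncard = 630 := by
    have : {S : Finset (Finset Cfsg.GolayPt) | S ∈ Cfsg.sextets ∧ (S.filter fun t => (t ∩ Y).Nonempty).card = 2} =
        {S : Finset (Finset GolayPt) | S ∈ sextets ∧ ∃ t ∈ S, (t ∩ Y).card = 2} := by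
      ext S
      exact and_congr_right (fun hS => (key S hS).2)
    rw [this, ncard_big Y hY (by norm_num) (by norm_num), hY]; decide
  refine ⟨n1, n2, ?_, ?_⟩
  · have htot := ncard_sextets
    have hun : Cfsg.sextets = ({S : Finset (Finset Cfsg.GolayPt) | S ∈ Cfsg.sextets ∧ (S.filter fun t => (t ∩ Y).Nonempty).card = 1} ∪
        {S : Finset (Finset Cfsg.GolayPt) | S ∈ Cfsg.sextets ∧ (S.filter fun t => (t ∩ Y).Nonempty).card = 2}) ∪
        {S : Finset (Finset Cfsg.GolayPt) | S ∈ Cfsg.sextets ∧ (S.filter fun t => (t ∩ Y).Nonempty).card = 3} := by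
      ext S
      constructor
      · intro hS
        rcases exists_big hS hY with ⟨h1, -⟩ | ⟨h1, -⟩ | ⟨h1, -⟩
        · exact Or.inl (Or.inl ⟨hS, h1⟩)
        · exact Or.inl (Or.inr ⟨hS, h1⟩)
        · exact Or.inr ⟨hS, h1⟩
      · rintro ((h | h) | h) <;> exact h.1
    have hfin : ∀ k, {S : Finset (Finset Cfsg.GolayPt) | S ∈ Cfsg.sextets ∧ (S.filter fun t => (t ∩ Y).Nonempty).card = k}.Finite :=
      fun k => sextets_finite.subset (fun S hS => hS.1)
    have hc := congrArg Set.ncard hun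
    rw [htot, Set.ncard_union_eq (by
        rw [Set.disjoint_left]
        rintro S (h1 | h1) h2
        · have := h1.2.symm.trans h2.2; omega
        · have := h1.2.symm.trans h2.2; omega) ((hfin 1).union (hfin 2)) (hfin 3),
      Set.ncard_union_eq (by
        rw [Set.disjoint_left]
        rintro S h1 h2
        have := h1.2.symm.trans h2.2; omega) (hfin 1) (hfin 2), n1, n2] at hc
    omega
  · intro S S' hS hS' h
    rcases exists_big hS hY with ⟨h1, t, ht, h2⟩ | ⟨h1, t, ht, h2⟩ | ⟨h1, h2⟩ <;>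
      rcases exists_big hS' hY with ⟨h1', h2'⟩ | ⟨h1', h2'⟩ | ⟨h1', h2'⟩
    all_goals first
      | (exfalso; omega)
      | (obtain ⟨t', ht', h2'⟩ := h2'; exact trans_big hY hS hS' (by norm_num) ht ht' h2 h2')
      | exact trans_small hY hS hS' h2 h2'

end Cfsg.Agent.S5616
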