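import Cfsg.Statements.S5617
import Cfsg.Agent.Lib.Golay.OrbD
import Cfsg.Agent.S5610

set_option autoImplicit false
open scoped Pointwise
open Cfsg

namespace Cfsg.Agent.S5617

open Cfsg Cfsg.Agent.Lib.Golay Finset
open scoped Pointwise

/-- The setwise stabiliser, in the group of the length-24 code, of a complementary pair of dodecads has exactly three orbits on the 1771 sextets, of sizes 396, 495 and 880. -/
theorem result (d : Finset Cfsg.GolayPt) (hd : d ∈ Cfsg.dodecads) : ∃ X₁ ∈ Cfsg.sextets, ∃ X₂ ∈ Cfsg.sextets, ∃ X₃ ∈ Cfsg.sextets, (MulAction.orbit ↥(MulAction.stabilizer Cfsg.M24 ({d, Finset.univ \ d} : Finset (Finset Cfsg.GolayPt))) X₁).ncard = 396 ∧ (MulAction.orbit ↥(MulAction.stabilizer Cfsg.M24 ({d, Finset.univ \ d} : Finset (Finset Cfsg.GolayPt))) X₂).ncard = 495 ∧ (MulAction.orbit ↥(MulAction.stabilizer Cfsg.M24 ({d, Finset.univ \ d} : Finset (Finset Cfsg.GolayPt))) X₃).ncard = 880 ∧ Cfsg.sextets = MulAction.orbit ↥(MulAction.stabilizer Cfsg.M24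 ({d, Finset.univ \ d} : Finset (Finset Cfsg.GolayPt))) X₁ ∪ MulAction.orbit ↥(MulAction.stabilizer Cfsg.M24 ({d, Finset.univ \ d} : Finset (Finset Cfsg.GolayPt))) X₂ ∪ MulAction.orbit ↥(MulAction.stabilizer Cfsg.M24 ({d, Finset.univ \ d} : Finset (Finset Cfsg.GolayPt))) X₃ := by
  obtain ⟨g, hg, e⟩ := dodecads_transitive dodU_mem hd
  have h : OrbRes (M24 ⊓ MulAction.stabilizer (Equiv.Perm GolayPt) (g • fs [dodU, dodUc])) sextets 3
      (fun k => [396, 495, 880].getD k 0) :=
    OrbRes.conj resPS (fun g hg _ h => smul_mem_sextets hg h) hg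
  have e2 : g • fs [dodU, dodUc] = ({d, Finset.univ \ d} : Finset (Finset GolayPt)) := by
    rw [fs_pair, smul_finset_insert, smul_finset_singleton, ← compl_eq_univ_sdiff, smul_compl', e, compl_eq_univ_sdiff]
  rw [e2] at h
  exact S5610.three h (by decide)

end Cfsg.Agent.S5617
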