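import Cfsg.Statements.S5618
import Cfsg.Agent.Lib.Golay.Restr
import Cfsg.Agent.Lib.Golay.SimpleD

set_option autoImplicit false
open scoped Pointwise
open Cfsg

namespace Cfsg.Agent.S5618

open Cfsg Cfsg.Agent.Lib.Golay
open scoped Pointwise

theorem inj {d C : Finset GolayPt} (hd : d ∈ dodecads) (hC : C ⊆ d) (hc : 5 ≤ C.card)
    {g : Equiv.Perm GolayPt} (hg : g ∈ M24) (hgd : g • d = d) (hfix : ∀ x ∈ C, g x = x) : g = 1 := by
  obtain ⟨x, hx1, hx2⟩ := exists_seq5 (s := C) (n := 5) hc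
  exact eq_one_of_dodecad hd hx2 (fun i hi => hC (hx1 i hi)) hg hgd (fun i hi => hfix _ (hx1 i hi))

theorem surj {d C : Finset GolayPt} (hd : d ∈ dodecads) (hC : C ∈ hexadsOn d) (σ : Equiv.Perm C) :
    ∃ g ∈ M24, g • d = d ∧ g • C = C ∧ ∀ x : C, g x = σ x := by
  obtain ⟨hc6, o, ho, hoC⟩ := hC
  have hCd : C ⊆ d := by rw [← hoC]; exact Finset.inter_subset_right
  have hCo : C ⊆ o := by rw [← hoC]; exact Finset.inter_subset_left
  obtain ⟨x, hx1, hx2, hx3⟩ := exists_enum hc6
  let y : ℕ → GolayPt := fun i => if h : i < 6 then (σ ⟨x i, hx1 i h⟩ : GolayPt) else none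
  have hy : ∀ i (h : i < 6), y i = σ ⟨x i, hx1 i h⟩ := fun i h => by simp only [y, h, dif_pos]
  have hy1 : ∀ i < 6, y i ∈ C := fun i hi => by rw [hy i hi]; exact (σ _).2
  have hy2 : ∀ i < 6, ∀ j < i, y j ≠ y i := by
    intro i hi j hj h
    rw [hy i hi, hy j (by omega)] at h
    have := congrArg Subtype.val (σ.injective (Subtype.ext h))
    exact hx2 i hi j hj this
  obtain ⟨g, hg, hgd, hgx⟩ := dod_map hd le_rfl (x := x) (y := y) (fun i hi j hj => hx2 i (by omega) j hj)
    (fun i hi => hCd (hx1 i (by omega))) (fun i hi j hj => hy2 i (by omega) j hj) (fun i hi => hCd (hy1 i (by omega)))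
  have hgo : g • o = o := by
    apply octad_eq (smul_mem_octads hg ho) ho
    have h2 : (Finset.range 5).image y ⊆ g • o ∩ o := by
      intro p hp
      rw [Finset.mem_image] at hp
      obtain ⟨i, hi, rfl⟩ := hp
      rw [Finset.mem_range] at hi
      rw [Finset.mem_inter]
      refine ⟨?_, hCo (hy1 i (by omega))⟩
      rw [← hgx i hi, smul_mem_smul_iff']
      exact hCo (hx1 i (by omega))
    have h3 : ((Finset.range 5).image y).card = 5 := by
      rw [Finset.card_image_of_injOn, Finset.card_range]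
      intro i hi j hj hij
      simp only [Finset.coe_range, Set.mem_Iio] at hi hj
      by_contra hne
      rcases Nat.lt_or_gt_of_ne hne with h | h
      · exact hy2 j (by omega) i h hij
      · exact hy2 i (by omega) j h hij.symm
    rw [← h3]; exact Finset.card_le_card h2
  have hgC : g • C = C := by rw [← hoC, smul_inter', hgo, hgd]
  have h5 : g (x 5) = y 5 := by
    have h6 : g (x 5) ∈ C := by
      rw [← hgC]; exact (smul_mem_smul_iff' g C _).2 (hx1 5 (by norm_num))
    have hy3 : ∃ i < 6, y i = g (x 5) := by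
      obtain ⟨i, hi, e⟩ := hx3 (σ.symm ⟨_, h6⟩) (σ.symm ⟨_, h6⟩).2
      refine ⟨i, hi, ?_⟩
      rw [hy i hi]
      have : (⟨x i, hx1 i hi⟩ : C) = σ.symm ⟨_, h6⟩ := Subtype.ext e
      rw [this, Equiv.apply_symm_apply]
    obtain ⟨i, hi, e⟩ := hy3
    by_cases h : i = 5
    · subst h; exact e.symm
    · exfalso
      rw [← hgx i (by omega)] at e
      exact hx2 5 (by norm_num) i (by omega) (g.injective e)
  refine ⟨g, hg, hgd, hgC, ?_⟩
  intro p
  obtain ⟨i, hi, e⟩ := hx3 p p.2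
  have : g (x i) = y i := by
    by_cases h : i = 5
    · subst h; exact h5
    · exact hgx i (by omega)
  rw [← e, this, hy i hi]
  congr 2
  exact Subtype.ext e

/-- For a dodecad d of the length-24 code and a hexad C on it (a 6-point intersection of d with an octad): the joint stabiliser of d and C in the code's group is isomorphic to the symmetric group of degree 6, and it acts faithfully both on the six points of C and on the six points of d outside C. -/
theorem result (d : Finset Cfsg.GolayPt) (hd : d ∈ Cfsg.dodecads) (C : Finset Cfsg.GolayPt) (hC : C ∈ Cfsg.hexadsOn d) : Nonempty (↥(MulAction.stabilizer Cfsg.M24 d ⊓ MulAction.stabilizer Cfsg.M24 C) ≃* Equiv.Perm (Fin 6)) ∧ (∀ g ∈ MulAction.stabilizer Cfsg.M24 d ⊓ MulAction.stabilizer Cfsg.M24 C, (∀ p ∈ C, ((g : ↥Cfsg.M24) : Equiv.Perm Cfsg.GolayPt) p = p) → g = 1) ∧ ∀ g ∈ MulAction.stabilizer Cfsg.M24 d ⊓ MulAction.stabilizer Cfsg.M24 C, (∀ p ∈ d \ C, ((g : ↥Cfsg.M24) : Equiv.Perm Cfsg.GolayPt)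 p = p) → g = 1 := by
  have hc6 := hC.1
  have hCd : C ⊆ d := by obtain ⟨_, o, ho, hoC⟩ := hC; rw [← hoC]; exact Finset.inter_subset_right
  have hinv : ∀ g ∈ MulAction.stabilizer Cfsg.M24 d ⊓ MulAction.stabilizer Cfsg.M24 C, ∀ x ∈ C, g • x ∈ C := by
    rintro g ⟨h1, h2⟩ x hx
    have e2 : (g : Equiv.Perm GolayPt) • C = C := h2
    have := (smul_mem_smul_iff' (g : Equiv.Perm GolayPt) C x).2 hx
    rw [e2] at this
    exact this
  refine ⟨?_, ?_, ?_⟩
  · apply equiv_perm_of _ C hinv hc6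
    · rintro g ⟨h1, h2⟩ h
      exact Subtype.ext (inj hd hCd (by omega) g.2 h1 h)
    · intro σ
      obtain ⟨g, hg, h1, h2, h3⟩ := surj hd hC σ
      exact ⟨⟨⟨g, hg⟩, h1, h2⟩, Equiv.ext fun x => Subtype.ext (h3 x)⟩
  · rintro g ⟨h1, h2⟩ h
    exact Subtype.ext (inj hd hCd (by omega) g.2 h1 h)
  · rintro g ⟨h1, h2⟩ h
    refine Subtype.ext (inj hd Finset.sdiff_subset ?_ g.2 h1 h)
    rw [Finset.card_sdiff_of_subset hCd, (mem_dodecads.1 hd).2, hc6]
    norm_num

end Cfsg.Agent.S5618
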