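import Cfsg.Statements.S5619
import Cfsg.Agent.Lib.Golay.FixCount
import Cfsg.Agent.Lib.Golay.Search4

set_option autoImplicit false
open scoped Pointwise
open Cfsg

namespace Cfsg.Agent.S5619

open Cfsg.Agent.Lib.Golay

structure Good (H : Type*) [Group H] : Prop where
  card : Nat.card H = 72
  c9 : {x : H | x ^ 3 = 1}.ncard = 9
  mul : ∀ x y : H, x ^ 3 = 1 → y ^ 3 = 1 → (x * y) ^ 3 = 1
  q : ∃ f : QuaternionGroup 2 →* H, Function.Injective f

theorem main {H : Type*} [Group H] (h : Good H) :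
    (∀ Q : Sylow 3 H, (Q : Subgroup H).Normal ∧ Nat.card Q = 9 ∧ ∀ x ∈ (Q : Subgroup H), x ^ 3 = 1) ∧
    ∀ P : Sylow 2 H, Nonempty (P ≃* QuaternionGroup 2) := by
  have hfin : Finite H := Nat.finite_of_card_ne_zero (by rw [h.card]; norm_num)
  have : Fact (Nat.Prime 3) := ⟨Nat.prime_three⟩
  have f3 : (Nat.card H).factorization 3 = 2 := by
    have h1 : (Nat.card H).factorization 3 < 3 := by
      by_contra hh
      have := (Nat.prime_three.pow_dvd_iff_le_factorization Nat.card_pos.ne').2 (not_lt.1 hh)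
      rw [h.card] at this
      revert this; norm_num
    have h2 : 2 ≤ (Nat.card H).factorization 3 := by
      rw [← Nat.prime_three.pow_dvd_iff_le_factorization Nat.card_pos.ne', h.card]; norm_num
    omega
  have f2 : (Nat.card H).factorization 2 = 3 := by
    have h1 : (Nat.card H).factorization 2 < 4 := by
      by_contra hh
      have := (Nat.prime_two.pow_dvd_iff_le_factorization Nat.card_pos.ne').2 (not_lt.1 hh)
      rw [h.card] at this
      revert this; norm_num
    have h2 : 3 ≤ (Nat.card H).factorization 2 := by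
      rw [← Nat.prime_two.pow_dvd_iff_le_factorization Nat.card_pos.ne', h.card]; norm_num
    omega
  let N : Subgroup H :=
    { carrier := {x | x ^ 3 = 1}
      one_mem' := one_pow 3
      mul_mem' := fun {a b} ha hb => h.mul a b ha hb
      inv_mem' := fun {a} ha => by
        show a⁻¹ ^ 3 = 1
        rw [inv_pow, show a ^ 3 = 1 from ha, inv_one] }
  have hN : Nat.card N = 9 := by
    rw [← h.c9, ← Nat.card_coe_set_eq]; rfl
  let Q' : Sylow 3 H := Sylow.ofCard N (by rw [hN, f3]; norm_num)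
  constructor
  · intro Q
    obtain ⟨g, hg⟩ := MulAction.exists_smul_eq H Q' Q
    have hQ : (Q : Subgroup H) = N := by
      rw [← hg, Sylow.coe_subgroup_smul]
      ext x
      rw [Subgroup.mem_pointwise_smul_iff_inv_smul_mem]
      have e : (MulAut.conj g)⁻¹ • x = g⁻¹ * x * g := by
        rw [← map_inv]; show g⁻¹ * x * g⁻¹⁻¹ = _; rw [inv_inv]
      rw [e]
      show (g⁻¹ * x * g) ^ 3 = 1 ↔ x ^ 3 = 1
      have e2 : (g⁻¹ * x * g) ^ 3 = g⁻¹ * x ^ 3 * g := by
        simp only [pow_succ, pow_zero, one_mul]; group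
      rw [e2]
      constructor
      · intro h1
        calc x ^ 3 = g * (g⁻¹ * x ^ 3 * g) * g⁻¹ := by group
          _ = 1 := by rw [h1]; group
      · intro h1; rw [h1]; group
    refine ⟨?_, ?_, ?_⟩
    · rw [hQ]
      refine ⟨fun x hx g => ?_⟩
      show (g * x * g⁻¹) ^ 3 = 1
      rw [conj_pow, show x ^ 3 = 1 from hx]; group
    · rw [← hN]
      exact congrArg (fun K : Subgroup H => Nat.card K) hQ
    · intro x hx
      rw [hQ] at hx; exact hx
  · intro P
    have : Fact (Nat.Prime 2) := ⟨Nat.prime_two⟩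
    obtain ⟨f, hf⟩ := h.q
    let e := MonoidHom.ofInjective hf
    let P' : Sylow 2 H := Sylow.ofCard f.range (by
      rw [← Nat.card_congr e.toEquiv, Nat.card_eq_fintype_card, QuaternionGroup.card, f2]; norm_num)
    exact ⟨(Sylow.equiv P P').trans e.symm⟩

theorem Good.of_equiv {H K : Type*} [Group H] [Group K] (e : H ≃* K) (h : Good H) : Good K where
  card := by rw [← Nat.card_congr e.toEquiv, h.card]
  c9 := by
    rw [← h.c9]
    have : {x : K | x ^ 3 = 1} = e '' {x : H | x ^ 3 = 1} := by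
      ext x
      constructor
      · intro hx
        refine ⟨e.symm x, ?_, e.apply_symm_apply x⟩
        show (e.symm x) ^ 3 = 1
        rw [← map_pow, show x ^ 3 = 1 from hx, map_one]
      · rintro ⟨y, hy, rfl⟩
        show (e y) ^ 3 = 1
        rw [← map_pow, show y ^ 3 = 1 from hy, map_one]
    rw [this, Set.ncard_image_of_injective _ e.injective]
  mul := by
    intro x y hx hy
    have hx' : (e.symm x) ^ 3 = 1 := by rw [← map_pow, hx, map_one]
    have hy' : (e.symm y) ^ 3 = 1 := by rw [← map_pow, hy, map_one]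
    have := congrArg e (h.mul _ _ hx' hy')
    rwa [map_pow, map_mul, e.apply_symm_apply, e.apply_symm_apply, map_one] at this
  q := by
    obtain ⟨f, hf⟩ := h.q
    exact ⟨e.toMonoidHom.comp f, e.injective.comp hf⟩

/-- the group fixing a dodecad and three points -/
abbrev HH (d : Finset GolayPt) (p q r : GolayPt) : Subgroup M24 :=
  MulAction.stabilizer M24 d ⊓ MulAction.stabilizer M24 p ⊓ MulAction.stabilizer M24 q ⊓ MulAction.stabilizer M24 r

theorem mem_HH {d : Finset GolayPt} {p q r : GolayPt} {g : M24} : g ∈ HH d p q r ↔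
    (g : Equiv.Perm GolayPt) • d = d ∧ (g : Equiv.Perm GolayPt) p = p ∧ (g : Equiv.Perm GolayPt) q = q ∧
      (g : Equiv.Perm GolayPt) r = r := by
  rw [Subgroup.mem_inf, Subgroup.mem_inf, Subgroup.mem_inf]
  exact ⟨fun h => ⟨h.1.1.1, h.1.1.2, h.1.2, h.2⟩, fun h => ⟨⟨⟨h.1, h.2.1⟩, h.2.2.1⟩, h.2.2.2⟩⟩

theorem HH_conj {d d' : Finset GolayPt} {p q r p' q' r' : GolayPt} {k : M24}
    (h : (k : Equiv.Perm GolayPt) • d = d') (hp : (k : Equiv.Perm GolayPt) p = p')
    (hq : (k : Equiv.Perm GolayPt) q = q') (hr : (k : Equiv.Perm GolayPt) r = r') {g : M24} (hg : g ∈ HH d p q r) :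
    k * g * k⁻¹ ∈ HH d' p' q' r' := by
  rw [mem_HH] at hg ⊢
  obtain ⟨g1, g2, g3, g4⟩ := hg
  refine ⟨?_, conj_app g2 hp hp, conj_app g3 hq hq, conj_app g4 hr hr⟩
  show (((k : Equiv.Perm GolayPt) * g * (k : Equiv.Perm GolayPt)⁻¹)) • d' = d'
  rw [← h, mul_smul, mul_smul, inv_smul_smul, g1]

theorem exists_HH_equiv {d d' : Finset GolayPt} {p q r p' q' r' : GolayPt} {k : M24}
    (h : (k : Equiv.Perm GolayPt) • d = d') (hp : (k : Equiv.Perm GolayPt) p = p')
    (hq : (k : Equiv.Perm GolayPt) q = q') (hr : (k : Equiv.Perm GolayPt) r = r') :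
    Nonempty (HH d' p' q' r' ≃* HH d p q r) := by
  have h' : ((k⁻¹ : M24) : Equiv.Perm GolayPt) • d' = d := by rw [← h]; exact inv_smul_smul (k : Equiv.Perm GolayPt) d
  have hp' : ((k⁻¹ : M24) : Equiv.Perm GolayPt) p' = p := by rw [← hp]; exact Equiv.symm_apply_apply _ _
  have hq' : ((k⁻¹ : M24) : Equiv.Perm GolayPt) q' = q := by rw [← hq]; exact Equiv.symm_apply_apply _ _
  have hr' : ((k⁻¹ : M24) : Equiv.Perm GolayPt) r' = r := by rw [← hr]; exact Equiv.symm_apply_apply _ _
  refine ⟨MulEquiv.mk' ⟨fun g => ⟨k⁻¹ * g.1 * k⁻¹⁻¹, HH_conj h' hp' hq' hr' g.2⟩,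
    fun g => ⟨k * g.1 * k⁻¹, HH_conj h hp hq hr g.2⟩, ?_, ?_⟩ ?_⟩
  · intro g; apply Subtype.ext; show k * (k⁻¹ * g.1 * k⁻¹⁻¹) * k⁻¹ = g.1; group
  · intro g; apply Subtype.ext; show k⁻¹ * (k * g.1 * k⁻¹) * k⁻¹⁻¹ = g.1; group
  · intro g g'; apply Subtype.ext
    show k⁻¹ * (g.1 * g'.1) * k⁻¹⁻¹ = k⁻¹ * g.1 * k⁻¹⁻¹ * (k⁻¹ * g'.1 * k⁻¹⁻¹); group

/-- a dodecad containing the first base points -/
def dd : ℕ := 0x80d3cf

theorem dd_mem : st dd ∈ dodecads := by
  have h : inCode dd = true ∧ pc dd = 12 := by decide +kernel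
  have hl : dd < 2 ^ 24 := by decide +kernel
  exact mem_dodecads.2 ⟨(isWord_st hl).2 h.1, by rw [card_st]; exact h.2⟩

def SM : Set (Equiv.Perm GolayPt) := {g | g ∈ M24 ∧ g • st dd = st dd ∧ g (pt 23) = pt 23 ∧ g (pt 0) = pt 0 ∧
  g (pt 1) = pt 1}

def SM3 : Set (Equiv.Perm GolayPt) := {g | g ∈ SM ∧ g * g * g = 1}

def testM (c : ℕ) : Bool := act c dd == dd && img c 23 == 23 && img c 0 == 0 && img c 1 == 1

def testM3 (c : ℕ) : Bool := testM c && comp (comp c c) c == idc

def cutM (k : ℕ) (f : ℕ → ℕ) : Bool := (if k == 6 then List.range 24 else 23 :: List.range k).all (fun i =>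
  (dd.testBit (f i) == dd.testBit i) && (!(i == 23 || i == 0 || i == 1) || f i == i))

theorem smul_dd_iff {c : ℕ} (hc : valid c = true) : pm c • st dd = st dd ↔ act c dd = dd := by
  rw [pm_smul_st hc]
  exact ⟨fun h => st_inj (act_lt hc _) (by decide +kernel) h, fun h => by rw [h]⟩

theorem testM_iff {c : ℕ} (hc : valid c = true) (hm : pm c ∈ M24) : pm c ∈ SM ↔ testM c = true := by
  unfold testM
  simp only [Bool.and_eq_true, beq_iff_eq]
  rw [← smul_dd_iff hc, ← app_iff hc (by norm_num : 23 < 24) (by norm_num : 23 < 24),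
    ← app_iff hc (by norm_num : 0 < 24) (by norm_num : 0 < 24),
    ← app_iff hc (by norm_num : 1 < 24) (by norm_num : 1 < 24)]
  exact ⟨fun h => ⟨⟨⟨h.2.1, h.2.2.1⟩, h.2.2.2.1⟩, h.2.2.2.2⟩, fun h => ⟨hm, h.1.1.1, h.1.1.2, h.1.2, h.2⟩⟩

theorem testM3_iff {c : ℕ} (hc : valid c = true) (hm : pm c ∈ M24) : pm c ∈ SM3 ↔ testM3 c = true := by
  unfold testM3
  rw [Bool.and_eq_true, ← testM_iff hc hm, beq_iff_eq, ← cube_iff hc]
  exact Iff.rfl

theorem cutM_spec : ∀ g ∈ SM, ∀ k < 7, ∀ f : ℕ → ℕ, (∀ i < 24, f i < 24) →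
    (∀ i < 24, known k i = true → pt (f i) = g (pt i)) → cutM k f = true := by
  rintro g ⟨_, h0, h1, h2, h3⟩ k hk f hf h
  unfold cutM
  rw [List.all_eq_true]
  intro i hi
  have hik : i < 24 ∧ known k i = true := by
    unfold known
    split_ifs at hi with h6
    · rw [beq_iff_eq] at h6
      subst h6
      exact ⟨List.mem_range.1 hi, by simp⟩
    · rw [List.mem_cons, List.mem_range] at hi
      rcases hi with rfl | hi
      · exact ⟨by norm_num, by simp⟩
      · exact ⟨by omega, by simp only [Bool.or_eq_true, Nat.blt_eq]; left; right; exact hi⟩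
  have hfi := h i hik.1 hik.2
  rw [Bool.and_eq_true]
  constructor
  · rw [beq_iff_eq, Bool.eq_iff_iff]
    have e1 : dd.testBit (f i) = true ↔ pt (f i) ∈ st dd := by rw [mem_st, ix_pt (hf i hik.1)]
    have e2 : dd.testBit i = true ↔ pt i ∈ st dd := by rw [mem_st, ix_pt hik.1]
    rw [e1, e2, hfi]
    conv_lhs => rw [← h0]
    exact Finset.smul_mem_smul_finset_iff g
  · rw [Bool.or_eq_true, beq_iff_eq]
    by_cases hc : i = 23 ∨ i = 0 ∨ i = 1
    · right
      have hgi : g (pt i) = pt i := by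
        rcases hc with rfl | rfl | rfl
        · exact h1
        · exact h2
        · exact h3
      rw [hgi] at hfi
      exact pt_inj (hf i hik.1) hik.1 hfi
    · left
      push Not at hc
      simp [hc.1, hc.2.1, hc.2.2]

def listM : List ℕ := srch4 testM cutM 7 idc

def listM3 : List ℕ := srch4 testM3 cutM 7 idc

theorem listM_ok : (listM.length == 72 && nodupB listM) = true := by decide +kernel

def chk3 (L : List ℕ) : Bool := L.length == 9 && nodupB L && L.all (fun c => L.all (fun d =>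
  let e := comp c d; comp (comp e e) e == idc))

theorem listM3_ok : chk3 listM3 = true := by decide +kernel

theorem ncard_SM : SM.ncard = 72 := by
  have h := listM_ok
  simp only [Bool.and_eq_true, beq_iff_eq] at h
  rw [← h.1]
  exact ncard_srch4 (fun _ hg => hg.1) (fun _ hc hm => testM_iff hc hm) cutM_spec (nodupB_spec h.2)

theorem mem_SM3 (g : Equiv.Perm GolayPt) : g ∈ SM3 ↔ codeOf g ∈ listM3 :=
  mem_srch4_iff (fun _ hg => hg.1.1) (fun _ hc hm => testM3_iff hc hm) (fun g hg => cutM_spec g hg.1) g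

theorem ncard_SM3 : SM3.ncard = 9 := by
  have h := listM3_ok
  unfold chk3 at h
  simp only [Bool.and_eq_true, beq_iff_eq] at h
  rw [← h.1.1]
  exact ncard_srch4 (fun _ hg => hg.1.1) (fun _ hc hm => testM3_iff hc hm) (fun g hg => cutM_spec g hg.1)
    (nodupB_spec h.1.2)

theorem SM3_mul {g h : Equiv.Perm GolayPt} (hg : g ∈ SM3) (hh : h ∈ SM3) : g * h * (g * h) * (g * h) = 1 := by
  have h0 := listM3_ok
  unfold chk3 at h0
  simp only [Bool.and_eq_true, List.all_eq_true, beq_iff_eq] at h0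
  have h1 := h0.2 _ ((mem_SM3 g).1 hg) _ ((mem_SM3 h).1 hh)
  rw [← cube_iff (valid_comp (valid_codeOf g) (valid_codeOf h)), pm_comp (valid_codeOf g) (valid_codeOf h),
    pm_codeOf, pm_codeOf] at h1
  exact h1

theorem mem_SM_iff {g : M24} : (g : Equiv.Perm GolayPt) ∈ SM ↔ g ∈ HH (st dd) (pt 23) (pt 0) (pt 1) := by
  rw [mem_HH]
  exact ⟨fun h => h.2, fun h => ⟨g.2, h⟩⟩

/-- codes of the quaternion group -/
def cq : QuaternionGroup 2 → ℕ
  | QuaternionGroup.a i => [0xbdab49ca307b9ac5a928398a418820, 0xb92322aa6d61e09a2d0f1bab630820, 0xbda6aaacb048da8951ec31e2470820, 0xb90ab8d2ad41a0f5498970e7638820, 0xbb693545643a2ce2d4c34be5060820, 0xbc1719555672486994676228d78820, 0xbb555a1644332c38ccee7a57040820, 0xbc2455ce961bc87ac5c64314d48820].getD i.val 0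
  | QuaternionGroup.xa i => [0xbdab49ca307b9ac5a928398a418820, 0xb92322aa6d61e09a2d0f1bab630820, 0xbda6aaacb048da8951ec31e2470820, 0xb90ab8d2ad41a0f5498970e7638820, 0xbb693545643a2ce2d4c34be5060820, 0xbc1719555672486994676228d78820, 0xbb555a1644332c38ccee7a57040820, 0xbc2455ce961bc87ac5c64314d48820].getD (4 + i.val) 0

theorem cq_mul : ∀ x y : QuaternionGroup 2, comp (cq x) (cq y) = cq (x * y) := by decide +kernel

theorem cq_ok : ∀ x : QuaternionGroup 2, pres (cq x) = true ∧ testM (cq x) = true := by decide +kernel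

theorem cq_ne : ∀ x : QuaternionGroup 2, cq x = idc → x = 1 := by decide +kernel

theorem good_std : Good (HH (st dd) (pt 23) (pt 0) (pt 1)) where
  card := by
    rw [← ncard_SM, ← Nat.card_coe_set_eq]
    exact Nat.card_congr ⟨fun g => ⟨((g : M24) : Equiv.Perm GolayPt), mem_SM_iff.2 g.2⟩,
      fun g => ⟨⟨g.1, g.2.1⟩, mem_SM_iff.1 g.2⟩, fun g => rfl, fun g => rfl⟩
  c9 := by
    rw [← ncard_SM3]
    have : SM3 = (fun g : HH (st dd) (pt 23) (pt 0) (pt 1) => ((g : M24) : Equiv.Perm GolayPt)) '' {x | x ^ 3 = 1} := by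
      ext g
      constructor
      · rintro ⟨h1, h2⟩
        refine ⟨⟨⟨g, h1.1⟩, mem_SM_iff.1 h1⟩, ?_, rfl⟩
        apply Subtype.ext
        apply Subtype.ext
        show g ^ 3 = 1
        rw [← h2]; rfl
      · rintro ⟨x, hx, rfl⟩
        refine ⟨mem_SM_iff.2 x.2, ?_⟩
        have := congrArg (fun g : HH (st dd) (pt 23) (pt 0) (pt 1) => ((g : M24) : Equiv.Perm GolayPt)) hx
        exact this
    rw [this, Set.ncard_image_of_injective]
    intro x y h
    exact Subtype.ext (Subtype.ext h)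
  mul := by
    intro x y hx hy
    have key : ∀ z : HH (st dd) (pt 23) (pt 0) (pt 1), z ^ 3 = 1 → ((z : M24) : Equiv.Perm GolayPt) ∈ SM3 := by
      intro z hz
      exact ⟨mem_SM_iff.2 z.2, congrArg (fun g : HH (st dd) (pt 23) (pt 0) (pt 1) => ((g : M24) : Equiv.Perm GolayPt)) hz⟩
    apply Subtype.ext
    apply Subtype.ext
    exact SM3_mul (key x hx) (key y hy)
  q := by
    have hv : ∀ x, valid (cq x) = true := fun x => pres_valid (cq_ok x).1
    have hm : ∀ x, pm (cq x) ∈ M24 := fun x => pm_mem_M24 (cq_ok x).1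
    refine ⟨MonoidHom.mk' (fun x => ⟨⟨pm (cq x), hm x⟩, mem_SM_iff.1 ((testM_iff (hv x) (hm x)).2 (cq_ok x).2)⟩) ?_, ?_⟩
    · intro x y
      apply Subtype.ext
      apply Subtype.ext
      show pm (cq (x * y)) = pm (cq x) * pm (cq y)
      rw [← cq_mul, pm_comp (hv x) (hv y)]
    · rw [injective_iff_map_eq_one]
      intro x hx
      apply cq_ne
      have h1 : pm (cq x) = 1 := congrArg (fun g : HH (st dd) (pt 23) (pt 0) (pt 1) => ((g : M24) : Equiv.Perm GolayPt)) hx
      have h2 : codeOf (pm (cq x)) = cq x := by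
        have := codeOf_pm_comp (hv x) (hv 1)
        rw [cq_mul, mul_one] at this; exact this
      rw [← h2, h1, ← pm_idc, codeOf_idc]

theorem exists_emb5 {d : Finset GolayPt} (hd : d ∈ dodecads) {p q r : GolayPt} (hp : p ∈ d) (hq : q ∈ d) (hr : r ∈ d)
    (hpq : p ≠ q) (hpr : p ≠ r) (hqr : q ≠ r) : ∃ x : Fin 5 ↪ d, (x 0 : GolayPt) = p ∧ (x 1 : GolayPt) = q ∧
      (x 2 : GolayPt) = r := by
  obtain ⟨z, hz1, hz2⟩ := exists_seq5 (n := 5) (s := d \ {p, q, r}) (by
    have h1 : ({p, q, r} : Finset GolayPt) ⊆ d := by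
      intro x hx
      simp only [Finset.mem_insert, Finset.mem_singleton] at hx
      rcases hx with rfl | rfl | rfl <;> assumption
    rw [Finset.card_sdiff_of_subset h1, hd.2]
    have := Finset.card_le_three (a := p) (b := q) (c := r)
    omega)
  have hz : ∀ i < 5, z i ∈ d ∧ p ≠ z i ∧ q ≠ z i ∧ r ≠ z i := by
    intro i hi
    have := hz1 i hi
    simp only [Finset.mem_sdiff, Finset.mem_insert, Finset.mem_singleton, not_or] at this
    exact ⟨this.1, Ne.symm this.2.1, Ne.symm this.2.2.1, Ne.symm this.2.2.2⟩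
  have h0 := hz 0 (by norm_num)
  have h1 := hz 1 (by norm_num)
  have h01 := hz2 1 (by norm_num) 0 (by norm_num)
  let f : Fin 5 → d := ![⟨p, hp⟩, ⟨q, hq⟩, ⟨r, hr⟩, ⟨z 0, h0.1⟩, ⟨z 1, h1.1⟩]
  have hf : Function.Injective f := by
    intro i j h
    fin_cases i <;> fin_cases j <;> first
      | rfl
      | exact absurd (congrArg Subtype.val h) hpq
      | exact absurd (congrArg Subtype.val h) hpr
      | exact absurd (congrArg Subtype.val h) hqr
      | exact absurd (congrArg Subtype.val h) h0.2.1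
      | exact absurd (congrArg Subtype.val h) h0.2.2.1
      | exact absurd (congrArg Subtype.val h) h0.2.2.2
      | exact absurd (congrArg Subtype.val h) h1.2.1
      | exact absurd (congrArg Subtype.val h) h1.2.2.1
      | exact absurd (congrArg Subtype.val h) h1.2.2.2
      | exact absurd (congrArg Subtype.val h) h01
      | exact absurd (congrArg Subtype.val h).symm hpq
      | exact absurd (congrArg Subtype.val h).symm hpr
      | exact absurd (congrArg Subtype.val h).symm hqr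
      | exact absurd (congrArg Subtype.val h).symm h0.2.1
      | exact absurd (congrArg Subtype.val h).symm h0.2.2.1
      | exact absurd (congrArg Subtype.val h).symm h0.2.2.2
      | exact absurd (congrArg Subtype.val h).symm h1.2.1
      | exact absurd (congrArg Subtype.val h).symm h1.2.2.1
      | exact absurd (congrArg Subtype.val h).symm h1.2.2.2
      | exact absurd (congrArg Subtype.val h).symm h01
  exact ⟨⟨f, hf⟩, rfl, rfl, rfl⟩

theorem exists_std {d : Finset GolayPt} (hd : d ∈ dodecads) {p q r : GolayPt} (hp : p ∈ d) (hq : q ∈ d) (hr : r ∈ d)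
    (hpq : p ≠ q) (hpr : p ≠ r) (hqr : q ≠ r) : ∃ k : M24, (k : Equiv.Perm GolayPt) • d = st dd ∧
      (k : Equiv.Perm GolayPt) p = pt 23 ∧ (k : Equiv.Perm GolayPt) q = pt 0 ∧ (k : Equiv.Perm GolayPt) r = pt 1 := by
  obtain ⟨g, hg, e⟩ := dodecads_transitive hd dd_mem
  have hmem : ∀ {x}, x ∈ d → g x ∈ st dd := fun hx => by rw [← e]; exact Finset.smul_mem_smul_finset hx
  obtain ⟨x, x0, x1, x2⟩ := exists_emb5 dd_mem (hmem hp) (hmem hq) (hmem hr) (fun h => hpq (g.injective h))
    (fun h => hpr (g.injective h)) (fun h => hqr (g.injective h))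
  obtain ⟨y, y0, y1, y2⟩ := exists_emb5 dd_mem (p := pt 23) (q := pt 0) (r := pt 1) (by decide +kernel)
    (by decide +kernel) (by decide +kernel) (by decide) (by decide) (by decide)
  obtain ⟨k, hk, -⟩ := dodecad_sharp dd_mem x y
  refine ⟨⟨k.1 * g, M24.mul_mem k.2.1 hg⟩, ?_, ?_, ?_, ?_⟩
  · show (k.1 * g) • d = st dd
    rw [mul_smul, e]; exact k.2.2
  · have := hk 0
    rw [x0, y0] at this; exact this
  · have := hk 1
    rw [x1, y1] at this; exact this
  · have := hk 2
    rw [x2, y2] at this; exact this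

/-- In the group of the length-24 code, the subgroup fixing a dodecad setwise and three of its points individually (a group of order 72) has a normal Sylow 3-subgroup that is elementary abelian of order 9, and its Sylow 2-subgroups are quaternion of order 8. -/
theorem result (d : Finset Cfsg.GolayPt) (hd : d ∈ Cfsg.dodecads) (p q r : Cfsg.GolayPt) (hp : p ∈ d) (hq : q ∈ d) (hr : r ∈ d) (hpq : p ≠ q) (hpr : p ≠ r) (hqr : q ≠ r) : (∀ Q : Sylow 3 ↥(MulAction.stabilizer Cfsg.M24 d ⊓ MulAction.stabilizer Cfsg.M24 p ⊓ MulAction.stabilizer Cfsg.M24 q ⊓ MulAction.stabilizer Cfsg.M24 r), (Q : Subgroup ↥(MulAction.stabilizer Cfsg.M24 d ⊓ MulAction.stabilizer Cfsg.M24 p ⊓ MulAction.stabilizer Cfsg.M24 q ⊓ MulAction.stabilizer Cfsg.M24 r)).Normal ∧ Nat.card ↥Q = 9 ∧ ∀ x ∈ (Q : Subgroup ↥(MulAction.stabilizer Cfsg.M24 d ⊓ MulAction.stabilizer Cfsg.M24 p ⊓ MulAction.stabilizer Cfsg.M24 q ⊓ MulAction.stabilizer Cfsg.M24 r)), x ^ 3 = 1) ∧ ∀ P : Sylow 2 ↥(MulAction.stabilizer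 Cfsg.M24 d ⊓ MulAction.stabilizer Cfsg.M24 p ⊓ MulAction.stabilizer Cfsg.M24 q ⊓ MulAction.stabilizer Cfsg.M24 r), Nonempty (↥P ≃* QuaternionGroup 2) := by
  obtain ⟨k, h1, h2, h3, h4⟩ := exists_std hd hp hq hr hpq hpr hqr
  obtain ⟨e⟩ := exists_HH_equiv h1 h2 h3 h4
  exact main (good_std.of_equiv e)

end Cfsg.Agent.S5619
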