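import Cfsg.Statements.S5620
import Cfsg.Agent.Lib.Golay.SimpleD
import Cfsg.Agent.Lib.Golay.Misc

set_option autoImplicit false
open scoped Pointwise
open Cfsg

namespace Cfsg.Agent.S5620

open Cfsg Cfsg.Agent.Lib.Golay
open scoped Pointwise

/-- Inside the stabiliser of the dodecad of squares (a Mathieu group of degree 12), the stabiliser of the residue 0 (a point of the dodecad) and the stabiliser of the extra point (a point outside the dodecad) are isomorphic but not conjugate; conjugation by a suitable element of the code's group that maps the dodecad of squares onto its complement carries the first onto the second. -/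
theorem result : Nonempty (↥(Cfsg.Spor.M12 ⊓ MulAction.stabilizer (Equiv.Perm Cfsg.GolayPt) (none : Cfsg.GolayPt)) ≃* ↥Cfsg.Spor.M11) ∧ (¬ ∃ k ∈ Cfsg.Spor.M12, MulAut.conj k • Cfsg.Spor.M11 = Cfsg.Spor.M12 ⊓ MulAction.stabilizer (Equiv.Perm Cfsg.GolayPt) (none : Cfsg.GolayPt)) ∧ ∃ g ∈ Cfsg.M24, g • Cfsg.Spor.squareDodecad = Finset.univ \ Cfsg.Spor.squareDodecad ∧ MulAut.conj g • Cfsg.Spor.M11 = Cfsg.Spor.M12 ⊓ MulAction.stabilizer (Equiv.Perm Cfsg.GolayPt) (none : Cfsg.GolayPt) := by
  have hsq : Cfsg.Spor.squareDodecad = st dodU := by decide +kernel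
  have hd : Cfsg.Spor.squareDodecad ∈ Cfsg.dodecads := by rw [hsq]; exact dodU_mem
  have hd' : Finset.univ \ Cfsg.Spor.squareDodecad ∈ Cfsg.dodecads := by
    rw [← Finset.compl_eq_univ_sdiff]; exact compl_dodecad hd
  have h0 : (some 0 : GolayPt) ∈ Cfsg.Spor.squareDodecad := by rw [hsq]; decide +kernel
  have hn : (none : GolayPt) ∉ Cfsg.Spor.squareDodecad := by rw [hsq]; decide +kernel
  have mem11 : ∀ x : Equiv.Perm GolayPt, x ∈ Spor.M11 ↔ x ∈ M24 ∧ x • Spor.squareDodecad = Spor.squareDodecad ∧ x (some 0) = some 0 := by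
    intro x
    constructor
    · rintro ⟨⟨h1, h2⟩, h3⟩; exact ⟨h1, h2, h3⟩
    · rintro ⟨h1, h2, h3⟩; exact ⟨⟨h1, h2⟩, h3⟩
  have memN : ∀ x : Equiv.Perm GolayPt, x ∈ Spor.M12 ⊓ MulAction.stabilizer (Equiv.Perm GolayPt) (none : GolayPt) ↔
      x ∈ M24 ∧ x • Spor.squareDodecad = Spor.squareDodecad ∧ x none = none := by
    intro x
    constructor
    · rintro ⟨⟨h1, h2⟩, h3⟩; exact ⟨h1, h2, h3⟩
    · rintro ⟨h1, h2, h3⟩; exact ⟨⟨h1, h2⟩, h3⟩
  -- the swapping element
  obtain ⟨k, hk, e⟩ := dodecads_transitive hd hd'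
  have hk0 : k (some 0) ∈ Finset.univ \ Spor.squareDodecad := by
    rw [← e]; exact (smul_mem_smul_iff' k _ _).2 h0
  obtain ⟨l, hl, e1, e2⟩ := dod_one hd' hk0 (y := none) (by simpa using hn)
  have hg : l * k ∈ M24 := M24.mul_mem hl hk
  have hgd : (l * k) • Spor.squareDodecad = Finset.univ \ Spor.squareDodecad := by rw [mul_smul, e, e1]
  have hgd' : (l * k) • (Finset.univ \ Spor.squareDodecad) = Spor.squareDodecad := by
    rw [← Finset.compl_eq_univ_sdiff, smul_compl', hgd, ← Finset.compl_eq_univ_sdiff, compl_compl]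
  have hg0 : (l * k) (some 0) = none := e2
  have hconj : MulAut.conj (l * k) • Spor.M11 = Spor.M12 ⊓ MulAction.stabilizer (Equiv.Perm GolayPt) (none : GolayPt) := by
    ext x
    rw [Subgroup.mem_pointwise_smul_iff_inv_smul_mem, memN]
    have hx : (MulAut.conj (l * k))⁻¹ • x = (l * k)⁻¹ * x * (l * k) := by
      rw [← map_inv]; show (l * k)⁻¹ * x * ((l * k)⁻¹)⁻¹ = _; rw [inv_inv]
    rw [hx, mem11]
    constructor
    · rintro ⟨h1, h2, h3⟩
      have hxe : x = (l * k) * ((l * k)⁻¹ * x * (l * k)) * (l * k)⁻¹ := by group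
      refine ⟨?_, ?_, ?_⟩
      · rw [hxe]; exact M24.mul_mem (M24.mul_mem hg h1) (M24.inv_mem hg)
      · have h4 : x • (Finset.univ \ Spor.squareDodecad) = Finset.univ \ Spor.squareDodecad := by
          rw [hxe, mul_smul, mul_smul, ← hgd, inv_smul_smul, h2]
        rw [← Finset.compl_eq_univ_sdiff, smul_compl', compl_inj_iff] at h4
        exact h4
      · rw [Equiv.Perm.mul_apply, Equiv.Perm.mul_apply, hg0, Equiv.Perm.inv_eq_iff_eq, hg0] at h3
        exact h3
    · rintro ⟨h1, h2, h3⟩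
      refine ⟨M24.mul_mem (M24.mul_mem (M24.inv_mem hg) h1) hg, ?_, ?_⟩
      · rw [mul_smul, mul_smul, hgd, ← Finset.compl_eq_univ_sdiff, smul_compl', h2, Finset.compl_eq_univ_sdiff, ← hgd, inv_smul_smul]
      · rw [Equiv.Perm.mul_apply, Equiv.Perm.mul_apply, hg0, h3, Equiv.Perm.inv_eq_iff_eq, hg0]
  refine ⟨?_, ?_, l * k, hg, hgd, hconj⟩
  · rw [← hconj]
    exact ⟨(Subgroup.equivSMul (MulAut.conj (l * k)) Spor.M11).symm⟩
  · rintro ⟨u, hu, he⟩
    have hud : u • Spor.squareDodecad = Spor.squareDodecad := hu.2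
    have hu0 : u (some 0) ∈ Spor.squareDodecad := by
      have := (smul_mem_smul_iff' u Spor.squareDodecad (some 0)).2 h0
      rw [hud] at this; exact this
    -- every element of M12 fixing u 0 fixes none
    obtain ⟨y, hy⟩ : ∃ y : GolayPt, y ∉ Spor.squareDodecad ∧ y ≠ none := by
      refine ⟨some 5, ?_, by decide⟩
      rw [hsq]; decide +kernel
    obtain ⟨g, hg', g1, g2, g3⟩ := m11_threeTrans hd hu0
      (x := fun i => match i with | 0 => none | 1 => some 5 | _ => some 7)
      (y := fun i => match i with | 0 => some 5 | 1 => none | _ => some 7) (by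
        intro i hi j hj
        interval_cases i <;> interval_cases j <;> decide) (by
        intro i hi
        rw [hsq]
        interval_cases i <;> decide +kernel) (by
        intro i hi j hj
        interval_cases i <;> interval_cases j <;> decide) (by
        intro i hi
        rw [hsq]
        interval_cases i <;> decide +kernel)
    have h1 : g ∈ MulAut.conj u • Spor.M11 := by
      rw [Subgroup.mem_pointwise_smul_iff_inv_smul_mem]
      have hx : (MulAut.conj u)⁻¹ • g = u⁻¹ * g * u := by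
        rw [← map_inv]; show u⁻¹ * g * (u⁻¹)⁻¹ = _; rw [inv_inv]
      rw [hx, mem11]
      refine ⟨M24.mul_mem (M24.mul_mem (M24.inv_mem hu.1) hg') hu.1, ?_, ?_⟩
      · rw [mul_smul, mul_smul, hud, g1, inv_smul_eq_iff, hud]
      · rw [Equiv.Perm.mul_apply, Equiv.Perm.mul_apply, g2]
        exact u.symm_apply_apply _
    rw [he, memN] at h1
    have h2 : g none = some 5 := g3 0 (by norm_num)
    rw [h1.2.2] at h2
    exact absurd h2 (by decide)

end Cfsg.Agent.S5620
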