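import Cfsg.Statements.S5623
import Cfsg.Agent.Lib.GolU.Code

set_option autoImplicit false
open Cfsg

namespace Cfsg.Agent.S5623

/-- Let C be a self-dual binary code of length 24 with minimum weight at least 8 (a 12-dimensional subspace of the 24-dimensional space over the field with two elements, any two of whose words have dot product zero, with no non-zero word of weight below 8 — an abstract extended binary Golay code). Then every coset w + C of C in the ambient space contains either exactly one word of weight at most 4, which then has weight at most 3, or exactly six words of weight at most 4, all of weight exactly 4 and with pairwise disjoint supports (a sextet). -/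
theorem result (C : Submodule (ZMod 2) (Fin 24 → ZMod 2)) (hdim : Module.finrank (ZMod 2) C = 12) (horth : ∀ v ∈ C, ∀ w ∈ C, ∑ i, v i * w i = 0) (hmin : ∀ w ∈ C, w ≠ 0 → 8 ≤ hammingNorm w) (w : Fin 24 → ZMod 2) : (∃ u : Fin 24 → ZMod 2, {u : Fin 24 → ZMod 2 | u - w ∈ C ∧ hammingNorm u ≤ 4} = {u} ∧ hammingNorm u ≤ 3) ∨ ({u : Fin 24 → ZMod 2 | u - w ∈ C ∧ hammingNorm u ≤ 4}.ncard = 6 ∧ ∀ u ∈ {u : Fin 24 → ZMod 2 | u - w ∈ C ∧ hammingNorm u ≤ 4}, hammingNorm u = 4 ∧ ∀ u' ∈ {u : Fin 24 → ZMod 2 | u - w ∈ C ∧ hammingNorm u ≤ 4}, u ≠ u' → Disjoint (Finset.univ.filter fun i => u i ≠ 0) (Finset.univ.filter fun i => u' i ≠ 0)) := by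
  have h := Cfsg.Agent.Lib.GolU.fam_GF (by simp) hdim hmin
  have hmem : ∀ u : Fin 24 → ZMod 2, u - w ∈ C ↔ symmDiff (Cfsg.support₂ w) (Cfsg.support₂ u) ∈ Cfsg.Agent.Lib.GolU.fam C := by
    intro u
    rw [← Cfsg.Agent.Lib.GolU.supp_mem_fam, Cfsg.Agent.Lib.GolU.supp_sub', symmDiff_comm]
  have hc := h.count (Cfsg.support₂ w)
  rcases Nat.eq_zero_or_pos (Cfsg.Agent.Lib.GolU.low (Cfsg.Agent.Lib.GolU.fam C) (Cfsg.support₂ w)).card with h0 | h0
  · right
    have h6 : (Cfsg.Agent.Lib.GolU.tet (Cfsg.Agent.Lib.GolU.fam C) (Cfsg.support₂ w)).card = 6 := by omega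
    have hm4 : ∀ u : Fin 24 → ZMod 2, (u - w ∈ C ∧ hammingNorm u ≤ 4) ↔
        Cfsg.support₂ u ∈ Cfsg.Agent.Lib.GolU.tet (Cfsg.Agent.Lib.GolU.fam C) (Cfsg.support₂ w) := by
      intro u
      rw [hmem, Cfsg.Agent.Lib.GolU.mem_tet, Cfsg.Agent.Lib.GolU.hamming_eq']
      constructor
      · rintro ⟨h1, h2⟩
        refine ⟨?_, h1⟩
        by_contra h3
        have : Cfsg.support₂ u ∈ Cfsg.Agent.Lib.GolU.low (Cfsg.Agent.Lib.GolU.fam C) (Cfsg.support₂ w) :=
          Cfsg.Agent.Lib.GolU.mem_low.2 ⟨by omega, h1⟩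
        rw [Finset.card_eq_zero] at h0
        rw [h0] at this
        exact absurd this (Finset.notMem_empty _)
      · rintro ⟨h1, h2⟩
        exact ⟨h2, by omega⟩
    have hset : {u : Fin 24 → ZMod 2 | u - w ∈ C ∧ hammingNorm u ≤ 4} =
        Cfsg.Agent.Lib.GolU.ind '' (Cfsg.Agent.Lib.GolU.tet (Cfsg.Agent.Lib.GolU.fam C) (Cfsg.support₂ w) : Set (Finset (Fin 24))) := by
      ext u
      rw [Set.mem_image]
      constructor
      · intro hu
        exact ⟨Cfsg.support₂ u, (hm4 u).1 hu, Cfsg.Agent.Lib.GolU.ind_supp u⟩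
      · rintro ⟨s, hs, rfl⟩
        apply (hm4 _).2
        rw [Cfsg.Agent.Lib.GolU.supp_ind]; exact hs
    refine ⟨?_, ?_⟩
    · rw [hset, Set.ncard_image_of_injective _ (fun a b hab => Cfsg.Agent.Lib.GolU.ind_inj hab), Set.ncard_coe_finset, h6]
    · intro u hu
      have h1 := (hm4 u).1 hu
      refine ⟨(Cfsg.Agent.Lib.GolU.mem_tet.1 h1).1, ?_⟩
      intro u' hu' hne
      have h2 := (hm4 u').1 hu'
      exact h.tet_disj h1 h2 (fun e => hne (Cfsg.Agent.Lib.GolU.supp_inj e))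
  · left
    obtain ⟨t, ht⟩ := Finset.card_pos.1 h0
    have ht' := Cfsg.Agent.Lib.GolU.mem_low.1 ht
    refine ⟨Cfsg.Agent.Lib.GolU.ind t, ?_, ?_⟩
    · ext u
      rw [Set.mem_singleton_iff]
      constructor
      · rintro ⟨h1, h2⟩
        rw [hmem] at h1
        rw [Cfsg.Agent.Lib.GolU.hamming_eq'] at h2
        have h3 := h.eq_of_sd h1 ht'.2 (by have := Cfsg.Agent.Lib.GolU.card_sd (Cfsg.support₂ u) t; omega)
        rw [← h3, Cfsg.Agent.Lib.GolU.ind_supp]
      · rintro rfl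
        refine ⟨?_, ?_⟩
        · rw [hmem, Cfsg.Agent.Lib.GolU.supp_ind]; exact ht'.2
        · rw [Cfsg.Agent.Lib.GolU.hamming_eq', Cfsg.Agent.Lib.GolU.supp_ind]; omega
    · rw [Cfsg.Agent.Lib.GolU.hamming_eq', Cfsg.Agent.Lib.GolU.supp_ind]; exact ht'.1

end Cfsg.Agent.S5623
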