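import Cfsg.Statements.S5624
import Cfsg.Agent.Lib.GolU.Code

set_option autoImplicit false
open Cfsg

namespace Cfsg.Agent.S5624

/-- Let C be a self-dual binary code of length 24 with minimum weight at least 8 (a 12-dimensional subspace of the 24-dimensional space over the field with two elements, any two of whose words have dot product zero, with no non-zero word of weight below 8 — an abstract extended binary Golay code). Then C is spanned, as a vector space over the field with two elements, by its words of weight 8. -/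
theorem result (C : Submodule (ZMod 2) (Fin 24 → ZMod 2)) (hdim : Module.finrank (ZMod 2) C = 12) (horth : ∀ v ∈ C, ∀ w ∈ C, ∑ i, v i * w i = 0) (hmin : ∀ w ∈ C, w ≠ 0 → 8 ≤ hammingNorm w) : Submodule.span (ZMod 2) {w : Fin 24 → ZMod 2 | w ∈ C ∧ hammingNorm w = 8} = C := by
  have h := Cfsg.Agent.Lib.GolU.fam_GF (by simp) hdim hmin
  apply le_antisymm
  · rw [Submodule.span_le]
    intro w hw
    exact hw.1
  · intro w hw
    have key : ∀ s ∈ Cfsg.Agent.Lib.GolU.fam C, Cfsg.Agent.Lib.GolU.ind s ∈
        Submodule.span (ZMod 2) {w : Fin 24 → ZMod 2 | w ∈ C ∧ hammingNorm w = 8} := by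
      apply h.induction (P := fun s => Cfsg.Agent.Lib.GolU.ind s ∈
        Submodule.span (ZMod 2) {w : Fin 24 → ZMod 2 | w ∈ C ∧ hammingNorm w = 8})
      · rw [Cfsg.Agent.Lib.GolU.ind_empty]; exact Submodule.zero_mem _
      · intro s t _ _ hs ht
        rw [Cfsg.Agent.Lib.GolU.ind_sd]; exact Submodule.add_mem _ hs ht
      · intro o ho h8
        apply Submodule.subset_span
        exact ⟨Cfsg.Agent.Lib.GolU.mem_fam.1 ho, by rw [Cfsg.Agent.Lib.GolU.hamming_eq', Cfsg.Agent.Lib.GolU.supp_ind, h8]⟩
    have := key _ (Cfsg.Agent.Lib.GolU.supp_mem_fam.2 hw)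
    rwa [Cfsg.Agent.Lib.GolU.ind_supp] at this

end Cfsg.Agent.S5624
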