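import Cfsg.Statements.S5625
import Cfsg.Agent.Lib.SteinerPar

set_option autoImplicit false
open Cfsg

namespace Cfsg.Agent.S5625

/-- In any Steiner system S(5, 8, 24) and for any set Y of three points, the blocks meeting Y in exactly 3, 2, 1 and 0 points number 21, 168, 360 and 210 respectively (so there are 759 blocks in all). -/
theorem result (α : Type*) [Fintype α] [DecidableEq α] (hα : Fintype.card α = 24) (B : Set (Finset α)) (hB : Cfsg.IsSteinerSystem 5 8 B) (Y : Finset α) (hY : Y.card = 3) : {b : Finset α | b ∈ B ∧ (b ∩ Y).card = 3}.ncard = 21 ∧ {b : Finset α | b ∈ B ∧ (b ∩ Y).card = 2}.ncard = 168 ∧ {b : Finset α | b ∈ B ∧ (b ∩ Y).card = 1}.ncard = 360 ∧ {b : Finset α | b ∈ B ∧ (b ∩ Y).card = 0}.ncard = 210 := by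
  have hz : ∀ i, 3 < i → Cfsg.Agent.Lib.Steiner.nn B Y i = 0 := by
    intro i hi
    rw [Cfsg.Agent.Lib.Steiner.nn, Finset.card_eq_zero, Finset.filter_eq_empty_iff]
    intro c _ hc
    have := Finset.card_le_card (Finset.inter_subset_right (s₁ := c) (s₂ := Y))
    omega
  have h4 := hz 4 (by norm_num)
  have h5 := hz 5 (by norm_num)
  have h6 := hz 6 (by norm_num)
  have h7 := hz 7 (by norm_num)
  have h8 := hz 8 (by norm_num)
  have e0 := Cfsg.Agent.Lib.Steiner.moment hB Y (j := 0) (by norm_num)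
  have e1 := Cfsg.Agent.Lib.Steiner.moment hB Y (j := 1) (by norm_num)
  have e2 := Cfsg.Agent.Lib.Steiner.moment hB Y (j := 2) (by norm_num)
  have e3 := Cfsg.Agent.Lib.Steiner.moment hB Y (j := 3) (by norm_num)
  simp only [hα, hY, Finset.sum_range_succ, Finset.sum_range_zero, h5, h6, h4, h7, h8, Nat.choose] at e0 e1 e2 e3
  rw [← Cfsg.Agent.Lib.Steiner.nn_eq_ncard, ← Cfsg.Agent.Lib.Steiner.nn_eq_ncard, ← Cfsg.Agent.Lib.Steiner.nn_eq_ncard, ← Cfsg.Agent.Lib.Steiner.nn_eq_ncard]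
  omega

end Cfsg.Agent.S5625
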